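/-
Pairs of subspaces with maximal intersection; forms over an extension field.
-/
import Cfsg.Agent.MaxSub.C3C
import Cfsg.Agent.Geom.MaxTSP2

set_option autoImplicit false

namespace CF.MaxSub

open Module Geom

section Max

variable {F V : Type*} [Field F] [AddCommGroup V] [Module F V]

/-- Two distinct members of `S` with intersection of maximal dimension. -/
structure MP2 (S : Set (Submodule F V)) (A U : Submodule F V) : Prop where
  mA : A ∈ S
  mU : U ∈ S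
  ne : A ≠ U
  max : ∀ A' ∈ S, ∀ U' ∈ S, A' ≠ U' → finrank F ↥(A' ⊓ U') ≤ finrank F ↥(A ⊓ U)

variable {S : Set (Submodule F V)} {A U : Submodule F V}

theorem MP2.symm (h : MP2 S A U) : MP2 S U A :=
  ⟨h.mU, h.mA, h.ne.symm, fun A' hA U' hU e => by rw [inf_comm U]; exact h.max A' hA U' hU e⟩

theorem MP2.map (h : MP2 S A U) {g : V ≃ₗ[F] V} (hg : ∀ U ∈ S, U.map (g : V →ₗ[F] V) ∈ S) :
    MP2 S (A.map (g : V →ₗ[F] V)) (U.map (g : V →ₗ[F] V)) :=
  ⟨hg _ h.mA, hg _ h.mU, fun e => h.ne (Submodule.map_injective_of_injective g.injective e),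
    fun A' hA U' hU e => by
      rw [← Submodule.map_inf _ g.injective, LinearEquiv.finrank_map_eq]
      exact h.max A' hA U' hU e⟩

variable [FiniteDimensional F V]

theorem exists_MP2 (hA : A ∈ S) (hU : U ∈ S) (h : A ≠ U) (h0 : A ⊓ U ≠ ⊥) :
    ∃ A' U', MP2 S A' U' ∧ A' ⊓ U' ≠ ⊥ := by
  obtain ⟨⟨A', U'⟩, ⟨h1, h2, h3⟩, hmax⟩ := exists_max_nat
    (s := {p : Submodule F V × Submodule F V | p.1 ∈ S ∧ p.2 ∈ S ∧ p.1 ≠ p.2})
    (fun p => finrank F ↥(p.1 ⊓ p.2)) (fun p _ => Submodule.finrank_le _) ⟨(A, U), hA, hU, h⟩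
  refine ⟨A', U', ⟨h1, h2, h3, fun a ha b hb e => hmax (a, b) ⟨ha, hb, e⟩⟩, fun e => h0 ?_⟩
  have := hmax (A, U) ⟨hA, hU, h⟩
  simp only at this
  rwa [e, finrank_bot, Nat.le_zero, Submodule.finrank_eq_zero] at this

theorem MP2.inf_eq (h : MP2 S A U) {A' U' : Submodule F V} (hA : A' ∈ S) (hU : U' ∈ S)
    (e : A' ≠ U') (hle : A ⊓ U ≤ A' ⊓ U') : A ⊓ U = A' ⊓ U' :=
  Submodule.eq_of_le_of_finrank_le hle (h.max _ hA _ hU e)

theorem MP2.of_le (h : MP2 S A U) {A' U' : Submodule F V} (hA : A' ∈ S) (hU : U' ∈ S)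
    (e : A' ≠ U') (hle : A ⊓ U ≤ A' ⊓ U') : MP2 S A' U' :=
  ⟨hA, hU, e, fun a ha b hb e' => h.inf_eq hA hU e hle ▸ h.max a ha b hb e'⟩

theorem MP2.dich (h : MP2 S A U) {g : V ≃ₗ[F] V} (hg : U.map (g : V →ₗ[F] V) ∈ S)
    (hf : ∀ w ∈ A, w ∈ U → g w = w) {y : V} (hy : y ∈ U) (hy' : y ∉ A) (e : g y ∈ U) {z : V}
    (hz : z ∈ U) : g z ∈ U := by
  by_cases h1 : U.map (g : V →ₗ[F] V) = U
  · exact h1.le ⟨z, hz, rfl⟩
  have h2 := h.inf_eq hg h.mU h1 fun w hw => ⟨⟨w, hw.2, hf w hw.1 hw.2⟩, hw.2⟩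
  have h3 := h2.ge (show g y ∈ _ from ⟨⟨y, hy, rfl⟩, e⟩)
  exact absurd (g.injective (hf _ h3.1 h3.2) ▸ h3.1) hy'

end Max

variable {F K V : Type*} [Field F] [Field K] [Algebra F K] [AddCommGroup V] [Module F V]
  [Module K V] [IsScalarTower F K V]

variable (F K) in
/-- The `K`-line through `u` as an `F`-subspace. -/
abbrev kl (u : V) : Submodule F V := (K ∙ u).restrictScalars F

theorem mem_kl {u w : V} : w ∈ kl F K u ↔ ∃ k : K, k • u = w := Submodule.mem_span_singleton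

theorem smul_mem_kl (k : K) (u : V) : k • u ∈ kl F K u := mem_kl.2 ⟨k, rfl⟩

theorem self_mem_kl (u : V) : u ∈ kl F K u := mem_kl.2 ⟨1, one_smul _ _⟩

theorem finrank_kl {u : V} (hu : u ≠ 0) : finrank F (kl F K u) = finrank F K :=
  (LOrb.line (X := ⊥) hu).finrank_eq

theorem kl_eq_of_mem {u w : V} (hw : w ∈ kl F K u) (h0 : w ≠ 0) : kl F K w = kl F K u := by
  obtain ⟨k, rfl⟩ := mem_kl.1 hw
  rw [kl, Submodule.span_singleton_smul_eq (left_ne_zero_of_smul h0).isUnit]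

variable (K) in
/-- The images of the `K`-lines spanned by vectors satisfying `P`. -/
def SOrb (X : Subgroup (V ≃ₗ[F] V)) (P : V → Prop) : Set (Submodule F V) :=
  {U | ∃ g ∈ X, ∃ v : V, v ≠ 0 ∧ P v ∧ U = (kl F K v).map (g : V →ₗ[F] V)}

variable {X : Subgroup (V ≃ₗ[F] V)} {P : V → Prop}

theorem kl_mem_SOrb {v : V} (hv : v ≠ 0) (h : P v) : kl F K v ∈ SOrb K X P :=
  ⟨1, one_mem _, v, hv, h, (Submodule.map_id _).symm⟩

theorem map_mem_SOrb {g : V ≃ₗ[F] V} (hg : g ∈ X) :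
    ∀ U ∈ SOrb K X P, U.map (g : V →ₗ[F] V) ∈ SOrb K X P := by
  rintro _ ⟨a, ha, v, hv, h, rfl⟩
  exact ⟨g * a, mul_mem hg ha, v, hv, h, (map_mul_equiv _ _ _).symm⟩

theorem finrank_of_SOrb {U : Submodule F V} (hU : U ∈ SOrb K X P) : finrank F U = finrank F K := by
  obtain ⟨a, -, v, hv, -, rfl⟩ := hU
  rw [LinearEquiv.finrank_map_eq, finrank_kl hv]

theorem exists_MP2_kl [FiniteDimensional F V] (hP : ∀ (k : K) v, P v → P (k • v))
    {A U : Submodule F V} (hA : A ∈ SOrb K X P) (hU : U ∈ SOrb K X P) (h : A ≠ U)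
    (h0 : A ⊓ U ≠ ⊥) : ∃ u U', u ≠ 0 ∧ P u ∧ u ∈ U' ∧ MP2 (SOrb K X P) (kl F K u) U' := by
  obtain ⟨A, U, h, h0⟩ := exists_MP2 hA hU h h0
  obtain ⟨a, ha, v, hv, h1, rfl⟩ := h.mA
  have h2 := h.map (map_mem_SOrb (inv_mem ha))
  rw [map_inv_map] at h2
  obtain ⟨_, ⟨⟨w, hw, rfl⟩, h3⟩, h4⟩ := Submodule.exists_mem_ne_zero_of_ne_bot h0
  have h5 : w ≠ 0 := by rintro rfl; simp at h4
  refine ⟨w, _, h5, ?_, Submodule.mem_map.2 ⟨_, h3, inv_apply_apply a w⟩,
    by rwa [kl_eq_of_mem hw h5]⟩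
  obtain ⟨k, rfl⟩ := mem_kl.1 hw
  exact hP k v h1

theorem MP2.exists_notMem [FiniteDimensional F V] {A U : Submodule F V}
    (h : MP2 (SOrb K X P) A U) : ∃ y ∈ U, y ∉ A :=
  SetLike.not_le_iff_exists.1 fun e => h.ne (Submodule.eq_of_le_of_finrank_eq e
    (by rw [finrank_of_SOrb h.mA, finrank_of_SOrb h.mU])).symm

/-- The intersection is a hyperplane. -/
theorem MP2.exists_mu [FiniteDimensional F V] {u y : V} {U : Submodule F V} (hu : u ≠ 0)
    (h : MP2 (SOrb K X P) (kl F K u) U) (hy : y ∈ U)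
    (h5 : ∀ z ∈ U, ∃ c : F, z - c • y ∈ kl F K u) :
    ∃ (μ : Dual F K) (x : K), μ x = 1 ∧ ∀ δ : K, δ • u ∈ U ↔ μ δ = 0 := by
  have : FiniteDimensional F K := .of_injective
    ((LinearMap.toSpanSingleton K V u).restrictScalars F) (smul_left_injective K hu)
  let D := U.comap ((LinearMap.toSpanSingleton K V u).restrictScalars F)
  obtain ⟨_, ⟨x, rfl⟩, hx⟩ := by simpa only [mem_kl] using h.symm.exists_notMem
  obtain ⟨μ, h6, h7⟩ := exists_dual_one (show x ∉ D from hx)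
  have h8 : D = LinearMap.ker μ := by
    refine Submodule.eq_of_le_of_finrank_le h7 ?_
    have h8 : U ≤ (kl F K u ⊓ U) ⊔ F ∙ y := fun z hz => by
      obtain ⟨c, hc⟩ := h5 z hz
      rw [← sub_add_cancel z (c • y)]
      exact add_mem (Submodule.mem_sup_left ⟨hc, sub_mem hz (U.smul_mem c hy)⟩)
        (Submodule.mem_sup_right (Submodule.smul_mem _ c (Submodule.mem_span_singleton_self y)))
    have h9 := (Submodule.finrank_mono h8).trans (Submodule.finrank_add_le_finrank_add_finrank _ _)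
    rw [← finrank_comap_line hu, finrank_of_SOrb h.mU] at h9
    have h11 := finrank_span_singleton_le (F := F) y
    have h10 := Submodule.finrank_lt (s := LinearMap.ker μ) fun e => by
      simpa [h6] using e.ge (Submodule.mem_top (x := x))
    change _ ≤ finrank F D + _ at h9
    omega
  exact ⟨μ, x, h6, fun δ => by rw [← LinearMap.mem_ker, ← h8]; rfl⟩

/-- In degree two the intersection is automatically a hyperplane. -/
theorem MP2.two [FiniteDimensional F V] (hr : finrank F K = 2) {u y : V} {U : Submodule F V}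
    (hu : u ≠ 0) (hu' : u ∈ U) (h : MP2 (SOrb K X P) (kl F K u) U) (hy : y ∈ U)
    (hy' : y ∉ kl F K u) (z : V) (hz : z ∈ U) : ∃ a c : F, z = a • u + c • y := by
  have h1 : Submodule.span F {u, y} = U := Submodule.eq_of_le_of_finrank_eq
    (Submodule.span_le.2 (by simp [Set.insert_subset_iff, hu', hy])) (by
      rw [finrank_of_SOrb h.mU, hr, finrank_span_pair (linearIndependent_pair_of_notMem hu
        fun e => hy' ((Submodule.span_singleton_le_iff_mem _ _).2 (self_mem_kl u) e))])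
  obtain ⟨a, c, e⟩ := Submodule.mem_span_pair.1 (h1.ge hz)
  exact ⟨a, c, e.symm⟩

section Form

omit [Module F V] [IsScalarTower F K V] in
theorem eq_zero_of_nu {ν : Dual F K} (hν : ν ≠ 0) {a : K} (h : ∀ k, ν (k * a) = 0) : a = 0 := by
  by_contra h0
  exact hν (LinearMap.ext fun k => by simpa [h0] using h (k * a⁻¹))

omit [Module F V] [IsScalarTower F K V] in
theorem exists_nu_eq {ν : Dual F K} (hν : ν ≠ 0) (c : F) : ∃ k, ν k = c :=
  LinearMap.range_eq_top.1 ((eq_bot_or_eq_top _).resolve_left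
    (by simpa [LinearMap.range_eq_bot] using hν)) c

theorem exists_dual_repr' [FiniteDimensional F K] [FiniteDimensional K V] {ν : Dual F K}
    (hν : ν ≠ 0) (l : Dual F V) : ∃ φ : Dual K V, ∀ v, l v = ν (φ v) := by
  obtain ⟨k, hk⟩ := exists_nu_eq hν 1
  obtain ⟨φ, e⟩ := exists_dual_repr (ν := ν ∘ₗ LinearMap.mulLeft F k) (by simpa using hk) l
  exact ⟨k • φ, fun v => by simpa using e v⟩

theorem exists_kform [FiniteDimensional F K] [FiniteDimensional K V] {σ : F →+* F} {τ : K →+* K}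
    (B : V →ₛₗ[σ] V →ₗ[F] F) (hadj : ∀ (k : K) x y, B (k • x) y = B x (τ k • y)) {ν : Dual F K}
    (hν : ν ≠ 0) : ∃ Bk : V →ₛₗ[τ] V →ₗ[K] K, ∀ x y, B x y = ν (Bk x y) := by
  choose φ hφ using fun x => exists_dual_repr' (V := V) hν (B x)
  have h1 : ∀ ψ ψ' : Dual K V, (∀ v, ν (ψ v) = ν (ψ' v)) → ψ = ψ' := fun ψ ψ' e =>
    LinearMap.ext fun v => sub_eq_zero.1 (eq_zero_of_nu hν fun k => by
      have := e (k • v)
      simp only [map_smul, smul_eq_mul] at this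
      rw [mul_sub, map_sub, this, sub_self])
  exact ⟨⟨⟨φ, fun x y => h1 _ _ fun v => by simp [← hφ]⟩, fun k x => h1 _ _ fun v => by
    rw [← hφ, hadj, hφ]; simp⟩, hφ⟩

theorem exists_tau {σ : F →+* F} (B : V →ₛₗ[σ] V →ₗ[F] F) [Nontrivial V]
    (hB : ∀ y, (∀ x, B x y = 0) → y = 0)
    (hadj : ∀ k : K, ∃ k' : K, ∀ x y, B (k • x) y = B x (k' • y)) :
    ∃ τ : K →+* K, (∀ (k : K) x y, B (k • x) y = B x (τ k • y)) ∧
      ∀ a, τ (algebraMap F K a) = algebraMap F K (σ a) := by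
  choose t ht using hadj
  obtain ⟨v, hv⟩ := exists_ne (0 : V)
  have h1 : ∀ a b : K, (∀ x y, B x (a • y) = B x (b • y)) → a = b := fun a b e =>
    smul_left_injective K hv (sub_eq_zero.1 (hB _ fun x => by simp [e]))
  refine ⟨⟨⟨⟨t, h1 _ _ fun x y => by rw [← ht, one_smul, one_smul]⟩, fun a b => h1 _ _ fun x y => by
    rw [← ht, mul_comm (t a), mul_smul, mul_smul, ht, ht]⟩, h1 _ _ fun x y => by simp [← ht],
    fun a b => h1 _ _ fun x y => by simp [← ht, add_smul]⟩, ht, fun a => h1 _ _ fun x y => ?_⟩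
  change B x (t _ • y) = _
  rw [← ht]
  simp

variable {σ : F →+* F} {τ : K →+* K} {B : V →ₛₗ[σ] V →ₗ[F] F} {Bk : V →ₛₗ[τ] V →ₗ[K] K}
  {Qk : V → K} {ν : Dual F K}

/-- An isometry permuting the singular `K`-points is semilinear. -/
theorem mem_semiG_of_sing [Finite K] [FiniteDimensional K V] (h : IsWittPair τ Bk Qk)
    (hν : ν ≠ 0) (hB : ∀ x y, B x y = ν (Bk x y)) (h3 : 3 ≤ finrank K V) {u : V} (hu0 : u ≠ 0)
    (hu : Qk u = Qk 0) {g : V ≃ₗ[F] V} (hg : ∀ x y, B (g x) (g y) = B x y)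
    (hl : ∀ v, v ≠ 0 → Qk v = Qk 0 → (kl F K v).map (g : V →ₗ[F] V) = kl F K (g v)) :
    g ∈ SemiG F K V := by
  have : Nontrivial V := nontrivial_of_ne _ _ hu0
  have hl1 : ∀ v, Qk v = Qk 0 → ∀ k : K, ∃ s : K, s • g v = g (k • v) := fun v hv k => by
    by_cases h0 : v = 0
    · exact ⟨0, by simp [h0]⟩
    exact mem_kl.1 ((hl v h0 hv).le ⟨_, smul_mem_kl k v, rfl⟩)
  have hl2 : ∀ v, Qk v = Qk 0 → ∀ s : K, ∃ k : K, g (k • v) = s • g v := fun v hv s => by
    by_cases h0 : v = 0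
    · exact ⟨0, by simp [h0]⟩
    obtain ⟨_, h1, e⟩ := (hl v h0 hv).ge (smul_mem_kl s (g v))
    obtain ⟨k, rfl⟩ := mem_kl.1 h1
    exact ⟨k, e⟩
  have hp : ∀ v z, Qk v = Qk 0 → Bk v z = 0 → Bk (g v) (g z) = 0 := fun v z hv e =>
    h.refl (eq_zero_of_nu hν fun s => by
      obtain ⟨k, e'⟩ := hl2 v hv s
      rw [← smul_eq_mul, ← map_smul, ← hB, ← e', hg, hB, map_smul, h.refl e, smul_zero, map_zero])
  have key : ∀ u v z, Qk u = Qk 0 → Qk v = Qk 0 → Bk u v ≠ 0 → Bk u z = 0 → Bk v z = 0 →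
      ∀ k : K, ∃ s : K, g (k • v) = s • g v ∧ g (k • z) = s • g z := by
    intro u v z hu hv huv huz hvz k
    obtain ⟨a, ha⟩ := h.slide u 0 (z + v) hu (by simpa [huz] using huv)
    obtain ⟨s, e⟩ := hl1 _ ha k
    obtain ⟨k1, e1⟩ := hl2 v hv s
    obtain ⟨k2, e2⟩ := hl2 (a • u) (h.norm_smul_singular hu a) s
    obtain ⟨z', e3⟩ := g.surjective (s • g z)
    have h1 : ∀ w, Qk w = Qk 0 → Bk w z = 0 → Bk w z' = 0 := fun w hw e =>
      h.refl (eq_zero_of_nu hν fun c => by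
        obtain ⟨c', e'⟩ := hl1 w hw c
        rw [← smul_eq_mul, ← map_smul, ← hB, ← hg, ← e', e3, hB, map_smul,
          LinearMap.map_smulₛₗ₂, h.refl (hp w z hw e)]
        simp)
    have h2 : z' + k1 • v + k2 • a • u = k • z + k • v + k • a • u := g.injective (by
      simp only [map_add, smul_add] at e ⊢
      rw [e1, e2, e3, e])
    have h4 := congrArg (Bk u) h2
    simp [h1 u hu huz, huz, h.self_eq_zero hu, huv] at h4
    subst h4
    have h5 := congrArg (Bk v) h2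
    have h6 : Bk v u ≠ 0 := fun e => huv (h.refl e)
    simp only [map_add, map_smul, h1 v hv hvz, hvz, smul_eq_mul, mul_zero, zero_add,
      add_right_inj, ← mul_assoc, mul_left_inj' h6] at h5
    rw [smul_smul, smul_smul, h5, add_left_inj, add_left_inj] at h2
    exact ⟨s, e1, by rw [← h2, e3]⟩
  obtain ⟨v, hv, huv⟩ := h.exists_hyperbolic hu0 hu
  have huv' : Bk u v ≠ 0 := by simp [huv]
  have hvu : Bk v u ≠ 0 := fun e => huv' (h.refl e)
  obtain ⟨z, hz0, hz1, hz2⟩ := exists_ne_zero_mem_ker_two h3 (Bk u) (Bk v)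
  have hz : g z ≠ 0 := by simpa using hz0
  refine mem_semiG fun k => ?_
  obtain ⟨s, -, e⟩ := key u v z hu hv huv' hz1 hz2 k
  have h1 : ∀ u v, Qk u = Qk 0 → Qk v = Qk 0 → Bk u v ≠ 0 → Bk u z = 0 → Bk v z = 0 → ∀ a : K,
      g (k • a • v) = s • g (a • v) := fun u v hu hv huv h1 h2 a => by
    by_cases ha : a = 0
    · simp [ha]
    obtain ⟨s', e1, e2⟩ := key u (a • v) z hu (h.norm_smul_singular hv a) (by simp [ha, huv]) h1
      (by simp [h2]) k
    rw [e1, smul_left_injective K hz (e2.symm.trans e)]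
  refine ⟨s, fun w => ?_⟩
  have h2 : Bk u (w - Bk u w • v - (Bk v w / Bk v u) • u) = 0 := by
    simp [huv, h.self_eq_zero hu]
  have h4 : Bk v (w - Bk u w • v - (Bk v w / Bk v u) • u) = 0 := by
    simp [hvu, h.self_eq_zero hv]
  obtain ⟨s', e1, e2⟩ := key u v _ hu hv huv' h2 h4 k
  have h5 := h1 u v hu hv huv' hz1 hz2 1
  have h6 : g v ≠ 0 := by simpa using (show v ≠ 0 by rintro rfl; simp at huv)
  simp only [one_smul] at h5
  rw [smul_left_injective K h6 (e1.symm.trans h5)] at e2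
  simp only [smul_sub, map_sub, h1 u v hu hv huv' hz1 hz2, h1 v u hv hu hvu hz2 hz1,
    sub_left_inj] at e2
  exact e2

end Form

end CF.MaxSub
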