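/-
Maximality of `ΓSp_d(q^r) ∩ Sp_{dr}(q)` in `Sp_{dr}(q)`.
-/
import Cfsg.Agent.MaxSub.F3A

set_option autoImplicit false

namespace CF.MaxSub

open Module Geom

section Alt

variable {F V : Type*} [Field F] [AddCommGroup V] [Module F V] {B : LinearMap.BilinForm F V}
  {X : Subgroup (V ≃ₗ[F] V)}

variable (B) in
/-- `x ↦ B(a,x) b + B(b,x) a + c B(a,x) a`. -/
def sy (a b : V) (c : F) : End F V := (B a).smulRight b + (B b).smulRight a + c • (B a).smulRight a

theorem sy_apply (a b : V) (c : F) (x : V) :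
    sy B a b c x = B a x • b + B b x • a + (c * B a x) • a := by simp [sy, mul_smul]

theorem sy_sq (hA : B.IsAlt) {a b : V} (h : B a b = 0) (c : F) : sy B a b c * sy B a b c = 0 := by
  ext x
  simp [sy_apply, h, hA.self_eq_zero, ← hA.neg_eq a b]

theorem sy_isom (hA : B.IsAlt) {a b : V} (h : B a b = 0) (c : F) :
    unip _ (sy_sq hA h c) ∈ SpG B := mem_SpG.2 fun x y => by
  simp only [unip_apply, sy_apply, map_add, map_smul, LinearMap.add_apply, LinearMap.smul_apply,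
    h, hA.self_eq_zero, ← hA.neg_eq a b, ← hA.neg_eq a x, ← hA.neg_eq b x, smul_eq_mul]
  ring

theorem Un.sy_mul (hA : B.IsAlt) {u a a' : V} {c c' : F} (ha : B u a = 0) (ha' : B u a' = 0)
    (h : Un X (sy B u a c)) (h' : Un X (sy B u a' c')) :
    Un X (sy B u (a + a') (c + c' + B a a')) :=
  un_of_apply (fun v => LinearMap.congr_fun (sy_sq hA (by simp [ha, ha']) _) v)
    (mul_mem h.unip_mem h'.unip_mem) fun v => by
      simp only [LinearEquiv.mul_apply, unip_apply, sy_apply, map_add, map_smul,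
        LinearMap.add_apply, ha, ha', hA.self_eq_zero, ← hA.neg_eq u a, smul_eq_mul]
      module

theorem Un.sy_eq {u a a' : V} {c c' : F} (h : Un X (sy B u a c)) (e : a = a') (e' : c = c') :
    Un X (sy B u a' c') := e ▸ e' ▸ h

theorem Un.sy_self {u : V} {s c : F} (h : Un X (sy B u (s • u) c)) : Un X (sy B u 0 (c + 2 * s)) :=
  h.congr fun z => by
    simp only [sy_apply, map_smul, LinearMap.smul_apply, smul_eq_mul, map_zero,
      LinearMap.zero_apply]
    module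

theorem Un.sy_map {a b : V} {c : F} (h : Un X (sy B a b c)) {g : V ≃ₗ[F] V} (hg : g ∈ X)
    (hg' : g ∈ SpG B) : Un X (sy B (g a) (g b) c) :=
  h.of_conj hg fun v => by simp [sy_apply, mem_SpG.1 hg']

theorem un_sy_of_tv (hA : B.IsAlt) {M : Submodule F V} (hM : ∀ m ∈ M, ∀ m' ∈ M, B m m' = 0)
    {N : End F V} (hN : Un X N) (h1 : ∀ x, N x ∈ M) (h2 : ∀ x, (∀ m ∈ M, B m x = 0) → N x = 0)
    (h3 : ∀ x y, B (N x) y = -B x (N y)) {l : V ≃ₗ[F] V} (hl : l ∈ X) (hl' : l ∈ SpG B) {a y : V}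
    (ha : a ∈ M) (e : ∀ m ∈ M, l m = m + B y m • a) : Un X (sy B a (N y) (B y (N y))) := by
  have h4 : ∀ m ∈ M, N m = 0 := fun m hm => h2 m fun m' hm' => hM m' hm' m hm
  have h5 : ∀ m ∈ M, sy B a (N y) (B y (N y)) m = 0 := fun m hm => by
    simp [sy_apply, hM _ ha _ hm, hM _ (h1 y) _ hm]
  have h6 : ∀ x, sy B a (N y) (B y (N y)) x ∈ M := fun x => by
    rw [sy_apply]
    exact add_mem (add_mem (M.smul_mem _ (h1 y)) (M.smul_mem _ ha)) (M.smul_mem _ ha)
  have h7 : Un X (N - sy B a (N y) (B y (N y))) := hN.of_conj hl fun v => by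
    have h8 : N v = N (l v) - B a (l v) • N y := by
      rw [← map_smul, ← map_sub, ← sub_eq_zero, ← map_sub]
      refine h2 _ fun m hm => ?_
      rw [map_sub, ← mem_SpG.1 hl' m, e m hm]
      simp [← hA.neg_eq y m, mul_comm]
    rw [e _ (h1 v), h8]
    simp only [LinearMap.sub_apply, sy_apply, map_sub, map_smul, h3, smul_eq_mul]
    module
  refine (hN.sub h7 ?_ ?_).congr fun v => by simp
  · ext x
    simp [h4 _ (h1 x), h4 _ (h6 x)]
  · ext x
    simp [h4 _ (h1 x), h5 _ (h1 x)]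

theorem spG_le_of_un [FiniteDimensional F V] (hB : B.Nondegenerate) (hA : B.IsAlt)
    (h : ∀ a c, Un X (sy B a 0 c)) : SpG B ≤ X := fun g hg => by
  have : Subgroup.closure {g : SpG B | ∃ v c, g = spTrans hA v c} ≤ X.subgroupOf (SpG B) := by
    rw [Subgroup.closure_le]
    rintro _ ⟨v, c, rfl⟩
    have := (h v (-c)).unip_mem
    change (spTrans hA v c).1 ∈ X
    convert this using 1
    ext x
    simp [spTrans_apply, unip_apply, sy_apply, ← hA.neg_eq v x]
  exact this ((closure_spTrans hB hA).ge (Subgroup.mem_top ⟨g, hg⟩))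

end Alt

variable {F K V : Type*} [Field F] [Field K] [Algebra F K] [AddCommGroup V] [Module F V]
  [Module K V] [IsScalarTower F K V]

/-- An overgroup of the isometry group of a form over `K` in the symplectic group over `F`. -/
structure SpK {τ : K →+* K} (B : LinearMap.BilinForm F V) (Bk : V →ₛₗ[τ] V →ₗ[K] K) (Qk : V → K)
    (ν : Dual F K) (X : Subgroup (V ≃ₗ[F] V)) : Prop where
  nd : B.Nondegenerate
  alt : B.IsAlt
  nu : ν ≠ 0
  eq : ∀ x y, B x y = ν (Bk x y)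
  witt : IsWittPair τ Bk Qk
  le : X ≤ SpG B
  mem : ∀ g ∈ Isom Bk Qk, g.restrictScalars F ∈ X

namespace SpK

variable {τ : K →+* K} {B : LinearMap.BilinForm F V} {Bk : V →ₛₗ[τ] V →ₗ[K] K} {Qk : V → K}
  {ν : Dual F K} {X : Subgroup (V ≃ₗ[F] V)} (h : SpK B Bk Qk ν X)
include h

theorem perp_iff {u x : V} : (∀ m ∈ kl F K u, B m x = 0) ↔ Bk u x = 0 := by
  refine ⟨fun e => h.witt.refl (eq_zero_of_nu h.nu fun k => ?_), fun e m hm => ?_⟩
  · rw [← smul_eq_mul, ← map_smul, ← h.eq, ← h.alt.neg_eq, e _ (smul_mem_kl k u), neg_zero]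
  · obtain ⟨k, rfl⟩ := mem_kl.1 hm
    simp [h.eq, e]

theorem kl_ts {u : V} (hu : Qk u = Qk 0) : ∀ m ∈ kl F K u, ∀ m' ∈ kl F K u, B m m' = 0 :=
  fun m hm m' hm' => h.perp_iff.2 (by
    obtain ⟨k, rfl⟩ := mem_kl.1 hm'
    simp [h.witt.self_eq_zero hu]) m hm

variable [FiniteDimensional F V] [FiniteDimensional K V]

theorem exists_y0 {u : V} (hu : u ≠ 0) {μ : Dual F K} (hμ : μ ≠ 0) :
    ∃ y, (∀ k : K, B y (k • u) = μ k) ∧ Bk u y ≠ 0 := by
  obtain ⟨ψ, h1, -⟩ := exists_dual_one (W := (⊥ : Submodule K V)) (v := u) (by simpa using hu)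
  obtain ⟨y, e⟩ := exists_repr_dual (σ := RingHom.id F) Function.surjective_id B h.nd.1
    (μ ∘ₗ ψ.restrictScalars F)
  have h2 : ∀ k : K, B y (k • u) = μ k := fun k => by simp [e, h1]
  refine ⟨y, h2, fun e => hμ (LinearMap.ext fun k => ?_)⟩
  rw [← h2, h.eq, map_smul, h.witt.refl e]
  simp

theorem exists_tv {u v : V} {g : V ≃ₗ[F] V} (hg : g ∈ X) {μ : Dual F K} {x δ : K}
    (hx : μ x = 1) (hμ : ∀ δ : K, δ • u ∈ (kl F K v).map (g : V →ₗ[F] V) ↔ μ δ = 0) (hδ : μ δ = 0)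
    (hv : Qk v = Qk 0) (hQ : ∀ k : K, Qk (g⁻¹ (x • u) + k • v) = Qk (g⁻¹ (x • u))) :
    ∃ l ∈ X, ∀ k : K, l (k • u) = k • u + μ k • δ • u := by
  have h1 : ∀ δ : K, μ δ = 0 ↔ g⁻¹ (δ • u) ∈ K ∙ v := fun δ => by rw [← hμ, mem_map_equiv']; rfl
  have h2 : g⁻¹ (x • u) ∉ K ∙ v := by rw [← h1, hx]; exact one_ne_zero
  obtain ⟨k, hk⟩ := Submodule.mem_span_singleton.1 ((h1 δ).1 hδ)
  obtain ⟨ρ, h3, h4, h5, h6⟩ := h.witt.step (K ∙ v) _ (g⁻¹ (x • u) + k • v) h2
    (fun e => h2 ((Submodule.add_mem_iff_left _ (Submodule.smul_mem _ k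
      (Submodule.mem_span_singleton_self v))).1 e)) (hQ k) fun w hw => by
        obtain ⟨c, rfl⟩ := Submodule.mem_span_singleton.1 hw
        simp [h.witt.self_eq_zero hv]
  refine ⟨g * ρ.restrictScalars F * g⁻¹, mul_mem (mul_mem hg (h.mem ρ ⟨h3, h4⟩)) (inv_mem hg),
    fun c => ?_⟩
  have h7 := h5 _ ((h1 (c - μ c • x)).1 (by simp [hx]))
  rw [sub_smul, map_sub, map_sub, smul_assoc, map_smul g⁻¹ (μ c), ← algebraMap_smul K (μ c),
    map_smul ρ, h6, hk, algebraMap_smul, algebraMap_smul] at h7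
  change g (ρ (g⁻¹ _)) = _
  rw [sub_eq_iff_eq_add.1 h7]
  simp [apply_inv_apply, ← add_assoc]

end SpK

section Sp

variable {B : LinearMap.BilinForm F V} {Bk : LinearMap.BilinForm K V} {ν : Dual F K}
  {X : Subgroup (V ≃ₗ[F] V)} [FiniteDimensional F V] [FiniteDimensional K V]

theorem SpK.exists_line (h : SpK B Bk (fun _ => 0) ν X) (hA : Bk.IsAlt)
    (hr : (finrank F K).Prime) {u : V} {U : Submodule F V} (hu : u ≠ 0) (hu' : u ∈ U)
    (hm : MP2 (SOrb K X fun _ => True) (kl F K u) U) :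
    ∃ y ∈ U, y ∉ kl F K u ∧ ∀ z ∈ U, ∃ c : F, z - c • y ∈ kl F K u := by
  have hdi : ∀ (w : V) (c : K), Bk u w = 0 → ∀ y ∈ U, y ∉ kl F K u → y + sy Bk u w c y ∈ U →
      ∀ z ∈ U, z + sy Bk u w c z ∈ U := fun w c e y hy hy' h1 z hz =>
    hm.dich (map_mem_SOrb (h.mem _ (sy_isom hA e c)) _ hm.mU) (fun w' hw _ => by
      obtain ⟨k, rfl⟩ := mem_kl.1 hw
      simp [unip_apply, sy_apply, hA.self_eq_zero, ← hA.neg_eq u w, e]) hy hy' h1 hz
  obtain ⟨_, ⟨x, rfl⟩, hx⟩ := by simpa only [mem_kl] using hm.symm.exists_notMem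
  have hL : ∀ b : K, (∀ δ : K, δ • u ∈ U → (δ * b) • u ∈ U) → ∃ c : F, b = algebraMap F K c := by
    intro b hb
    by_contra! hc
    let L : Subalgebra F K :=
      { carrier := {b | ∀ δ : K, δ • u ∈ U → (δ * b) • u ∈ U}
        mul_mem' := fun {a b} ha hb δ hδ => by rw [← mul_assoc]; exact hb _ (ha δ hδ)
        add_mem' := fun {a b} ha hb δ hδ => by
          rw [mul_add, add_smul]; exact add_mem (ha δ hδ) (hb δ hδ)
        algebraMap_mem' := fun a δ hδ => by
          rw [mul_comm, mul_smul, algebraMap_smul]; exact U.smul_mem a hδ }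
    have := (subalgebra_top_of_prime hr L (c := b) hb hc).ge (Algebra.mem_top (x := x)) 1
      (by simpa using hu')
    exact hx (by simpa using this)
  by_cases hc : ∀ y ∈ U, Bk u y = 0
  · have hdi' : ∀ w, Bk u w = 0 → ∀ y ∈ U, y ∉ kl F K u → Bk w y • u ∈ U →
        ∀ z ∈ U, Bk w z • u ∈ U := fun w e y hy hy' h1 z hz => by
      have := hdi w 0 e y hy hy' (by simpa [sy_apply, hc y hy] using add_mem hy h1) z hz
      simpa [sy_apply, hc z hz, U.add_mem_iff_right hz] using this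
    have hw : ∀ y, y ∉ kl F K u → ∃ w, Bk u w = 0 ∧ Bk w y = 1 := fun y hy => by
      obtain ⟨w, h1, h2⟩ := h.witt.exists_dual_vec (Z := K ∙ u) hy
      exact ⟨-w, by simp [h2 u (Submodule.mem_span_singleton_self u)], by
        simp [← hA.neg_eq y w, h1]⟩
    obtain ⟨y, hy, hy'⟩ := hm.exists_notMem
    obtain ⟨w, h1, h2⟩ := hw y hy'
    refine ⟨y, hy, hy', fun z hz => ?_⟩
    obtain ⟨c, e⟩ := hL (Bk w z) fun δ hδ => by
      simpa using hdi' (δ • w) (by simp [h1]) y hy hy' (by simpa [h2] using hδ) z hz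
    refine ⟨c, by_contra fun h6 => hx ?_⟩
    simpa [h2] using hdi' (x • w) (by simp [h1]) _ (sub_mem hz (U.smul_mem c hy)) h6
      (by simp [e, h2, Algebra.smul_def]) y hy
  push Not at hc
  obtain ⟨y, hy, h0⟩ := hc
  have hy' : y ∉ kl F K u := fun e => by
    obtain ⟨k, rfl⟩ := mem_kl.1 e
    simp [hA.self_eq_zero] at h0
  refine ⟨y, hy, hy', fun z hz => ?_⟩
  obtain ⟨c, e⟩ := hL (Bk u z / Bk u y) fun δ hδ => by
    have := hdi 0 (δ / Bk u y) (by simp) y hy hy' (by simpa [sy_apply, h0] using add_mem hy hδ) z hz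
    simp only [sy_apply, smul_zero, map_zero, LinearMap.zero_apply, zero_smul, zero_add,
      U.add_mem_iff_right hz] at this
    convert this using 2
    ring
  refine ⟨c, by_contra fun h6 => ?_⟩
  have h1 : Bk u (z - c • y) = 0 := by
    rw [div_eq_iff h0] at e
    simp [e, Algebra.smul_def]
  have h2 := sub_mem hz (U.smul_mem c hy)
  generalize z - c • y = z at h1 h2 h6
  have hz0 : z ≠ 0 := by rintro rfl; simp at h6
  have h3 : kl F K u ⊔ kl F K z ≤ kl F K u ⊔ U := sup_le le_sup_left fun w hw => by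
    obtain ⟨k, rfl⟩ := mem_kl.1 hw
    have := hdi ((k / Bk u y) • z) 0 (by simp [h1]) z h2 h6
      (by simpa [sy_apply, h1, hA.self_eq_zero] using h2) y hy
    simp only [sy_apply, smul_smul, mul_div_cancel₀ _ h0, zero_mul, zero_smul, add_zero,
      U.add_mem_iff_right hy] at this
    rw [← add_sub_cancel_right (k • z) (Bk ((k / Bk u y) • z) y • u)]
    exact sub_mem (Submodule.mem_sup_right this) (Submodule.mem_sup_left (smul_mem_kl _ u))
  have h4 : kl F K u ⊓ kl F K z = ⊥ := (Submodule.eq_bot_iff _).2 fun w hw => by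
    by_contra h0
    exact h6 (((kl_eq_of_mem hw.2 h0).symm.trans (kl_eq_of_mem hw.1 h0)).le (self_mem_kl z))
  have h5 := Submodule.finrank_sup_add_finrank_inf_eq (kl F K u) (kl F K z)
  have h7 := Submodule.finrank_sup_add_finrank_inf_eq (kl F K u) U
  have h8 := Submodule.finrank_mono h3
  have h9 : finrank F ↥(kl F K u ⊓ U) ≠ 0 := fun e => hu (by
    simpa using (Submodule.finrank_eq_zero.1 e).le ⟨self_mem_kl u, hu'⟩)
  rw [h4, finrank_bot, finrank_kl hz0] at h5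
  rw [finrank_of_SOrb hm.mU] at h7
  omega

theorem SpK.un_n (h : SpK B Bk (fun _ => 0) ν X) (hA : Bk.IsAlt) (u : V) (κ : K) :
    Un X (rt ((κ • Bk u).restrictScalars F) u) :=
  un_of_apply (fun v => by simp [hA.self_eq_zero]) (h.mem _ (sy_isom hA (a := u) (b := 0)
    (by simp) κ)) fun v => by simp [unip_apply, sy_apply]

theorem SpK.un_of_two (h : SpK B Bk (fun _ => 0) ν X) (hA : Bk.IsAlt) (hr : finrank F K = 2)
    (h3 : 3 ≤ finrank K V) (h2 : (2 : F) = 0) {u : V} {U : Submodule F V} (hu : u ≠ 0)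
    (hu' : u ∈ U) (hm : MP2 (SOrb K X fun _ => True) (kl F K u) U) : Un X (sy B u 0 1) := by
  have hW := isWittPair_alt B h.nd h.alt
  obtain ⟨y, hy, hy'⟩ := hm.exists_notMem
  have h0 := hm.two hr hu hu' hy hy'
  obtain ⟨g, hg, v, hv, -, rfl⟩ := hm.mU
  have hg' := mem_SpG.1 (h.le hg)
  have hyu : y ∉ F ∙ u := fun e =>
    hy' ((Submodule.span_singleton_le_iff_mem _ _).2 (self_mem_kl u) e)
  have huy : u ∉ F ∙ y := fun e => by
    obtain ⟨a, rfl⟩ := Submodule.mem_span_singleton.1 e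
    exact hyu ((Submodule.smul_mem_iff _ (left_ne_zero_of_smul hu)).1
      (Submodule.mem_span_singleton_self _))
  obtain ⟨z₀, e1, e2⟩ := hW.exists_dual_vec hyu
  obtain ⟨z₁, e3, e4⟩ := hW.exists_dual_vec huy
  replace e2 := e2 u (Submodule.mem_span_singleton_self u)
  replace e4 := e4 y (Submodule.mem_span_singleton_self y)
  obtain ⟨k, hk⟩ := mem_kl.1 (mem_map_equiv'.1 hu')
  have h4 : Bk v (g⁻¹ z₀) ≠ 0 := fun e => by
    have := h.perp_iff.2 e _ (mem_map_equiv'.1 hy)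
    rw [← hg', apply_inv_apply, apply_inv_apply, e1] at this
    exact one_ne_zero this
  obtain ⟨E, hE, h5⟩ : ∃ E, Un X E ∧ ∀ x, E x = g ((k / Bk v (g⁻¹ z₀) * Bk v (g⁻¹ x)) • v) :=
    ⟨_, (h.un_n hA v (k / Bk v (g⁻¹ z₀))).conj hg, fun x => rfl⟩
  have h6 : ∀ x y, B (E x) y = -B x (E y) := fun x y => by
    rw [h5, h5, ← apply_inv_apply g y, ← apply_inv_apply g x, hg', hg', h.eq, h.eq, ← map_neg]
    simp only [map_smul, inv_apply_apply, LinearMap.smul_apply, ← hA.neg_eq v (g⁻¹ x), smul_eq_mul]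
    congr 1
    ring
  have h7 : E z₀ = u := by rw [h5, div_mul_cancel₀ _ h4, hk, apply_inv_apply]
  have h8 : ∀ x, ∃ a : F, E x = a • u + B u x • y := fun x => by
    obtain ⟨a, c, e⟩ := h0 (E x) (h5 x ▸ ⟨_, smul_mem_kl _ v, rfl⟩)
    have := h6 x z₀
    rw [h7, e, h.alt.neg_eq] at this
    simp [e1, e2] at this
    exact ⟨a, this ▸ e⟩
  obtain ⟨c, hc⟩ := h8 z₁
  have h9 : Un X (sy B u y c) := hE.congr fun x => by
    obtain ⟨a, e⟩ := h8 x
    have := h6 x z₁
    rw [hc, e] at this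
    simp [e3, e4, ← h.alt.neg_eq u x, ← h.alt.neg_eq y x] at this
    rw [e, sy_apply, this]
    module
  have hyB : B u y = 0 := by
    rw [← apply_inv_apply g u, ← apply_inv_apply g y, hg']
    exact h.kl_ts rfl _ (mem_map_equiv'.1 hu') _ (mem_map_equiv'.1 hy)
  have h10 : ∀ w, Bk u w = 0 → y + w ∉ kl F K u → Un X (sy B u (y + w) c) := fun w e e' => by
    obtain ⟨ρ, h1, h2, h3, h4⟩ := h.witt.step (K ∙ u) y (y + w) hy' e' rfl fun x hx => by
      obtain ⟨k, rfl⟩ := Submodule.mem_span_singleton.1 hx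
      simp [e]
    have := h9.sy_map (h.mem ρ ⟨h1, h2⟩) (h.le (h.mem ρ ⟨h1, h2⟩))
    simpa [h3 u (Submodule.mem_span_singleton_self u), h4] using this
  obtain ⟨w, w', a1, a2, a3, a4, a5, a6⟩ : ∃ w w', Bk u w = 0 ∧ Bk u w' = 0 ∧ B w w' = 1 ∧
      y + w ∉ kl F K u ∧ y + w' ∉ kl F K u ∧ y + (w + w') ∉ kl F K u := by
    obtain ⟨κ, hκ⟩ := exists_nu_eq h.nu 1
    have κ0 : κ ≠ 0 := by rintro rfl; simp at hκ
    have hn : ∀ a z, Bk a u = 0 → Bk a z ≠ 0 → z ∉ kl F K u := fun a z e e' hz => by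
      obtain ⟨k, rfl⟩ := mem_kl.1 hz
      simp [e] at e'
    by_cases hc : Bk u y = 0
    · obtain ⟨ω, hω⟩ : ∃ ω : K, ω ∉ F ∙ (1 : K) := by
        by_contra! hc
        have := finrank_span_singleton_le (F := F) (1 : K)
        rw [Submodule.eq_top_iff'.2 hc, finrank_top] at this
        omega
      have ω0 : ω ≠ 0 := by rintro rfl; simp at hω
      have ω1 : 1 + ω ≠ 0 := fun e => hω (by
        rw [eq_neg_of_add_eq_zero_right e]; exact neg_mem (Submodule.mem_span_singleton_self _))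
      obtain ⟨w', h1, h2⟩ := h.witt.exists_dual_vec (Z := K ∙ u) hy'
      replace h2 := h2 u (Submodule.mem_span_singleton_self u)
      refine ⟨ω • y, (κ / ω) • w', by simp [hc], by simp [h2], ?_, fun e => hy' ?_, hn y _ (h.witt.refl hc) ?_,
        hn y _ (h.witt.refl hc) ?_⟩
      · simp [h.eq, h1, ω0, hκ]
      · exact ((K ∙ u).smul_mem_iff ω1).1 (by rwa [add_smul, one_smul])
      all_goals simp [hA.self_eq_zero, h1, κ0, ω0]
    · obtain ⟨w, h0, h1, h2⟩ := exists_ne_zero_mem_ker_two h3 (Bk u) (Bk y)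
      obtain ⟨w', h4, h5⟩ := h.witt.exists_dual_vec (x := w) (Z := Submodule.span K {u, y})
        fun e => by
          obtain ⟨a, b, rfl⟩ := Submodule.mem_span_pair.1 e
          simp [hA.self_eq_zero, hc, ← hA.neg_eq u y] at h1 h2
          simp [h1, h2] at h0
      have h6 := h5 u (Submodule.subset_span (by simp))
      refine ⟨w, κ • w', h1, by simp [h6], by simp [h.eq, h4, hκ], hn u _ (hA.self_eq_zero u) ?_,
        hn u _ (hA.self_eq_zero u) ?_, hn u _ (hA.self_eq_zero u) ?_⟩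
      all_goals simp [h1, h6, hc]
  have b1 : B u w = 0 := by simp [h.eq, a1]
  have b2 : B u w' = 0 := by simp [h.eq, a2]
  refine (((h10 w a1 a4).sy_mul h.alt (by simp [hyB, b1]) (by simp [hyB, b2])
    (h10 w' a2 a5)).sy_mul h.alt (by simp [hyB, b1, b2]) (by simp [hyB, b1, b2])
    (h9.sy_mul h.alt hyB (by simp [hyB, b1, b2]) (h10 _ (by simp [a1, a2]) a6))).congr fun x => ?_
  simp only [sy_apply, map_add, LinearMap.add_apply, h.alt.self_eq_zero, a3, ← h.alt.neg_eq w w',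
    ← h.alt.neg_eq y w, ← h.alt.neg_eq y w', map_zero, LinearMap.zero_apply]
  match_scalars <;> grind

theorem SpK.le_of_notMem [Finite K] (h : SpK B Bk (fun _ => 0) ν X) (hA : Bk.IsAlt)
    (hr : (finrank F K).Prime) (hd : 2 ≤ finrank K V)
    (h2 : finrank F K = 2 → (∃ t : F, t ^ 2 ≠ t) ∨ 3 ≤ finrank K V) {m : V ≃ₗ[F] V} (hm : m ∈ X)
    (hm' : m ∉ SemiG F K V) : SpG B ≤ X := by
  have : FiniteDimensional F K := .of_finrank_pos hr.pos
  obtain ⟨v₀, k₀, h0⟩ : ∃ v, ∃ k : K, m (k • v) ∉ K ∙ m v := by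
    by_contra! hc
    exact hm' (mem_semiG_of_lines hd hc)
  have hv₀ : v₀ ≠ 0 := by rintro rfl; simp at h0
  have hv₁ : m v₀ ≠ 0 := by simpa using hv₀
  obtain ⟨u, U, hu, -, hu', hM⟩ := exists_MP2_kl (P := fun _ => True) (fun _ _ _ => trivial)
    (kl_mem_SOrb hv₁ trivial) (map_mem_SOrb hm _ (kl_mem_SOrb hv₀ trivial))
    (fun e => h0 (e.ge ⟨_, smul_mem_kl k₀ v₀, rfl⟩)) fun e => hv₁ (by
      simpa using e.le ⟨self_mem_kl _, _, self_mem_kl v₀, rfl⟩)
  obtain ⟨y, hy, hy', h5⟩ := h.exists_line hA hr hu hu' hM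
  obtain ⟨μ, x, hx, hμ⟩ := hM.exists_mu hu hy h5
  have m1 : μ 1 = 0 := (hμ 1).1 (by simpa using hu')
  have μ0 : μ ≠ 0 := by rintro rfl; simp at hx
  obtain ⟨y₀, e₀, e₁⟩ := h.exists_y0 hu μ0
  have H1 : ∀ δ, μ δ = 0 → ∀ k : K, Un X (sy B (δ • u) (k • u) (μ k)) := fun δ hδ k => by
    obtain ⟨g, hg, v, hv, -, rfl⟩ := hM.mU
    obtain ⟨l, hl, e⟩ := h.exists_tv hg hx hμ hδ rfl fun _ => rfl
    have := un_sy_of_tv h.alt (h.kl_ts (u := u) rfl) (h.un_n hA u (k / Bk u y₀))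
      (fun _ => smul_mem_kl _ _) (fun x hx => by simp [h.perp_iff.1 hx]) (fun x y => by
        simp only [h.eq, LinearMap.smulRight_apply, map_smul, LinearMap.smul_apply,
          LinearMap.restrictScalars_apply, ← hA.neg_eq u x, smul_eq_mul]
        rw [← map_neg]
        congr 1
        ring) hl (h.le hl) (smul_mem_kl δ u) (y := y₀) fun m hm => by
          obtain ⟨k, rfl⟩ := mem_kl.1 hm
          rw [e, e₀]
    simpa [e₁, e₀] using this
  have hB0 : ∀ a b : K, B (a • u) (b • u) = 0 := fun a b =>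
    h.kl_ts rfl _ (smul_mem_kl _ _) _ (smul_mem_kl _ _)
  have hB1 : ∀ b : K, B u (b • u) = 0 := fun b => by simpa using hB0 1 b
  have H2 : ∀ c, Un X (sy B u 0 c) := fun c => by
    by_cases c2 : (2 : F) ≠ 0
    · have := H1 1 m1 (algebraMap F K (c / 2))
      rw [one_smul, algebraMap_smul] at this
      exact this.sy_self.sy_eq rfl (by
        rw [Algebra.algebraMap_eq_smul_one, map_smul, m1, smul_zero, zero_add,
          mul_div_cancel₀ _ c2])
    rw [not_not] at c2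
    by_cases ht : ∃ t : F, t ^ 2 ≠ t
    · obtain ⟨t, ht⟩ := ht
      obtain ⟨k, hk⟩ := exists_nu_eq μ0 (c / (t ^ 2 - t))
      have e1 := (H1 (algebraMap F K t) (by simp [Algebra.algebraMap_eq_smul_one, m1]) k).congr
        (E' := sy B u (t • k • u) (t ^ 2 * μ k)) fun z => by
          simp only [sy_apply, algebraMap_smul, map_smul, LinearMap.smul_apply, smul_eq_mul]
          module
      have e2 := H1 1 m1 (t • k)
      rw [one_smul, smul_assoc] at e2
      refine (e1.sy_mul h.alt (by simp [hB1]) (by simp [hB1]) e2).sy_eq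
        (by rw [← two_smul F, c2, zero_smul]) ?_
      have := sub_ne_zero.2 ht
      rw [h.alt.self_eq_zero, map_smul, smul_eq_mul]
      rw [eq_div_iff this] at hk
      linear_combination hk + t * μ k * c2
    have hc : c = 0 ∨ c = 1 := by
      push Not at ht
      have := ht c
      grind
    rcases hc with rfl | rfl
    · exact Un.zero.congr fun z => by simp [sy_apply]
    by_cases h3 : finrank F K = 2
    · exact h.un_of_two hA h3 ((h2 h3).resolve_left ht) c2 hu hu' hM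
    obtain ⟨κ, κ0, h4, h6⟩ := exists_ne_zero_mem_ker_two (by have := hr.two_le; omega) μ
      (μ ∘ₗ LinearMap.mulLeft F x)
    obtain ⟨ρ, hρ, e⟩ := h.witt.exists_isom_vec (smul_ne_zero κ0 hu) hu rfl
    have e1 := (H1 κ h4 (x * κ)).sy_map (h.mem ρ hρ) (h.le (h.mem ρ hρ))
    have e2 := H1 1 m1 x
    simp only [mul_smul, LinearEquiv.restrictScalars_apply, map_smul ρ x, e] at e1
    rw [one_smul] at e2
    simp only [LinearMap.comp_apply, LinearMap.mulLeft_apply] at h6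
    exact (e1.sy_mul h.alt (hB1 x) (hB1 x) e2).sy_eq (by rw [← two_smul F, c2, zero_smul])
      (by simp [hx, h6, h.alt.self_eq_zero])
  refine spG_le_of_un h.nd h.alt fun a c => ?_
  by_cases ha : a = 0
  · exact Un.zero.congr fun z => by simp [sy_apply, ha]
  obtain ⟨ρ, hρ, e⟩ := h.witt.exists_isom_vec hu ha rfl
  simpa [e] using (H2 c).sy_map (h.mem ρ hρ) (h.le (h.mem ρ hρ))

end Sp

end CF.MaxSub
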