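/-
Fixed points of semilinear maps; the classical groups are not semilinear over an extension field.
-/
import Cfsg.Agent.MaxSub.F3S

set_option autoImplicit false

namespace CF.MaxSub

open Module Geom QuadraticMap

variable {F K V : Type*} [Field F] [Field K] [Algebra F K] [AddCommGroup V] [Module F V]
  [Module K V] [IsScalarTower F K V]

theorem semiG_lin_or [FiniteDimensional K V] (hr : (finrank F K).Prime) {g : V ≃ₗ[F] V}
    (hg : g ∈ SemiG F K V) :
    (∀ (k : K) v, g (k • v) = k • g v) ∨ finrank F (fixSp g) ≤ finrank K V := by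
  classical
  have : FiniteDimensional F K := .of_finrank_pos hr.pos
  have : FiniteDimensional F V := Module.Finite.trans K V
  let L : Subalgebra F K :=
    { carrier := {k | ∀ v, g (k • v) = k • g v}
      mul_mem' := fun {a b} ha hb v => by rw [mul_smul, ha, hb, mul_smul]
      add_mem' := fun {a b} ha hb v => by rw [add_smul, map_add, ha, hb, add_smul]
      algebraMap_mem' := fun a v => by simp }
  refine or_iff_not_imp_left.2 fun hc => ?_
  have hL : ∀ k ∈ L, ∃ a : F, k = algebraMap F K a := fun k hk => by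
    by_contra! h
    exact hc fun k' => (subalgebra_top_of_prime hr L hk h).ge (Algebra.mem_top (x := k'))
  choose s hs using hg.1
  let b := finBasis F (fixSp g)
  have hb : ∀ i, g (b i) = b i := fun i => mem_fixSp.1 (b i).2
  have hb' : LinearIndependent F fun i => (b i : V) :=
    b.linearIndependent.map' (fixSp g).subtype (Submodule.ker_subtype _)
  have h1 : LinearIndependent K fun i => (b i : V) := by
    rw [linearIndependent_iff']
    intro t
    induction t using Finset.induction_on with
    | empty => simp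
    | insert a t ha ih =>
      intro c e
      rw [Finset.sum_insert ha] at e
      have h0 : c a = 0 := by
        by_contra h0
        have e1 : (b a : V) + ∑ i ∈ t, (c i / c a) • (b i : V) = 0 := by
          have := congrArg ((c a)⁻¹ • ·) e
          simpa [Finset.smul_sum, smul_smul, h0, div_eq_inv_mul] using this
        have e2 := congrArg g e1
        simp only [map_add, map_sum, hs, hb, map_zero] at e2
        have e3 := ih (fun i => s (c i / c a) - c i / c a) (by
          simp only [sub_smul, Finset.sum_sub_distrib]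
          linear_combination (norm := module) e2 - e1)
        choose! d hd using fun i (hi : i ∈ t) => hL (c i / c a) fun v => by
          rw [hs, sub_eq_zero.1 (e3 i hi)]
        have := linearIndependent_iff'.1 hb' (insert a t) (Function.update d a 1) (by
          rw [Finset.sum_insert ha, Function.update_self, one_smul, ← e1]
          congr 1
          refine Finset.sum_congr rfl fun i hi => ?_
          rw [Function.update_of_ne (by rintro rfl; exact ha hi), hd i hi, algebraMap_smul])
          a (Finset.mem_insert_self a t)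
        simp at this
      rw [h0, zero_smul, zero_add] at e
      intro i hi
      rcases Finset.mem_insert.1 hi with rfl | hi
      · exact h0
      · exact ih c e i hi
  simpa using h1.fintype_card_le_finrank

theorem finrank_le_fixSp_add [FiniteDimensional F V] {g : V ≃ₗ[F] V} {A : Submodule F V}
    (h : ∀ x, g x - x ∈ A) : finrank F V ≤ finrank F (fixSp g) + finrank F A := by
  have h1 := LinearMap.finrank_range_add_finrank_ker ((g : V →ₗ[F] V) - LinearMap.id)
  have h2 : finrank F (LinearMap.range ((g : V →ₗ[F] V) - LinearMap.id)) ≤ finrank F A :=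
    Submodule.finrank_mono (by rintro _ ⟨x, rfl⟩; exact h x)
  change _ + finrank F (fixSp g) = _ at h1
  omega

omit [Module F V] [IsScalarTower F K V] in
theorem exists_notMem_base (hr : 2 ≤ finrank F K) : ∃ ω : K, ∀ a : F, ω ≠ algebraMap F K a := by
  by_contra! hc
  have := finrank_span_singleton_le (F := F) (1 : K)
  rw [(Submodule.eq_top_iff' (p := F ∙ (1 : K))).2 fun ω => by
    obtain ⟨a, rfl⟩ := hc ω
    exact Submodule.mem_span_singleton.2 ⟨a, (Algebra.algebraMap_eq_smul_one a).symm⟩,
    finrank_top] at this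
  omega

theorem notMem_semiG [FiniteDimensional K V] (hr : (finrank F K).Prime) {g : V ≃ₗ[F] V} {a b x : V}
    (h : ∀ x, g x - x ∈ Submodule.span F {a, b}) (hx : g x - x = a) (ha : a ≠ 0)
    (hb : b = 0 ∨ b ∉ kl F K a)
    (hd : finrank K V + finrank F (Submodule.span F {a, b}) < finrank F V) : g ∉ SemiG F K V := by
  have : FiniteDimensional F K := .of_finrank_pos hr.pos
  have : FiniteDimensional F V := Module.Finite.trans K V
  intro hg
  rcases semiG_lin_or hr hg with h1 | h1
  · obtain ⟨ω, hω⟩ := exists_notMem_base hr.two_le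
    obtain ⟨s, t, e⟩ := Submodule.mem_span_pair.1 (h (ω • x))
    rw [h1, ← smul_sub, hx] at e
    have : t • b ≠ 0 := fun h0 => hω s (smul_left_injective K ha (by
      simpa [h0] using e.symm))
    rcases hb with rfl | hb
    · simp at this
    refine hb (((kl F K a).smul_mem_iff (left_ne_zero_of_smul this)).1 ?_)
    rw [eq_sub_of_add_eq' e]
    exact sub_mem (smul_mem_kl _ _) (Submodule.smul_mem _ _ (self_mem_kl a))
  · have := finrank_le_fixSp_add h
    omega

theorem finrank_span_zero_le (a : V) : finrank F (Submodule.span F {a, 0}) ≤ 1 := by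
  rw [Set.pair_comm, Submodule.span_insert_zero]
  exact finrank_span_singleton_le a

theorem sp_not_le_semiG [FiniteDimensional K V] (hr : (finrank F K).Prime) (hd : 2 ≤ finrank K V)
    {B : LinearMap.BilinForm F V} (hB : B.Nondegenerate) (hA : B.IsAlt) :
    ¬ SpG B ≤ SemiG F K V := fun hle => by
  have : FiniteDimensional F K := .of_finrank_pos hr.pos
  have : FiniteDimensional F V := Module.Finite.trans K V
  have : Nontrivial V := nontrivial_of_finrank_pos (R := K) (by omega)
  obtain ⟨a, ha⟩ := exists_ne (0 : V)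
  obtain ⟨x, -, hx⟩ := (isWittPair_alt B hB hA).exists_hyperbolic ha rfl
  refine notMem_semiG hr (a := a) (b := 0) (x := x) (fun x => ?_) ?_ ha (.inl rfl) ?_
    (hle (sy_isom hA (a := a) (b := 0) (by simp) 1))
  · simpa [unip_apply, sy_apply] using
      Submodule.smul_mem _ (B a x) (Submodule.subset_span (s := {a, 0}) (by simp))
  · simp [unip_apply, sy_apply, hx]
  · have h1 := finrank_span_zero_le (F := F) a
    have h2 := finrank_mul_finrank F K V
    have h3 := hr.two_le
    nlinarith

theorem omega_not_le_semiG [Finite F] [FiniteDimensional K V] (hr : (finrank F K).Prime)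
    (hd : 3 ≤ finrank K V) {Q : QuadraticForm F V} (hQ : (polarBilin Q).Nondegenerate) :
    ¬ OmG Q ≤ SemiG F K V := fun hle => by
  have : FiniteDimensional F K := .of_finrank_pos hr.pos
  have : FiniteDimensional F V := Module.Finite.trans K V
  have h2 := finrank_mul_finrank F K V
  have h3 := hr.two_le
  have hG := polarG_omega' hQ (by nlinarith)
  have hW := hG.witt
  obtain ⟨u, hu0, hu⟩ := exists_singular_of_three_le Q (by nlinarith)
  have hu' : Q u = Q 0 := by simpa using hu
  obtain ⟨v, -, hv⟩ := hW.exists_hyperbolic hu0 hu'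
  have h4 := hW.finrank_perp (Submodule.span F {u, v})
  have h5 := IsWittPair.finrank_span_pair_le (F := F) u v
  obtain ⟨w, hw, hw'⟩ := Geom.exists_notMem_of_finrank_lt
    (X := perp (polarBilin Q) (Submodule.span F {u, v})) (Z := kl F K u) (by rw [finrank_kl hu0]; nlinarith)
  obtain ⟨h6, h7⟩ := mem_perp_pair.1 hw
  have w0 : w ≠ 0 := by rintro rfl; simp at hw'
  obtain ⟨x, h8, h9⟩ := hW.exists_dual_vec (x := w) (Z := F ∙ u) fun e =>
    hw' ((Submodule.span_singleton_le_iff_mem _ _).2 (self_mem_kl u) e)
  replace h9 := h9 u (Submodule.mem_span_singleton_self u)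
  simp only [polarBilin_apply_apply] at h6 h8 h9
  refine notMem_semiG hr (a := u) (b := w) (x := -x) (fun x => ?_) ?_ hu0 (.inr hw') ?_
    (hle (hG.rad_le u hu0 hu' (eichler_mem_Rad hu h6 trivial trivial)))
  · rw [eichler_apply]
    exact Submodule.mem_span_pair.2 ⟨-polar Q w x - Q w * polar Q u x, polar Q u x, by module⟩
  · rw [eichler_apply_of_perp _ _ (by simp [h9])]
    simp [h8]
  · have := IsWittPair.finrank_span_pair_le (F := F) u w
    nlinarith

open Matrix Cfsg Cfsg.Geo
open scoped MatrixGroups

universe u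

theorem isMaximalIn_field {F : Type u} [Field F] [Finite F] {ι : Type} [Fintype ι] [DecidableEq ι]
    [Nonempty ι] {r : ℕ} {K : Subalgebra F (Matrix ι ι F)}
    (hK : IsFieldSubalgebra r K) {G : Subgroup (GL ι F)} {G' : Subgroup ((ι → F) ≃ₗ[F] (ι → F))}
    (hG : ∀ g, g ∈ G ↔ Geom.glEquiv ι F g ∈ G')
    (h : ∀ (L : Type u) [Field L] [Finite L] [Algebra F L] [Module L (ι → F)]
      [IsScalarTower F L (ι → F)] [FiniteDimensional L (ι → F)],
      finrank F L = r → r * finrank L (ι → F) = Fintype.card ι →
      (∀ k : L, ∃ x ∈ K, ∀ v, k • v = x *ᵥ v) → (∀ x ∈ K, ∃ k : L, ∀ v, k • v = x *ᵥ v) →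
      MaxIn G' (SemiG F L (ι → F))) :
    IsMaximalIn G (subalgebraNormalizer K ⊓ G) := by
  have hF := isField_of_fieldSubalgebra hK
  letI := hF.toField
  have : IsScalarTower F K (ι → F) := ⟨fun c k v => smul_mulVec c (k : Matrix ι ι F) v⟩
  have h1 := finrank_mul_finrank F K (ι → F)
  rw [hK.finrank_eq, finrank_fintype_fun_eq_card] at h1
  have : FiniteDimensional K (ι → F) := Module.Finite.of_restrictScalars_finite F K _
  exact (h K hK.finrank_eq h1 (fun k => ⟨k, k.2, fun _ => rfl⟩)
    fun x hx => ⟨⟨x, hx⟩, fun _ => rfl⟩).isMaximalIn (Geom.glEquiv ι F) hG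
    (mem_subalgebraNormalizer_iff_semiG hF)

theorem sp_maxIn_field {F K V : Type*} [Field F] [Field K] [Finite K] [Algebra F K]
    [AddCommGroup V] [Module F V] [Module K V] [IsScalarTower F K V] [FiniteDimensional K V]
    [Nontrivial V] {B : LinearMap.BilinForm F V} (hB : B.Nondegenerate) (hA : B.IsAlt)
    (hr : (finrank F K).Prime) (h2 : finrank F K = 2 → (∃ t : F, t ^ 2 ≠ t) ∨ 3 ≤ finrank K V)
    (hs : ∀ (k : K) x y, B (k • x) y = B x (k • y)) (ha : ∀ (k : K) x, B (k • x) x = 0) :
    MaxIn (SpG B) (SemiG F K V) := by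
  have : FiniteDimensional F K := .of_finrank_pos hr.pos
  have : FiniteDimensional F V := Module.Finite.trans K V
  obtain ⟨ν, hν, -⟩ := exists_dual_one (W := (⊥ : Submodule F K)) (v := 1) (by simp)
  have ν0 : ν ≠ 0 := by rintro rfl; simp at hν
  obtain ⟨Bk, e⟩ := exists_kform (τ := RingHom.id K) B hs ν0
  have hA' : LinearMap.IsAlt Bk := fun x => eq_zero_of_nu ν0 fun k => by
    simpa [e] using ha k x
  have hB' : ∀ x, (∀ y, Bk x y = 0) → x = 0 := fun x h => hB.1 x fun y => by simp [e, h]
  have hB'' : LinearMap.Nondegenerate Bk := ⟨hB', fun y h => hB' y fun x => hA'.isRefl _ _ (h x)⟩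
  have hW := isWittPair_alt Bk hB'' hA'
  have hd : 2 ≤ finrank K V := by
    obtain ⟨u, hu⟩ := exists_ne (0 : V)
    obtain ⟨v, -, hv⟩ := hW.exists_hyperbolic hu rfl
    rw [← IsWittPair.finrank_span_hyperbolic (B := Bk) (hA' u) (hv ▸ one_ne_zero)]
    exact Submodule.finrank_le _
  exact ⟨sp_not_le_semiG hr hd hB hA, fun M h1 h3 m hm hm' => SpK.le_of_notMem
    ⟨hB, hA, ν0, e, hW, h3, fun g hg => h1 ⟨mem_SpG.2 fun x y => by simp [e, hg.1],
      restrict_mem_semiG g⟩⟩ hA' hr hd h2 hm hm'⟩

theorem isMaximalIn_sp_field {F : Type*} [Field F] [Fintype F] {m r : ℕ} (hm : 0 < m) (hr : r.Prime)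
    (h2 : 2 < Fintype.card F ∨ 2 < m) {K : Subalgebra F (Matrix (Fin m ⊕ Fin m) (Fin m ⊕ Fin m) F)}
    (hK : IsFieldSubalgebra r K) (hs : IsSelfAdjointFor (sympForm m F) K)
    (ha : ∀ k ∈ K, ∀ v : Fin m ⊕ Fin m → F, sympForm m F (k *ᵥ v) v = 0) :
    IsMaximalIn (spGL m F) (subalgebraNormalizer K ⊓ spGL m F) := by
  have : Nonempty (Fin m) := ⟨⟨0, hm⟩⟩
  refine isMaximalIn_field hK (mem_spGL_iff m) fun L _ _ _ _ _ _ h1 h3 h4 _ =>
    sp_maxIn_field (sympBilin_nondegenerate m) (sympBilin_isAlt m) (h1 ▸ hr) (fun h => ?_)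
      (fun k x y => ?_) fun k x => ?_
  · rw [← h1, h] at h3
    refine h2.imp (fun h => ?_) fun h => by simp at h3; omega
    obtain ⟨a, a0, a1⟩ := exists_ne_zero_ne_one_of_card (F := F) (by simp; omega)
    exact ⟨a, by grind⟩
  · obtain ⟨z, hz, e⟩ := h4 k
    rw [e, e, sympBilin_apply, sympBilin_apply, hs z hz]
  · obtain ⟨z, hz, e⟩ := h4 k
    rw [e, sympBilin_apply, ha z hz]

end CF.MaxSub
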