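/-
Maximality of `ΓU_d(q) ∩ Sp_{2d}(q)` in `Sp_{2d}(q)`, `q` odd.
-/
import Cfsg.Agent.MaxSub.F3B

set_option autoImplicit false

namespace CF.MaxSub

open Module Geom QuadraticMap

/-- The unipotent radical of the stabiliser of a totally singular subspace lies in `G`. -/
theorem mem_of_radical {F V : Type*} [Field F] [AddCommGroup V] [Module F V] {σ : F →+* F}
    [FiniteDimensional F V] {B : V →ₛₗ[σ] V →ₗ[F] F} {Q : V → F} {G : Subgroup (V ≃ₗ[F] V)}
    (hG : PolarG B Q G) (M : Submodule F V) (hq : ∀ m ∈ M, Q m = Q 0) (hp : M ≤ perp B M)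
    {g : V ≃ₗ[F] V} (hg : g ∈ Isom B Q) (h1 : ∀ m ∈ M, g m = m)
    (h2 : ∀ x ∈ perp B M, g x - x ∈ M) : g ∈ G := by
  have hW := hG.witt
  induction hn : finrank F M using Nat.strong_induction_on generalizing M g with
  | _ n ih =>
  by_cases h0 : M = ⊥
  · subst h0
    have : g = 1 := LinearEquiv.ext fun x => by
      simpa [sub_eq_zero] using h2 x (mem_perp.2 (by simp))
    exact this ▸ G.one_mem
  obtain ⟨u, hu, u0⟩ := (Submodule.ne_bot_iff M).1 h0
  obtain ⟨f, hf, huf⟩ := hW.exists_hyperbolic u0 (hq u hu)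
  have e : ∀ m ∈ M, ∀ x, B m (g x) = B m x := fun m hm x => by
    conv_lhs => rw [← h1 m hm, hg.1]
  obtain ⟨ρ, hρ, e1⟩ := hW.exists_Rad (hq u hu) (hp hu) (y := g f) (y' := f)
    (by simp [e u hu, huf]) (e u hu f).symm (hg.2 f).symm
    (mem_perp.2 fun m hm => by simp [e m hm])
  have h3 : ∀ m ∈ M, ρ m = m := fun m hm => hW.Rad_fix hρ ((hW.perp_perp M).ge hm)
  have hi : ρ * g ∈ Isom B Q := mul_mem hρ.1 hg
  have h4 : ρ * g ∈ G := by
    refine ih _ ?_ (M ⊓ perp B (F ∙ f)) (fun m hm => hq m hm.1)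
      (fun m hm => mem_perp.2 fun x hx => mem_perp.1 (hp hm.1) x hx.1) hi
      (fun m hm => by rw [LinearEquiv.mul_apply, h1 m hm.1, h3 m hm.1]) (fun x hx => ⟨?_, ?_⟩) rfl
    · refine hn ▸ Submodule.finrank_lt_finrank_of_lt (inf_lt_left.2 fun h => ?_)
      have := hW.refl (mem_perp_singleton.1 (h hu))
      simp [huf] at this
    · have h5 : x - B u x • f ∈ perp B M := mem_perp.2 fun m hm => by
        have fu : B f u ≠ 0 := fun e => by simpa [huf] using hW.refl e
        have := mem_perp.1 hx (m - (B f m / B f u) • u) ⟨sub_mem hm (M.smul_mem _ hu),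
          mem_perp_singleton.2 (by simp [fu])⟩
        have h6 := hW.refl (x := f) (y := m - (B f m / B f u) • u) (by simp [fu])
        simp only [map_sub, LinearMap.map_smulₛₗ₂, LinearMap.sub_apply, huf, smul_eq_mul,
          map_smul] at this h6 ⊢
        linear_combination this - B u x * h6
      have h6 := h2 _ h5
      have h7 := hρ.2.2.1 (x - B u x • f) (mem_perp.1 h5 u hu)
      have := add_mem h6 ((Submodule.span_singleton_le_iff_mem _ _).2 hu h7)
      rw [← h3 _ h6] at this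
      simp only [map_sub, map_smul, e1] at this
      rwa [show ∀ a b c d : V, a - b - c + (c - (d - b)) = a - d from fun _ _ _ _ => by abel]
        at this
    · refine mem_perp_singleton.2 ?_
      have : (ρ * g) f = f := e1
      rw [map_sub]
      conv_lhs => rw [← this, hi.1, this, sub_self]
  simpa using G.mul_mem (G.inv_mem (hG.rad_le' u0 (hq u hu) _ hρ)) h4

variable {F K V : Type*} [Field F] [Field K] [Algebra F K]

section Quad

variable {τ : K →+* K}

theorem exists_algebraMap_of_fix (hr : finrank F K = 2) (h1 : ∀ a, τ (algebraMap F K a) = algebraMap F K a)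
    (h2 : τ ≠ RingHom.id K) {x : K} (hx : τ x = x) : ∃ a : F, algebraMap F K a = x := by
  have : FiniteDimensional F K := .of_finrank_pos (by omega)
  by_contra! hc
  have hl : LinearIndependent F ![1, x] := LinearIndependent.pair_iff.2 fun s t e => by
    by_cases ht : t = 0
    · simpa [ht] using e
    · exact (hc (-s / t) (by
        rw [Algebra.smul_def, Algebra.smul_def] at e
        have := (map_ne_zero (algebraMap F K)).2 ht
        rw [map_div₀, div_eq_iff this, map_neg]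
        linear_combination -e)).elim
  refine h2 (RingHom.ext fun k => ?_)
  have := (hl.span_eq_top_of_card_eq_finrank (by simp [hr])).ge (Submodule.mem_top (x := k))
  rw [Matrix.range_cons_cons_empty] at this
  obtain ⟨s, t, rfl⟩ := Submodule.mem_span_pair.1 this
  simp [Algebra.smul_def, h1, hx]

theorem exists_sq_not_fix (h2 : τ ≠ RingHom.id K) : ∃ μ : K, τ (μ * μ) ≠ μ * μ := by
  by_contra! hc
  refine h2 (RingHom.ext fun k => ?_)
  have e1 := hc k
  have e2 := hc (k + 1)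
  simp only [map_mul, map_add, map_one, RingHom.id_apply] at e1 e2 ⊢
  by_contra e
  have e3 : τ k + k = 0 := (mul_eq_zero.1 (by linear_combination e1 :
    (τ k + k) * (τ k - k) = 0)).resolve_right (sub_ne_zero.2 e)
  have e4 : (2 : K) = 0 := (mul_eq_zero.1 (by linear_combination e2 - e1 :
    2 * (τ k - k) = 0)).resolve_right (sub_ne_zero.2 e)
  exact e (by linear_combination e3 - k * e4)

end Quad

variable [AddCommGroup V] [Module F V] [Module K V] [IsScalarTower F K V]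

omit [Algebra F K] [IsScalarTower F K V] in
theorem line_of_pm (h2 : (2 : K) ≠ 0) {g : V ≃ₗ[F] V} {u z : V} {k s s₁ s₂ : K}
    (hu : g u ∉ K ∙ g z) (h0 : g (k • z) = s • g z) (h1 : g (k • (z + u)) = s₁ • g (z + u))
    (h3 : g (k • (z - u)) = s₂ • g (z - u)) : g (k • u) ∈ K ∙ g u := by
  simp only [smul_add, smul_sub, map_add, map_sub, h0] at h1 h3
  have e : (s₁ - s₂) • g u = (2 * s - s₁ - s₂) • g z := by
    linear_combination (norm := skip) -h1 - h3
    module
  have e1 : s₁ = s₂ := by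
    by_contra hc
    exact hu ((Submodule.smul_mem_iff _ (sub_ne_zero.2 hc)).1
      (e ▸ Submodule.smul_mem _ _ (Submodule.mem_span_singleton_self _)))
  subst e1
  refine (Submodule.smul_mem_iff _ h2).1 (Submodule.mem_span_singleton.2 ⟨2 * s₁, ?_⟩)
  linear_combination (norm := skip) h3 - h1
  module

/-- A symplectic plane carrying an involution in `X`. -/
structure IP (B : LinearMap.BilinForm F V) (X : Subgroup (V ≃ₗ[F] V)) (U : Submodule F V) :
    Prop where
  p : ∀ v ∈ U, v ≠ 0 → ∀ y ∈ U, B v y = 0 → y ∈ F ∙ v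
  i : ∃ i ∈ X, (∀ u ∈ U, i u = -u) ∧ (∀ x, i x - x ∈ U) ∧ ∀ x, (∀ u ∈ U, B u x = 0) → i x = x

section Sp

variable {τ : K →+* K} {B : LinearMap.BilinForm F V} {Bk : V →ₛₗ[τ] V →ₗ[K] K} {ν : Dual F K}
  {X : Subgroup (V ≃ₗ[F] V)}

theorem IP.map {U : Submodule F V} (h : IP B X U) {g : V ≃ₗ[F] V} (hg : g ∈ X) (hg' : g ∈ SpG B) :
    IP B X (U.map (g : V →ₗ[F] V)) := by
  obtain ⟨i, h1, h2, h3, h4⟩ := h.i
  refine ⟨?_, g * i * g⁻¹, mul_mem (mul_mem hg h1) (inv_mem hg), ?_, fun x => ?_, fun x hx => ?_⟩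
  · rintro _ ⟨v, hv, rfl⟩ h0 _ ⟨y, hy, rfl⟩ e
    obtain ⟨c, rfl⟩ := Submodule.mem_span_singleton.1
      (h.p v hv (by rintro rfl; simp at h0) y hy ((mem_SpG.1 hg' v y).symm.trans e))
    exact Submodule.mem_span_singleton.2 ⟨c, by simp⟩
  · rintro _ ⟨v, hv, rfl⟩
    simp [h2 v hv]
  · exact ⟨_, h3 (g⁻¹ x), by simp [apply_inv_apply]⟩
  · rw [LinearEquiv.mul_apply, LinearEquiv.mul_apply, h4, apply_inv_apply]
    intro u hu
    rw [← mem_SpG.1 hg', apply_inv_apply]
    exact hx _ ⟨u, hu, rfl⟩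

theorem IP.rad {U : Submodule F V} (h : IP B X U) {i : V ≃ₗ[F] V} (hi : i ∈ SpG B)
    (h2 : ∀ u ∈ U, i u = -u) (h3 : ∀ x, i x - x ∈ U) {v : V} (hv : v ∈ U) (h0 : v ≠ 0) {x : V}
    (hx : B v x = 0) : i x - x ∈ F ∙ v := h.p v hv h0 _ (h3 x) (by
  have := mem_SpG.1 hi v x
  rw [h2 v hv, hx, map_neg, LinearMap.neg_apply, neg_eq_zero] at this
  simp [this, hx])

/-- A unitary space over a quadratic extension seen as a symplectic space. -/
structure SpU (B : LinearMap.BilinForm F V) (Bk : V →ₛₗ[τ] V →ₗ[K] K) (ν : Dual F K)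
    (X : Subgroup (V ≃ₗ[F] V)) : Prop extends SpK B Bk (fun x => Bk x x) ν X where
  herm : IsHerm Bk
  two : (2 : F) ≠ 0
  fix : ∀ k, τ k = k ↔ ∃ a : F, algebraMap F K a = k
  ker : ∀ k, ν k = 0 ↔ τ k = k
  rank : finrank F K = 2
  dim : 3 ≤ finrank K V

namespace SpU

variable (h : SpU B Bk ν X)
include h

theorem twoK : (2 : K) ≠ 0 := by
  simpa [map_ofNat] using (map_ne_zero (algebraMap F K)).2 h.two

theorem smul_mem {s : K} (hs : τ s = s) (v : V) : s • v ∈ F ∙ v := by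
  obtain ⟨a, rfl⟩ := (h.fix s).1 hs
  exact Submodule.mem_span_singleton.2 ⟨a, by simp⟩

variable [FiniteDimensional F V] [FiniteDimensional K V]

theorem refl {w : V} (hw : Bk w w ≠ 0) : ∃ i ∈ UG Bk, i w = -w ∧ (∀ x, i x - x ∈ K ∙ w) ∧
    ∀ x, Bk w x = 0 → i x = x := by
  have e := h.herm.eq w w
  let i := uRank1 h.herm w (-2 / Bk w w) (by
    simp only [map_div₀, map_neg, map_ofNat, e]; field_simp; ring)
  refine ⟨i, i.2, ?_, fun x => ?_, fun x hx => ?_⟩
  all_goals rw [uRank1_apply]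
  · rw [div_mul_cancel₀ _ hw]; module
  · simp [Submodule.smul_mem, Submodule.mem_span_singleton_self]
  · simp [hx]

theorem ip {w : V} (hw : Bk w w ≠ 0) : IP B X (kl F K w) := by
  obtain ⟨i, h1, h2, h3, h4⟩ := h.refl hw
  refine ⟨fun v hv h0 y hy e => ?_, _, h.mem i h1, fun u hu => ?_, h3,
    fun x hx => h4 x (h.perp_iff.1 hx)⟩
  · obtain ⟨k, rfl⟩ := mem_kl.1 hv
    obtain ⟨l, rfl⟩ := mem_kl.1 hy
    have k0 := left_ne_zero_of_smul h0
    rw [h.eq, h.ker] at e
    simp only [map_smul, LinearMap.map_smulₛₗ₂, smul_eq_mul, map_mul, h.herm.eq,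
      h.herm.invol] at e
    have := h.smul_mem (s := l / k) (by
      rw [map_div₀, div_eq_div_iff ((map_ne_zero τ).2 k0) k0]
      exact mul_right_cancel₀ hw (by linear_combination e)) (k • w)
    rwa [smul_smul, div_mul_cancel₀ _ k0] at this
  · obtain ⟨k, rfl⟩ := mem_kl.1 hu
    simp [h2]

theorem rd_conj {v w w' : V} (hv : Bk v v ≠ 0) (h1 : Bk v w = 0) (h2 : Bk v w' = 0) (w0 : w ≠ 0)
    (w0' : w' ≠ 0) (e : Bk w' w' = Bk w w) (hw : RD B (fun _ => 0) X v w) :
    RD B (fun _ => 0) X v w' := by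
  have hn : ∀ w, Bk v w = 0 → w ≠ 0 → w ∉ K ∙ v := fun w h1 w0 hc => by
    obtain ⟨k, rfl⟩ := Submodule.mem_span_singleton.1 hc
    simp [hv] at h1
    simp [h1] at w0
  obtain ⟨ρ, a1, a2, a3, a4⟩ := h.witt.step (K ∙ v) w w' (hn w h1 w0) (hn w' h2 w0') e
    fun x hx => by
      obtain ⟨k, rfl⟩ := Submodule.mem_span_singleton.1 hx
      simp [h1, h2]
  have := hw.conj (h.le (h.mem ρ ⟨a1, a2⟩)) (h.mem ρ ⟨a1, a2⟩)
    (a3 v (Submodule.mem_span_singleton_self v))
  simpa [a4] using this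

variable [Finite K]

theorem rd_smul {v w : V} (hv : Bk v v ≠ 0) (h1 : Bk v w = 0) (hw : RD B (fun _ => 0) X v w)
    (k : K) : RD B (fun _ => 0) X v (k • w) := by
  have : Finite F := .of_injective _ (algebraMap F K).injective
  let L : Subring K :=
    { carrier := {k | ∀ w, Bk v w = 0 → RD B (fun _ => 0) X v w → RD B (fun _ => 0) X v (k • w)}
      mul_mem' := fun ha hb w h1 h2 => by rw [mul_smul]; exact ha _ (by simp [h1]) (hb w h1 h2)
      one_mem' := fun w _ h2 => by simpa using h2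
      add_mem' := fun ha hb w h1 h2 => by rw [add_smul]; exact (ha w h1 h2).add (hb w h1 h2)
      zero_mem' := fun w _ _ => by simpa using RD.zero
      neg_mem' := fun ha w h1 h2 => by rw [neg_smul]; exact (ha w h1 h2).neg }
  refine (subring_eq_top_of_pow h.rank.ge L fun a ha w h1 h2 => ?_).ge (Subring.mem_top k) w h1 hw
  by_cases w0 : w = 0
  · simpa [w0] using RD.zero
  refine h.rd_conj hv h1 (by simp [h1]) w0 (smul_ne_zero (pow_ne_zero _ ha) w0) ?_ h2
  obtain ⟨c, hc⟩ := (h.fix (τ a * a)).1 (by simp [h.herm.invol, mul_comm])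
  have := Fintype.ofFinite F
  have c0 : c ≠ 0 := by rintro rfl; exact mul_ne_zero ((map_ne_zero τ).2 ha) ha (by simp [← hc])
  simp only [map_smul, LinearMap.map_smulₛₗ₂, smul_eq_mul, map_pow, ← mul_assoc, ← mul_pow]
  rw [mul_comm a, ← hc, ← map_pow, Nat.card_eq_fintype_card, FiniteField.pow_card_sub_one_eq_one c c0]
  simp

theorem le_of_rd {v w : V} (hv : Bk v v ≠ 0) (h1 : Bk v w = 0) (w0 : w ≠ 0)
    (hw : RD B (fun _ => 0) X v w) : SpG B ≤ X := by
  have hH := h.herm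
  have v0 : v ≠ 0 := by rintro rfl; simp at hv
  obtain ⟨z, z1, z2, z3⟩ : ∃ z, Bk v z = 0 ∧ Bk z z ≠ 0 ∧ RD B (fun _ => 0) X v z := by
    by_cases e : Bk w w = 0
    · obtain ⟨f, a1, a2, a3⟩ := h.witt.exists_partner (x := w) (Z := K ∙ v) (fun hc => by
        obtain ⟨k, rfl⟩ := Submodule.mem_span_singleton.1 hc
        simp [hv] at h1
        simp [h1] at w0) (by simpa using e) fun z hz => by
          obtain ⟨k, rfl⟩ := Submodule.mem_span_singleton.1 hz
          simp [h1]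
      replace a3 := a3 v (Submodule.mem_span_singleton_self v)
      simp only [map_zero] at a1
      refine ⟨w + f, by simp [h1, a3], ?_, hw.add (h.rd_conj hv h1 a3 w0 ?_ (a1.trans e.symm) hw)⟩
      · simpa [e, a1, a2, hH.flip_one a2, one_add_one_eq_two] using h.twoK
      · rintro rfl; simp at a2
    · exact ⟨w, h1, e, hw⟩
  have H1 : ∀ x, Bk v x = 0 → Bk x x ≠ 0 → RD B (fun _ => 0) X v x := fun x e e' => by
    obtain ⟨t, ht⟩ := exists_smul_norm_eq hH.ne_id hH.invol hH.symm z2 (hH.eq x x)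
    exact h.rd_conj hv (by simp [z1]) e (fun e => e' (by simp [← ht, e]))
      (by rintro rfl; simp at e') ht.symm (h.rd_smul hv z1 z3 t)
  have H2 : ∀ x, Bk v x = 0 → RD B (fun _ => 0) X v x := fun x e => by
    by_cases e' : Bk x x = 0
    swap
    · exact H1 x e e'
    by_cases e1 : Bk (x + z) (x + z) = 0
    · refine sub_add_cancel x z ▸ (H1 (x - z) (by simp [e, z1]) fun e2 => ?_).add z3
      simp only [map_add, map_sub, LinearMap.add_apply, LinearMap.sub_apply, e'] at e1 e2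
      exact mul_ne_zero h.twoK z2 (by linear_combination e1 + e2)
    · exact add_sub_cancel_right x z ▸ (H1 (x + z) (by simp [e, z1]) e1).sub z3
  obtain ⟨κ, κ0, hκ⟩ := exists_skew_ne_zero hH.ne_id hH.invol
  have hν : ∀ x, Bk x x ≠ 0 → B x (κ • x) ≠ 0 := fun x hx e => by
    rw [h.eq, h.ker, map_smul, smul_eq_mul, map_mul, hκ, hH.eq] at e
    exact mul_ne_zero h.twoK (mul_ne_zero κ0 hx) (by linear_combination -e)
  have hG := polarG_sp h.nd h.alt
  have hR : Rad B (fun _ => 0) v ⊤ ≤ X := by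
    refine hG.witt.Rad_le_of_RD (fun u f w w' c _ _ e1 e2 _ => ⟨c / 2, ?_⟩) v0 rfl
      (fun x hx => ?_) (w := z) (w' := (B z (κ • z))⁻¹ • κ • z) (by simp [h.eq, z1])
      (by simp [h.eq, z1]) (by rw [map_smul, smul_eq_mul, inv_mul_cancel₀ (hν z z2)])
    · have k1 := h.alt.neg_eq u f
      have k2 := h.alt.neg_eq w w'
      have := h.two
      simp only [map_smul, LinearMap.smul_apply, smul_eq_mul, ← k1, ← k2, e1, e2]
      field_simp; ring
    · obtain ⟨g, a1, a2, a3⟩ := H2 (x - (Bk v x / Bk v v) • v) (by simp [hv])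
      refine ⟨g, a1, a2, fun f hf => ?_⟩
      rw [h.eq, h.ker] at hx
      have := sub_mem (a3 f hf) (h.smul_mem (s := Bk v x / Bk v v) (by
        rw [map_div₀, hx, hH.eq]) v)
      rwa [show ∀ a b c : V, a - (b - c) - c = a - b from fun _ _ _ => by abel] at this
  obtain ⟨t, ht⟩ := exists_smul_norm_eq hH.ne_id hH.invol hH.symm z2
    (c := (1 + κ * κ) * Bk v v) (by simp [hκ, hH.eq])
  have e : B v (κ • v + t • z) ≠ 0 := by simpa [h.eq, z1] using hν v hv
  obtain ⟨m, hm, e'⟩ := h.witt.exists_isom_vec v0 (y := κ • v + t • z)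
    (by rintro e'; simp [e'] at e) (by
      simp only [map_add, LinearMap.add_apply, ht]
      simp [z1, hH.refl z1, hκ]
      ring)
  exact hG.le_of_move rfl hR (h.le (h.mem m hm)) (h.mem m hm) (by simpa [e'] using e)

theorem le_of_meet {v y : V} (hv : Bk v v ≠ 0) {U : Submodule F V} (hU : IP B X U) (h1 : v ∈ U)
    (h2 : y ∈ U) (h3 : y ∉ kl F K v) : SpG B ≤ X := by
  have v0 : v ≠ 0 := by rintro rfl; simp at hv
  obtain ⟨i, a1, a2, a3, -⟩ := hU.i
  obtain ⟨j, b1, b2, b3, -⟩ := h.refl hv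
  have b4 := h.le (h.mem j b1)
  have e : B v y ≠ 0 := fun e =>
    h3 ((Submodule.span_singleton_le_iff_mem _ _).2 (self_mem_kl v) (hU.p v h1 v0 y h2 e))
  obtain ⟨f, f1, f2, f3⟩ : ∃ f ∈ U, f ∉ kl F K v ∧ B v f = 1 :=
    ⟨(B v y)⁻¹ • y, U.smul_mem _ h2, by rwa [Submodule.smul_mem_iff _ (inv_ne_zero e)],
      by simp [e]⟩
  have b5 : ∀ u ∈ kl F K v, j.restrictScalars F u = -u := fun u hu => by
    obtain ⟨k, rfl⟩ := mem_kl.1 hu
    simp [b2]
  refine h.le_of_rd hv (w := -j f - f) ?_ (fun e => f2 ?_) (RD.of (A := ⊤) (f := f)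
    (mul_mem (h.mem j b1) a1) ⟨mul_mem b4 (h.le a1), by simp [a2 v h1, b2], fun x hx => ?_,
      fun _ => trivial⟩ f3 (by simp [a2 f f1]))
  · have := mem_UG.1 b1 v f
    simp only [b2, map_neg, LinearMap.neg_apply] at this
    simp [this]
  · have := b3 f
    rw [neg_eq_iff_eq_neg.1 (sub_eq_zero.1 e), show -f - f = (-2 : K) • f by module,
      Submodule.smul_mem_iff _ (neg_ne_zero.2 h.twoK)] at this
    exact this
  · have c1 := hU.rad (h.le a1) a2 a3 h1 v0 hx
    have c2 := (h.ip hv).rad b4 b5 b3 (self_mem_kl v) v0 (x := i x) (by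
      obtain ⟨c, hc⟩ := Submodule.mem_span_singleton.1 c1
      simp [eq_add_of_sub_eq hc.symm, hx, h.alt.self_eq_zero])
    simpa using add_mem c2 c1

theorem exists_aniso {x y : V} (hx : Bk x x = 0) (hxy : Bk x y ≠ 0) :
    ∃ z, Bk x z = 0 ∧ Bk y z = 0 ∧ Bk z z ≠ 0 := by
  have h1 := h.witt.finrank_perp (Submodule.span K {x, y})
  have h2 := IsWittPair.finrank_span_pair_le (F := K) x y
  have h3 := h.dim
  obtain ⟨z, hz, e⟩ := exists_nonisotropic_mem (.inl h.herm.ne_id) h.herm.symm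
    (h.witt.disjoint_perp_perp (U := Submodule.span K {x, y}) (by
      refine Submodule.disjoint_def.2 fun z hz hz' => ?_
      obtain ⟨a, b, rfl⟩ := Submodule.mem_span_pair.1 hz
      obtain ⟨e1, e2⟩ := mem_perp_pair.1 hz'
      have e3 : Bk y x ≠ 0 := fun e => hxy (h.herm.refl e)
      simp [hx, hxy] at e1
      simp [e1, e3] at e2
      simp [e1, e2])) (fun e => by rw [e, finrank_bot] at h1; omega)
  exact ⟨z, (mem_perp_pair.1 hz).1, (mem_perp_pair.1 hz).2, e⟩

theorem le_of_notMem {m : V ≃ₗ[F] V} (hm : m ∈ X) (hm' : m ∉ SemiG F K V) : SpG B ≤ X := by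
  have hH := h.herm
  obtain ⟨w, k, hw, e⟩ : ∃ w, ∃ k : K, Bk w w ≠ 0 ∧ m (k • w) ∉ K ∙ m w := by
    by_contra! hc
    refine hm' (mem_semiG_of_lines (by have := h.dim; omega) fun u k => ?_)
    by_cases hu : Bk u u = 0
    swap
    · exact hc u k hu
    by_cases u0 : u = 0
    · simp [u0]
    obtain ⟨f, -, hf⟩ := h.witt.exists_hyperbolic u0 (by simpa using hu)
    obtain ⟨z, z1, -, z2⟩ := h.exists_aniso hu (y := f) (by simp [hf])
    have z3 := hH.refl z1
    have z0 : z ≠ 0 := by rintro rfl; simp at z2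
    obtain ⟨s, hs⟩ := Submodule.mem_span_singleton.1 (hc z k z2)
    obtain ⟨s₁, h1⟩ := Submodule.mem_span_singleton.1 (hc (z + u) k (by simpa [hu, z1, z3]))
    obtain ⟨s₂, h2⟩ := Submodule.mem_span_singleton.1 (hc (z - u) k (by simpa [hu, z1, z3]))
    refine line_of_pm h.twoK (fun e => ?_) hs.symm h1.symm h2.symm
    have : (kl F K z).map (m : V →ₗ[F] V) = kl F K (m z) := Submodule.eq_of_le_of_finrank_eq
      (by rintro _ ⟨_, e, rfl⟩; obtain ⟨k, rfl⟩ := mem_kl.1 e; exact hc z k z2)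
      (by rw [LinearEquiv.finrank_map_eq, finrank_kl z0, finrank_kl (by simpa using z0)])
    obtain ⟨_, e1, e2⟩ := this.ge e
    obtain ⟨k, rfl⟩ := mem_kl.1 e1
    rw [← m.injective e2] at u0 z3
    simp [z2] at z3
    simp [z3] at u0
  have hU := (h.ip hw).map hm (h.le hm)
  have h1 : m w ∈ (kl F K w).map (m : V →ₗ[F] V) := ⟨w, self_mem_kl w, rfl⟩
  have h2 : m (k • w) ∈ (kl F K w).map (m : V →ₗ[F] V) := ⟨_, smul_mem_kl k w, rfl⟩
  have x0 : m w ≠ 0 := by rintro e; simp [m.map_eq_zero_iff.1 e] at hw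
  generalize (kl F K w).map (m : V →ₗ[F] V) = U at *
  generalize m w = x at *
  generalize m (k • w) = y at *
  by_cases hc : ∃ v ∈ U, Bk v v ≠ 0
  · obtain ⟨v, v1, v2⟩ := hc
    by_cases e1 : x ∈ kl F K v
    · exact h.le_of_meet v2 hU v1 h2 (by rwa [← kl_eq_of_mem e1 x0])
    · exact h.le_of_meet v2 hU v1 h1 e1
  push Not at hc
  have e1 : B x y ≠ 0 := fun e' =>
    e ((Submodule.span_singleton_le_iff_mem _ (kl F K x)).2 (self_mem_kl x) (hU.p x h1 x0 y h2 e'))
  have e2 : Bk x y ≠ 0 := fun e' => by simp [h.eq, e'] at e1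
  have e3 : Bk y x = -Bk x y := by
    have := hc _ (add_mem h1 h2)
    simp only [map_add, LinearMap.add_apply, hc x h1, hc y h2] at this
    linear_combination this
  obtain ⟨z, z1, z2, z3⟩ := h.exists_aniso (hc x h1) e2
  obtain ⟨κ, κ0, hκ⟩ := exists_skew_ne_zero hH.ne_id hH.invol
  obtain ⟨i, a1, a2, a3, a4⟩ := hU.i
  have e4 : ∀ u ∈ U, ∃ a c : F, u = a • x + c • y := fun u hu => by
    obtain ⟨a, ha⟩ := Submodule.mem_span_singleton.1 (hU.p x h1 x0 (u - (B x u / B x y) • y)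
      (sub_mem hu (U.smul_mem _ h2)) (by simp [e1]))
    exact ⟨a, _, (eq_sub_iff_add_eq.1 ha).symm⟩
  have v1 : Bk (κ • x + z) (κ • x + z) ≠ 0 := by simpa [hc x h1, z1, hH.refl z1]
  have v2 : i (κ • x + z) = κ • x + z := a4 _ fun u hu => by
    obtain ⟨a, c, rfl⟩ := e4 u hu
    have : B y (κ • x) = 0 := by
      rw [h.eq, h.ker, map_smul, smul_eq_mul, map_mul, hκ, hH.eq, e3]; ring
    simp [this, h.eq x, h.eq y z, hc x h1, z1, z2]
  refine h.le_of_meet v1 ((h.ip v1).map a1 (h.le a1)) ⟨_, self_mem_kl _, v2⟩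
    ⟨_, smul_mem_kl κ _, rfl⟩ fun e => ?_
  obtain ⟨s, hs⟩ := mem_kl.1 e
  obtain ⟨a, c, e5⟩ := e4 _ (a3 (κ • (κ • x + z)))
  have e6 := congrArg (Bk z) e5
  have e7 := mem_SpG.1 (h.le a1) y (κ • (κ • x + z))
  change s • _ = i _ at hs
  rw [← hs] at e6 e7
  simp only [map_sub, map_smul, map_add, hH.refl z1, hH.refl z2, ← algebraMap_smul K a,
    ← algebraMap_smul K c, smul_eq_mul, mul_zero, zero_add, sub_eq_zero, mul_left_inj' z3] at e6
  rw [e6, a2 y h2, map_neg, LinearMap.neg_apply, neg_eq_iff_add_eq_zero, ← two_mul,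
    mul_eq_zero_iff_left h.two, h.eq, h.ker] at e7
  simp only [map_smul, map_add, z2, smul_eq_mul, add_zero, map_mul, hκ, hH.eq, e3, map_neg] at e7
  exact mul_ne_zero h.twoK (mul_ne_zero (mul_ne_zero κ0 κ0) e2) (by linear_combination e7)

end SpU

end Sp

theorem tau_invol {τ : K →+* K} {B : LinearMap.BilinForm F V} [Nontrivial V] (hB : B.Nondegenerate)
    {ε : F} (hs : ∀ x y, B x y = ε * B y x) (hτ : ∀ (k : K) x y, B (k • x) y = B x (τ k • y))
    (k : K) : τ (τ k) = k := by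
  obtain ⟨y, hy⟩ := exists_ne (0 : V)
  refine smul_left_injective K hy (sub_eq_zero.1 (hB.2 _ fun x => ?_))
  simp only [map_sub]
  rw [← hτ, hs, ← hτ, ← hs, sub_self]

theorem sp_maxIn_unitary [Finite K] [FiniteDimensional K V] {B : LinearMap.BilinForm F V}
    (hB : B.Nondegenerate) (hA : B.IsAlt) (h2 : (2 : F) ≠ 0) (hr : finrank F K = 2)
    (hd : 3 ≤ finrank K V) (hs : ∀ k : K, ∃ k' : K, ∀ x y, B (k • x) y = B x (k' • y))
    (hn : ¬ ∀ (k : K) x y, B (k • x) y = B x (k • y)) : MaxIn (SpG B) (SemiG F K V) := by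
  have : FiniteDimensional F K := .of_finrank_pos (by omega)
  have : FiniteDimensional F V := Module.Finite.trans K V
  have : Nontrivial V := Module.nontrivial_of_finrank_pos (R := K) (by omega)
  obtain ⟨τ, h1, h3⟩ := exists_tau (σ := RingHom.id F) B hB.2 hs
  have h4 : τ ≠ RingHom.id K := by rintro rfl; exact hn h1
  have h5 := tau_invol hB (ε := -1) (fun x y => by simp [hA.neg_eq]) h1
  have hf : ∀ k, τ k = k ↔ ∃ a : F, algebraMap F K a = k :=
    fun k => ⟨exists_algebraMap_of_fix hr h3 h4, by rintro ⟨a, rfl⟩; exact h3 a⟩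
  obtain ⟨κ, κ0, hκ⟩ := exists_skew_ne_zero h4 h5
  choose n hn' using fun k : K => (hf (κ * (k - τ k))).1 (by simp [hκ, h5]; ring)
  have hi := (algebraMap F K).injective
  let ν : Dual F K :=
    { toFun := n
      map_add' := fun a b => hi (by simp [hn']; ring)
      map_smul' := fun a b => hi (by
        simp only [hn', Algebra.smul_def, map_mul, h3, RingHom.id_apply, Algebra.algebraMap_self]
        ring) }
  have hk : ∀ k, ν k = 0 ↔ τ k = k := fun k => by
    rw [← map_eq_zero_iff _ hi]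
    change algebraMap F K (n k) = 0 ↔ _
    rw [hn', mul_eq_zero_iff_left κ0, sub_eq_zero, eq_comm]
  have ν0 : ν ≠ 0 := fun e => h4 (RingHom.ext fun k => (hk k).1 (by simp [e]))
  obtain ⟨Bk, e⟩ := exists_kform (σ := RingHom.id F) B h1 ν0
  have hS : Bk.IsSymm := ⟨fun x y => sub_eq_zero.1 (eq_zero_of_nu ν0 fun k => by
    have := hA.neg_eq (τ k • x) y
    rw [e, e, neg_eq_iff_add_eq_zero, ← map_add, hk] at this
    simp only [map_smul, LinearMap.map_smulₛₗ₂, smul_eq_mul, map_add, map_mul, h5] at this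
    have h6 := hA.neg_eq y (k • x)
    rw [e, e, neg_eq_iff_add_eq_zero, ← map_add, hk] at h6
    simp only [map_smul, LinearMap.map_smulₛₗ₂, smul_eq_mul, map_add, map_mul, h5] at h6
    simp only [hk, map_mul, map_sub, h5]
    linear_combination -h6)⟩
  have hB' : ∀ x, (∀ y, Bk x y = 0) → x = 0 := fun x h => hB.1 x fun y => by simp [e, h]
  have hH : IsHerm Bk := ⟨h4, h5, hS⟩
  exact ⟨sp_not_le_semiG (hr ▸ Nat.prime_two) (by omega) hB hA, fun M a1 a2 m hm hm' =>
    SpU.le_of_notMem ⟨⟨hB, hA, ν0, e, hH.wittPair ⟨hB', fun y h => hB' y fun x => hH.refl (h x)⟩,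
      a2, fun g hg => a1 ⟨mem_SpG.2 fun x y => by simp [e, hg.1], restrict_mem_semiG g⟩⟩,
      hH, h2, hf, hk, hr, hd⟩ hm hm'⟩

open Matrix Cfsg Cfsg.Geo in
theorem isMaximalIn_sp_unitary {F : Type*} [Field F] [Fintype F] {m : ℕ} (hm : 3 ≤ m)
    (h2 : Odd (Fintype.card F)) {K : Subalgebra F (Matrix (Fin m ⊕ Fin m) (Fin m ⊕ Fin m) F)}
    (hK : IsFieldSubalgebra 2 K) (hs : IsAdjointClosedFor (sympForm m F) K)
    (hn : ¬ IsSelfAdjointFor (sympForm m F) K) :
    IsMaximalIn (spGL m F) (subalgebraNormalizer K ⊓ spGL m F) := by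
  have : Nonempty (Fin m) := ⟨⟨0, by omega⟩⟩
  refine isMaximalIn_field hK (mem_spGL_iff m) fun L _ _ _ _ _ _ h1 h3 h4 h5 =>
    sp_maxIn_unitary (sympBilin_nondegenerate m) (sympBilin_isAlt m) (two_ne_zero_of_odd_card h2) h1
      (by simp at h3; omega) (fun k => ?_) fun h => hn fun z hz x y => ?_
  · obtain ⟨z, hz, e⟩ := h4 k
    obtain ⟨z', hz', e'⟩ := hs z hz
    obtain ⟨k', e''⟩ := h5 z' hz'
    exact ⟨k', fun x y => by rw [e, e'', sympBilin_apply, sympBilin_apply, e']⟩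
  · obtain ⟨k, e⟩ := h5 z hz
    rw [← e, ← e, ← sympBilin_apply, ← sympBilin_apply, h]

end CF.MaxSub
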