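/-
Maximality of `ΓU_d(q) ∩ Ω_{2d}(q)` in `Ω_{2d}(q)`.
-/
import Cfsg.Agent.MaxSub.F3U
import Cfsg.Agent.Geom.EM

set_option autoImplicit false

namespace CF.MaxSub

open Module Geom QuadraticMap

variable {F K V : Type*} [Field F] [Field K] [Algebra F K]
  [AddCommGroup V] [Module F V] [Module K V] [IsScalarTower F K V]

theorem lin_mem_semiG {g : V ≃ₗ[F] V} (h : ∀ (k : K) v, g (k • v) = k • g v) : g ∈ SemiG F K V :=
  ⟨fun k => ⟨k, h k⟩, fun k => ⟨k, h k⟩⟩

theorem sq_mem_OmG [FiniteDimensional F V] {Q : QuadraticForm F V}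
    (hQ : (polarBilin Q).Nondegenerate) (h5 : 5 ≤ finrank F V) {g : V ≃ₗ[F] V} (hg : g ∈ OG Q) :
    g * g ∈ OmG Q :=
  (mem_OmG (g := ⟨g, hg⟩ * ⟨g, hg⟩)).2
    (sq_mem_commutator (reflSub_eq_top hQ (.inr (by omega))) _)

theorem le_of_Ysub [Finite F] [FiniteDimensional F V] {Q : QuadraticForm F V}
    (hQ : (polarBilin Q).Nondegenerate) (h5 : 5 ≤ finrank F V) {X : Subgroup (V ≃ₗ[F] V)} {u : V}
    (u0 : u ≠ 0) {hu : Q u = 0} (h : ∀ x, polar Q u x = 0 → x ∈ Ysub X hu) {m : V ≃ₗ[F] V}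
    (hm : m ∈ X) (hm' : m ∈ OG Q) (e : polar Q u (m u) ≠ 0) : OmG Q ≤ X :=
  (polarG_omega' hQ h5).le_of_move (by simpa using hu)
    ((Rad_le_iff_eichler hQ u0 hu Submodule.mem_top).2 fun w _ hw => (Ysub.em (h w hw)).2.2) hm' hm e

theorem mem_Ysub_swap {Q : QuadraticForm F V} {X : Subgroup (V ≃ₗ[F] V)} {u y : V} {hu : Q u = 0}
    (hy : Q y = 0) (h : y ∈ Ysub X hu) : u ∈ Ysub X hy := fun c => by
  by_cases hc : c = 0
  · simpa [hc] using EM.zero hy
  exact ((h c).swap (by simp [quad_smul, hy])).smul_right hc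

/-- A unitary space over a quadratic extension seen as an orthogonal space. -/
structure OU {τ : K →+* K} (Q : QuadraticForm F V) (Bk : V →ₛₗ[τ] V →ₗ[K] K) (ν : Dual F K)
    (X : Subgroup (V ≃ₗ[F] V)) : Prop where
  nd : (polarBilin Q).Nondegenerate
  herm : IsHerm Bk
  witt : IsWittPair τ Bk fun x => Bk x x
  eq : ∀ x y, polar Q x y = ν (Bk x y)
  q : ∀ x, algebraMap F K (Q x) = Bk x x
  nu : ∀ k, algebraMap F K (ν k) = k + τ k
  fix : ∀ k, τ k = k ↔ ∃ a : F, algebraMap F K a = k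
  rank : finrank F K = 2
  dim : 3 ≤ finrank K V
  le : X ≤ OG Q
  mem : OmG Q ⊓ SemiG F K V ≤ X

namespace OU

variable {τ : K →+* K} {Q : QuadraticForm F V} {Bk : V →ₛₗ[τ] V →ₗ[K] K} {ν : Dual F K}
  {X : Subgroup (V ≃ₗ[F] V)} (h : OU Q Bk ν X)
include h

theorem ker (k : K) : ν k = 0 ↔ τ k = -k := by
  rw [← map_eq_zero_iff _ (algebraMap F K).injective, h.nu, add_comm, add_eq_zero_iff_eq_neg]

theorem sing (x : V) : Q x = 0 ↔ Bk x x = 0 := by
  rw [← map_eq_zero_iff _ (algebraMap F K).injective, h.q]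

theorem nu0 : ν ≠ 0 := fun e => by
  obtain ⟨t, ht⟩ := exists_trace_ne_zero τ (.inl h.herm.ne_id)
  simp [← h.nu, e] at ht

theorem og {g : V ≃ₗ[K] V} (hg : g ∈ UG Bk) : g.restrictScalars F ∈ OG Q :=
  mem_OG.2 fun v => (algebraMap F K).injective (by simp [h.q, mem_UG.1 hg])

theorem five : 5 ≤ finrank F V := by
  have := finrank_mul_finrank F K V
  have := h.dim
  rw [h.rank] at *
  omega

variable [Finite K] [FiniteDimensional F V] [FiniteDimensional K V]

theorem pol : PolarG (polarBilin Q) Q (OmG Q) :=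
  have : Finite F := .of_injective _ (algebraMap F K).injective
  polarG_omega' h.nd h.five

theorem rad_mem {a : V} (ha : Bk a a = 0) {A : Submodule K V} {g : V ≃ₗ[K] V}
    (hg : g ∈ Rad Bk (fun x => Bk x x) a A) : g.restrictScalars F ∈ X := by
  refine h.mem ⟨mem_of_radical h.pol (kl F K a) (fun m hm => ?_) (fun m hm => mem_perp.2
    fun x hx => ?_) (h.og hg.1) (fun m hm => ?_) fun x hx => hg.2.2.1 x (h.herm.refl
      (eq_zero_of_nu h.nu0 fun k => ?_)), restrict_mem_semiG g⟩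
  · obtain ⟨k, rfl⟩ := mem_kl.1 hm
    simp [h.sing, ha]
  · obtain ⟨k, rfl⟩ := mem_kl.1 hm
    obtain ⟨l, rfl⟩ := mem_kl.1 hx
    simp [h.eq, ha]
  · obtain ⟨k, rfl⟩ := mem_kl.1 hm
    simp [hg.2.1]
  · have := mem_perp.1 hx _ (smul_mem_kl k a)
    rwa [polarBilin_apply_apply, polar_comm, h.eq, map_smul] at this

omit [Finite K] [FiniteDimensional K V] in
theorem sq_mem {g : V ≃ₗ[K] V} (hg : g ∈ UG Bk) : (g * g).restrictScalars F ∈ X :=
  h.mem ⟨sq_mem_OmG h.nd h.five (h.og hg), restrict_mem_semiG _⟩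

theorem tv {a : V} (ha : Bk a a = 0) {s : K} (hs : τ s = -s) :
    ∃ t ∈ X, ∀ x, t x = x + (s * Bk a x) • a :=
  ⟨_, h.rad_mem ha (uTrans_mem_Rad h.herm ha hs (A := ⊤) trivial), uTrans_apply h.herm ha hs⟩

theorem smul_mem_Ysub {u : V} (hu : Q u = 0) (k : K) : k • u ∈ Ysub X hu := fun c => by
  have hu' := (h.sing u).1 hu
  rw [← smul_assoc]
  generalize c • k = ω
  obtain ⟨t, h1, h2⟩ := h.tv hu' (s := ω - τ ω) (by simp [h.herm.invol])
  refine ⟨hu, by simp [h.eq, hu'], ?_⟩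
  convert h1
  ext x
  have : Q (ω • u) = 0 := (h.sing _).2 (by simp [hu'])
  rw [eichler_apply, h2, this, h.eq, h.eq, ← algebraMap_smul K (ν _), ← algebraMap_smul K (ν _),
    h.nu, h.nu]
  simp only [LinearMap.map_smulₛₗ₂, smul_eq_mul, map_mul, h.herm.invol, zero_mul, zero_smul]
  module

theorem all_of_ne {u y : V} {hu : Q u = 0} (hy : y ∈ Ysub X hu) (e : Bk u y ≠ 0) (x : V)
    (hx : polar Q u x = 0) : x ∈ Ysub X hu := by
  have hu' := (h.sing u).1 hu
  have h1 : ∀ w, Bk u w = 0 → w ∈ Ysub X hu := fun w hw => by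
    obtain ⟨g, hg, c, e'⟩ := h.witt.exists_Rad_add (u := u) (by simpa using hu') (A := ⊤) trivial e hw
      trivial
    have := Ysub.map hy (h.og hg.1) (h.rad_mem hu' hg) hg.2.1
    rw [LinearEquiv.restrictScalars_apply, e'] at this
    simpa using sub_mem (sub_mem this (h.smul_mem_Ysub hu c)) hy
  have h2 := (Ysub.em hy).perp
  rw [h.eq, h.ker] at hx h2
  obtain ⟨a, ha⟩ := (h.fix (Bk u x / Bk u y)).1 (by rw [map_div₀, hx, h2, neg_div_neg_eq])
  simpa using add_mem (h1 (x - a • y) (by simp [← algebraMap_smul K a, ha, e]))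
    (Submodule.smul_mem _ a hy)

theorem perp_le {u y : V} {hu : Q u = 0} (hy : y ∈ Ysub X hu) (e : Bk u y = 0) (qy : Bk y y = 0)
    (hn : y ∉ K ∙ u) {w : V} (hw : Bk u w = 0) : w ∈ Ysub X hu := by
  have hH := h.herm
  have hu' := (h.sing u).1 hu
  have h1 : ∀ k : K, k • y ∈ Ysub X hu := fun k => by
    obtain ⟨μ, hμ⟩ := exists_sq_not_fix hH.ne_id
    have μ0 : μ ≠ 0 := by rintro rfl; simp at hμ
    obtain ⟨ρ, a1, a2, a3, a4⟩ := h.witt.step (K ∙ u) y (μ • y) hn
      (by rwa [Submodule.smul_mem_iff _ μ0]) (by simp [qy]) fun x hx => by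
        obtain ⟨k, rfl⟩ := Submodule.mem_span_singleton.1 hx
        simp [e]
    replace a3 := a3 u (Submodule.mem_span_singleton_self u)
    have h2 := Ysub.map hy (h.og (mul_mem ⟨a1, a2⟩ ⟨a1, a2⟩)) (h.sq_mem ⟨a1, a2⟩) (by simp [a3])
    simp only [LinearEquiv.restrictScalars_apply, LinearEquiv.mul_apply, a4, map_smul,
      smul_smul] at h2
    have h3 := sub_ne_zero.2 hμ
    obtain ⟨b, hb⟩ := (h.fix ((τ k - k) / (τ (μ * μ) - μ * μ))).1 (by
      rw [map_div₀, map_sub, map_sub, hH.invol, hH.invol, ← neg_div_neg_eq, neg_sub, neg_sub])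
    obtain ⟨a, ha⟩ := (h.fix (k - algebraMap F K b * (μ * μ))).1 (by
      rw [map_sub, map_mul, (h.fix _).2 ⟨b, rfl⟩]
      rw [eq_div_iff h3] at hb
      linear_combination -hb)
    have := add_mem (Submodule.smul_mem _ a hy) (Submodule.smul_mem _ b h2)
    rwa [← algebraMap_smul K a, ← algebraMap_smul K b, smul_smul, ← add_smul, ha,
      sub_add_cancel] at this
  have h2 : ∀ a, Bk u a = 0 → Bk a a = 0 → Bk y a ≠ 0 → ∀ k : K, k • a ∈ Ysub X hu :=
    fun a e1 e2 e3 k => by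
      obtain ⟨s, s0, hs⟩ := exists_skew_ne_zero hH.ne_id hH.invol
      obtain ⟨t, ht, e4⟩ := h.tv e2 hs
      have e5 : Bk a y ≠ 0 := fun e => e3 (hH.refl e)
      have := sub_mem (Ysub.map (h1 (k / (s * Bk a y))) (h.le ht) ht (by simp [e4, hH.refl e1]))
        (h1 (k / (s * Bk a y)))
      rw [e4, add_sub_cancel_left, map_smul, smul_eq_mul] at this
      convert this using 2
      field_simp
  obtain ⟨f, f1, f2, f3⟩ := h.witt.exists_partner hn (by simpa using qy) fun z hz => by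
    obtain ⟨k, rfl⟩ := Submodule.mem_span_singleton.1 hz
    simp [e]
  replace f3 := f3 u (Submodule.mem_span_singleton_self u)
  obtain ⟨c, hc⟩ := h.witt.slide y 0 (w + (1 - Bk y w) • f) (by simpa using qy) (by simp [f2])
  have := sub_mem (sub_mem (h2 (w + (1 - Bk y w) • f + c • y) (by simp [hw, f3, e])
    (by simpa using hc) (by simp [f2, qy]) 1) (h1 c)) (h2 f f3 (by simpa using f1) (by simp [f2])
      (1 - Bk y w))
  simpa using this

theorem le_of_mem {u y : V} (u0 : u ≠ 0) {hu : Q u = 0} (hy : y ∈ Ysub X hu) (qy : Q y = 0)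
    (hn : y ∉ K ∙ u) : OmG Q ≤ X := by
  have hH := h.herm
  have : Finite F := .of_injective _ (algebraMap F K).injective
  have hu' := (h.sing u).1 hu
  have hy' := (h.sing y).1 qy
  obtain ⟨s, s0, hs⟩ := exists_skew_ne_zero hH.ne_id hH.invol
  obtain ⟨z, hz, e⟩ : ∃ z ∈ Ysub X hu, Bk u z ≠ 0 := by
    by_contra! hc
    have e := hc y hy
    have hn' : u ∉ K ∙ y := fun e => by
      obtain ⟨k, rfl⟩ := Submodule.mem_span_singleton.1 e
      exact hn ((Submodule.smul_mem_iff _ (left_ne_zero_of_smul u0)).1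
        (Submodule.mem_span_singleton_self _))
    obtain ⟨f, -, f2, f3⟩ := h.witt.exists_dual_vec hn' |>.imp fun f hf => And.intro trivial hf
    obtain ⟨z, z2, z3⟩ := h.witt.exists_dual_vec hn
    replace f3 := f3 y (Submodule.mem_span_singleton_self y)
    replace z3 := z3 u (Submodule.mem_span_singleton_self u)
    obtain ⟨k, hk⟩ := exists_nu_eq h.nu0 1
    obtain ⟨h1, h2, h3⟩ := Ysub.em (h.perp_le (mem_Ysub_swap qy hy) (hH.refl e) hu' hn'
      (w := s • f) (by simp [f3]))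
    have h4 : polar Q (s • f) u = 0 := by rw [polar_comm, h.eq]; simpa [f2, h.ker] using hs
    have := hc _ (Ysub.map (h.perp_le hy e hy' hn (w := k • z) (by simp [z3])) (h.le h3) h3 (by
      rw [eichler_apply_of_perp _ _ (by simp [h.eq, hH.refl e]), h4]; simp))
    rw [eichler_apply, h.eq y] at this
    have h5 : ∀ c : F, Bk u (c • y) = 0 := fun c => by
      rw [← algebraMap_smul K c, map_smul, e, smul_zero]
    simp [z2, hk, z3, f2, s0, h5, e] at this
  obtain ⟨f, f1, f2⟩ := h.witt.exists_hyperbolic u0 (by simpa using hu')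
  obtain ⟨μ, hμ⟩ := exists_sq_not_fix hH.ne_id
  have μ0 : μ ≠ 0 := by rintro rfl; simp at hμ
  obtain ⟨ρ, a1, a2⟩ := h.witt.exists_isom_vec u0 (smul_ne_zero μ0 u0) (by simp [hu'])
  obtain ⟨t, ht, e4⟩ := h.tv (a := f) (by simpa using f1) hs
  refine le_of_Ysub h.nd h.five u0 (h.all_of_ne hz e) (mul_mem ht (h.sq_mem a1))
    (h.le (mul_mem ht (h.sq_mem a1))) fun e => hμ (mul_left_cancel₀ s0 ?_)
  simp only [LinearEquiv.mul_apply, LinearEquiv.restrictScalars_apply, a2, map_smul, e4, h.eq,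
    map_add, hu', f2, hH.flip_one f2, smul_eq_mul, mul_zero, map_zero, zero_add, mul_one, h.ker,
    map_mul, hs] at e
  rw [map_mul]
  linear_combination -e

theorem le_of_notMem {m : V ≃ₗ[F] V} (hm : m ∈ X) (hm' : m ∉ SemiG F K V) : OmG Q ≤ X := by
  obtain ⟨u, u0, hu⟩ := exists_isotropic_of_two_le h.herm.ne_id h.herm.invol h.herm.symm
    (V := V) (by have := h.dim; omega)
  obtain ⟨v, v0, hv, e⟩ : ∃ v, v ≠ 0 ∧ Bk v v = 0 ∧
      (kl F K v).map (m : V →ₗ[F] V) ≠ kl F K (m v) := by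
    by_contra! hc
    exact hm' (mem_semiG_of_sing (B := polarBilin Q) h.witt h.nu0 h.eq h.dim u0 (by simpa using hu)
      (h.le hm).1 fun v v0 hv => hc v v0 (by simpa using hv))
  have m0 : m v ≠ 0 := by simpa using v0
  obtain ⟨k, hk⟩ : ∃ k : K, m (k • v) ∉ K ∙ m v := by
    by_contra! hc
    exact e (Submodule.eq_of_le_of_finrank_eq
      (by rintro _ ⟨_, e, rfl⟩; obtain ⟨k, rfl⟩ := mem_kl.1 e; exact hc k)
      (by rw [LinearEquiv.finrank_map_eq, finrank_kl v0, finrank_kl m0]))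
  have hq := mem_OG.1 (h.le hm)
  have q1 := (h.sing v).2 hv
  refine h.le_of_mem m0 (hu := (hq v).trans q1) (fun c => ?_)
    ((hq _).trans ((h.sing _).2 (by simp [hv]))) hk
  simpa using (h.smul_mem_Ysub q1 k c).map (h.le hm) hm

end OU

theorem omega_maxIn_unitary [Finite K] [FiniteDimensional K V] {Q : QuadraticForm F V}
    (hQ : (polarBilin Q).Nondegenerate) (hr : finrank F K = 2) (hd : 3 ≤ finrank K V)
    (hs : ∀ k : K, ∃ k' : K, ∀ x y, polar Q (k • x) y = polar Q x (k' • y))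
    (hn : ¬ ∀ (k : K) x y, polar Q (k • x) y = polar Q x (k • y))
    (hc : ∀ k : K, ∃ c : F, ∀ v, Q (k • v) = c * Q v) : MaxIn (OmG Q) (SemiG F K V) := by
  have : FiniteDimensional F K := .of_finrank_pos (by omega)
  have : FiniteDimensional F V := Module.Finite.trans K V
  have : Nontrivial V := Module.nontrivial_of_finrank_pos (R := K) (by omega)
  have hi := (algebraMap F K).injective
  have : Finite F := .of_injective _ hi
  obtain ⟨τ, h1, h3⟩ := exists_tau (σ := RingHom.id F) (polarBilin Q) hQ.2 hs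
  have h4 : τ ≠ RingHom.id K := by rintro rfl; exact hn h1
  have h5 := tau_invol hQ (ε := 1) (fun x y => by simp [polar_comm Q x y]) h1
  have hf : ∀ k, τ k = k ↔ ∃ a : F, algebraMap F K a = k :=
    fun k => ⟨exists_algebraMap_of_fix hr h3 h4, by rintro ⟨a, rfl⟩; exact h3 a⟩
  choose n hn' using fun k : K => (hf (k + τ k)).1 (by simp [h5, add_comm])
  let ν : Dual F K :=
    { toFun := n
      map_add' := fun a b => hi (by simp [hn']; ring)
      map_smul' := fun a b => hi (by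
        simp only [hn', Algebra.smul_def, map_mul, h3, RingHom.id_apply, Algebra.algebraMap_self]
        ring) }
  have hk : ∀ k, algebraMap F K (ν k) = k + τ k := hn'
  obtain ⟨t, ht⟩ := exists_trace_ne_zero τ (.inl h4)
  have ν0 : ν ≠ 0 := fun e => by simp [← hk, e] at ht
  obtain ⟨Bk, e⟩ := exists_kform (σ := RingHom.id F) (polarBilin Q) h1 ν0
  simp only [polarBilin_apply_apply] at e h1
  have hS : Bk.IsSymm := ⟨fun x y => sub_eq_zero.1 (eq_zero_of_nu ν0 fun k => hi (by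
    have h6 := congrArg (algebraMap F K) (polar_comm Q y (k • x))
    rw [e, e, hk, hk] at h6
    simp only [map_smul, LinearMap.map_smulₛₗ₂, smul_eq_mul, map_mul, h5] at h6
    simp only [hk, map_mul, map_sub, h5, map_zero]
    linear_combination -h6))⟩
  have hB' : ∀ x, (∀ y, Bk x y = 0) → x = 0 := fun x h => hQ.1 x fun y => by simp [e, h]
  have hH : IsHerm Bk := ⟨h4, h5, hS⟩
  have h6 : ∀ k : K, ∀ v, algebraMap F K (Q (k • v)) = τ k * k * algebraMap F K (Q v) := by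
    intro k v
    obtain ⟨c, hc⟩ := hc k
    obtain ⟨y, hy⟩ := exists_ne (0 : V)
    have : algebraMap F K c • y = (τ k * k) • y := sub_eq_zero.1 (hQ.2 _ fun x => by
      rw [map_sub, algebraMap_smul, map_smul, mul_smul, polarBilin_apply_apply,
        polarBilin_apply_apply, ← h1]
      simp only [polar, ← smul_add, hc, smul_eq_mul]
      ring)
    rw [hc, map_mul, smul_left_injective K hy this]
  refine ⟨omega_not_le_semiG (hr ▸ Nat.prime_two) hd hQ, fun M a1 a2 m hm hm' =>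
    OU.le_of_notMem ⟨hQ, hH, hH.wittPair ⟨hB', fun y h => hB' y fun x => hH.refl (h x)⟩, e,
      fun x => mul_left_cancel₀ ht ?_, hk, hf, hr, hd, a2.trans OmG_le, a1⟩ hm hm'⟩
  have := congrArg (algebraMap F K) (e x (t • x))
  rw [hk, polar, show x + t • x = (1 + t) • x by module] at this
  simp only [map_sub, h6, map_smul, smul_eq_mul, map_mul, hH.eq, map_add, map_one] at this
  linear_combination this

open Matrix Cfsg Cfsg.Geo in
theorem isMaximalIn_omega_unitary {F : Type*} [Field F] [Fintype F] {ι : Type} [Fintype ι]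
    [DecidableEq ι] (hn : 5 ≤ Fintype.card ι) {Q : (ι → F) → F}
    (hQ : IsNondegenerateQuadraticForm Q) {K : Subalgebra F (Matrix ι ι F)}
    (hK : IsFieldSubalgebra 2 K) (hs : IsAdjointClosedFor (polar Q) K)
    (hn' : ¬ IsSelfAdjointFor (polar Q) K)
    (hc : ∀ k ∈ K, ∃ c : F, ∀ v : ι → F, Q (k *ᵥ v) = c * Q v) :
    IsMaximalIn (omegaGL Q) (subalgebraNormalizer K ⊓ omegaGL Q) := by
  have : Nonempty ι := Fintype.card_pos_iff.1 (by omega)
  obtain ⟨Q, rfl, hQ'⟩ := exists_quadraticForm hQ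
  refine isMaximalIn_field hK (mem_omegaGL_iff Q) fun L _ _ _ _ _ _ h1 h3 h4 h5 =>
    omega_maxIn_unitary hQ' h1 (by omega) (fun k => ?_) (fun h => hn' fun z hz x y => ?_)
      fun k => ?_
  · obtain ⟨z, hz, e⟩ := h4 k
    obtain ⟨z', hz', e'⟩ := hs z hz
    obtain ⟨k', e''⟩ := h5 z' hz'
    exact ⟨k', fun x y => by rw [e, e'', e']⟩
  · obtain ⟨k, e⟩ := h5 z hz
    rw [← e, ← e, h]
  · obtain ⟨z, hz, e⟩ := h4 k
    simpa only [e] using hc z hz

end CF.MaxSub
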