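/-
Two quadratic unipotent elements in odd characteristic: the central involution, and a maximal
intersection argument.
-/
import Cfsg.Agent.MaxSub.Unip
import Cfsg.Agent.PLocal.Stable

set_option autoImplicit false

namespace CF.MaxSub

open Module Geom

variable {F V : Type*} [Field F] [AddCommGroup V] [Module F V] {X : Subgroup (V ≃ₗ[F] V)}

/-- Normal form of the elements of the group generated by `1 + N` and `1 + N'`. -/
def QForm (N N' : End F V) (g : V ≃ₗ[F] V) : Prop :=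
  ∃ a b c d : End F V, (∀ x ∈ ({a, b, c, d} : Set (End F V)), Commute x N ∧ Commute x N') ∧
    (g : End F V) = 1 + a * (N * N' + N' * N) + b * N + c * N' + d * (N * N') ∧
    ((g⁻¹ : V ≃ₗ[F] V) : End F V) = 1 + a * (N * N' + N' * N) - b * N - c * N' + d * (N' * N)

theorem QForm.symm {N N' : End F V} {g : V ≃ₗ[F] V} (h : QForm N N' g) : QForm N' N g := by
  obtain ⟨a, b, c, d, h, e, e'⟩ := h
  simp only [Set.mem_insert_iff, Set.mem_singleton_iff, forall_eq_or_imp, forall_eq] at h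
  obtain ⟨⟨a1, a2⟩, ⟨b1, b2⟩, ⟨c1, c2⟩, d1, d2⟩ := h
  refine ⟨a + d, c, b, -d, ?_, by rw [e]; noncomm_ring, by rw [e']; noncomm_ring⟩
  simp only [Set.mem_insert_iff, Set.mem_singleton_iff, forall_eq_or_imp, forall_eq]
  exact ⟨⟨a2.add_left d2, a1.add_left d1⟩, ⟨c2, c1⟩, ⟨b2, b1⟩, d2.neg_left, d1.neg_left⟩

theorem QForm.mul {N N' : End F V} (hN : N * N = 0) (hN' : N' * N' = 0) {g t : V ≃ₗ[F] V} {s : F}
    (ht : (t : End F V) = 1 + s • N) (ht' : ((t⁻¹ : V ≃ₗ[F] V) : End F V) = 1 - s • N)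
    (h : QForm N N' g) : QForm N N' (t * g) := by
  obtain ⟨a, b, c, d, h, e, e'⟩ := h
  simp only [Set.mem_insert_iff, Set.mem_singleton_iff, forall_eq_or_imp, forall_eq] at h
  obtain ⟨⟨a1, a2⟩, ⟨b1, b2⟩, ⟨c1, c2⟩, d1, d2⟩ := h
  have hz : Commute (N * N' + N' * N) N := PLocal.quad_z_comm hN
  have hz' : Commute (N * N' + N' * N) N' := add_comm (N' * N) _ ▸ PLocal.quad_z_comm hN'
  unfold QForm
  generalize N * N' + N' * N = z at *
  refine ⟨a, b + s • (1 + a * z), c, d + s • c, ?_, ?_, ?_⟩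
  · simp only [Set.mem_insert_iff, Set.mem_singleton_iff, forall_eq_or_imp, forall_eq]
    exact ⟨⟨a1, a2⟩, ⟨b1.add_left (((Commute.one_left _).add_left (a1.mul_left hz)).smul_left s),
      b2.add_left (((Commute.one_left _).add_left (a2.mul_left hz')).smul_left s)⟩, ⟨c1, c2⟩,
      d1.add_left (c1.smul_left s), d2.add_left (c2.smul_left s)⟩
  · have h1 : N * (a * z) = a * z * N := (a1.mul_left hz).symm.eq
    have h2 : N * (b * N) = 0 := by rw [← mul_assoc, ← b1.eq, mul_assoc, hN, mul_zero]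
    have h3 : N * (c * N') = c * (N * N') := by rw [← mul_assoc, ← c1.eq, mul_assoc]
    have h4 : N * (d * (N * N')) = 0 := by
      rw [← mul_assoc, ← d1.eq, mul_assoc, ← mul_assoc N, hN, zero_mul, mul_zero]
    rw [coe_mul_end, ht, e]
    simp only [add_mul, mul_add, smul_mul_assoc, one_mul, mul_one, h1, h2, h3, h4]
    module
  · have h2 : b * N * N = 0 := by rw [mul_assoc, hN, mul_zero]
    have h4 : d * (N' * N) * N = 0 := by rw [mul_assoc, mul_assoc, hN, mul_zero, mul_zero]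
    rw [mul_inv_rev, coe_mul_end, ht', e']
    simp only [add_mul, mul_sub, sub_mul, smul_mul_assoc, mul_smul_comm, one_mul, mul_one, h2, h4,
      mul_assoc c]
    module

theorem qForm_of_mem {N N' : End F V} (hN : N * N = 0) (hN' : N' * N' = 0) {g : V ≃ₗ[F] V}
    (hg : g ∈ Subgroup.closure {unip N hN, unip N' hN'}) : QForm N N' g := by
  have e1 : ∀ (N : End F V) (h : N * N = 0), (unip N h : End F V) = 1 + (1 : F) • N ∧
      (((unip N h)⁻¹ : V ≃ₗ[F] V) : End F V) = 1 - (1 : F) • N ∧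
      (((unip N h)⁻¹ : V ≃ₗ[F] V) : End F V) = 1 + (-1 : F) • N ∧
      (((unip N h)⁻¹⁻¹ : V ≃ₗ[F] V) : End F V) = 1 - (-1 : F) • N := fun N h => by
    simp only [one_smul, neg_smul, inv_inv, sub_neg_eq_add, ← sub_eq_add_neg]
    exact ⟨rfl, rfl, rfl, rfl⟩
  induction hg using Subgroup.closure_induction_left with
  | one => exact ⟨0, 0, 0, 0, by simp, by simp; rfl, by simp; rfl⟩
  | mul_left x hx y _ h =>
    rcases hx with rfl | rfl
    · exact h.mul hN hN' (e1 N hN).1 (e1 N hN).2.1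
    · exact (h.symm.mul hN' hN (e1 N' hN').1 (e1 N' hN').2.1).symm
  | inv_mul_cancel x hx y _ h =>
    rcases hx with rfl | rfl
    · exact h.mul hN hN' (e1 N hN).2.2.1 (e1 N hN).2.2.2
    · exact (h.symm.mul hN' hN (e1 N' hN').2.2.1 (e1 N' hN').2.2.2).symm

theorem exists_invol_closure [Finite F] [FiniteDimensional F V] (h2 : (2 : F) ≠ 0) {N N' : End F V}
    (hN : N * N = 0) (hN' : N' * N' = 0) (hz : ¬ IsNilpotent (N * N' + N' * N)) :
    ∃ z ∈ Subgroup.closure {unip N hN, unip N' hN'}, z ≠ 1 ∧ z * z = 1 := by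
  have : Finite V := Module.finite_of_finite F
  have : Finite (V ≃ₗ[F] V) := DFunLike.finite _
  obtain ⟨p, hp⟩ := CharP.exists F
  have : Fact p.Prime := ⟨CharP.char_is_prime F p⟩
  have hp2 : p ≠ 2 := by
    rintro rfl
    exact h2 (by simpa using CharP.cast_eq_zero F 2)
  let H := Subgroup.closure {unip N hN, unip N' hN'}
  let a : H := ⟨_, PLocal.left_mem_closure_pair _ _⟩
  let b : H := ⟨_, PLocal.right_mem_closure_pair _ _⟩
  let ψ : H →* MulAut (Multiplicative V) :=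
    { toFun := fun h => AddEquiv.toMultiplicative h.1.toAddEquiv
      map_one' := rfl
      map_mul' := fun _ _ => rfl }
  have hψ : ∀ h v, ψ h (Multiplicative.ofAdd v) = Multiplicative.ofAdd (h.1 v) := fun _ _ => rfl
  obtain ⟨k, hk⟩ | ⟨k, μ, hμ, φ, h3, h4, -⟩ := PLocal.quad_pair_type (p := p)
    (E := Multiplicative V) (fun e => by
      rw [← ofAdd_toAdd e, ← ofAdd_nsmul, ← Nat.cast_smul_eq_nsmul F, CharP.cast_eq_zero, zero_smul,
        ofAdd_zero]) ψ a b (PLocal.closure_pair_top _ _)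
    (fun e => by
      rw [← ofAdd_toAdd e, hψ, ← ofAdd_neg, ← ofAdd_add, hψ]
      simp [a, unip_apply, show N (N _) = 0 from LinearMap.congr_fun hN _])
    (fun e => by
      rw [← ofAdd_toAdd e, hψ, ← ofAdd_neg, ← ofAdd_add, hψ]
      simp [b, unip_apply, show N' (N' _) = 0 from LinearMap.congr_fun hN' _])
  · exfalso
    let y : End F V := (1 + N) * (1 + N')
    have h1 : y ^ p ^ k = 1 := LinearMap.ext fun v => by
      have := MulEquiv.congr_fun (hk (a * b)) (Multiplicative.ofAdd v)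
      rw [← map_pow, hψ] at this
      have e : ((((a * b) ^ p ^ k : H) : V ≃ₗ[F] V) : End F V) = y ^ p ^ k := by
        rw [Subgroup.coe_pow]
        exact map_pow (LinearEquiv.automorphismGroup.toLinearMapMonoidHom) _ _
      exact (LinearMap.congr_fun e v).symm.trans (Multiplicative.ofAdd.injective this)
    have : Nontrivial V := by
      by_contra! hc
      exact hz ⟨1, Subsingleton.elim _ _⟩
    have : CharP (End F V) p := charP_of_injective_algebraMap (algebraMap F _).injective p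
    have h3 : IsNilpotent (y - 1) :=
      ⟨p ^ k, by rw [sub_pow_char_pow_of_commute _ _ (Commute.one_right y), h1, one_pow, sub_self]⟩
    have h4 : (1 - N') * (1 - N) * y = 1 := by
      have : (1 - N) * (1 + N) = 1 := by linear_combination (norm := noncomm_ring) -hN
      rw [mul_assoc, ← mul_assoc (1 - N), this, one_mul]
      linear_combination (norm := noncomm_ring) -hN'
    have h6 : y * ((1 - N') * (1 - N)) = 1 := mul_eq_one_comm.1 h4
    have h5 : N * N' + N' * N = (1 - (1 - N') * (1 - N)) * (y - 1) := by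
      rw [sub_mul, mul_sub _ y, mul_sub _ y, h4]
      simp only [y]
      noncomm_ring
    refine hz (h5 ▸ Commute.isNilpotent_mul_left ?_ h3)
    exact (Commute.one_left _).sub_left
      ((show Commute _ y from h4.trans h6.symm).sub_right (Commute.one_right _))
  by_contra! hc
  let T : Sylow 2 H := default
  have : T.1 = ⊥ := by
    by_contra h0
    have := (T.1.nontrivial_iff_ne_bot).2 h0
    obtain ⟨n, hn, e⟩ := T.2.nontrivial_iff_card.1 this
    obtain ⟨x, hx⟩ := exists_prime_orderOf_dvd_card' (G := T.1) 2 (e ▸ dvd_pow_self 2 hn.ne')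
    refine hc x.1.1 x.1.2 (fun e => ?_) ?_
    · rw [show x = 1 from Subtype.ext (Subtype.ext e), orderOf_one] at hx
      omega
    · have := pow_orderOf_eq_one x
      rw [hx, sq] at this
      exact congrArg (fun y => y.1.1) this
  refine PLocal.noSL2Pair_of_sylow_two hp2 T ?_ a b ⟨k, μ, hμ, φ.comp (Subgroup.subtype _), h3, h4⟩
  rw [this]
  infer_instance

/-- The central involution of a quadratic pair. -/
theorem Un.exists_central [Finite F] [FiniteDimensional F V] (h2 : (2 : F) ≠ 0) {N N' : End F V}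
    (hN : Un X N) (hN' : Un X N') (hz : ¬ IsNilpotent (N * N' + N' * N)) :
    ∃ z ∈ X, z ≠ 1 ∧ z * z = 1 ∧ ∃ c : End F V, Commute c N ∧ Commute c N' ∧
      (z : End F V) = 1 + c * (N * N' + N' * N) := by
  obtain ⟨z, h1, h3, h4⟩ := exists_invol_closure h2 hN.sq hN'.sq hz
  obtain ⟨a, b, c, d, h, e, e'⟩ := qForm_of_mem hN.sq hN'.sq h1
  simp only [Set.mem_insert_iff, Set.mem_singleton_iff, forall_eq_or_imp, forall_eq] at h
  obtain ⟨⟨a1, a2⟩, -, -, d1, d2⟩ := h
  refine ⟨z, PLocal.closure_pair_le.2 ⟨hN.unip_mem, hN'.unip_mem⟩ h1, h3, h4, a + (2 : F)⁻¹ • d,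
    a1.add_left (d1.smul_left _), a2.add_left (d2.smul_left _), smul_right_injective _ h2 ?_⟩
  rw [inv_eq_of_mul_eq_one_right h4] at e'
  simp only [add_mul, smul_add, smul_mul_assoc, smul_smul, mul_inv_cancel₀ h2, mul_add] at e e' ⊢
  linear_combination (norm := module) e + e'

section Glob

variable [Finite F] [FiniteDimensional F V] {N N' : End F V}

theorem Un.exists_invol (h2 : (2 : F) ≠ 0) (hN : Un X N) (hN' : Un X N')
    (P1 : ∀ m ∈ LinearMap.range N, N' m ∈ LinearMap.range N → m ∈ LinearMap.range N')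
    (P2 : ∀ m ∈ LinearMap.range N', N m ∈ LinearMap.range N' → m ∈ LinearMap.range N)
    (hne : ¬ LinearMap.range N ≤ LinearMap.range N') :
    ∃ z ∈ X, z ≠ 1 ∧ z * z = 1 ∧ (∀ v, z (N v) = N (z v)) ∧ (∀ v, z (N' v) = N' (z v)) ∧
      (∀ x, N x = 0 → z x - x ∈ LinearMap.range N) ∧ ∀ x, N x = 0 → N' x = 0 → z x = x := by
  obtain ⟨m, h1, h3⟩ := SetLike.not_le_iff_exists.1 hne
  have h0 : ∀ m ∈ LinearMap.range N, N m = 0 := by
    rintro _ ⟨v, rfl⟩
    exact hN.apply_apply v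
  obtain ⟨z, h4, h5, h6, c, h7, h8, e⟩ := hN.exists_central h2 hN' (by
    rintro ⟨k, hk⟩
    have : ∀ k : ℕ, ((N * N' + N' * N) ^ k) m ∈ LinearMap.range N ∧
        ((N * N' + N' * N) ^ k) m ∉ LinearMap.range N' := fun k => by
      induction k with
      | zero => exact ⟨h1, h3⟩
      | succ k ih =>
        rw [pow_succ', Module.End.mul_apply]
        generalize ((N * N' + N' * N) ^ k) m = x at ih
        simp only [LinearMap.add_apply, Module.End.mul_apply, h0 x ih.1, map_zero, add_zero]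
        exact ⟨⟨_, rfl⟩, fun h => ih.2 (P1 x ih.1 (P2 _ ⟨_, rfl⟩ h))⟩
    simpa [hk] using (this k).2)
  have e' : ∀ v, z v = v + c (N (N' v) + N' (N v)) := LinearMap.congr_fun e
  have h9 : ∀ v, c (N v) = N (c v) := LinearMap.congr_fun h7.eq
  have h10 : ∀ v, c (N' v) = N' (c v) := LinearMap.congr_fun h8.eq
  refine ⟨z, h4, h5, h6, fun v => ?_, fun v => ?_, fun x hx => ⟨c (N' x), ?_⟩, fun x hx hx' => ?_⟩
  · simp [e', h9, h10, hN.apply_apply]
  · simp [e', h9, h10, hN'.apply_apply]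
  · simp [e', hx, h9]
  · simp [e', hx, hx']

/-- The maximal intersection argument. -/
theorem exists_invol_of_notMem (h2 : (2 : F) ≠ 0) {I : Type*} (N : I → End F V)
    (hN : ∀ i, Un X (N i)) (H : Subgroup (V ≃ₗ[F] V))
    (hC : ∀ g ∈ X, ∀ i, ∀ h ∈ H, (∀ v, h (g v) = g v + g (N i v)) → g ∈ H)
    (hS : ∀ g ∈ X, ∀ i j, (∀ v, g⁻¹ (N i v) ∈ LinearMap.range (N j)) → g ∈ H)
    (hz : ∀ i, ∀ z ∈ X, z * z = 1 → (∀ v, z (N i v) = N i (z v)) →
      (∀ x, N i x = 0 → z x - x ∈ LinearMap.range (N i)) →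
      (∀ v, z (N i v) = N i v) ∨ ∀ v, z (N i v) = -N i v)
    {g : V ≃ₗ[F] V} (hg : g ∈ X) (hg' : g ∉ H) (i j : I) :
    ∃ z ∈ X, (∀ v, z (N i v) = N i (z v)) ∧ (∀ x, N i x = 0 → z x - x ∈ LinearMap.range (N i)) ∧
      (∀ v, z (N i v) = -N i v) ∧ ∀ v, z (g (N j v)) = -g (N j v) := by
  let D : (V ≃ₗ[F] V) × I × I → Submodule F V := fun t =>
    LinearMap.range (N t.2.1) ⊓ (LinearMap.range (N t.2.2)).map (t.1 : V →ₗ[F] V)
  obtain ⟨t₀, ht₀, hmax⟩ := exists_max_nat (s := {t | t.1 ∈ X ∧ t.1 ∉ H})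
    (fun t => finrank F (D t)) (fun t _ => Submodule.finrank_le _) ⟨(g, i, j), hg, hg'⟩
  have P : ∀ g i j, g ∈ X → g ∉ H → finrank F (D t₀) ≤ finrank F (D (g, i, j)) →
      ∀ m ∈ LinearMap.range (N i), g (N j (g⁻¹ m)) ∈ LinearMap.range (N i) →
        g⁻¹ m ∈ LinearMap.range (N j) := fun g i j hg hg' hd m h1 h3 => by
    by_contra h4
    have h5 := (hN j).conj hg
    have h6 : ∀ v, unip _ h5.sq v = v + g (N j (g⁻¹ v)) := fun _ => rfl
    have h7 : (unip _ h5.sq)⁻¹ ∉ H := fun e => hg' (hC g hg j _ (inv_mem_iff.1 e) fun v => by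
      rw [h6, inv_apply_apply])
    have : D (g, i, j) < D ((unip _ h5.sq)⁻¹, i, i) := SetLike.lt_iff_le_and_exists.2
      ⟨fun y hy => ⟨hy.1, mem_map_equiv'.2 (by
        obtain ⟨v, e⟩ := mem_map_equiv'.1 hy.2
        rw [inv_inv, h6, ← e, (hN j).apply_apply, map_zero, add_zero]
        exact hy.1)⟩, m, Submodule.mem_inf.2 ⟨h1, mem_map_equiv'.2 (by
          rw [inv_inv, h6]
          exact add_mem h1 h3)⟩, fun e => h4 (mem_map_equiv'.1 (Submodule.mem_inf.1 e).2)⟩
    exact absurd ((hmax (_, i, i) ⟨inv_mem h5.unip_mem, h7⟩).trans hd)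
      (Submodule.finrank_lt_finrank_of_lt this).not_ge
  have K : ∀ g i j, g ∈ X → g ∉ H → finrank F (D t₀) ≤ finrank F (D (g, i, j)) →
      D (g, i, j) = ⊥ ∧ ∃ z ∈ X, (∀ v, z (N i v) = N i (z v)) ∧
      (∀ x, N i x = 0 → z x - x ∈ LinearMap.range (N i)) ∧
      (∀ v, z (N i v) = -N i v) ∧ ∀ v, z (g (N j v)) = -g (N j v) := fun g i j hg hg' hd => by
    have h5 := (hN j).conj hg
    have hr : ∀ m, m ∈ LinearMap.range ((g : End F V) * N j * ((g⁻¹ : V ≃ₗ[F] V) : End F V)) ↔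
        g⁻¹ m ∈ LinearMap.range (N j) := fun m =>
      ⟨fun ⟨v, e⟩ => ⟨g⁻¹ v, by rw [← e]; exact (inv_apply_apply _ _).symm⟩,
        fun ⟨v, e⟩ => ⟨g v, by simp [e, apply_inv_apply]⟩⟩
    have P2 : ∀ m, g⁻¹ m ∈ LinearMap.range (N j) → g⁻¹ (N i m) ∈ LinearMap.range (N j) →
        m ∈ LinearMap.range (N i) := fun m h1 h3 => by
      simpa [apply_inv_apply] using P g⁻¹ j i (inv_mem hg) (mt inv_mem_iff.1 hg') (hd.trans_eq (by
        rw [← LinearEquiv.finrank_map_eq g⁻¹, Submodule.map_inf _ g⁻¹.injective, map_inv_map,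
          inf_comm])) _ h1 (by simpa [apply_inv_apply] using h3)
    obtain ⟨z, a1, a2, a3, a4, a5, a6, a7⟩ := (hN i).exists_invol h2 h5
      (fun m h1 h3 => (hr m).2 (P g i j hg hg' hd m h1 h3))
      (fun m h1 h3 => P2 m ((hr m).1 h1) ((hr _).1 h3))
      fun e => hg' (hS g hg i j fun v => (hr _).1 (e ⟨v, rfl⟩))
    have a3' : ∀ v, z (z v) = v := fun v => LinearEquiv.congr_fun a3 v
    obtain e | e := hz i z a1 a3 a4 a6
    · refine (a2 (LinearEquiv.ext fun v => ?_)).elim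
      obtain ⟨w, e1⟩ := a6 (z v - v) (by rw [map_sub, ← a4, e, sub_self])
      have e2 := e w
      rw [e1] at e2
      simp only [map_sub, a3'] at e2
      refine smul_right_injective _ (mul_ne_zero h2 h2) ?_
      change (2 * 2 : F) • z v = (2 * 2 : F) • v
      linear_combination (norm := module) e2
    have h0 : D (g, i, j) = ⊥ := (Submodule.eq_bot_iff _).2 fun x hx => by
      obtain ⟨⟨v, rfl⟩, h1⟩ := hx
      obtain ⟨w, h3⟩ := (hr _).2 (mem_map_equiv'.1 h1)
      have := a7 _ ((hN i).apply_apply v) (h3 ▸ h5.apply_apply w)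
      refine smul_right_injective _ h2 ?_
      change (2 : F) • N i v = (2 : F) • 0
      linear_combination (norm := module) e v - this
    refine ⟨h0, z, a1, a4, a6, e, fun v => ?_⟩
    have h6 : g⁻¹ (z (g (N j v)) + g (N j v)) ∈ LinearMap.range (N j) := (hr _).1
      ⟨z (g v) + g v, by simpa using (a5 (g v)).symm⟩
    have h7 : z (g (N j v)) + g (N j v) ∈ D (g, i, j) :=
      ⟨P2 _ h6 (by rw [map_add, ← a4, e]; simp), mem_map_equiv'.2 h6⟩
    rwa [h0, Submodule.mem_bot, add_eq_zero_iff_eq_neg] at h7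
  exact (K g i j hg hg' (by rw [(K t₀.1 t₀.2.1 t₀.2.2 ht₀.1 ht₀.2 le_rfl).1]; simp)).2

end Glob

end CF.MaxSub
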