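/-
Tensor product groups: basic constructions and rank one elements.
-/
import Cfsg.Agent.MaxSub.Unip

set_option autoImplicit false

namespace CF.MaxSub

open Module Geom TensorProduct

variable {F V : Type*} [Field F] [AddCommGroup V] [Module F V]

theorem det_one_add_of_sq [FiniteDimensional F V] {T : End F V} (h : T * T = 0) :
    LinearMap.det (1 + T) = 1 := by
  have h1 : IsNilpotent (-T) := ⟨2, by rw [neg_sq, sq, h]⟩
  have h2 := LinearMap.eval_charpoly (-T) 1
  rw [h1.charpoly_eq_X_pow_finrank] at h2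
  simpa using h2.symm

theorem exists_notMem_line (h : 2 ≤ finrank F V) (u : V) : ∃ y, y ∉ F ∙ u := by
  by_contra! hc
  have := finrank_span_le_card (R := F) {u}
  rw [Submodule.eq_top_iff'.2 hc, finrank_top] at this
  simp at this
  omega

theorem exists_notMem_plane (h : 3 ≤ finrank F V) (u v : V) :
    ∃ y, y ∉ Submodule.span F {u, v} := by
  classical
  by_contra! hc
  have := (finrank_span_finset_le_card (R := F) {u, v}).trans Finset.card_le_two
  rw [Set.finrank, Finset.coe_pair, Submodule.eq_top_iff'.2 hc, finrank_top] at this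
  omega

theorem exists_apply_eq_one {φ : Dual F V} (h : φ ≠ 0) : ∃ w, φ w = 1 :=
  LinearMap.range_eq_top.1 ((eq_bot_or_eq_top _).resolve_left
    (by simpa [LinearMap.range_eq_bot] using h)) 1

theorem exists_ker_one {φ ψ : Dual F V} (h : ψ ∉ F ∙ φ) : ∃ w, φ w = 0 ∧ ψ w = 1 := by
  by_contra! h3
  have h4 : LinearMap.ker φ ≤ LinearMap.ker ψ := fun w hw => by
    by_contra h5
    exact h3 ((ψ w)⁻¹ • w) (by rw [map_smul, LinearMap.mem_ker.1 hw, smul_zero])
      (by rw [map_smul, smul_eq_mul, inv_mul_cancel₀ h5])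
  have := mem_span_of_iInf_ker_le_ker (L := fun _ : Unit => φ) (K := ψ) (by simpa using h4)
  exact h (by simpa using this)

variable [FiniteDimensional F V]

theorem exists_dual_pair (h : 3 ≤ finrank F V) (u v : V) :
    ∃ φ : Dual F V, φ ≠ 0 ∧ φ u = 0 ∧ φ v = 0 := by
  obtain ⟨y, hy⟩ := exists_notMem_plane h u v
  obtain ⟨φ, h1, h2⟩ := exists_dual_one hy
  exact ⟨φ, by rintro rfl; simp at h1, h2 u (Submodule.subset_span (by simp)),
    h2 v (Submodule.subset_span (by simp))⟩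

theorem exists_dual_sep {u v : V} (h : v ∉ F ∙ u) : ∃ φ : Dual F V, φ u = 0 ∧ φ v = 1 := by
  obtain ⟨φ, h1, h2⟩ := exists_dual_one h
  exact ⟨φ, h2 u (Submodule.mem_span_singleton_self u), h1⟩

theorem exists_dual_eq_one {u : V} (h : u ≠ 0) : ∃ φ : Dual F V, φ u = 1 :=
  (exists_dual_sep (u := 0) (by simpa using h)).imp fun _ h => h.2

theorem exists_SLG_vec (h2 : 2 ≤ finrank F V) {u v : V} (hu : u ≠ 0) (hv : v ≠ 0) :
    ∃ g ∈ SLG F V, g u = v := by
  by_cases e : v ∈ F ∙ u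
  · obtain ⟨y, hy⟩ := exists_notMem_line h2 u
    obtain ⟨g, h1, h2⟩ := exists_SLG_map hu hy
    obtain ⟨g', h3, h4⟩ := exists_SLG_map hv fun e' =>
      hy ((Submodule.span_singleton_le_iff_mem _ _).2 e e')
    exact ⟨g'⁻¹ * g, mul_mem (inv_mem h3) h1, by
      rw [LinearEquiv.mul_apply, h2, ← h4, inv_apply_apply]⟩
  · exact exists_SLG_map hu e

/-- `SL(V)` is transitive on the incident pairs (vector, form), up to scalars in dimension 2. -/
theorem pair_ind {P : V → Dual F V → Prop} (h2 : 2 ≤ finrank F V)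
    (hg : ∀ g ∈ SLG F V, ∀ u φ φ', (∀ v, φ' (g v) = φ v) → P u φ → P (g u) φ')
    (hs : 3 ≤ finrank F V ∨ ∀ u φ (c : F), φ u = 0 → P u φ → P u (c • φ))
    {u : V} {φ : Dual F V} (hu : u ≠ 0) (hφ : φ ≠ 0) (e : φ u = 0) (h : P u φ)
    {u' : V} {φ' : Dual F V} (hu' : u' ≠ 0) (hφ' : φ' ≠ 0) (e' : φ' u' = 0) : P u' φ' := by
  have h1 : ∀ φ ψ : Dual F V, φ ≠ 0 → φ u = 0 → ψ u = 0 → ψ ∉ F ∙ φ → P u φ → P u ψ :=
    fun φ ψ hφ e e' hc h => by
      obtain ⟨w, h3, h4⟩ := exists_ker_one (φ := φ - ψ) (ψ := ψ) fun h5 => by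
        obtain ⟨c, h5⟩ := Submodule.mem_span_singleton.1 h5
        have h6 : 1 + c ≠ 0 := fun e => hφ (by
          have : c = -1 := by linear_combination e
          rw [this] at h5
          linear_combination (norm := module) -h5)
        exact hc ((Submodule.smul_mem_iff _ h6).1 (Submodule.mem_span_singleton.2
          ⟨c, by linear_combination (norm := module) h5⟩))
      have := hg _ (tvE_mem_SLG h3) u φ ψ (fun v => by simp [tvE_apply, h4]) h
      simpa [tvE_apply, e, e'] using this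
  obtain ⟨g, h3, rfl⟩ := exists_SLG_vec h2 hu hu'
  refine hg g h3 u (φ' ∘ₗ g) φ' (fun _ => rfl) ?_
  have h4 : φ' ∘ₗ (g : V →ₗ[F] V) ≠ 0 := fun e => hφ' (LinearMap.ext fun v => by
    simpa [apply_inv_apply] using LinearMap.congr_fun e (g⁻¹ v))
  change (φ' ∘ₗ (g : V →ₗ[F] V)) u = 0 at e'
  generalize φ' ∘ₗ (g : V →ₗ[F] V) = ψ at e' h4
  by_cases hc : ψ ∈ F ∙ φ
  · rcases hs with hs | hs
    · obtain ⟨w, hw⟩ := exists_apply_eq_one hφ
      obtain ⟨χ, h5, h6, h7⟩ := exists_dual_pair hs u w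
      have h8 : χ ∉ F ∙ φ := fun e => by
        obtain ⟨c, rfl⟩ := Submodule.mem_span_singleton.1 e
        exact h5 (by simpa [hw] using Or.inl (by simpa [hw] using h7))
      refine h1 χ ψ h5 h6 e' (fun e => h8 ?_) (h1 φ χ hφ e h6 h8 h)
      obtain ⟨c, rfl⟩ := Submodule.mem_span_singleton.1 e
      exact (Submodule.smul_mem_iff _ (left_ne_zero_of_smul h4)).1 hc
    · obtain ⟨c, rfl⟩ := Submodule.mem_span_singleton.1 hc
      exact hs u φ c e h
  · exact h1 φ ψ hφ e e' hc h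

omit [FiniteDimensional F V] in
theorem exists_not_eigen_end {A : End F V} (h : ∀ c : F, A ≠ c • 1) : ∃ z, A z ∉ F ∙ z := by
  by_contra! hc
  obtain ⟨c, e⟩ := LinearMap.exists_eq_smul_id_of_forall_notLinearIndependent (f := A) fun v hv => by
    obtain ⟨c, e⟩ := Submodule.mem_span_singleton.1 (hc v)
    simpa using (LinearIndependent.pair_iff.1 hv c (-1) (by simp [e])).2
  exact h c e

/-- A space of endomorphisms invariant under `SL(V)` and not consisting of scalars contains all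
the nilpotent rank one maps. -/
theorem rank_one_mem (h2 : 2 ≤ finrank F V) (h3 : 3 ≤ finrank F V ∨ ∃ c : F, c ≠ 0 ∧ c ≠ 1)
    {S : Submodule F (End F V)}
    (hS : ∀ g ∈ SLG F V, ∀ A ∈ S, ∀ A' : End F V, (∀ v, A' (g v) = g (A v)) → A' ∈ S)
    {A : End F V} (hA : A ∈ S) (hA' : ∀ c : F, A ≠ c • 1) {l : Dual F V} {z : V} (e : l z = 0) :
    l.smulRight z ∈ S := by
  have h1 : ∀ A ∈ S, ∀ (l : Dual F V) (z : V), l z = 0 →
      (l ∘ₗ A).smulRight z - l.smulRight (A z) - l (A z) • l.smulRight z ∈ S := fun A hA l z e => by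
    have := sub_mem (hS _ (tvE_mem_SLG e) A hA (A + ((l ∘ₗ A).smulRight z - l.smulRight (A z) -
      l (A z) • l.smulRight z)) fun v => by
        simp only [tvE_apply, LinearMap.add_apply, LinearMap.sub_apply, LinearMap.smulRight_apply,
          LinearMap.comp_apply, LinearMap.smul_apply, map_add, map_smul, e]
        module) hA
    rwa [add_sub_cancel_left] at this
  obtain ⟨z₀, hz⟩ := exists_not_eigen_end hA'
  have z0 : z₀ ≠ 0 := by rintro rfl; simp at hz
  obtain ⟨l₁, z₁, h4, h5, h6, h7⟩ : ∃ (l : Dual F V) (z : V), z ≠ 0 ∧ l ≠ 0 ∧ l z = 0 ∧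
      l.smulRight z ∈ S := by
    rcases h3 with h3 | ⟨c, c0, c1⟩
    · obtain ⟨l, h4, h5, h6⟩ := exists_dual_pair h3 z₀ (A z₀)
      have h7 := h1 A hA l z₀ h5
      by_cases hc : l ∘ₗ A ∈ F ∙ l
      · obtain ⟨c, hc⟩ := Submodule.mem_span_singleton.1 hc
        refine ⟨l, c • z₀ - A z₀, fun e => hz (Submodule.mem_span_singleton.2 ⟨c, sub_eq_zero.1 e⟩),
          h4, by simp [h5, h6], ?_⟩
        convert h7 using 1
        ext v
        simp [← hc, h6, smul_sub, smul_smul, mul_comm]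
      · obtain ⟨w, h8, h9⟩ := exists_ker_one hc
        refine ⟨l, z₀, z0, h4, h5, ?_⟩
        convert neg_mem (h1 _ h7 l w h8) using 1
        ext v
        simp [h5, h6, h8, show l (A w) = 1 from h9]
    · obtain ⟨l, h4, h5⟩ := exists_dual_sep hz
      refine ⟨l, z₀, z0, by rintro rfl; simp at h5, h4,
        (S.smul_mem_iff (mul_ne_zero c0 (sub_ne_zero.2 c1))).1 ?_⟩
      convert sub_mem (S.smul_mem c (h1 A hA l z₀ h4)) (h1 A hA (c • l) z₀ (by simp [h4])) using 1
      ext v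
      simp only [LinearMap.smul_apply, LinearMap.sub_apply, LinearMap.smulRight_apply,
        LinearMap.comp_apply, h5]
      module
  by_cases hz : z = 0
  · simp [hz]
  by_cases hl : l = 0
  · simp [hl]
  refine pair_ind (P := fun z l => l.smulRight z ∈ S) h2 (fun g hg u φ φ' e h =>
    hS g hg _ h _ fun v => by simp [e]) (Or.inr fun u φ c _ h => ?_) h4 h5 h6 h7 hz hl e
  convert S.smul_mem c h using 1
  ext v
  simp [mul_smul]

omit [FiniteDimensional F V] in
theorem un_coord_trans {ι : Type*} [DecidableEq ι] (b : Basis ι F V) {X : Subgroup (V ≃ₗ[F] V)}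
    {p q r : ι} (h1 : p ≠ r) (h : ∀ c : F, Un X ((b.coord q).smulRight (c • b p)))
    (h' : ∀ c : F, Un X ((b.coord r).smulRight (c • b q))) (c : F) :
    Un X ((b.coord r).smulRight (c • b p)) :=
  ((h c).comm (h' 1) (by ext; simp [h1]) (by ext; simp [h1])).congr fun v => by simp [h1]

section Tensor

variable {V₁ V₂ : Type*} [AddCommGroup V₁] [Module F V₁] [AddCommGroup V₂] [Module F V₂]

variable (F V₁ V₂) in
/-- The group of tensor products of automorphisms. -/
def TenG : Subgroup (V₁ ⊗[F] V₂ ≃ₗ[F] V₁ ⊗[F] V₂) where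
  carrier := {g | ∃ a b, g = TensorProduct.congr a b}
  one_mem' := ⟨1, 1, congr_refl_refl.symm⟩
  mul_mem' := by
    rintro _ _ ⟨a, b, rfl⟩ ⟨c, d, rfl⟩
    exact ⟨a * c, b * d, (congr_mul _ _ _ _).symm⟩
  inv_mem' := by
    rintro _ ⟨a, b, rfl⟩
    exact ⟨a⁻¹, b⁻¹, rfl⟩

theorem congr_mem_TenG (a : V₁ ≃ₗ[F] V₁) (b : V₂ ≃ₗ[F] V₂) :
    TensorProduct.congr a b ∈ TenG F V₁ V₂ := ⟨a, b, rfl⟩

theorem det_map [FiniteDimensional F V₁] [FiniteDimensional F V₂] (a : End F V₁) (b : End F V₂) :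
    LinearMap.det (map a b) = LinearMap.det a ^ finrank F V₂ * LinearMap.det b ^ finrank F V₁ := by
  rw [← LinearMap.det_toMatrix ((finBasis F V₁).tensorProduct (finBasis F V₂)), toMatrix_map,
    Matrix.det_kronecker, LinearMap.det_toMatrix, LinearMap.det_toMatrix, Fintype.card_fin,
    Fintype.card_fin]

theorem congr_mem_SLG [FiniteDimensional F V₁] [FiniteDimensional F V₂] {a : V₁ ≃ₗ[F] V₁}
    {b : V₂ ≃ₗ[F] V₂} (ha : a ∈ SLG F V₁) (hb : b ∈ SLG F V₂) :
    TensorProduct.congr a b ∈ SLG F (V₁ ⊗[F] V₂) :=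
  mem_SLG.2 (by
    change LinearMap.det (map (a : End F V₁) (b : End F V₂)) = 1
    rw [det_map, mem_SLG.1 ha, mem_SLG.1 hb, one_pow, one_pow, one_mul])

/-- Contraction with a form on the second factor. -/
def ct (φ : Dual F V₂) : V₁ ⊗[F] V₂ →ₗ[F] V₁ := (TensorProduct.rid F V₁).toLinearMap ∘ₗ φ.lTensor V₁

/-- Contraction with a form on the first factor. -/
def cl (l : Dual F V₁) : V₁ ⊗[F] V₂ →ₗ[F] V₂ := (TensorProduct.lid F V₂).toLinearMap ∘ₗ l.rTensor V₂

/-- `x ↦ x ⊗ u`. -/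
def tr (u : V₂) : V₁ →ₗ[F] V₁ ⊗[F] V₂ := (TensorProduct.mk F V₁ V₂).flip u

@[simp] theorem ct_tmul (φ : Dual F V₂) (x : V₁) (w : V₂) : ct φ (x ⊗ₜ[F] w) = φ w • x := rfl

@[simp] theorem cl_tmul (l : Dual F V₁) (x : V₁) (w : V₂) : cl l (x ⊗ₜ[F] w) = l x • w := rfl

@[simp] theorem tr_apply (u : V₂) (x : V₁) : tr (F := F) u x = x ⊗ₜ[F] u := rfl

theorem apply_cl (l : Dual F V₁) (φ : Dual F V₂) (v : V₁ ⊗[F] V₂) : φ (cl l v) = l (ct φ v) := by
  induction v with
  | zero => simp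
  | add a b ha hb => simp [ha, hb]
  | tmul a b => simp [mul_comm]

theorem map_smulRight (A : End F V₁) (φ : Dual F V₂) (u : V₂) (v : V₁ ⊗[F] V₂) :
    map A (φ.smulRight u) v = A (ct φ v) ⊗ₜ u := by
  induction v with
  | zero => simp
  | add a b ha hb => simp [ha, hb, add_tmul]
  | tmul a b => simp [smul_tmul]

theorem ct_add (φ ψ : Dual F V₂) (v : V₁ ⊗[F] V₂) : ct (φ + ψ) v = ct φ v + ct ψ v := by
  simp [ct, LinearMap.lTensor_add]

theorem ct_smul (c : F) (φ : Dual F V₂) (v : V₁ ⊗[F] V₂) : ct (c • φ) v = c • ct φ v := by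
  simp [ct, LinearMap.lTensor_smul]

theorem tmul_left_inj [FiniteDimensional F V₂] {u : V₂} (hu : u ≠ 0) {x y : V₁}
    (h : x ⊗ₜ[F] u = y ⊗ₜ u) : x = y := by
  obtain ⟨φ, e⟩ := exists_dual_eq_one (F := F) hu
  simpa [e] using congrArg (ct φ) h

theorem tr_injective [FiniteDimensional F V₂] {u : V₂} (hu : u ≠ 0) :
    Function.Injective (tr (F := F) (V₁ := V₁) u) := fun _ _ h => tmul_left_inj hu h

theorem mem_range_tr [FiniteDimensional F V₂] {u : V₂} (hu : u ≠ 0) {v : V₁ ⊗[F] V₂}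
    (h : ∀ φ : Dual F V₂, φ u = 0 → ct φ v = 0) : v ∈ LinearMap.range (tr u) := by
  obtain ⟨ψ, e⟩ := exists_dual_eq_one (F := F) hu
  let b := finBasis F V₂
  have h1 : ∀ v : V₁ ⊗[F] V₂, v = ∑ k, ct (b.coord k) v ⊗ₜ b k := fun v => by
    induction v with
    | zero => simp
    | add a b ha hb => simp only [map_add, add_tmul, Finset.sum_add_distrib, ← ha, ← hb]
    | tmul x w => simp [-tmul_smul, smul_tmul, ← tmul_sum]
  refine ⟨ct ψ v, ?_⟩
  rw [h1 v, h1 (tr u _)]
  refine Finset.sum_congr rfl fun k _ => ?_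
  have := h (b.coord k + (-b.coord k u) • ψ) (by simp [e])
  rw [ct_add, ct_smul, neg_smul, add_neg_eq_zero] at this
  rw [← h1, this, tr_apply, ct_tmul]

end Tensor

end CF.MaxSub
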