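/-
Maximality of the tensor product subgroups `GL_a ∘ GL_b ∩ SL_{ab}`, `a < b`.
-/
import Cfsg.Agent.MaxSub.C4A
import Cfsg.Agent.MaxSub.ProperL

set_option autoImplicit false

namespace CF.MaxSub

open Module Geom TensorProduct

section Abstract

variable {F V₁ V₂ : Type*} [Field F] [AddCommGroup V₁] [Module F V₁] [AddCommGroup V₂]
  [Module F V₂] [FiniteDimensional F V₁] [FiniteDimensional F V₂]

omit [FiniteDimensional F V₁] [FiniteDimensional F V₂] in
theorem congr_apply_map (a : V₁ ≃ₗ[F] V₁) (b : V₂ ≃ₗ[F] V₂) {A A' : End F V₁} {B B' : End F V₂}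
    (h : ∀ v, A' (a v) = a (A v)) (h' : ∀ v, B' (b v) = b (B v)) (v : V₁ ⊗[F] V₂) :
    map A' B' (TensorProduct.congr a b v) = TensorProduct.congr a b (map A B v) := by
  induction v with
  | zero => simp
  | add a b ha hb => simp [ha, hb]
  | tmul a b => simp [h, h']

omit [FiniteDimensional F V₁] in
theorem finrank_range_tr {u : V₂} (hu : u ≠ 0) :
    finrank F (LinearMap.range (tr (F := F) (V₁ := V₁) u)) = finrank F V₁ :=
  LinearMap.finrank_range_of_inj (tr_injective hu)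

/-- The data of a proper overgroup of `(GL(V₁) ∘ GL(V₂)) ∩ SL`. -/
structure TenL (X : Subgroup (V₁ ⊗[F] V₂ ≃ₗ[F] V₁ ⊗[F] V₂)) : Prop where
  two : 2 ≤ finrank F V₁
  three : 3 ≤ finrank F V₂
  big : 3 ≤ finrank F V₁ ∨ ∃ c : F, c ≠ 0 ∧ c ≠ 1
  mem : ∀ g ∈ TenG F V₁ V₂, g ∈ SLG F _ → g ∈ X
  le : X ≤ SLG F _
  ne : ¬ SLG F _ ≤ X

namespace TenL

variable {X : Subgroup (V₁ ⊗[F] V₂ ≃ₗ[F] V₁ ⊗[F] V₂)} (h : TenL X)
include h

theorem congr_mem {a : V₁ ≃ₗ[F] V₁} {b : V₂ ≃ₗ[F] V₂} (ha : a ∈ SLG F V₁) (hb : b ∈ SLG F V₂) :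
    TensorProduct.congr a b ∈ X :=
  h.mem _ (congr_mem_TenG a b) (congr_mem_SLG ha hb)

theorem un_one {φ : Dual F V₂} {u : V₂} (e : φ u = 0) : Un X (map 1 (φ.smulRight u)) :=
  un_of_apply (fun v => by simp [map_smulRight, e]) (h.congr_mem (one_mem _) (tvE_mem_SLG e))
    fun v => by
      induction v with
      | zero => simp
      | add a b ha hb => rw [map_add, map_add, ha, hb]; abel
      | tmul a b => simp [tvE_apply, tmul_add]

theorem scalar {A : End F V₁} {φ : Dual F V₂} {u : V₂} (hu : u ≠ 0) (hφ : φ ≠ 0) (e : φ u = 0)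
    (hA : Un X (map A (φ.smulRight u))) : ∃ c : F, A = c • 1 := by
  classical
  by_contra! hc
  have h3 := h.three
  let S : Submodule F (End F V₁) :=
    { carrier := {A | ∀ (u : V₂) (φ : Dual F V₂), φ u = 0 → Un X (map A (φ.smulRight u))}
      add_mem' := fun {A B} ha hb u φ e => by
        rw [map_add_left]
        exact (ha u φ e).add (hb u φ e) (LinearMap.ext fun v => by simp [map_smulRight, e])
          (LinearMap.ext fun v => by simp [map_smulRight, e])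
      zero_mem' := fun u φ _ => by rw [map_zero_left]; exact Un.zero
      smul_mem' := fun c A ha u φ e => (ha u (c • φ) (by simp [e])).congr fun v => by
        simp [map_smulRight, ct_smul] }
  have h1 : A ∈ S := fun u' φ' e' => by
    by_cases h1 : u' = 0
    · exact Un.zero.congr fun v => by simp [map_smulRight, h1]
    by_cases h2 : φ' = 0
    · exact Un.zero.congr fun v => by simp [map_smulRight, h2, ct]
    exact pair_ind (P := fun u φ => Un X (map A (φ.smulRight u))) (by omega)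
      (fun g hg u φ φ' e hP => hP.of_conj (h.congr_mem (one_mem _) hg)
        (congr_apply_map _ _ (fun _ => rfl) fun v => by simp [e])) (Or.inl h3) hu hφ e hA h1 h2 e'
  have h2 : ∀ (l : Dual F V₁) z, l z = 0 → l.smulRight z ∈ S := fun l z e =>
    rank_one_mem (S := S) h.two h.big (fun g hg A hA A' e u φ e' => (hA u φ e').of_conj
      (h.congr_mem hg (one_mem _)) (congr_apply_map _ _ e fun _ => rfl)) h1 hc e
  let b₁ := finBasis F V₁
  let b₂ := finBasis F V₂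
  let b := b₁.tensorProduct b₂
  let ρ : _ → _ → Prop := fun p q => ∀ c : F, Un X ((b.coord q).smulRight (c • b p))
  have h4 : ∀ i j k l, i ≠ j → k ≠ l → ρ (i, k) (j, l) := fun i j k l hij hkl c =>
    (h2 (b₁.coord j) (c • b₁ i) (by simp [hij]) (b₂ k) (b₂.coord l) (by simp [hkl])).congr
      fun v => by
        induction v with
        | zero => simp
        | add a b ha hb => rw [map_add, map_add, ha, hb]
        | tmul x w => simp [b, smul_tmul', smul_smul, mul_comm, mul_left_comm, mul_assoc]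
  have h5 : ∀ i k l, k ≠ l → ρ (i, k) (i, l) := fun i k l hkl => by
    obtain ⟨j, hj⟩ := Fintype.exists_ne_of_one_lt_card (by have := h.two; simp; omega) i
    obtain ⟨m, h5, h6⟩ : ∃ m, m ≠ k ∧ m ≠ l := by
      by_contra! hc
      have : (Finset.univ : Finset (Fin (finrank F V₂))) ⊆ {k, l} := fun m _ => by
        by_cases h : m = k
        · simp [h]
        · simp [hc m h]
      have h1 := (Finset.card_le_card this).trans Finset.card_le_two
      simp at h1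
      omega
    exact un_coord_trans b (by simp [hkl]) (h4 i j k m hj.symm h5.symm) (h4 j i m l hj h6)
  refine h.ne (SLG_le_of_basis b ?_)
  rintro ⟨i, k⟩ ⟨j, l⟩ hne c hv
  refine Un.tvE_mem ?_ hv
  by_cases hkl : k = l
  · subst hkl
    obtain ⟨m, hm⟩ := Fintype.exists_ne_of_one_lt_card (by simp; omega) k
    exact un_coord_trans b hne (h5 i k m hm.symm) (h4 i j m k (by simpa using hne) hm) c
  by_cases hij : i = j
  · exact hij ▸ h5 i k l hkl c
  · exact h4 i j k l hij hkl c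

theorem eq_ct {u : V₂} (hu : u ≠ 0) {τ : V₁ ⊗[F] V₂ →ₗ[F] V₁} (h1 : ∀ x, τ (x ⊗ₜ u) = 0)
    (h2 : Un X (tr u ∘ₗ τ)) : ∃ φ : Dual F V₂, φ u = 0 ∧ ∀ v, τ v = ct φ v := by
  have h3 : ∀ w, ∃ c : F, τ ∘ₗ tr w = c • 1 := fun w => by
    obtain ⟨ψ, h3, h4, h5⟩ := exists_dual_pair h.three u w
    refine h.scalar hu h3 h4 ?_
    have h6 : Un X (tr u ∘ₗ τ - map (τ ∘ₗ tr w) (ψ.smulRight u)) :=
      h2.of_conj (h.un_one h5).unip_mem fun v => by
        simp [unip_apply, map_smulRight, h4, h5, add_tmul]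
    simpa using h2.sub h6 (LinearMap.ext fun v => by simp [map_smulRight, h1])
      (LinearMap.ext fun v => by simp [map_smulRight, h1, h4])
  have : Nontrivial V₁ := nontrivial_of_finrank_pos (R := F) (by have := h.two; omega)
  obtain ⟨x, hx⟩ := exists_ne (0 : V₁)
  obtain ⟨l, hl⟩ := exists_dual_eq_one (F := F) hx
  refine ⟨l ∘ₗ τ ∘ₗ TensorProduct.mk F V₁ V₂ x, by simp [h1], fun v => ?_⟩
  induction v with
  | zero => simp
  | add a b ha hb => rw [map_add, map_add, ha, hb]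
  | tmul y w =>
    obtain ⟨c, e⟩ := h3 w
    have h4 : ∀ y, τ (y ⊗ₜ w) = c • y := fun y => LinearMap.congr_fun e y
    simp [h4, hl]

theorem stab {u : V₂} (hu : u ≠ 0) {g : V₁ ⊗[F] V₂ ≃ₗ[F] V₁ ⊗[F] V₂} (hg : g ∈ X)
    (h1 : ∀ x, g (x ⊗ₜ u) ∈ LinearMap.range (tr u)) : g ∈ TenG F V₁ V₂ := by
  obtain ⟨ψ, hψ⟩ := exists_dual_eq_one (F := F) hu
  have h2 : ∀ x, g (x ⊗ₜ u) = ct ψ (g (x ⊗ₜ u)) ⊗ₜ u := fun x => by
    obtain ⟨y, hy⟩ := h1 x
    simp [← hy, hψ]
  let α := LinearEquiv.ofInjectiveEndo (ct ψ ∘ₗ g.toLinearMap ∘ₗ tr u) fun x y e =>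
    tmul_left_inj hu (g.injective (by rw [h2 x, h2 y]; exact congrArg (· ⊗ₜ u) e))
  replace h2 : ∀ x, g (x ⊗ₜ u) = α x ⊗ₜ u := h2
  have h3 : ∀ φ : Dual F V₂, φ u = 0 → ∃ φ' : Dual F V₂, φ' u = 0 ∧
      ∀ v, ct φ (g v) = α (ct φ' v) := fun φ e => by
    obtain ⟨φ', h3, h4⟩ := h.eq_ct hu (τ := α.symm ∘ₗ ct φ ∘ₗ g.toLinearMap)
      (fun x => by simp [h2, e]) ((h.un_one e).of_conj (inv_mem hg) fun v => g.injective (by
        simp [apply_inv_apply, h2, map_smulRight]))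
    exact ⟨φ', h3, fun v => by simp [← h4]⟩
  have : Nontrivial V₁ := nontrivial_of_finrank_pos (R := F) (by have := h.two; omega)
  obtain ⟨x₀, hx⟩ := exists_ne (0 : V₁)
  obtain ⟨l, hl⟩ := exists_dual_eq_one (F := F) hx
  let β₀ : End F V₂ := cl (l ∘ₗ α.symm) ∘ₗ g.toLinearMap ∘ₗ TensorProduct.mk F V₁ V₂ x₀
  have h4 : β₀ u = u := by simp [β₀, h2, hl]
  have h5 : ∀ x w, g (x ⊗ₜ w) - α x ⊗ₜ β₀ w ∈ LinearMap.range (tr u) := fun x w =>
    mem_range_tr hu fun φ e => by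
      obtain ⟨φ', -, h6⟩ := h3 φ e
      simp [β₀, apply_cl, h6, hl]
  let β := LinearEquiv.ofInjectiveEndo β₀ ((injective_iff_map_eq_zero β₀).2 fun w e => by
    obtain ⟨y, hy⟩ := h5 x₀ w
    rw [e, tmul_zero, sub_zero, tr_apply, ← α.apply_symm_apply y, ← h2, g.injective.eq_iff] at hy
    have h6 := congrArg (cl l) hy
    rw [cl_tmul, cl_tmul, hl, one_smul] at h6
    rwa [← h6, map_smul, h4, h6] at e)
  have h6 : β.symm u = u := β.injective (by rw [β.apply_symm_apply]; exact h4.symm)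
  let k := (TensorProduct.congr α β)⁻¹ * g
  have hk : ∀ v, k v = TensorProduct.congr α.symm β.symm (g v) := fun _ => rfl
  have h7 : ∀ v, k v - v = ct ψ (k v - v) ⊗ₜ u := fun v => by
    induction v with
    | zero => simp
    | add a b ha hb => rw [map_add, add_sub_add_comm, map_add, add_tmul, ← ha, ← hb]
    | tmul x w =>
      obtain ⟨y, hy⟩ := h5 x w
      have : k (x ⊗ₜ w) - x ⊗ₜ w = α.symm y ⊗ₜ u := by
        rw [hk, ← sub_add_cancel (g _) (α x ⊗ₜ β₀ w), ← hy, show β₀ w = β w from rfl]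
        simp [h6]
      simp [this, hψ]
  let τ := ct ψ ∘ₗ (k.toLinearMap - 1)
  have h8 : ∀ x, τ (x ⊗ₜ u) = 0 := fun x => by simp [τ, hk, h2, h6]
  have h9 : ∀ v, k v = v + (tr u ∘ₗ τ) v := fun v => eq_add_of_sub_eq' (h7 v)
  have h10 : ∀ v, (tr u ∘ₗ τ) ((tr u ∘ₗ τ) v) = 0 := fun v => by
    change τ (τ v ⊗ₜ u) ⊗ₜ u = 0
    rw [h8, zero_tmul]
  have h11 : k ∈ SLG F _ := mem_SLG.2 (by
    rw [show (k : End F _) = 1 + tr u ∘ₗ τ from LinearMap.ext h9]
    exact det_one_add_of_sq (LinearMap.ext h10))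
  have h12 : k ∈ X := mul_mem (inv_mem (h.mem _ (congr_mem_TenG α β) (by
    simpa [k] using mul_mem (h.le hg) (inv_mem h11)))) hg
  obtain ⟨φ, h13, h14⟩ := h.eq_ct hu h8 (un_of_apply h10 h12 h9)
  have h15 : k = TensorProduct.congr 1 (tvE h13) := LinearEquiv.toLinearMap_injective
    (TensorProduct.ext' fun x w => by simp [h9, h14, tvE_apply, tmul_add, smul_tmul])
  simpa [k] using mul_mem (congr_mem_TenG α β) (h15 ▸ congr_mem_TenG _ _ : k ∈ TenG F V₁ V₂)

theorem mem_of_conj (hlt : finrank F V₁ < finrank F V₂) {u : V₂} (hu : u ≠ 0) {φ : Dual F V₂}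
    (hφ : φ ≠ 0) {g : V₁ ⊗[F] V₂ ≃ₗ[F] V₁ ⊗[F] V₂} (hg : g ∈ X) {a : V₁ ≃ₗ[F] V₁}
    {b : V₂ ≃ₗ[F] V₂} (e : ∀ v, TensorProduct.congr a b v = v + g (ct φ (g⁻¹ v) ⊗ₜ u)) :
    g ∈ TenG F V₁ V₂ := by
  obtain ⟨c, hc⟩ : ∃ c : F, (a : End F V₁) = c • 1 := by
    by_contra! hc
    obtain ⟨x, hx⟩ := exists_not_eigen_end hc
    obtain ⟨l, h1, h2⟩ := exists_dual_sep hx
    obtain ⟨w, h3, h4⟩ := Submodule.exists_mem_ne_zero_of_ne_bot (LinearMap.ker_ne_bot_of_finrank_lt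
      (f := ct φ ∘ₗ (g⁻¹).toLinearMap ∘ₗ TensorProduct.mk F V₁ V₂ x) hlt)
    have h5 := e (x ⊗ₜ w)
    rw [show ct φ (g⁻¹ (x ⊗ₜ w)) = 0 from h3] at h5
    have h6 := congrArg (cl l) h5
    simp [h1, show l (a x) = 1 from h2, h4] at h6
  replace hc : ∀ x, a x = c • x := fun x => LinearMap.congr_fun hc x
  obtain ⟨w, hw⟩ : ∃ w, c • b w - w ≠ 0 := by
    by_contra! hw
    have h1 : ∀ v, TensorProduct.congr a b v = v := fun v => by
      induction v with
      | zero => simp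
      | add a b ha hb => rw [map_add, ha, hb]
      | tmul x w => rw [congr_tmul, hc, smul_tmul, sub_eq_zero.1 (hw w)]
    have : Nontrivial V₁ := nontrivial_of_finrank_pos (R := F) (by have := h.two; omega)
    obtain ⟨x, hx⟩ := exists_ne (0 : V₁)
    obtain ⟨w, hw⟩ := exists_apply_eq_one hφ
    have h2 := e (g (x ⊗ₜ w))
    rw [h1, inv_apply_apply, ct_tmul, hw, one_smul, left_eq_add, map_eq_zero_iff _ g.injective,
      ← zero_tmul V₁ u] at h2
    exact hx (tmul_left_inj hu h2)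
  obtain ⟨k, hk, e'⟩ := exists_SLG_vec (F := F) (by have := h.three; omega) hu hw
  have h1 := h.stab hu (mul_mem (inv_mem hg) (h.congr_mem (one_mem _) hk)) fun x =>
    ⟨ct φ (g⁻¹ (x ⊗ₜ w)), g.injective (by
      rw [LinearEquiv.mul_apply, apply_inv_apply, tr_apply, ← add_right_inj (x ⊗ₜ[F] w), ← e]
      simp [e', hc, tmul_sub, smul_tmul])⟩
  simpa using mul_mem (congr_mem_TenG 1 k) (inv_mem h1)

theorem le_TenG (hlt : finrank F V₁ < finrank F V₂) : X ≤ TenG F V₁ V₂ := by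
  intro m hm
  by_contra hm'
  have h3 := h.three
  have : Nontrivial V₂ := nontrivial_of_finrank_pos (R := F) (by omega)
  have : Nontrivial V₁ := nontrivial_of_finrank_pos (R := F) (by have := h.two; omega)
  obtain ⟨u, hu⟩ := exists_ne (0 : V₂)
  let U := LinearMap.range (tr (F := F) (V₁ := V₁) u)
  let C : (V₁ ⊗[F] V₂ ≃ₗ[F] V₁ ⊗[F] V₂) → Submodule F V₁ := fun g =>
    U.comap (g.toLinearMap ∘ₗ tr u)
  have hC : ∀ g x, x ∈ C g ↔ g (x ⊗ₜ u) ∈ U := fun _ _ => Iff.rfl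
  obtain ⟨g₀, hg₀, hmax⟩ := exists_max_nat (s := {g | g ∈ X ∧ g ∉ TenG F V₁ V₂})
    (fun g => finrank F (C g)) (fun g _ => Submodule.finrank_le _) ⟨m, hm, hm'⟩
  obtain ⟨g, ⟨hg, hg'⟩, h1, φ, h2, h4, x, h5, h6⟩ : ∃ g, (g ∈ X ∧ g ∉ TenG F V₁ V₂) ∧
      finrank F (C g₀) ≤ finrank F (C g⁻¹) ∧ ∃ φ : Dual F V₂, φ ≠ 0 ∧ φ u = 0 ∧
        ∃ x, x ∉ C g⁻¹ ∧ ct φ (g⁻¹ (x ⊗ₜ u)) ∈ C g := by
    by_cases h0 : C g₀ = ⊥
    · obtain ⟨φ, h1, h2, -⟩ := exists_dual_pair h3 u u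
      obtain ⟨x, hx⟩ := exists_ne (0 : V₁)
      obtain ⟨w, h4, h5⟩ := Submodule.exists_mem_ne_zero_of_ne_bot
        (LinearMap.ker_ne_bot_of_finrank_lt
          (f := ct φ ∘ₗ (m⁻¹).toLinearMap ∘ₗ TensorProduct.mk F V₁ V₂ x) hlt)
      obtain ⟨k, hk, rfl⟩ := exists_SLG_vec (F := F) (by omega) hu h5
      let k' := m⁻¹ * TensorProduct.congr (1 : V₁ ≃ₗ[F] V₁) k
      have h6 : k' ∈ X ∧ k' ∉ TenG F V₁ V₂ :=
        ⟨mul_mem (inv_mem hm) (h.congr_mem (one_mem _) hk), fun e => hm' (by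
          simpa [k'] using mul_mem (congr_mem_TenG 1 k) (inv_mem e))⟩
      refine ⟨k'⁻¹, ⟨inv_mem h6.1, mt (inv_mem_iff.1) h6.2⟩, by rw [h0, finrank_bot]; omega, φ, h1, h2, x,
        fun e => hx ?_, ?_⟩
      · have := hmax _ h6
        rw [h0, finrank_bot, Nat.le_zero, Submodule.finrank_eq_zero] at this
        simpa [this] using e
      · rw [inv_inv, show ct φ (k' (x ⊗ₜ u)) = 0 from h4]
        exact zero_mem _
    · obtain ⟨x, -, hx⟩ := SetLike.not_le_iff_exists.1 (show ¬ ⊤ ≤ C g₀ from fun e =>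
        hg₀.2 (h.stab hu hg₀.1 fun x => e Submodule.mem_top))
      obtain ⟨y, h1, h2⟩ := Submodule.exists_mem_ne_zero_of_ne_bot h0
      obtain ⟨y', h4⟩ := h1
      have h5 : C g₀⁻¹ ≠ ⊥ := fun e => h2 (tmul_left_inj hu (g₀.injective (by
        have : y' ∈ C g₀⁻¹ := ⟨y, g₀.injective (h4.symm.trans (apply_inv_apply _ _).symm)⟩
        rw [e, Submodule.mem_bot] at this
        rw [zero_tmul, map_zero, ← tr_apply]
        exact h4.symm.trans (by rw [this, map_zero]))))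
      let Φ : Dual F V₂ →ₗ[F] V₁ :=
        { toFun := fun φ => ct φ (g₀ (x ⊗ₜ u))
          map_add' := fun _ _ => ct_add _ _ _
          map_smul' := fun _ _ => ct_smul _ _ _ }
      obtain ⟨φ, h6, h7⟩ := Submodule.exists_mem_ne_zero_of_ne_bot
        (LinearMap.ker_ne_bot_of_finrank_lt (f := ((C g₀⁻¹).mkQ ∘ₗ Φ).prod (Dual.eval F V₂ u)) (by
          have := (C g₀⁻¹).finrank_quotient_add_finrank
          have := Submodule.one_le_finrank_iff.2 h5
          rw [Subspace.dual_finrank_eq, finrank_prod, finrank_self]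
          omega))
      rw [LinearMap.mem_ker, LinearMap.prod_apply, Prod.mk_eq_zero] at h6
      exact ⟨g₀⁻¹, ⟨inv_mem hg₀.1, mt (inv_mem_iff.1) hg₀.2⟩, le_rfl, φ, h7, h6.2, x, hx,
        (Submodule.Quotient.mk_eq_zero _).1 h6.1⟩
  have h7 := ((h.un_one h4).conj hg)
  have h8 : ∀ v, unip _ h7.sq v = v + g (ct φ (g⁻¹ v) ⊗ₜ u) := fun v => by
    simp [unip_apply, map_smulRight]
  by_cases h9 : unip _ h7.sq ∈ TenG F V₁ V₂
  · obtain ⟨a, b, e⟩ := h9
    exact hg' (h.mem_of_conj hlt hu h2 hg (e ▸ h8))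
  have h10 : C g⁻¹ < C (unip _ h7.sq) := SetLike.lt_iff_le_and_exists.2 ⟨fun y hy => by
    obtain ⟨y', e⟩ := hy
    rw [hC, h8, show g⁻¹ (y ⊗ₜ u) = y' ⊗ₜ u from e.symm]
    simp [h4, U], x, by
    rw [hC, h8]
    exact add_mem ⟨x, rfl⟩ h6, h5⟩
  exact absurd ((hmax _ ⟨h7.unip_mem, h9⟩).trans h1) (Submodule.finrank_lt_finrank_of_lt h10).not_ge

end TenL

end Abstract

open Matrix Cfsg Cfsg.Geo Kronecker
open scoped MatrixGroups

variable {ι : Type} [Fintype ι] [DecidableEq ι] {F : Type*} [Field F]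

/-- The standard basis of a tensor product of coordinate spaces. -/
noncomputable def tenEquiv (F : Type*) [Field F] (κ μ : Type) [Fintype κ] [Fintype μ] :
    (κ × μ → F) ≃ₗ[F] (κ → F) ⊗[F] (μ → F) :=
  ((Pi.basisFun F κ).tensorProduct (Pi.basisFun F μ)).equivFun.symm

/-- Matrices indexed by a product act on the tensor product. -/
noncomputable def tenGL (F : Type*) [Field F] (κ μ : Type) [Fintype κ] [DecidableEq κ] [Fintype μ]
    [DecidableEq μ] : GL (κ × μ) F ≃* ((κ → F) ⊗[F] (μ → F) ≃ₗ[F] (κ → F) ⊗[F] (μ → F)) :=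
  (Geom.glEquiv (κ × μ) F).trans (autCongr (tenEquiv F κ μ))

section
variable {κ μ : Type} [Fintype κ] [DecidableEq κ] [Fintype μ] [DecidableEq μ]

omit [DecidableEq κ] [DecidableEq μ] in
theorem tenEquiv_symm_tmul (x : κ → F) (w : μ → F) (p : κ × μ) :
    (tenEquiv F κ μ).symm (x ⊗ₜ w) p = x p.1 * w p.2 := by
  obtain ⟨i, j⟩ := p
  simp [tenEquiv, mul_comm]

theorem tenGL_kronGL (a : GL κ F) (b : GL μ F) : tenGL F κ μ (kronGL a b) =
    TensorProduct.congr (Geom.glEquiv κ F a) (Geom.glEquiv μ F b) :=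
  LinearEquiv.toLinearMap_injective (TensorProduct.ext' fun x w => (tenEquiv F κ μ).symm.injective
    (funext fun p => by
      simp only [tenGL, MulEquiv.trans_apply, LinearEquiv.coe_coe, autCongr_apply,
        LinearEquiv.symm_apply_apply, Geom.glEquiv_apply, congr_tmul, tenEquiv_symm_tmul, mulVec,
        dotProduct, kronGL, kroneckerMap_apply, Finset.sum_mul_sum, Fintype.sum_prod_type]
      exact Finset.sum_congr rfl fun _ _ => Finset.sum_congr rfl fun _ _ => by ring))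

theorem tenGL_mem_SLG (g : GL (κ × μ) F) : tenGL F κ μ g ∈ SLG F _ ↔ g ∈ specialLinear _ F := by
  rw [mem_specialLinear_iff, ← autCongr_mem_SLG (tenEquiv F κ μ)]
  rfl

end

theorem tenGL_mem_TenG {n₁ n₂ : ℕ} (g : GL (Fin n₁ × Fin n₂) F) :
    tenGL F _ _ g ∈ TenG F _ _ ↔ g ∈ kroneckerSubgroup n₁ n₂ F := by
  rw [mem_kroneckerSubgroup]
  refine ⟨?_, ?_⟩
  · rintro ⟨a, b, e⟩
    obtain ⟨a, rfl⟩ := (Geom.glEquiv _ F).surjective a
    obtain ⟨b, rfl⟩ := (Geom.glEquiv _ F).surjective b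
    exact ⟨a, b, (tenGL F _ _).injective (e.trans (tenGL_kronGL a b).symm)⟩
  · rintro ⟨a, b, rfl⟩
    exact ⟨_, _, tenGL_kronGL a b⟩

theorem isMaximalIn_sl_tensor [Fintype F] {n₁ n₂ : ℕ} (h1 : 2 ≤ n₁) (h12 : n₁ < n₂)
    (hex : ¬ (n₁ = 2 ∧ Fintype.card F = 2)) (e : ι ≃ Fin n₁ × Fin n₂) (P : GL ι F) :
    IsMaximalIn (specialLinear ι F) (tensorProductSubgroup n₁ n₂ e P ⊓ specialLinear ι F) := by
  have hK := fun g => (coordGL_mem_SL e P g).symm.trans (tenGL_mem_SLG _).symm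
  have hH := fun g => (mem_tensorProductSubgroup e P g).trans (tenGL_mem_TenG _).symm
  let ε := (coordGL e P).trans (tenGL F (Fin n₁) (Fin n₂))
  refine MaxIn.isMaximalIn ε (K' := SLG F _) (H' := TenG F _ _)
    ⟨fun hle => SL_not_le_tensor h1 (by omega) e P fun g hg => (hH g).2 (hle ((hK g).1 hg)),
      fun M hM hM' m hm hm' => by_contra fun hc => hm' (TenL.le_TenG ⟨by simpa using h1,
        by simp; omega, ?_, fun g h h' => hM ⟨h', h⟩, hM', hc⟩ (by simpa using h12) hm)⟩ hK hH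
  by_cases h2 : n₁ = 2
  · classical
    refine Or.inr (by_contra fun hc => hex ⟨h2, le_antisymm ?_ Fintype.one_lt_card⟩)
    push Not at hc
    exact (Finset.card_le_card (t := {0, 1}) fun c _ => by
      by_cases h : c = 0
      · simp [h]
      · simp [hc c h]).trans Finset.card_le_two
  · exact Or.inl (by simp; omega)

end CF.MaxSub
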