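/-
Overgroups of tensor product subgroups of classical groups: the stabiliser of `V₁ ⊗ u`.
-/
import Cfsg.Agent.MaxSub.C4B
import Cfsg.Agent.MaxSub.F3U

set_option autoImplicit false

namespace CF.MaxSub

open Module Geom TensorProduct

variable {F V₁ V₂ : Type*} [Field F] [AddCommGroup V₁] [Module F V₁] [AddCommGroup V₂]
  [Module F V₂] {σ : F →+* F}

theorem mem_of_ct_eq_zero {φ : Dual F V₂} {S : Submodule F (V₁ ⊗[F] V₂)}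
    (h : ∀ x w, φ w = 0 → x ⊗ₜ w ∈ S) {v : V₁ ⊗[F] V₂} (hv : ct φ v = 0) : v ∈ S := by
  by_cases h0 : φ = 0
  · induction v with
    | zero => exact zero_mem _
    | add a b ha hb => exact add_mem (ha (by simp [h0, ct])) (hb (by simp [h0, ct]))
    | tmul x w => exact h x w (by simp [h0])
  obtain ⟨f, hf⟩ := exists_apply_eq_one h0
  have : ∀ v : V₁ ⊗[F] V₂, v - ct φ v ⊗ₜ f ∈ S := fun v => by
    induction v with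
    | zero => simp
    | add a b ha hb => rw [map_add, add_tmul, add_sub_add_comm]; exact add_mem ha hb
    | tmul x w => simpa [tmul_sub, smul_tmul] using h x (w - φ w • f) (by simp [hf])
  simpa [hv] using this v

/-- `1 ⊗ b`. -/
def rG (V₁ : Type*) [AddCommGroup V₁] [Module F V₁] :
    (V₂ ≃ₗ[F] V₂) →* (V₁ ⊗[F] V₂ ≃ₗ[F] V₁ ⊗[F] V₂) where
  toFun b := TensorProduct.congr 1 b
  map_one' := congr_refl_refl
  map_mul' a b := by rw [← congr_mul, one_mul]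

/-- `a ⊗ 1`. -/
def lG (V₂ : Type*) [AddCommGroup V₂] [Module F V₂] :
    (V₁ ≃ₗ[F] V₁) →* (V₁ ⊗[F] V₂ ≃ₗ[F] V₁ ⊗[F] V₂) where
  toFun a := TensorProduct.congr a 1
  map_one' := congr_refl_refl
  map_mul' a b := by rw [← congr_mul, one_mul]

@[simp] theorem rG_tmul (b : V₂ ≃ₗ[F] V₂) (x : V₁) (w : V₂) : rG V₁ b (x ⊗ₜ w) = x ⊗ₜ b w := rfl

@[simp] theorem lG_tmul (a : V₁ ≃ₗ[F] V₁) (x : V₁) (w : V₂) : lG V₂ a (x ⊗ₜ w) = a x ⊗ₜ w := rfl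

theorem rG_mem (b : V₂ ≃ₗ[F] V₂) : rG V₁ b ∈ TenG F V₁ V₂ := congr_mem_TenG _ _

theorem lG_mem (a : V₁ ≃ₗ[F] V₁) : lG V₂ a ∈ TenG F V₁ V₂ := congr_mem_TenG _ _

theorem tensor_ext {W : Type*} [AddCommGroup W] [Module F W] {g h : V₁ ⊗[F] V₂ ≃ₗ[F] W}
    (e : ∀ x w, g (x ⊗ₜ w) = h (x ⊗ₜ w)) : g = h :=
  LinearEquiv.toLinearMap_injective (TensorProduct.ext' e)

/-- `s ↦ B u s • u`. -/
def nU (B : V₂ →ₛₗ[σ] V₂ →ₗ[F] F) (u : V₂) : End F V₂ := (B u).smulRight u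

@[simp] theorem nU_apply (B : V₂ →ₛₗ[σ] V₂ →ₗ[F] F) (u s : V₂) : nU B u s = B u s • u := rfl

theorem map_nU (B : V₂ →ₛₗ[σ] V₂ →ₗ[F] F) (u : V₂) (A : End F V₁) (v : V₁ ⊗[F] V₂) :
    map A (nU B u) v = A (ct (B u) v) ⊗ₜ u := map_smulRight _ _ _ _

/-- Elements of `X` in the unipotent radical of the stabiliser of `V₁ ⊗ u`. -/
def RT (X : Subgroup (V₁ ⊗[F] V₂ ≃ₗ[F] V₁ ⊗[F] V₂)) (B : V₂ →ₛₗ[σ] V₂ →ₗ[F] F) (u : V₂)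
    (θ : V₂ →ₗ[F] End F V₁) : Prop :=
  ∃ k ∈ X, (∀ x, k (x ⊗ₜ u) = x ⊗ₜ u) ∧ ∀ x w, B u w = 0 → k (x ⊗ₜ w) = x ⊗ₜ w + θ w x ⊗ₜ u

namespace RT

variable {X : Subgroup (V₁ ⊗[F] V₂ ≃ₗ[F] V₁ ⊗[F] V₂)} {B : V₂ →ₛₗ[σ] V₂ →ₗ[F] F} {u : V₂}
  {θ θ' : V₂ →ₗ[F] End F V₁}

theorem congr (h : RT X B u θ) (e : ∀ w, B u w = 0 → θ w = θ' w) : RT X B u θ' := by
  obtain ⟨k, h1, h2, h3⟩ := h
  exact ⟨k, h1, h2, fun x w hw => e w hw ▸ h3 x w hw⟩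

theorem add (h : RT X B u θ) (h' : RT X B u θ') : RT X B u (θ + θ') := by
  obtain ⟨k, h1, h2, h3⟩ := h
  obtain ⟨k', h4, h5, h6⟩ := h'
  exact ⟨k * k', mul_mem h1 h4, fun x => by simp [h2, h5], fun x w hw => by
    simp [h6 x w hw, h3 x w hw, h2, add_tmul, add_assoc]⟩

theorem neg (h : RT X B u θ) : RT X B u (-θ) := by
  obtain ⟨k, h1, h2, h3⟩ := h
  exact ⟨k⁻¹, inv_mem h1, fun x => k.injective (by rw [apply_inv_apply, h2]), fun x w hw =>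
    k.injective (by simp [apply_inv_apply, h3 x w hw, h2, neg_tmul])⟩

theorem sub (h : RT X B u θ) (h' : RT X B u θ') : RT X B u (θ - θ') :=
  sub_eq_add_neg θ θ' ▸ h.add h'.neg

theorem conj (h : RT X B u θ) {a : V₁ ≃ₗ[F] V₁} {b : V₂ ≃ₗ[F] V₂}
    (hX : TensorProduct.congr a b ∈ X) {c : F} (hu : b u = c • u)
    (hb : ∀ w, B u (b w) = 0 → B u w = 0)
    (e : ∀ x w, B u w = 0 → θ' (b w) (a x) = c • a (θ w x)) : RT X B u θ' := by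
  obtain ⟨k, h1, h2, h3⟩ := h
  refine ⟨_ * k * _⁻¹, mul_mem (mul_mem hX h1) (inv_mem hX), fun x => ?_, fun x w hw => ?_⟩
  · by_cases hc : c = 0
    · simp [(map_eq_zero_iff _ b.injective).1 (by simpa [hc] using hu)]
    obtain ⟨x, rfl⟩ := a.surjective x
    rw [show a x ⊗ₜ[F] u = TensorProduct.congr a b ((c⁻¹ • x) ⊗ₜ u) by
      simp [hu, smul_tmul, smul_smul, hc], LinearEquiv.mul_apply, LinearEquiv.mul_apply,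
      inv_apply_apply, h2]
  · obtain ⟨x, rfl⟩ := a.surjective x
    obtain ⟨w, rfl⟩ := b.surjective w
    rw [← congr_tmul, LinearEquiv.mul_apply, LinearEquiv.mul_apply, inv_apply_apply,
      h3 x w (hb w hw)]
    simp [hu, e x w (hb w hw), smul_tmul]

end RT

theorem sub_mem_of_tmul {φ : Dual F V₂} {k : V₁ ⊗[F] V₂ ≃ₗ[F] V₁ ⊗[F] V₂}
    {S : Submodule F (V₁ ⊗[F] V₂)} (h : ∀ x w, φ w = 0 → k (x ⊗ₜ w) - x ⊗ₜ w ∈ S)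
    {v : V₁ ⊗[F] V₂} (hv : ct φ v = 0) : k v - v ∈ S :=
  Submodule.mem_comap.1 (mem_of_ct_eq_zero (S := S.comap (k.toLinearMap - 1)) h hv)

theorem _root_.CF.Geom.IsWittPair.exists_perp_pair [FiniteDimensional F V₂]
    {B : V₂ →ₛₗ[σ] V₂ →ₗ[F] F} {Q : V₂ → F} (h : IsWittPair σ B Q) (h3 : 3 ≤ finrank F V₂) {u f : V₂}
    (hu : Q u = Q 0) (hf : Q f = Q 0) (e : B u f ≠ 0) :
    ∃ w w', B u w = 0 ∧ B f w = 0 ∧ B u w' = 0 ∧ B f w' = 0 ∧ B w w' = 1 := by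
  have h1 := h.disjoint_perp_perp (h.disjoint_hyperbolic (h.self_eq_zero hu) (h.self_eq_zero hf) e)
  have h2 := h.finrank_perp (Submodule.span F {u, f})
  have h4 := IsWittPair.finrank_span_pair_le (F := F) u f
  obtain ⟨w, hw, w0⟩ := Submodule.exists_mem_ne_zero_of_ne_bot
    (Submodule.one_le_finrank_iff.1 (show 1 ≤ finrank F (perp B (Submodule.span F {u, f})) by omega))
  obtain ⟨w', h5, h6⟩ := h.exists_dual_vec (x := w) (Z := Submodule.span F {u, f}) fun e =>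
    w0 (Submodule.disjoint_def.1 h1 w hw ((h.perp_perp _).ge e))
  exact ⟨w, w', (mem_perp_pair.1 hw).1, (mem_perp_pair.1 hw).2,
    h6 u (Submodule.subset_span (by simp)), h6 f (Submodule.subset_span (by simp)), h5⟩

theorem _root_.CF.Geom.IsWittPair.exists_common_partner' [FiniteDimensional F V₂]
    {B : V₂ →ₛₗ[σ] V₂ →ₗ[F] F} {Q : V₂ → F} (h : IsWittPair σ B Q) (h3 : 3 ≤ finrank F V₂) {u f : V₂}
    (u0 : u ≠ 0) (f0 : f ≠ 0) (hu : Q u = Q 0) (hf : Q f = Q 0) :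
    ∃ z, Q z = Q 0 ∧ B u z ≠ 0 ∧ B f z ≠ 0 := by
  by_cases e : B u f = 0
  · exact h.exists_common_partner u0 f0 hu hf e
  have e' : B f u ≠ 0 := mt h.refl e
  obtain ⟨w, w', h1, h2, h4, h5, h6⟩ := h.exists_perp_pair h3 hu hf e
  obtain ⟨g, hg, c, a1⟩ := h.exists_Rad_add hf (A := ⊤) trivial e' h2 trivial
  obtain ⟨g', hg', c', a2⟩ := h.exists_Rad_add hf (A := ⊤) trivial e' h5 trivial
  obtain ⟨l, a3, a4⟩ := h.Rad_perp_eq hf hg (f := u) (w := w)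
    (Submodule.mem_span_singleton.2 ⟨c, by rw [a1]; abel⟩) h5
  have H : ∀ g ∈ Rad B Q f ⊤, B u (g u) ≠ 0 → ∃ z, Q z = Q 0 ∧ B u z ≠ 0 ∧ B f z ≠ 0 :=
    fun g hg e => ⟨g u, (hg.1.2 u).trans hu, e, by rwa [RD.apply_eq hg]⟩
  by_contra hc
  have b1 := not_not.1 (mt (H g hg) hc)
  have b2 := not_not.1 (mt (H g' hg') hc)
  have b3 := not_not.1 (mt (H _ (mul_mem hg hg')) hc)
  simp only [LinearEquiv.mul_apply, a1, a2, a3, hg.2.1, map_add, map_smul, h.self_eq_zero hu, h1,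
    h4, smul_eq_mul] at b1 b2 b3
  exact one_ne_zero (α := F) (by linear_combination a4 - h6 - b3 + b1 + b2)

/-- The data of a proper overgroup of a tensor product subgroup of a classical group. -/
structure TP (B₁ : V₁ →ₛₗ[σ] V₁ →ₗ[F] F) (Q₁ : V₁ → F) (B₂ : V₂ →ₛₗ[σ] V₂ →ₗ[F] F) (Q₂ : V₂ → F)
    (B : V₁ ⊗[F] V₂ →ₛₗ[σ] V₁ ⊗[F] V₂ →ₗ[F] F) (Q : V₁ ⊗[F] V₂ → F)
    (G X : Subgroup (V₁ ⊗[F] V₂ ≃ₗ[F] V₁ ⊗[F] V₂)) : Prop where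
  w₁ : IsWittPair σ B₁ Q₁
  w₂ : IsWittPair σ B₂ Q₂
  pol : PolarG B Q G
  eq : ∀ x y s t, B (x ⊗ₜ s) (y ⊗ₜ t) = B₁ x y * B₂ s t
  iso : ∀ a b, (∀ v w, B (TensorProduct.congr a b v) (TensorProduct.congr a b w) = B v w) →
    TensorProduct.congr a b ∈ Isom B Q
  sing : ∀ x u, Q₁ x = Q₁ 0 ∨ Q₂ u = Q₂ 0 → Q (x ⊗ₜ u) = Q 0
  nt : Nontrivial V₁
  three : 3 ≤ finrank F V₂
  mem : ∀ g ∈ TenG F V₁ V₂, g ∈ G → g ∈ X
  le : X ≤ G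
  ne : ¬ G ≤ X

namespace TP

variable {B₁ : V₁ →ₛₗ[σ] V₁ →ₗ[F] F} {Q₁ : V₁ → F} {B₂ : V₂ →ₛₗ[σ] V₂ →ₗ[F] F} {Q₂ : V₂ → F}
  {B : V₁ ⊗[F] V₂ →ₛₗ[σ] V₁ ⊗[F] V₂ →ₗ[F] F} {Q : V₁ ⊗[F] V₂ → F}
  {G X : Subgroup (V₁ ⊗[F] V₂ ≃ₗ[F] V₁ ⊗[F] V₂)} (h : TP B₁ Q₁ B₂ Q₂ B Q G X)
include h

theorem eq_ct (x : V₁) (u : V₂) (v : V₁ ⊗[F] V₂) : B (x ⊗ₜ u) v = B₁ x (ct (B₂ u) v) := by
  induction v with
  | zero => simp
  | add a b ha hb => simp [ha, hb]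
  | tmul y t => simp [h.eq, mul_comm]

theorem eq_cl (x : V₁) (u : V₂) (v : V₁ ⊗[F] V₂) : B (x ⊗ₜ u) v = B₂ u (cl (B₁ x) v) := by
  rw [apply_cl, h.eq_ct]

theorem isom {g : V₁ ⊗[F] V₂ ≃ₗ[F] V₁ ⊗[F] V₂} (hg : g ∈ X) (v w : V₁ ⊗[F] V₂) :
    B (g v) (g w) = B v w := (h.pol.le (h.le hg)).1 v w

theorem ext₁ {x y : V₁} (e : ∀ z, B₁ z x = B₁ z y) : x = y :=
  sub_eq_zero.1 (h.w₁.nondeg' _ fun z => by rw [map_sub, e, sub_self])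

theorem ext₂ {x y : V₂} (e : ∀ z, B₂ z x = B₂ z y) : x = y :=
  sub_eq_zero.1 (h.w₂.nondeg' _ fun z => by rw [map_sub, e, sub_self])

theorem congr_isom {a : V₁ ≃ₗ[F] V₁} {b : V₂ ≃ₗ[F] V₂}
    (e : ∀ x y s t, B₁ (a x) (a y) * B₂ (b s) (b t) = B₁ x y * B₂ s t) :
    TensorProduct.congr a b ∈ Isom B Q := h.iso a b fun v w => by
  induction v with
  | zero => simp
  | add a b ha hb => simp [ha, hb]
  | tmul x s =>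
    induction w with
    | zero => simp
    | add a b ha hb => simp only [map_add, ha, hb]
    | tmul y t => simp [h.eq, e]

theorem mem_perp_tr {u : V₂} {v : V₁ ⊗[F] V₂} :
    v ∈ perp B (LinearMap.range (tr u)) ↔ ct (B₂ u) v = 0 :=
  ⟨fun e => h.w₁.nondeg' _ fun x => by rw [← h.eq_ct]; exact mem_perp.1 e _ ⟨x, rfl⟩,
    fun e => mem_perp.2 (by rintro _ ⟨x, rfl⟩; simp [h.eq_ct, e])⟩

theorem ct_eq {u : V₂} {k : V₁ ⊗[F] V₂ ≃ₗ[F] V₁ ⊗[F] V₂} (hk : ∀ v w, B (k v) (k w) = B v w)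
    (e : ∀ x, k (x ⊗ₜ u) = x ⊗ₜ u) (v : V₁ ⊗[F] V₂) : ct (B₂ u) (k v) = ct (B₂ u) v :=
  h.ext₁ fun x => by rw [← h.eq_ct, ← h.eq_ct, ← hk (x ⊗ₜ u) v, e]

variable [FiniteDimensional F V₁] [FiniteDimensional F V₂]

omit [FiniteDimensional F V₁] in
theorem mem_range {u : V₂} (u0 : u ≠ 0) {v : V₁ ⊗[F] V₂}
    (e : ∀ r, B₂ u r = 0 → ct (B₂ r) v = 0) : v ∈ LinearMap.range (tr u) :=
  mem_range_tr u0 fun φ hφ => by
    obtain ⟨r, rfl⟩ := exists_repr_dual h.w₂.surj B₂ h.w₂.nondeg φ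
    exact e r (h.w₂.refl hφ)

theorem mem_G {u : V₂} (hu : Q₂ u = Q₂ 0) {k : V₁ ⊗[F] V₂ ≃ₗ[F] V₁ ⊗[F] V₂} (hk : k ∈ Isom B Q)
    (e : ∀ x, k (x ⊗ₜ u) = x ⊗ₜ u)
    (e' : ∀ x w, B₂ u w = 0 → k (x ⊗ₜ w) - x ⊗ₜ w ∈ LinearMap.range (tr u)) : k ∈ G :=
  mem_of_radical h.pol (LinearMap.range (tr u)) (by rintro _ ⟨x, rfl⟩; exact h.sing x u (.inr hu))
    (by rintro _ ⟨x, rfl⟩; exact h.mem_perp_tr.2 (by simp [h.w₂.self_eq_zero hu])) hk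
    (by rintro _ ⟨x, rfl⟩; exact e x) fun x hx => sub_mem_of_tmul e' (h.mem_perp_tr.1 hx)

theorem rG_rad {u : V₂} (hu : Q₂ u = Q₂ 0) {A : Submodule F V₂} {b : V₂ ≃ₗ[F] V₂}
    (hb : b ∈ Rad B₂ Q₂ u A) : rG V₁ b ∈ X :=
  h.mem _ (rG_mem b) (h.mem_G hu (h.congr_isom fun x y s t => by simp [hb.1.1])
    (fun x => by simp [hb.2.1]) fun x w hw => by
      obtain ⟨c, e⟩ := Submodule.mem_span_singleton.1 (hb.2.2.1 w hw)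
      exact ⟨c • x, by simp [← tmul_sub, ← e, smul_tmul]⟩)

theorem lG_rad {x : V₁} (hx : Q₁ x = Q₁ 0) {A : Submodule F V₁} {a : V₁ ≃ₗ[F] V₁}
    (ha : a ∈ Rad B₁ Q₁ x A) : lG V₂ a ∈ X := by
  refine h.mem _ (lG_mem a) (mem_of_radical h.pol (LinearMap.range (TensorProduct.mk F V₁ V₂ x))
    (by rintro _ ⟨s, rfl⟩; exact h.sing x s (.inl hx)) ?_
    (h.congr_isom fun x y s t => by simp [ha.1.1]) (by rintro _ ⟨s, rfl⟩; simp [ha.2.1])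
    fun v hv => ?_)
  · rintro _ ⟨s, rfl⟩
    exact mem_perp.2 (by rintro _ ⟨t, rfl⟩; simp [h.eq, h.w₁.self_eq_zero hx])
  have h1 : ct (B₁ x) (TensorProduct.comm F V₁ V₂ v) = 0 := h.w₂.nondeg' _ fun s => by
    rw [← mem_perp.1 hv _ ⟨s, rfl⟩, mk_apply, h.eq_cl]
    clear hv
    induction v with
    | zero => simp
    | add a b ha hb => simp only [map_add, ha, hb]
    | tmul y t => simp
  have := mem_of_ct_eq_zero (S := (LinearMap.range (TensorProduct.mk F V₁ V₂ x)).comap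
    (((lG V₂ a).toLinearMap - 1) ∘ₗ (TensorProduct.comm F V₂ V₁).toLinearMap)) (fun s y hy => by
      obtain ⟨c, e⟩ := Submodule.mem_span_singleton.1 (ha.2.2.1 y hy)
      exact ⟨c • s, by simp [← sub_tmul, ← e, smul_tmul]⟩) h1
  simpa [LinearMap.sub_apply, -LinearMap.mem_range] using this

theorem rG_mem_of {G₂ : Subgroup (V₂ ≃ₗ[F] V₂)} (hG : PolarG B₂ Q₂ G₂) {b : V₂ ≃ₗ[F] V₂}
    (hb : b ∈ G₂) : rG V₁ b ∈ X :=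
  hG.gen (X.comap (rG V₁)) (fun _ _ hu _ hb => h.rG_rad hu hb) hb

theorem lG_mem_of {G₁ : Subgroup (V₁ ≃ₗ[F] V₁)} (hG : PolarG B₁ Q₁ G₁) {a : V₁ ≃ₗ[F] V₁}
    (ha : a ∈ G₁) : lG V₂ a ∈ X :=
  hG.gen (X.comap (lG V₂)) (fun _ _ hu _ hb => h.lG_rad hu hb) ha

theorem exists_move {u u' : V₂} (u0 : u ≠ 0) (u0' : u' ≠ 0) (hu : Q₂ u = Q₂ 0)
    (hu' : Q₂ u' = Q₂ 0) : ∃ b ∈ Isom B₂ Q₂, rG V₁ b ∈ X ∧ ∃ c : F, c ≠ 0 ∧ b u = c • u' := by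
  have hW := h.w₂
  obtain ⟨z, hz, e, e'⟩ := hW.exists_common_partner' h.three u0 u0' hu hu'
  have a1 : B₂ z u ≠ 0 := mt hW.refl e
  have a2 : B₂ z u' ≠ 0 := mt hW.refl e'
  obtain ⟨b, hb, e⟩ := hW.exists_Rad hz (A := ⊤) trivial (y' := (B₂ z u / B₂ z u') • u') a1
    (by simp [a2]) ((hW.norm_smul_singular hu' _).trans hu.symm) trivial
  exact ⟨b, hb.1, h.rG_rad hz hb, _, div_ne_zero a1 a2, e⟩

theorem exists_rad {u : V₂} (u0 : u ≠ 0) (hu : Q₂ u = Q₂ 0) {φ : Dual F V₂} (e : φ u = 0) :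
    ∃ ρ, rG V₁ ρ ∈ X ∧ ρ u = u ∧ ∀ w, B₂ u w = 0 → ρ w = w + φ w • u := by
  have hW := h.w₂
  obtain ⟨f, -, h1⟩ := hW.exists_hyperbolic u0 hu
  have h2 : B₂ f u ≠ 0 := fun e => by simpa [h1] using hW.refl e
  obtain ⟨r, hr⟩ := exists_repr_dual hW.surj B₂ hW.nondeg (-(B₂ f u) • φ)
  obtain ⟨ρ, hρ, c, a1⟩ := hW.exists_Rad_add hu (A := ⊤) trivial (y := f) (w := r) (by simp [h1])
    (hW.refl (by simp [hr, e])) trivial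
  refine ⟨ρ, h.rG_rad hu hρ, hρ.2.1, fun w hw => ?_⟩
  obtain ⟨l, a3, a4⟩ := hW.Rad_perp_eq hu hρ (f := f) (w := r)
    (Submodule.mem_span_singleton.2 ⟨c, by rw [a1]; abel⟩) hw
  rw [a3, mul_right_cancel₀ h2 (show l * _ = φ w * _ by simpa [hr, mul_comm] using a4)]

theorem rt_one {u : V₂} (u0 : u ≠ 0) (hu : Q₂ u = Q₂ 0) {φ : Dual F V₂} (e : φ u = 0) :
    RT X B₂ u (φ.smulRight 1) := by
  obtain ⟨ρ, h1, h2, h3⟩ := h.exists_rad u0 hu e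
  exact ⟨_, h1, fun x => by simp [h2], fun x w hw => by simp [h3 w hw, tmul_add, smul_tmul]⟩

omit [FiniteDimensional F V₁] in
theorem un_of_fix {u f : V₂} (u0 : u ≠ 0) (hu : B₂ u u = 0) (hf : B₂ u f = 1)
    {k : V₁ ⊗[F] V₂ ≃ₗ[F] V₁ ⊗[F] V₂} (hk : k ∈ X) (e : ∀ v, ct (B₂ u) v = 0 → k v = v)
    {s : End F V₁} (hs : ∀ y, k (y ⊗ₜ f) = y ⊗ₜ f + s y ⊗ₜ u) :
    Un X (map s (nU B₂ u)) ∧ ∀ v, k v = v + map s (nU B₂ u) v := by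
  have : ∀ v, k v = v + map s (nU B₂ u) v := fun v => by
    have := e (v - ct (B₂ u) v ⊗ₜ f) (by simp [hf])
    rw [map_sub, hs] at this
    rw [map_nU]
    linear_combination (norm := abel) this
  exact ⟨un_of_apply (fun v => by simp [map_nU, hu]) hk this, this⟩

omit [FiniteDimensional F V₁] in
/-- Commutator of an element of the radical with a pure one. -/
theorem rt_comm {u : V₂} (u0 : u ≠ 0) (hu : Q₂ u = Q₂ 0) {θ θ' : V₂ →ₗ[F] End F V₁}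
    (hθ : RT X B₂ u θ) (hθ' : RT X B₂ u θ') {w₀ w₁ : V₂} (h0 : B₂ u w₀ = 0) (h1 : B₂ u w₁ = 0)
    {A A' C : End F V₁} (e : ∀ w, B₂ u w = 0 → θ' w = B₂ w₀ w • A)
    (e' : ∀ w, B₂ u w = 0 → σ (B₂ w₀ w) = B₂ w w₁) (hA : ∀ x y, B₁ (A x) y = B₁ x (A' y))
    (hC : ∀ x y, B₁ (θ w₀ x) y = B₁ x (C y)) : Un X (map (A * C - θ w₁ * A') (nU B₂ u)) := by
  obtain ⟨f, -, hf⟩ := h.w₂.exists_hyperbolic u0 hu
  have hu' := h.w₂.self_eq_zero hu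
  obtain ⟨k, a1, a2, a3⟩ := hθ
  obtain ⟨k', b1, b2, b3⟩ := hθ'
  have H : ∀ {θ : V₂ →ₗ[F] End F V₁} {k : V₁ ⊗[F] V₂ ≃ₗ[F] V₁ ⊗[F] V₂}, k ∈ X →
      (∀ x, k (x ⊗ₜ u) = x ⊗ₜ u) → (∀ x w, B₂ u w = 0 → k (x ⊗ₜ w) = x ⊗ₜ w + θ w x ⊗ₜ u) →
      (∀ y, ct (B₂ u) (k (y ⊗ₜ f) - y ⊗ₜ f) = 0) ∧
      (∀ x y w, B₂ u w = 0 → B₁ x (ct (B₂ w) (k (y ⊗ₜ f) - y ⊗ₜ f)) = -B₁ (θ w x) y) ∧
      ∀ v, ct (B₂ u) v = 0 → ∃ x, k v = v + x ⊗ₜ u := fun {θ k} a1 a2 a3 => by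
    have c1 := h.ct_eq (h.isom a1) a2
    refine ⟨fun y => by simp [c1], fun x y w hw => ?_, fun v hv => ?_⟩
    · have := h.isom a1 (x ⊗ₜ w) (y ⊗ₜ f)
      rw [a3 x w hw, map_add, LinearMap.add_apply, h.eq_ct, h.eq_ct, h.eq_ct, c1] at this
      simp only [ct_tmul, hf, one_smul, map_sub] at this ⊢
      linear_combination this
    · obtain ⟨x, e⟩ := sub_mem_of_tmul (k := k) (S := LinearMap.range (tr u))
        (fun x w hw => ⟨θ w x, by simp [a3 x w hw]⟩) hv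
      exact ⟨x, eq_add_of_sub_eq' e.symm⟩
  obtain ⟨a4, a5, a6⟩ := H a1 a2 a3
  obtain ⟨b4, b5, b6⟩ := H b1 b2 b3
  have c1 : ∀ v, ct (B₂ u) v = 0 → k' v = v + A (ct (B₂ w₀) v) ⊗ₜ u := fun v hv => by
    have := mem_of_ct_eq_zero (S := LinearMap.ker (k'.toLinearMap - 1 - tr u ∘ₗ A ∘ₗ ct (B₂ w₀)))
      (fun x w hw => by simp [b3 x w hw, e w hw, smul_tmul']) hv
    simpa [sub_sub, sub_eq_zero] using this
  refine (h.un_of_fix u0 hu' hf (mul_mem (inv_mem (mul_mem b1 a1)) (mul_mem a1 b1))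
    (fun v hv => (k' * k).injective ?_) fun y => (k' * k).injective ?_).1
  · obtain ⟨x, e1⟩ := a6 v hv
    obtain ⟨x', e2⟩ := b6 v hv
    rw [LinearEquiv.mul_apply (_⁻¹), apply_inv_apply]
    simp only [LinearEquiv.mul_apply, e1, e2, map_add, a2, b2]
    abel
  have c2 : ct (B₂ w₀) (k (y ⊗ₜ f) - y ⊗ₜ f) = -C y := h.ext₁ fun x => by
    rw [a5 x y w₀ h0, hC, map_neg]
  obtain ⟨z, c3⟩ := h.mem_range u0 (v := k' (y ⊗ₜ f) - y ⊗ₜ f + A' y ⊗ₜ w₁) fun r hr =>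
    h.ext₁ fun x => by
      rw [map_add, map_add, b5 x y r hr, e r hr]
      simp [e' r hr, hA]
  have c4 := c1 _ (a4 y)
  have c5 : k' (y ⊗ₜ f) = y ⊗ₜ f + z ⊗ₜ u - A' y ⊗ₜ w₁ := by
    rw [← tr_apply (F := F) u z, c3]; abel
  rw [LinearEquiv.mul_apply (_⁻¹), apply_inv_apply]
  rw [c2, map_sub, sub_eq_iff_eq_add] at c4
  simp only [LinearEquiv.mul_apply, map_add, a2, b2, c4, c5, map_sub, a3 _ _ h1, map_neg, neg_tmul,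
    LinearMap.sub_apply, Module.End.mul_apply, sub_tmul]
  abel

end TP

end CF.MaxSub
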