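/-
Overgroups of tensor product subgroups of classical groups: the stabiliser of `V₁ ⊗ u`, II.
-/
import Cfsg.Agent.MaxSub.TB

set_option autoImplicit false

namespace CF.MaxSub

open Module Geom TensorProduct

variable {F V₁ V₂ : Type*} [Field F] [AddCommGroup V₁] [Module F V₁] [AddCommGroup V₂]
  [Module F V₂] {σ : F →+* F}

namespace TP

variable {B₁ : V₁ →ₛₗ[σ] V₁ →ₗ[F] F} {Q₁ : V₁ → F} {B₂ : V₂ →ₛₗ[σ] V₂ →ₗ[F] F} {Q₂ : V₂ → F}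
  {B : V₁ ⊗[F] V₂ →ₛₗ[σ] V₁ ⊗[F] V₂ →ₗ[F] F} {Q : V₁ ⊗[F] V₂ → F}
  {G X : Subgroup (V₁ ⊗[F] V₂ ≃ₗ[F] V₁ ⊗[F] V₂)} (h : TP B₁ Q₁ B₂ Q₂ B Q G X)
  [FiniteDimensional F V₁] [FiniteDimensional F V₂]
include h

section Stab

variable {u : V₂} (u0 : u ≠ 0) (hu : Q₂ u = Q₂ 0)
  (hZ : ∀ s, Un X (map s (nU B₂ u)) → ∃ c : F, s = c • 1)
  (hΘ : ∀ θ, RT X B₂ u θ → ∀ w, B₂ u w = 0 → ∃ c : F, θ w = c • 1)
include u0 hu hZ hΘ

theorem mem_of_rad {k : V₁ ⊗[F] V₂ ≃ₗ[F] V₁ ⊗[F] V₂} (hk : k ∈ X) (e : ∀ x, k (x ⊗ₜ u) = x ⊗ₜ u)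
    (e' : ∀ x w, B₂ u w = 0 → k (x ⊗ₜ w) - x ⊗ₜ w ∈ LinearMap.range (tr u)) :
    ∃ b, k = rG V₁ b := by
  obtain ⟨f, -, hf⟩ := h.w₂.exists_hyperbolic u0 hu
  have hu' := h.w₂.self_eq_zero hu
  obtain ⟨ψ, hψ⟩ := exists_dual_eq_one (F := F) u0
  have H : ∀ v ∈ LinearMap.range (tr (F := F) (V₁ := V₁) u), v = ct ψ v ⊗ₜ u := by
    rintro _ ⟨x, rfl⟩; simp [hψ]
  let θ : V₂ →ₗ[F] End F V₁ := (curry (ct ψ ∘ₗ (k.toLinearMap - 1))).flip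
  have h1 : ∀ x w, B₂ u w = 0 → k (x ⊗ₜ w) = x ⊗ₜ w + θ w x ⊗ₜ u := fun x w hw =>
    eq_add_of_sub_eq' (H _ (e' x w hw))
  have := h.nt
  obtain ⟨x₀, hx⟩ := exists_ne (0 : V₁)
  obtain ⟨l, hl⟩ := exists_dual_eq_one (F := F) hx
  obtain ⟨ρ, a1, a2, a3⟩ := h.exists_rad u0 hu (φ := l ∘ₗ LinearMap.applyₗ x₀ ∘ₗ θ)
    (by simp [θ, e])
  have a4 : (rG V₁ ρ)⁻¹ * k ∈ X := mul_mem (inv_mem a1) hk
  have a5 : ∀ v, ct (B₂ u) v = 0 → ((rG V₁ ρ)⁻¹ * k) v = v := fun v hv => by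
    have := sub_mem_of_tmul (k := (rG V₁ ρ)⁻¹ * k) (S := ⊥) (fun x w hw => ?_) hv
    · simpa [sub_eq_zero] using this
    obtain ⟨c, hc⟩ := hΘ θ ⟨k, hk, e, h1⟩ w hw
    rw [Submodule.mem_bot, sub_eq_zero, ← (rG V₁ ρ).injective.eq_iff, LinearEquiv.mul_apply,
      apply_inv_apply, h1 x w hw, rG_tmul, a3 w hw]
    simp [hc, hl, tmul_add, smul_tmul]
  generalize hk' : (rG V₁ ρ)⁻¹ * k = k' at a4 a5
  obtain ⟨a6, a7⟩ := h.un_of_fix u0 hu' hf a4 a5 (s := ct ψ ∘ₗ (k'.toLinearMap - 1) ∘ₗ tr f)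
    fun y => eq_add_of_sub_eq' (H _ (h.mem_range u0 fun r hr => h.w₁.nondeg' _ fun x => by
      change B₁ x (ct (B₂ r) (k' (y ⊗ₜ f) - y ⊗ₜ f)) = 0
      rw [← h.eq_ct, map_sub, ← h.isom a4 (x ⊗ₜ r) (y ⊗ₜ f), a5 (x ⊗ₜ r) (by simp [hr]), sub_self]))
  obtain ⟨c, hc⟩ := hZ _ a6
  refine ⟨ρ * unip (c • nU B₂ u) (LinearMap.ext fun v => by simp [hu']), ?_⟩
  rw [map_mul, ← inv_mul_eq_iff_eq_mul, hk']
  exact tensor_ext fun x w => by simp [a7, hc, unip_apply, tmul_add, smul_tmul, smul_smul, mul_comm]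

theorem stab {g : V₁ ⊗[F] V₂ ≃ₗ[F] V₁ ⊗[F] V₂} (hg : g ∈ X)
    (h1 : ∀ x, g (x ⊗ₜ u) ∈ LinearMap.range (tr u)) : g ∈ TenG F V₁ V₂ := by
  have hW := h.w₂
  obtain ⟨f, qf, hf⟩ := hW.exists_hyperbolic u0 hu
  have hu' := hW.self_eq_zero hu
  have hf' := hW.self_eq_zero qf
  have fu : B₂ f u ≠ 0 := fun e => by simpa [hf] using hW.refl e
  obtain ⟨ψ, hψ⟩ := exists_dual_eq_one (F := F) u0
  have h2 : ∀ x, g (x ⊗ₜ u) = ct ψ (g (x ⊗ₜ u)) ⊗ₜ u := fun x => by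
    obtain ⟨y, hy⟩ := h1 x
    simp [← hy, hψ]
  let α := LinearEquiv.ofInjectiveEndo (ct ψ ∘ₗ g.toLinearMap ∘ₗ tr u) fun x y e =>
    tmul_left_inj u0 (g.injective (by rw [h2 x, h2 y]; exact congrArg (· ⊗ₜ u) e))
  replace h2 : ∀ x, g (x ⊗ₜ u) = α x ⊗ₜ u := h2
  have h2' : ∀ v, ct (B₂ u) v = 0 → ct (B₂ u) (g v) = 0 := fun v hv => h.w₁.nondeg' _ fun x => by
    rw [← h.eq_ct, ← α.apply_symm_apply x, ← h2, h.isom hg, h.eq_ct, hv, map_zero]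
  have := h.nt
  obtain ⟨x₀, hx⟩ := exists_ne (0 : V₁)
  obtain ⟨l, hl⟩ := exists_dual_eq_one (F := F) hx
  have h3 : ∀ φ : Dual F V₂, φ u = 0 → ∀ w, B₂ u w = 0 → ∃ c : F,
      ∀ x, ct φ (g (x ⊗ₜ w)) = c • α x := fun φ e w hw => by
    obtain ⟨ρ, a1, a2, a3⟩ := h.exists_rad u0 hu e
    have a4 : ∀ v, ct (B₂ u) v = 0 → rG V₁ ρ v = v + ct φ v ⊗ₜ u := fun v hv => by
      have := mem_of_ct_eq_zero (S := LinearMap.ker ((rG V₁ ρ).toLinearMap - 1 - tr u ∘ₗ ct φ))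
        (fun x w hw => by simp [a3 w hw, tmul_add, smul_tmul]) hv
      simpa [sub_sub, sub_eq_zero] using this
    obtain ⟨c, hc⟩ := hΘ (curry (α.symm.toLinearMap ∘ₗ ct φ ∘ₗ g.toLinearMap)).flip
      ⟨g⁻¹ * rG V₁ ρ * g, mul_mem (mul_mem (inv_mem hg) a1) hg,
        fun x => g.injective (by simp [apply_inv_apply, h2, a2]), fun x w hw => g.injective (by
          simp [apply_inv_apply, h2, a4 _ (h2' (x ⊗ₜ w) (by simp [hw]))])⟩ w hw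
    exact ⟨c, fun x => α.symm.injective (by simpa using LinearMap.congr_fun hc x)⟩
  let β : End F V₂ := cl (l ∘ₗ α.symm) ∘ₗ g.toLinearMap ∘ₗ TensorProduct.mk F V₁ V₂ x₀
  have h4 : β u = u := by simp [β, h2, hl]
  have h5 : ∀ x w, B₂ u w = 0 → g (x ⊗ₜ w) - α x ⊗ₜ β w ∈ LinearMap.range (tr u) := fun x w hw =>
    mem_range_tr u0 fun φ e => by
      obtain ⟨c, h6⟩ := h3 φ e w hw
      simp [β, apply_cl, h6, hl]
  have h6 : ∀ w, B₂ u w = 0 → B₂ u (β w) = 0 := fun w hw => by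
    simp [β, apply_cl, h2' (x₀ ⊗ₜ w) (by simp [hw])]
  have h7 : ∀ x y w w', B₂ u w = 0 → B₂ u w' = 0 →
      B₁ (α x) (α y) * B₂ (β w) (β w') = B₁ x y * B₂ w w' := fun x y w w' hw hw' => by
    obtain ⟨a, e⟩ := h5 x w hw
    obtain ⟨a', e'⟩ := h5 y w' hw'
    rw [← h.eq x, ← h.isom hg, sub_eq_iff_eq_add.1 e.symm, sub_eq_iff_eq_add.1 e'.symm]
    simp [h.eq, hu', h6 w' hw', hW.refl (h6 w hw)]
  obtain ⟨μ, h8⟩ : ∃ μ, ∀ x y, B₁ (α x) (α y) * μ = B₁ x y := by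
    obtain ⟨w₀, w₁, a1, -, a2, -, a3⟩ := hW.exists_perp_pair h.three hu qf (by simp [hf])
    exact ⟨_, fun x y => by rw [h7 x y w₀ w₁ a1 a2, a3, mul_one]⟩
  obtain ⟨y₀, hy, -⟩ := h.w₁.exists_dual_vec (x := x₀) (Z := ⊥) (by simpa using hx)
  have h9 : ∀ w w', B₂ u w = 0 → B₂ u w' = 0 → B₂ (β w) (β w') = μ * B₂ w w' :=
    fun w w' hw hw' => by
      linear_combination μ * h7 x₀ y₀ w w' hw hw' - B₂ (β w) (β w') * h8 x₀ y₀ -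
        (B₂ (β w) (β w') - μ * B₂ w w') * hy
  have h10 : σ μ = μ := by
    have := h.w₁.symm (α x₀) (μ • α y₀) x₀ y₀ (by rw [map_smul, ← h8 x₀, smul_eq_mul, mul_comm])
    rw [LinearMap.map_smulₛₗ₂, ← h8 y₀, smul_eq_mul, mul_comm] at this
    exact mul_left_cancel₀ (fun e => by simpa [hy, h.w₁.refl e] using h8 x₀ y₀) this
  let p : End F V₂ := 1 - (B₂ u).smulRight f - ((B₂ f u)⁻¹ • B₂ f).smulRight u
  have p1 : ∀ s, B₂ u (p s) = 0 := fun s => by simp [p, hf, hu']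
  have p2 : ∀ s, B₂ f (p s) = 0 := fun s => by simp [p, hf', fu]; field_simp; ring
  have p3 : ∀ s, s = p s + B₂ u s • f + ((B₂ f u)⁻¹ * B₂ f s) • u := fun s => by
    simp only [p, LinearMap.sub_apply, LinearMap.smulRight_apply, LinearMap.smul_apply, smul_eq_mul,
      Module.End.one_apply]
    abel
  have p4 : ∀ s t, B₂ u s = 0 → B₂ u t = 0 → B₂ (p s) (p t) = B₂ s t := fun s t hs ht => by
    simp [p, hs, ht, hu', hW.refl hs]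
  let b₀ : End F V₂ := p * β * p + (μ • B₂ u).smulRight f + ((B₂ f u)⁻¹ • B₂ f).smulRight u
  have h11 : ∀ s t, B₂ (b₀ s) (b₀ t) = μ * B₂ s t := fun s t => by
    conv_rhs => rw [p3 s, p3 t]
    simp only [b₀, LinearMap.add_apply, Module.End.mul_apply, LinearMap.smulRight_apply,
      LinearMap.smul_apply, map_add, map_smul, LinearMap.map_smulₛₗ₂, p1, p2, hW.refl (p1 _),
      hW.refl (p2 _), p4 _ _ (h6 _ (p1 s)) (h6 _ (p1 t)), h9 _ _ (p1 s) (p1 t), hf, hf', hu',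
      smul_eq_mul, map_mul, h10]
    ring
  have μ0 : μ ≠ 0 := by rintro rfl; simpa [hy] using h8 x₀ y₀
  let b := LinearEquiv.ofInjectiveEndo b₀ ((injective_iff_map_eq_zero b₀).2 fun s e =>
    hW.nondeg s fun t => by simpa [e, μ0] using h11 s t)
  have h12 : TensorProduct.congr α b ∈ Isom B Q := h.congr_isom fun x y s t => by
    change _ * B₂ (b₀ s) (b₀ t) = _
    rw [h11, ← mul_assoc, h8]
  have h13 : b u = u := by simp [b, b₀, p, hu', fu]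
  have h14 : ∀ x, ((TensorProduct.congr α b)⁻¹ * g) (x ⊗ₜ u) = x ⊗ₜ u := fun x =>
    (TensorProduct.congr α b).injective (by
      rw [LinearEquiv.mul_apply, apply_inv_apply, h2, congr_tmul, h13])
  have h15 : ∀ x w, B₂ u w = 0 → ((TensorProduct.congr α b)⁻¹ * g) (x ⊗ₜ w) - x ⊗ₜ w ∈
      LinearMap.range (tr u) := fun x w hw => by
    obtain ⟨y, e⟩ := h5 x w hw
    obtain ⟨c, e'⟩ : ∃ c : F, β w = b w + c • u := by
      refine ⟨(B₂ f u)⁻¹ * B₂ f (β (p w)), ?_⟩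
      have e1 := p3 w
      have e2 := p3 (β (p w))
      rw [hw, zero_smul, add_zero] at e1
      rw [h6 _ (p1 w), zero_smul, add_zero] at e2
      have e3 : b w = p (β (p w)) + ((B₂ f u)⁻¹ * B₂ f w) • u := by simp [b, b₀, hw]
      rw [e3, congrArg β e1, map_add, map_smul, h4, add_right_comm, ← e2]
    refine ⟨α.symm y + c • x, (TensorProduct.congr α b).injective ?_⟩
    rw [map_sub, LinearEquiv.mul_apply, apply_inv_apply, sub_eq_iff_eq_add.1 e.symm, e']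
    simp [h13, add_tmul, tmul_add, smul_tmul]
    abel
  have h16 := h.mem_G hu (mul_mem (inv_mem h12) (h.pol.le (h.le hg))) h14 h15
  obtain ⟨b', e⟩ := h.mem_of_rad u0 hu hZ hΘ (mul_mem (inv_mem (h.mem _ (congr_mem_TenG α b)
    (by simpa using mul_mem (h.le hg) (inv_mem h16)))) hg) h14 h15
  simpa [← e] using mul_mem (congr_mem_TenG α b) (rG_mem b')

theorem stab' {u₁ u₂ : V₂} (h1 : u₁ ≠ 0) (h2 : u₂ ≠ 0) (q1 : Q₂ u₁ = Q₂ 0) (q2 : Q₂ u₂ = Q₂ 0)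
    {g : V₁ ⊗[F] V₂ ≃ₗ[F] V₁ ⊗[F] V₂} (hg : g ∈ X)
    (e : ∀ x, g (x ⊗ₜ u₁) ∈ LinearMap.range (tr u₂)) : g ∈ TenG F V₁ V₂ := by
  obtain ⟨b, -, a1, c, -, a2⟩ := h.exists_move u0 h1 hu q1
  obtain ⟨b', -, a3, c', -, a4⟩ := h.exists_move h2 u0 q2 hu
  have := h.stab u0 hu hZ hΘ (mul_mem (mul_mem a3 hg) a1) fun x => by
    obtain ⟨y, e⟩ := e x
    refine ⟨c • c' • y, ?_⟩
    rw [LinearEquiv.mul_apply, LinearEquiv.mul_apply, rG_tmul, a2, tmul_smul, map_smul g, ← e]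
    simp [a4, smul_tmul]
  simpa [mul_assoc] using mul_mem (mul_mem (inv_mem (rG_mem b')) this) (inv_mem (rG_mem b))

end Stab

end TP

end CF.MaxSub
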