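/-
Overgroups of tensor product subgroups of classical groups: the algebra of the unipotent radical.
-/
import Cfsg.Agent.MaxSub.TC
import Cfsg.Agent.Geom.C5C

set_option autoImplicit false

namespace CF.MaxSub

open Module Geom TensorProduct

variable {F V₁ V₂ : Type*} [Field F] [AddCommGroup V₁] [Module F V₁] [AddCommGroup V₂]
  [Module F V₂] {σ : F →+* F}

section Witt

variable {B : V₂ →ₛₗ[σ] V₂ →ₗ[F] F} {Q : V₂ → F}

theorem _root_.CF.Geom.IsWittPair.exists_eps (h : IsWittPair σ B Q) :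
    ∃ ε : F, ε ≠ 0 ∧ ∀ x y, σ (B y x) = ε * B x y := by
  by_cases h0 : ∀ x y, B x y = 0
  · exact ⟨1, one_ne_zero, fun x y => by simp [h0]⟩
  push Not at h0
  obtain ⟨x₀, y₀, e⟩ := h0
  refine ⟨σ (B y₀ x₀) / B x₀ y₀, div_ne_zero ((map_ne_zero σ).2 (mt h.refl e)) e, fun x y => ?_⟩
  obtain ⟨c, hc⟩ := h.surj (B x y / B x₀ y₀)
  rw [h.symm x y (c • x₀) y₀ (by simp [hc, e]), map_smul, smul_eq_mul, map_mul, hc]
  field_simp

variable [FiniteDimensional F V₂]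

theorem _root_.CF.Geom.IsWittPair.exists_adj (h : IsWittPair σ B Q) (A : End F V₂) :
    ∃ A' : End F V₂, ∀ x y, B (A x) y = B x (A' y) := by
  choose r hr using fun y => exists_repr_dual h.surj B h.nondeg (B y ∘ₗ A)
  have e : ∀ x y, B (A x) y = B x (r y) := fun x y => h.symm _ _ _ _ (by simp [hr])
  exact ⟨⟨⟨r, fun y z => sub_eq_zero.1 (h.nondeg' _ fun x => by simp [← e])⟩,
    fun c y => sub_eq_zero.1 (h.nondeg' _ fun x => by simp [← e])⟩, e⟩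

theorem _root_.CF.Geom.IsWittPair.perp_ind (h : IsWittPair σ B Q) {u s : V₂} (hu : Q u = Q 0)
    (hs : Q s = Q 0) (e : B u s = 0) (hn : s ∉ F ∙ u) {P : V₂ → Prop}
    (hadd : ∀ a b, P a → P b → P (a + b)) (h1 : ∀ c : F, P (c • s))
    (h2 : ∀ t, Q t = Q 0 → B u t = 0 → B s t ≠ 0 → P t) {w : V₂} (hw : B u w = 0) : P w := by
  have H : ∀ w, B u w = 0 → B s w ≠ 0 → P w := fun w hw hw' => by
    obtain ⟨c, hc⟩ := h.slide s 0 w hs hw'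
    simpa using hadd _ _ (h2 _ hc (by simp [hw, e]) (by simpa [h.self_eq_zero hs])) (h1 (-c))
  by_cases hw' : B s w = 0
  · obtain ⟨t, -, a1, a2⟩ := h.exists_partner hn hs fun z hz => by
      obtain ⟨c, rfl⟩ := Submodule.mem_span_singleton.1 hz
      simp [e]
    have a3 := a2 u (Submodule.mem_span_singleton_self u)
    simpa using hadd _ _ (H (w + t) (by simp [hw, a3]) (by simp [hw', a1]))
      (H (-t) (by simp [a3]) (by simp [a1]))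
  exact H w hw hw'

theorem _root_.CF.Geom.IsWittPair.exists_perp_notMem (h : IsWittPair σ B Q)
    (h5 : 5 ≤ finrank F V₂) (u s : V₂) :
    ∃ r, B u r = 0 ∧ B s r = 0 ∧ r ∉ Submodule.span F {u, s} := by
  have h2 := h.finrank_perp (Submodule.span F {u, s})
  have h4 := IsWittPair.finrank_span_pair_le (F := F) u s
  obtain ⟨r, h1, h3⟩ := Geom.exists_notMem_of_finrank_lt
    (show finrank F (Submodule.span F {u, s}) < finrank F (perp B (Submodule.span F {u, s})) by omega)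
  exact ⟨r, (mem_perp_pair.1 h1).1, (mem_perp_pair.1 h1).2, h3⟩

end Witt

namespace RT

variable {X : Subgroup (V₁ ⊗[F] V₂ ≃ₗ[F] V₁ ⊗[F] V₂)} {B : V₂ →ₛₗ[σ] V₂ →ₗ[F] F} {u u' : V₂}
  {θ θ' : V₂ →ₗ[F] End F V₁}

theorem zero : RT X B u 0 := ⟨1, one_mem _, fun _ => rfl, fun x w _ => by simp⟩

theorem map (h : RT X B u θ) {b : V₂ ≃ₗ[F] V₂} (hX : rG V₁ b ∈ X) {c : F} (hc : c ≠ 0)
    (hu : b u = c • u') (hb : ∀ w, B u' (b w) = 0 → B u w = 0)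
    (e : ∀ w, B u w = 0 → θ' (b w) = c • θ w) : RT X B u' θ' := by
  obtain ⟨k, h1, h2, h3⟩ := h
  refine ⟨_ * k * _⁻¹, mul_mem (mul_mem hX h1) (inv_mem hX), fun x => ?_, fun x w hw => ?_⟩
  · rw [show x ⊗ₜ[F] u' = rG V₁ b ((c⁻¹ • x) ⊗ₜ u) by simp [hu, smul_tmul, smul_smul, hc],
      LinearEquiv.mul_apply, LinearEquiv.mul_apply, inv_apply_apply, h2]
  · obtain ⟨w, rfl⟩ := b.surjective w
    rw [← rG_tmul, LinearEquiv.mul_apply, LinearEquiv.mul_apply, inv_apply_apply,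
      h3 x w (hb w hw)]
    simp [hu, e w (hb w hw), smul_tmul]

theorem self [FiniteDimensional F V₂] (h : RT X B u θ) (u0 : u ≠ 0) (hu : B u u = 0) : θ u = 0 := by
  obtain ⟨k, -, h2, h3⟩ := h
  ext x
  exact tmul_left_inj u0 (by simpa [h2] using h3 x u hu)

theorem pure {φ : Dual F V₂} {A : End F V₁} (h : RT X B u (φ.smulRight A)) :
    ∃ k ∈ X, (∀ x, k (x ⊗ₜ u) = x ⊗ₜ u) ∧ ∀ v, ct (B u) v = 0 → k v = v + A (ct φ v) ⊗ₜ u := by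
  obtain ⟨k, h1, h2, h3⟩ := h
  refine ⟨k, h1, h2, fun v hv => ?_⟩
  have := mem_of_ct_eq_zero (S := LinearMap.ker (k.toLinearMap - 1 - tr u ∘ₗ A ∘ₗ ct φ))
    (fun x w hw => by simp [h3 x w hw, smul_tmul']) hv
  simpa [sub_sub, sub_eq_zero] using this

end RT

/-- Coefficients of the elements of `X` in the unipotent radical of the stabiliser of `V₁ ⊗ u`. -/
def AL (X : Subgroup (V₁ ⊗[F] V₂ ≃ₗ[F] V₁ ⊗[F] V₂)) {B : V₂ →ₛₗ[σ] V₂ →ₗ[F] F} {Q : V₂ → F}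
    (h : IsWittPair σ B Q) : Submodule F (End F V₁) where
  carrier := {A | ∀ u, u ≠ 0 → Q u = Q 0 → ∀ w, B u w = 0 → RT X B u ((B w).smulRight A)}
  add_mem' ha hb u u0 hu w hw := ((ha u u0 hu w hw).add (hb u u0 hu w hw)).congr fun _ _ => by simp
  zero_mem' u _ _ w _ := RT.zero.congr fun _ _ => by simp
  smul_mem' c A hA u u0 hu w hw := by
    obtain ⟨c, rfl⟩ := h.surj c
    exact (hA u u0 hu (c • w) (by simp [hw])).congr fun _ _ => by simp [smul_smul, mul_comm]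

/-- The largest subspace of displacements of the radical at `v` in `X`. -/
def RS {V : Type*} [AddCommGroup V] [Module F V] (B : V →ₛₗ[σ] V →ₗ[F] F) (Q : V → F)
    (X : Subgroup (V ≃ₗ[F] V)) (v : V) : Submodule F V where
  carrier := {w | ∀ c : F, RD B Q X v (c • w)}
  add_mem' ha hb c := by rw [smul_add]; exact (ha c).add (hb c)
  zero_mem' c := by simpa using RD.zero
  smul_mem' a _ h c := by rw [smul_smul]; exact h _

/-- The data of a proper overgroup, with the second factor of Witt index at least two. -/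
structure TQ (B₁ : V₁ →ₛₗ[σ] V₁ →ₗ[F] F) (Q₁ : V₁ → F) (B₂ : V₂ →ₛₗ[σ] V₂ →ₗ[F] F) (Q₂ : V₂ → F)
    (B : V₁ ⊗[F] V₂ →ₛₗ[σ] V₁ ⊗[F] V₂ →ₗ[F] F) (Q : V₁ ⊗[F] V₂ → F)
    (G X : Subgroup (V₁ ⊗[F] V₂ ≃ₗ[F] V₁ ⊗[F] V₂)) : Prop extends TP B₁ Q₁ B₂ Q₂ B Q G X where
  two : 2 ≤ finrank F V₁
  ex : ∃ u, u ≠ 0 ∧ Q₂ u = Q₂ 0
  idx : ∀ u, u ≠ 0 → Q₂ u = Q₂ 0 → ∃ s, Q₂ s = Q₂ 0 ∧ B₂ u s = 0 ∧ s ∉ F ∙ u
  pur : 5 ≤ finrank F V₂ ∨ ∀ s (c : F), ∃ t ∈ Rad B₂ Q₂ s ⊤, ∀ w, t w = w + (c * B₂ s w) • s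
  com : ComT B Q
  iso₂ : ∀ w, B₂ w w = 0 → Q₂ w = Q₂ 0

namespace TP

variable {B₁ : V₁ →ₛₗ[σ] V₁ →ₗ[F] F} {Q₁ : V₁ → F} {B₂ : V₂ →ₛₗ[σ] V₂ →ₗ[F] F} {Q₂ : V₂ → F}
  {B : V₁ ⊗[F] V₂ →ₛₗ[σ] V₁ ⊗[F] V₂ →ₗ[F] F} {Q : V₁ ⊗[F] V₂ → F}
  {G X : Subgroup (V₁ ⊗[F] V₂ ≃ₗ[F] V₁ ⊗[F] V₂)} (h : TP B₁ Q₁ B₂ Q₂ B Q G X)
include h

theorem exists_one : ∃ x y, B₁ x y = 1 := by
  have := h.nt
  obtain ⟨x, hx⟩ := exists_ne (0 : V₁)
  obtain ⟨y, hy⟩ := exists_apply_eq_one (φ := B₁ x) fun e => hx (h.w₁.nondeg x fun y => by simp [e])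
  exact ⟨x, y, hy⟩

theorem isom₂ {b : V₂ ≃ₗ[F] V₂} (hb : rG V₁ b ∈ X) (s t : V₂) : B₂ (b s) (b t) = B₂ s t := by
  obtain ⟨x, y, e⟩ := h.exists_one
  simpa [h.eq, e] using h.isom hb (x ⊗ₜ s) (y ⊗ₜ t)

theorem rt_comp {u : V₂} {θ : V₂ →ₗ[F] End F V₁} (hθ : RT X B₂ u θ) {b : V₂ ≃ₗ[F] V₂}
    (hb : rG V₁ b ∈ X) (e : b u = u) : RT X B₂ u (θ ∘ₗ b.toLinearMap - θ) :=
  (hθ.map (b := b⁻¹) (by simpa using inv_mem hb) one_ne_zero
    (b.injective (by rw [apply_inv_apply, one_smul, e]))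
    (fun w hw => by rwa [← h.isom₂ hb, e, apply_inv_apply] at hw)
    fun w _ => by simp [apply_inv_apply]).sub hθ

end TP

namespace TQ

variable {B₁ : V₁ →ₛₗ[σ] V₁ →ₗ[F] F} {Q₁ : V₁ → F} {B₂ : V₂ →ₛₗ[σ] V₂ →ₗ[F] F} {Q₂ : V₂ → F}
  {B : V₁ ⊗[F] V₂ →ₛₗ[σ] V₁ ⊗[F] V₂ →ₗ[F] F} {Q : V₁ ⊗[F] V₂ → F}
  {G X : Subgroup (V₁ ⊗[F] V₂ ≃ₗ[F] V₁ ⊗[F] V₂)} (h : TQ B₁ Q₁ B₂ Q₂ B Q G X)
  [FiniteDimensional F V₁] [FiniteDimensional F V₂]
include h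

theorem rt_pure {u s : V₂} (u0 : u ≠ 0) (hu : Q₂ u = Q₂ 0) (hs : Q₂ s = Q₂ 0) (e : B₂ u s = 0)
    (hn : s ∉ F ∙ u) {θ : V₂ →ₗ[F] End F V₁} (hθ : RT X B₂ u θ) (c : F) :
    RT X B₂ u ((B₂ s).smulRight (c • θ s)) := by
  have hW := h.w₂
  have s0 : s ≠ 0 := by rintro rfl; exact hn (zero_mem _)
  obtain h5 | h5 := h.pur
  · obtain ⟨r, a1, a2, a3⟩ := hW.exists_perp_notMem h5 u s
    obtain ⟨y, a4, a5⟩ := hW.exists_dual_vec a3
    obtain ⟨f, -, b1, -⟩ := hW.exists_partner (Z := ⊥) (by simpa using s0) hs (by simp)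
    obtain ⟨ρ', b2, d, b3⟩ := hW.exists_Rad_add hs (A := ⊤) trivial (y := f) (by simp [b1]) a2 trivial
    have b4 : ρ' f - f - r ∈ F ∙ s := Submodule.mem_span_singleton.2 ⟨d, by rw [b3]; abel⟩
    obtain ⟨l, b5, b6⟩ := hW.Rad_perp_eq hs b2 b4 (hW.refl e)
    rw [hW.refl a1, neg_zero, mul_eq_zero, or_iff_left (mt hW.refl (by simp [b1]))] at b6
    have a6 : B₂ y r ≠ 0 := mt hW.refl (by simp [a4])
    obtain ⟨ρ, c1, c2, c3⟩ := h.exists_rad s0 hs (φ := (c / B₂ y r) • B₂ y)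
      (by simp [hW.refl (a5 s (Submodule.subset_span (by simp)))])
    refine (h.rt_comp (h.rt_comp hθ c1 (by
      simp [c3 u (hW.refl e), hW.refl (a5 u (Submodule.subset_span (by simp)))]))
      (h.rG_rad hs b2) (by simp [b5, b6])).congr fun w _ => ?_
    obtain ⟨l, b7⟩ := Rad_disp_eq b2 b1 b4 w
    simp [b7, c2, c3 r a2, a6]
    abel
  · obtain ⟨t, a1, a2⟩ := h5 s c
    exact (h.rt_comp hθ (h.rG_rad hs a1) (by simp [a2, hW.refl e])).congr fun w _ => by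
      simp [a2, smul_smul, mul_comm]

theorem mem_AL {u : V₂} (u0 : u ≠ 0) (hu : Q₂ u = Q₂ 0) {θ : V₂ →ₗ[F] End F V₁}
    (hθ : RT X B₂ u θ) {w : V₂} (hw : B₂ u w = 0) : θ w ∈ AL X h.w₂ := by
  have hW := h.w₂
  have H : ∀ s, Q₂ s = Q₂ 0 → B₂ u s = 0 → s ∉ F ∙ u → θ s ∈ AL X hW := fun s hs e hn u' a1 a2 w' a3 => by
    obtain ⟨b, a4, a5, c, a6, a7⟩ := h.exists_move u0 a1 hu a2
    have a8 : ∀ w, B₂ u' (b w) = 0 → B₂ u w = 0 := fun w hw => by simp [← a4.1 u, a7, hw]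
    obtain ⟨w', rfl⟩ := b.surjective w'
    obtain ⟨d, hd⟩ := hW.surj c⁻¹
    refine RT.map (θ := (B₂ (d • w')).smulRight (θ s)) ?_ a5 a6 a7 a8 fun w _ => by
      simp [a4.1, hd, smul_smul, a6]
    refine hW.perp_ind hu hs e hn (P := fun w => RT X B₂ u ((B₂ w).smulRight (θ s)))
      (fun a b ha hb => (ha.add hb).congr fun _ _ => by simp [add_smul])
      (fun c => (h.rt_pure u0 hu hs e hn hθ (σ c)).congr fun _ _ => by simp [smul_smul, mul_comm])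
      (fun t b1 b2 b3 => ?_) (by simp [a8 _ a3])
    refine (h.rt_pure u0 hu b1 b2 (fun e' => ?_) (h.rt_pure u0 hu hs e hn hθ 1) (B₂ s t)⁻¹).congr
      fun _ _ => by simp [smul_smul, b3]
    obtain ⟨c, rfl⟩ := Submodule.mem_span_singleton.1 e'
    simp [hW.refl e] at b3
  obtain ⟨s, hs, e, hn⟩ := h.idx u u0 hu
  exact hW.perp_ind hu hs e hn (P := fun w => θ w ∈ AL X hW)
    (fun a b ha hb => by simpa using add_mem ha hb)
    (fun c => by simpa using Submodule.smul_mem _ c (H s hs e hn))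
    (fun t b1 b2 b3 => H t b1 b2 fun e' => by
      obtain ⟨c, rfl⟩ := Submodule.mem_span_singleton.1 e'
      simp [hW.refl e] at b3) hw

theorem one_mem_AL : 1 ∈ AL X h.w₂ := fun _ u0 hu _ hw => h.rt_one u0 hu (h.w₂.refl hw)

omit [FiniteDimensional F V₁] [FiniteDimensional F V₂] in
theorem conj_mem_AL {a : V₁ ≃ₗ[F] V₁} (ha : lG V₂ a ∈ X) {A A' : End F V₁} (hA : A ∈ AL X h.w₂)
    (e : ∀ x, A' (a x) = a (A x)) : A' ∈ AL X h.w₂ := fun u u0 hu w hw =>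
  (hA u u0 hu w hw).conj (b := 1) ha (c := 1) (by simp) (fun _ => id) fun x w _ => by simp [e]

theorem mul_mem_AL {u w₀ w₂ : V₂} (u0 : u ≠ 0) (hu : Q₂ u = Q₂ 0) (h0 : B₂ u w₀ = 0)
    (h2 : B₂ u w₂ = 0) {k : V₁ ⊗[F] V₂ ≃ₗ[F] V₁ ⊗[F] V₂} (hk : k ∈ X)
    (e : ∀ x, k (x ⊗ₜ u) = x ⊗ₜ u) {A S : End F V₁} (hA : A ∈ AL X h.w₂)
    (hS : ∀ x, ct (B₂ w₀) (k (x ⊗ₜ w₂)) = S x) : A * S ∈ AL X h.w₂ := by
  obtain ⟨k₁, a1, a2, a3⟩ := (hA u u0 hu w₀ h0).pure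
  have := h.mem_AL u0 hu (θ := (curry (A ∘ₗ ct (B₂ w₀) ∘ₗ k.toLinearMap)).flip)
    ⟨k⁻¹ * k₁ * k, mul_mem (mul_mem (inv_mem hk) a1) hk,
      fun x => k.injective (by simp [apply_inv_apply, e, a2]), fun x w hw => k.injective (by
        simp [apply_inv_apply, e, a3 _ (show ct (B₂ u) (k (x ⊗ₜ w)) = 0 by
          simp [h.ct_eq (h.isom hk) e, hw])])⟩ h2
  convert this using 1
  ext x
  simp [hS]

theorem mul_mem_of_un {u : V₂} (u0 : u ≠ 0) (hu : Q₂ u = Q₂ 0) {A s : End F V₁}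
    (hA : A ∈ AL X h.w₂) (hs : Un X (map s (nU B₂ u))) : A * s ∈ AL X h.w₂ := by
  have hW := h.w₂
  obtain ⟨u', a1, a2, a3⟩ := h.idx u u0 hu
  have a4 : u ∉ F ∙ u' := fun e => by
    obtain ⟨c, rfl⟩ := Submodule.mem_span_singleton.1 e
    exact a3 ((Submodule.smul_mem_iff _ (left_ne_zero_of_smul u0)).1
      (Submodule.mem_span_singleton_self _))
  obtain ⟨w, a5, a6⟩ := hW.exists_dual_vec a4
  have a7 := a6 u' (Submodule.mem_span_singleton_self _)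
  have a8 : B₂ w u ≠ 0 := mt hW.refl (by simp [a5])
  have := h.mul_mem_AL (u := u') (by rintro rfl; exact a3 (zero_mem _)) a1 a7 a7 hs.unip_mem
    (fun x => by simp [unip_apply, a2]) hA (S := B₂ w w • 1 + B₂ w u • s)
    fun x => by simp [unip_apply, a5]
  rw [mul_add, mul_smul_comm, mul_smul_comm, mul_one] at this
  exact (Submodule.smul_mem_iff _ a8).1 ((add_mem_cancel_left (Submodule.smul_mem _ _ hA)).1 this)

theorem mem_of_un {u : V₂} (u0 : u ≠ 0) (hu : Q₂ u = Q₂ 0) {s : End F V₁}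
    (hs : Un X (map s (nU B₂ u))) : s ∈ AL X h.w₂ := by
  simpa using h.mul_mem_of_un u0 hu h.one_mem_AL hs

theorem mul_mem_of_five (h5 : 5 ≤ finrank F V₂) {A C : End F V₁} (hA : A ∈ AL X h.w₂)
    (hC : C ∈ AL X h.w₂) : A * C ∈ AL X h.w₂ := by
  have hW := h.w₂
  obtain ⟨u, u0, hu⟩ := h.ex
  obtain ⟨u', a1, a2, a3⟩ := h.idx u u0 hu
  obtain ⟨w, a5, a6⟩ := hW.exists_dual_vec a3
  have a7 := a6 u (Submodule.mem_span_singleton_self _)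
  have a8 : B₂ w u' ≠ 0 := mt hW.refl (by simp [a5])
  obtain ⟨r, b1, b2, b3⟩ := hW.exists_perp_notMem h5 u u'
  obtain ⟨r', b4, b5⟩ := hW.exists_dual_vec b3
  obtain ⟨k, c1, -, c3⟩ := hC u' (by rintro rfl; exact a3 (zero_mem _)) a1 r b2
  have := h.mul_mem_AL u0 hu a7 (b5 u (Submodule.subset_span (by simp))) c1
    (fun x => by simp [c3 x u (hW.refl a2), hW.refl b1]) hA (S := B₂ w r' • 1 + B₂ w u' • C)
    fun x => by simp [c3 x r' (b5 u' (Submodule.subset_span (by simp))), b4]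
  rw [mul_add, mul_smul_comm, mul_smul_comm, mul_one] at this
  exact (Submodule.smul_mem_iff _ a8).1 ((add_mem_cancel_left (Submodule.smul_mem _ _ hA)).1 this)

theorem un_comm {ε : F} (hε : ∀ x y, σ (B₂ y x) = ε * B₂ x y) {u : V₂} (u0 : u ≠ 0)
    (hu : Q₂ u = Q₂ 0) {A A' C C' : End F V₁} (hA : A ∈ AL X h.w₂) (hC : C ∈ AL X h.w₂)
    (eA : ∀ x y, B₁ (A x) y = B₁ x (A' y)) (eC : ∀ x y, B₁ (C x) y = B₁ x (C' y)) :
    Un X (map (A * C' - ε • (C * A')) (nU B₂ u)) := by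
  obtain ⟨f, qf, hf⟩ := h.w₂.exists_hyperbolic u0 hu
  obtain ⟨w, w', a1, -, a2, -, a3⟩ := h.w₂.exists_perp_pair h.three hu qf (by simp [hf])
  simpa [a3] using h.rt_comm u0 hu (hC u u0 hu w a1) (hA u u0 hu w' a2) a2 (w₁ := ε • w')
    (by simp [a2]) (fun _ _ => rfl) (fun r _ => by simp [hε]) eA (C := C') (by simpa [a3] using eC)

theorem AL_ne_top : AL X h.w₂ ≠ ⊤ := fun hT => by
  have hW := h.w₂
  have hV := h.pol.witt
  obtain ⟨ε, ε0, hε⟩ := hW.exists_eps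
  obtain ⟨δ, δ0, hδ⟩ := h.w₁.exists_eps
  have H1 : ∀ u, u ≠ 0 → Q₂ u = Q₂ 0 → ∀ x y, RD B Q X (x ⊗ₜ u) (y ⊗ₜ u) := fun u u0 hu x y => by
    have hu' := hW.self_eq_zero hu
    obtain ⟨y₁, hy⟩ : ∃ y₁, ∀ a, σ (B₁ y₁ a) = -ε⁻¹ * B₁ a y :=
      ⟨-(ε * δ)⁻¹ • y, fun a => by rw [hδ, map_smul, smul_eq_mul]; field_simp⟩
    obtain ⟨-, k, a1, a3⟩ := h.un_comm hε u0 hu (A := (B₁ y₁).smulRight x)
      (A' := (B₁ x).smulRight (-ε⁻¹ • y)) (C := 1) (C' := 1) (hT.ge trivial) h.one_mem_AL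
      (fun a b => by simp [hy]; ring) fun _ _ => rfl
    have a2 : ∀ v, k v = v + B (x ⊗ₜ u) v • y ⊗ₜ u + B₁ y₁ (ct (B₂ u) v) • x ⊗ₜ u := fun v => by
      rw [← k.coe_coe, a3, LinearMap.add_apply, map_nU, h.eq_ct, add_assoc]
      simp [smul_smul, mul_comm _ ε⁻¹, ε0, add_tmul, smul_tmul', add_comm]
    refine ⟨k, a1, ⟨h.pol.le (h.le a1), by simp [a2, h.eq, hu'], fun v hv => ?_,
      fun _ => trivial⟩, fun v hv => ?_⟩ <;>
    exact Submodule.mem_span_singleton.2 ⟨_, by rw [a2, hv]; module⟩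
  have H2 : ∀ u, u ≠ 0 → Q₂ u = Q₂ 0 → ∀ x v, ct (B₂ u) v = 0 → RD B Q X (x ⊗ₜ u) v :=
    fun u u0 hu x v hv => by
    have H : ∀ s, Q₂ s = Q₂ 0 → B₂ u s = 0 → s ∉ F ∙ u → ∀ z, RD B Q X (x ⊗ₜ u) (z ⊗ₜ s) :=
      fun s hs e hn z => by
      obtain ⟨y, hy⟩ := exists_notMem_line h.two x
      obtain ⟨l, a1, a2⟩ := exists_dual_sep hy
      have s0 : s ≠ 0 := by rintro rfl; exact hn (zero_mem _)
      obtain ⟨w, a3, a4⟩ := hW.exists_dual_vec (x := u) (Z := F ∙ s) fun e => by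
        obtain ⟨c, rfl⟩ := Submodule.mem_span_singleton.1 e
        exact hn ((Submodule.smul_mem_iff _ (left_ne_zero_of_smul u0)).1
          (Submodule.mem_span_singleton_self _))
      have a5 : B₂ w u ≠ 0 := mt hW.refl (by simp [a3])
      obtain ⟨k, b1, -, b3⟩ := (hT.ge trivial : l.smulRight ((B₂ w u)⁻¹ • z) ∈ AL X hW) s s0 hs w
        (a4 s (Submodule.mem_span_singleton_self _))
      simpa [b3 y u (hW.refl e), a2, smul_smul, a5] using (H1 u u0 hu x y).move (h.pol.le (h.le b1)) b1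
        (by simp [b3 x u (hW.refl e), a1])
    obtain ⟨s, hs, e, hn⟩ := h.idx u u0 hu
    simpa using mem_of_ct_eq_zero (S := RS B Q X (x ⊗ₜ u)) (fun y w hw c => by
      rw [smul_tmul']
      exact hW.perp_ind hu hs e hn (P := fun w => RD B Q X (x ⊗ₜ u) ((c • y) ⊗ₜ w))
        (fun a b ha hb => by simpa [tmul_add] using ha.add hb)
        (fun c => by simpa only [← smul_tmul] using H s hs e hn _)
        (fun t b1 b2 b3 => H t b1 b2 (fun e' => by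
          obtain ⟨c, rfl⟩ := Submodule.mem_span_singleton.1 e'
          simp [hW.refl e] at b3) _) hw) hv 1
  obtain ⟨x₀, y₀, e₀⟩ := h.exists_one
  have H3 : ∀ u f, Q₂ u = Q₂ 0 → Q₂ f = Q₂ 0 → B₂ u f ≠ 0 → ∀ x y, B₁ x y ≠ 0 →
      Rad B Q (x ⊗ₜ u) ⊤ ≤ X := fun u f hu hf e x y e' => by
    have u0 : u ≠ 0 := by rintro rfl; simp at e
    have f0 : f ≠ 0 := by rintro rfl; simp at e
    obtain ⟨w, w', a1, a2, a3, a4, a5⟩ := hW.exists_perp_pair h.three hu hf e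
    refine hV.Rad_le_of_RD h.com (fun e1 => by simpa [e1, e, e'] using h.eq x y u f)
      (h.sing x u (.inr hu)) (fun v hv => ?_) (w := x₀ ⊗ₜ w) (w' := y₀ ⊗ₜ w') (by simp [h.eq, a1])
      (by simp [h.eq, a3]) (by simp [h.eq, e₀, a5])
    rw [h.eq_ct] at hv
    have b1 := H2 u u0 hu x (v - ((B₂ u f)⁻¹ • ct (B₂ u) v) ⊗ₜ f) (by simp [smul_smul, e])
    suffices ∀ z, B₁ x z = 0 → RD B Q X (x ⊗ₜ u) (z ⊗ₜ f) by
      simpa using b1.add (this ((B₂ u f)⁻¹ • ct (B₂ u) v) (by simp [hv]))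
    intro z hz
    by_cases z0 : z = 0
    · simpa [z0] using RD.zero
    obtain ⟨k, c1, c2, c3⟩ := H2 f f0 hf z (x₀ ⊗ₜ w) (by simp [a2])
    have c4 := h.sing z f (.inr hf)
    obtain ⟨g, -, c5⟩ := hV.exists_hyperbolic (x := z ⊗ₜ f)
      (fun e => z0 (tmul_left_inj f0 (by simpa using e))) c4
    have c6 : B g (z ⊗ₜ f) ≠ 0 := mt hV.refl (by simp [c5])
    obtain ⟨l, c7, c8⟩ := hV.Rad_perp_eq c4 c2 (c3 g c5) (x := x ⊗ₜ u) (by simp [h.eq, h.w₁.refl hz])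
    obtain ⟨l', d1, d2⟩ := hV.Rad_perp_eq c4 c2 (c3 g c5)
      (x := (-B g (z ⊗ₜ f) • y₀) ⊗ₜ w') (by simp [h.eq, a4])
    simp only [h.eq, hW.refl a1, mul_zero, neg_zero, mul_eq_zero, c6, or_false] at c8
    replace d2 : l' = 1 := mul_right_cancel₀ c6 (by simpa [h.eq, e₀, a5] using d2)
    simpa only [d1, d2, one_smul, add_sub_cancel_left] using
      (H2 u u0 hu x ((-B g (z ⊗ₜ f) • y₀) ⊗ₜ w') (by simp [a3])).move c2.1 c1 (by simp [c7, c8])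
  obtain ⟨u, u0, hu⟩ := h.ex
  obtain ⟨f, hf, e⟩ := hW.exists_hyperbolic u0 hu
  exact h.ne (h.pol.le_of_pair (h.sing x₀ u (.inr hu)) (h.sing y₀ f (.inr hf)) (by simp [h.eq, e, e₀])
    (H3 u f hu hf (by simp [e]) x₀ y₀ (by simp [e₀]))
    (H3 f u hf hu (mt hW.refl (by simp [e])) y₀ x₀ (mt h.w₁.refl (by simp [e₀]))))

theorem stab_of_AL (hA : ∀ A ∈ AL X h.w₂, ∃ c : F, A = c • 1) {u₁ u₂ : V₂} (h1 : u₁ ≠ 0)
    (q1 : Q₂ u₁ = Q₂ 0) (q2 : Q₂ u₂ = Q₂ 0) {g : V₁ ⊗[F] V₂ ≃ₗ[F] V₁ ⊗[F] V₂} (hg : g ∈ X)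
    (e : ∀ x, g (x ⊗ₜ u₁) ∈ LinearMap.range (tr u₂)) : g ∈ TenG F V₁ V₂ :=
  h.stab' h1 q1 (fun _ hs => hA _ (h.mem_of_un h1 q1 hs))
    (fun _ hθ _ hw => hA _ (h.mem_AL h1 q1 hθ hw)) h1 (by
      rintro rfl
      obtain ⟨x, y, e'⟩ := h.exists_one
      obtain ⟨z, hz⟩ := e x
      rw [tr_apply, tmul_zero, eq_comm, map_eq_zero_iff _ g.injective, ← zero_tmul V₁ u₁] at hz
      simp [tmul_left_inj h1 hz] at e') q1 q2 hg e

end TQ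

end CF.MaxSub
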