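/-
Subspaces of the endomorphism algebra invariant under a classical group.
-/
import Cfsg.Agent.MaxSub.TD

set_option autoImplicit false

namespace CF.MaxSub

open Module Geom QuadraticMap

variable {F V : Type*} [Field F] [AddCommGroup V] [Module F V] {σ : F →+* F}
  [FiniteDimensional F V]

section Witt

variable {B : V →ₛₗ[σ] V →ₗ[F] F} {Q : V → F} (h : IsWittPair σ B Q) {S : Submodule F (End F V)}
include h

theorem all_ind {s : V} (s0 : s ≠ 0) (hs : Q s = Q 0) {P : V → Prop}
    (hadd : ∀ a b, P a → P b → P (a + b)) (h1 : ∀ c : F, P (c • s))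
    (h2 : ∀ t, Q t = Q 0 → B s t ≠ 0 → P t) (w : V) : P w :=
  h.perp_ind (u := 0) rfl hs (by simp) (by simpa) hadd h1 (fun t a _ => h2 t a) (by simp)

theorem scalar_of_eigen (h3 : 3 ≤ finrank F V) {t : F} (t0 : t ≠ 0) (t1 : t ≠ 1) {x : V}
    (x0 : x ≠ 0) (hx : Q x = Q 0) {A : End F V} (hA : ∀ x, Q x = Q 0 → A x ∈ F ∙ x) :
    ∃ c : F, A = c • 1 := by
  have H : ∀ x f, Q x = Q 0 → Q f = Q 0 → B x f ≠ 0 → ∀ α β : F, A x = α • x → A f = β • f →
      ∀ r r', B x r = 0 → B f r = 0 → B x r' = 0 → B f r' = 0 → B r' r ≠ 0 →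
      ∃ c : F, A r = β • r + (c * (β - α)) • x := fun x f hx hf e α β a1 a2 r r' b1 b2 b3 b4 b5 => by
    have K : ∀ t : F, ∃ c γ : F, t • A r = (γ - β) • f + (γ * t) • r + (c * (γ - α)) • x := fun t => by
      obtain ⟨c, hc⟩ := h.slide x 0 (f + t • r) hx (by simpa [b1])
      obtain ⟨γ, hγ⟩ := Submodule.mem_span_singleton.1 (hA _ hc)
      simp only [map_add, map_smul, a1, a2] at hγ
      exact ⟨c, γ, by linear_combination (norm := module) -hγ⟩
    obtain ⟨c, γ, e1⟩ := K 1
    obtain ⟨c', γ', e2⟩ := K t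
    have e3 := congrArg (B r') e1
    have e4 := congrArg (B r') e2
    have e5 := congrArg (B x) e1
    have e6 := congrArg (B x) e2
    simp only [map_add, map_smul, smul_eq_mul, h.refl b3, h.refl b4, b1, h.self_eq_zero hx] at e3 e4 e5 e6
    have e7 : γ' = γ := mul_right_cancel₀ (mul_ne_zero t0 b5) (by linear_combination t * e3 - e4)
    have e8 : γ = β := mul_right_cancel₀ (mul_ne_zero (sub_ne_zero.2 t1) e)
      (by linear_combination e6 - t * e5 + B x f * e7)
    exact ⟨c, by simpa [e8] using e1⟩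
  obtain ⟨f, hf, e⟩ := h.exists_hyperbolic x0 hx
  have e' : B f x ≠ 0 := mt h.refl (by simp [e])
  obtain ⟨α, a1⟩ := Submodule.mem_span_singleton.1 (hA x hx)
  obtain ⟨β, a2⟩ := Submodule.mem_span_singleton.1 (hA f hf)
  obtain ⟨r', r, b3, b4, b1, b2, b5⟩ := h.exists_perp_pair h3 hx hf (by simp [e])
  have e1 : β = α := by
    obtain ⟨c, e1⟩ := H x f hx hf (by simp [e]) α β a1.symm a2.symm r r' b1 b2 b3 b4 (by simp [b5])
    obtain ⟨c', e2⟩ := H f x hf hx e' β α a2.symm a1.symm r r' b2 b1 b4 b3 (by simp [b5])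
    simpa [h.refl b3, h.refl b4, b5] using congrArg (B r') (e1.symm.trans e2)
  subst e1
  have K : ∀ s, B x s = 0 → B f s = 0 → B r' s ≠ 0 → A s = β • s := fun s c1 c2 c3 => by
    obtain ⟨c, e1⟩ := H x f hx hf (by simp [e]) β β a1.symm a2.symm s r' c1 c2 b3 b4 c3
    simpa using e1
  have K' : ∀ s, B x s = 0 → B f s = 0 → A s = β • s := fun s c1 c2 => by
    by_cases c3 : B r' s = 0
    · simpa [K r b1 b2 (by simp [b5])] using K (s + r) (by simp [c1, b1]) (by simp [c2, b2])
        (by simp [c3, b5])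
    exact K s c1 c2 c3
  refine ⟨β, LinearMap.ext fun v => ?_⟩
  have := K' (v - B x v • f - ((B f x)⁻¹ * B f v) • x) (by simp [e, h.self_eq_zero hx])
    (by simp [h.self_eq_zero hf]; field_simp; ring)
  simp only [map_sub, map_smul, ← a1, ← a2] at this
  change A v = β • v
  linear_combination (norm := module) this

theorem scalar_of_nU (hT : S ≠ ⊤)
    (hm : ∀ x y, Q x = Q 0 → Q y = Q 0 → nU B x ∈ S → nU B y ∈ S → nU B x * nU B y ∈ S)
    (hn : ∀ x, Q x = Q 0 → ∀ A ∈ S, A x ∉ F ∙ x → nU B x ∈ S)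
    (he : ∀ A : End F V, (∀ x, Q x = Q 0 → A x ∈ F ∙ x) → ∃ c : F, A = c • 1) {A : End F V}
    (hA : A ∈ S) : ∃ c : F, A = c • 1 := by
  refine he A fun x hx => by_contra fun e => hT ?_
  have x0 : x ≠ 0 := by rintro rfl; simp at e
  have H : ∀ x y, Q x = Q 0 → Q y = Q 0 → B x y ≠ 0 → nU B x ∈ S → nU B y ∈ S :=
    fun x y hx hy e h1 => hn y hy _ h1 fun e' => by
      obtain ⟨c, hc⟩ := Submodule.mem_span_singleton.1 e'
      have := congrArg (B y) hc
      simp [h.self_eq_zero hy, e, show B y x ≠ 0 from mt h.refl e] at this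
  have H1 := hn x hx A hA e
  have H2 : ∀ y, Q y = Q 0 → nU B y ∈ S := fun y hy => by
    by_cases y0 : y = 0
    · simpa [y0, nU] using S.zero_mem
    by_cases e : B x y = 0
    · obtain ⟨z, a1, a2, a3⟩ := h.exists_common_partner x0 y0 hx hy e
      exact H z y a1 hy (mt h.refl a3) (H x z hx a1 a2 H1)
    exact H x y hx hy e H1
  have H3 : ∀ y, y ≠ 0 → Q y = Q 0 → ∀ w, (B w).smulRight y ∈ S := fun y y0 hy =>
    all_ind h y0 hy (fun a b ha hb => by convert add_mem ha hb using 1; ext; simp [add_smul])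
      (fun c => by convert S.smul_mem (σ c) (H2 y hy) using 1; ext; simp [smul_smul])
      fun t ht e => by
        convert S.smul_mem (B y t)⁻¹ (hm y t hy ht (H2 y hy) (H2 t ht)) using 1
        ext; simp [smul_smul]; congr 1; field_simp
  have H4 : ∀ (φ : Dual F V) y, φ.smulRight y ∈ S := fun φ y => by
    obtain ⟨w, rfl⟩ := exists_repr_dual h.surj B h.nondeg φ
    exact all_ind h x0 hx (P := fun y => (B w).smulRight y ∈ S)
      (fun a b ha hb => by convert add_mem ha hb using 1; ext; simp)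
      (fun c => by convert S.smul_mem c (H3 x x0 hx w) using 1; ext; simp [smul_smul, mul_comm])
      (fun t ht e => H3 t (by rintro rfl; simp at e) ht w) y
  refine eq_top_iff.2 fun C _ => ?_
  let b := Module.finBasis F V
  convert S.sum_mem (t := Finset.univ) fun i _ => H4 (b.coord i) (C (b i)) using 1
  refine b.ext fun j => ?_
  simp [Finsupp.single_apply]

theorem nU_mem_tv (hq : ∀ w, B w w = 0 → Q w = Q 0)
    (hS : ∀ x, Q x = Q 0 → ∀ g ∈ Rad B Q x ⊤, ∀ A ∈ S, ∀ A' : End F V,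
      (∀ v, A' (g v) = g (A v)) → A' ∈ S) (hm : ∀ A ∈ S, ∀ C ∈ S, A * C ∈ S)
    {T : F → Prop} (hT : ∀ c, T c → ∀ s, Q s = Q 0 → ∃ t ∈ Rad B Q s ⊤, ∀ v, t v = v + (c * B s v) • s)
    {c : F} (c0 : c ≠ 0) (hc : T c)
    (h3 : 3 ≤ finrank F V ∨ finrank F V = 2 ∧ ∃ c', c' ≠ 0 ∧ c' ≠ c ∧ T c')
    {x : V} (hx : Q x = Q 0) {A : End F V} (hA : A ∈ S) (e : A x ∉ F ∙ x) : nU B x ∈ S := by
  have x0 : x ≠ 0 := by rintro rfl; simp at e
  have hx' := h.self_eq_zero hx
  by_contra hn
  have Hn : ∀ C ∈ S, ∀ (g : V ≃ₗ[F] V) (κ : F), (∀ v, C (g v) = (κ * B x (g v)) • x) → κ = 0 :=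
    fun C hC g κ e => by_contra fun κ0 => hn (by
      convert S.smul_mem κ⁻¹ hC using 1
      ext v
      obtain ⟨v, rfl⟩ := g.surjective v
      simp [e, smul_smul, κ0])
  have Hδ : ∀ c, T c → c • (nU B x * A - A * nU B x) - (c ^ 2 * B x (A x)) • nU B x ∈ S :=
    fun c hc => by
    obtain ⟨t, a1, a2⟩ := hT c hc x hx
    convert sub_mem (hS x hx t a1 A hA ((1 + c • nU B x) * A * (1 - c • nU B x)) fun v => by
      simp [a2, hx']; module) hA using 1
    ext v
    simp
    module
  obtain ⟨f, hf, e1⟩ := h.exists_hyperbolic x0 hx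
  have e2 : B f x ≠ 0 := mt h.refl (by simp [e1])
  obtain h3 | ⟨h2, c', a1, a2, a3⟩ := h3
  swap
  · have a4 := Hn _ (sub_mem (S.smul_mem c' (Hδ c hc)) (S.smul_mem c (Hδ c' a3))) 1
      (c * c' * (c' - c) * B x (A x)) fun v => by simp; module
    simp only [mul_eq_zero, c0, a1, sub_eq_zero, a2, false_or] at a4
    have a5 := h.finrank_perp (F ∙ x)
    rw [finrank_span_singleton x0] at a5
    exact e ((Submodule.eq_of_le_of_finrank_eq (S₁ := F ∙ x) (S₂ := perp B (F ∙ x))
      ((Submodule.span_singleton_le_iff_mem _ _).2 (mem_perp_singleton.2 hx'))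
      (by rw [finrank_span_singleton x0]; omega)).ge (mem_perp_singleton.2 a4))
  obtain ⟨δ, d1, ψ, y, d2, d3, d4⟩ : ∃ δ ∈ S, ∃ (ψ : Dual F V) (y : V), y ∉ F ∙ x ∧ ψ x = B x y ∧
      ∀ v, δ v = ψ v • x - B x v • y := ⟨_, Hδ c hc, c • B x ∘ₗ A - (c ^ 2 * B x (A x)) • B x, c • A x,
    by rwa [Submodule.smul_mem_iff _ c0], by simp [hx'], fun v => by simp; module⟩
  have Hρ : ∀ r, B x r = 0 → ∃ ε ∈ S, ∃ (ρ : V ≃ₗ[F] V) (l : Dual F V), (∀ v, B x (ρ v) = B x v) ∧
      (∀ w, B x w = 0 → ρ w = w + l w • x ∧ l w * B f x = -B r w) ∧ ∀ v, ε (ρ v) =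
        -(B x v * B x y) • r - (B x v * (l y + ψ r) + B x y * l v) • x := fun r hr => by
    obtain ⟨ρ, a1, d, a2⟩ := h.exists_Rad_add hx (A := ⊤) trivial (y := f) (by simp [e1]) hr trivial
    have a3 : ρ f - f - r ∈ F ∙ x := Submodule.mem_span_singleton.2 ⟨d, by rw [a2]; abel⟩
    let l : Dual F V := (B f x)⁻¹ • B f ∘ₗ (ρ.toLinearMap - 1 - (B x).smulRight r)
    have a4 : ∀ v, ρ v = v + B x v • r + l v • x := fun v => by
      obtain ⟨l', a4⟩ := Rad_disp_eq a1 e1 a3 v
      simp [l, a4, add_sub_right_comm, add_assoc, mul_comm l', e2]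
    refine ⟨_, sub_mem (hS x hx ρ a1 δ d1 (ρ.conj δ) fun v => by simp) d1, ρ, l, RD.apply_eq a1,
      fun w hw => ⟨by simp [a4, hw], ?_⟩, fun v => ?_⟩
    · obtain ⟨l', b1, b2⟩ := h.Rad_perp_eq hx a1 a3 hw
      rwa [smul_left_injective F x0 (show l w • x = l' • x by simpa [a4, hw] using b1)]
    · have b1 : l x = 0 := by simpa [a4, hx', x0] using a1.2.1
      simp only [LinearMap.sub_apply, LinearEquiv.conj_apply_apply, LinearEquiv.symm_apply_apply]
      simp only [d4, a4, map_add, map_sub, map_smul, hr, hx', b1, d3, smul_eq_mul]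
      module
  by_cases hl : B x y = 0
  · have H : ∀ r, B x r = 0 → ψ r * B f x = B r y := fun r hr => by
      obtain ⟨ε, a1, ρ, l, a2, a3, a4⟩ := Hρ r hr
      linear_combination (-B f x) * Hn ε a1 ρ (-(l y + ψ r)) (fun v => by
        rw [a4, a2, hl]; module) - (a3 y hl).2
    have a1 : ψ y = 0 := neg_eq_zero.1 (Hn _ (hm δ d1 δ d1) 1 _ fun v => by
      simp [d4, d3, hl, hx', smul_smul, mul_comm])
    obtain ⟨s, a2, a3, a4⟩ := h.exists_partner d2 (hq y (by simp [← H y hl, a1])) fun z hz => by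
      obtain ⟨c, rfl⟩ := Submodule.mem_span_singleton.1 hz
      simp [hl]
    have a5 := a4 x (Submodule.mem_span_singleton_self x)
    have a6 : B s y ≠ 0 := mt h.refl (by simp [a3])
    obtain ⟨t, b1, b2⟩ := hT c hc s a2
    have b3 := Hn _ (hm δ d1 _ (hS s a2 t b1 δ d1 (t.conj δ) fun v => by simp)) t
      (-(c * B s y * ψ s)) fun v => by
        simp only [End.mul_apply, LinearEquiv.conj_apply_apply, LinearEquiv.symm_apply_apply]
        simp only [d4, b2, map_add, map_sub, map_smul, hl, hx', d3, smul_eq_mul, a1, a5, h.refl a5]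
        module
    have b4 := H s a5
    simp only [neg_eq_zero, mul_eq_zero, c0, a6, false_or] at b3
    exact a6 (by rw [← b4, b3, zero_mul])
  obtain ⟨r, r', a1, -, a2, -, a3⟩ := h.exists_perp_pair h3 hx hf (by simp [e1])
  obtain ⟨ε, b1, ρ, l, b2, b3, b4⟩ := Hρ r a1
  obtain ⟨ε', c1, ρ', l', c2, -, c4⟩ := Hρ r' a2
  have b5 : ε x = 0 := by
    have := b3 x hx'
    rw [h.refl a1, neg_zero, mul_eq_zero, or_iff_left e2] at this
    simpa [this.1, this.2, hx'] using b4 x
  have b6 : ε r' = -(B x y * l r') • x := by simpa [(b3 r' a2).1, b5, a2] using b4 r'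
  have b7 := Hn _ (hm ε b1 ε' c1) ρ' (B x y ^ 2 * l r') fun v => by
    simp only [End.mul_apply, c4, c2, map_sub, map_smul, b5, b6]
    module
  simpa [(mul_eq_zero.1 b7).resolve_left (pow_ne_zero 2 hl), a3] using (b3 r' a2).2

end Witt

section Orth

variable {Q : QuadraticForm F V} {S : Submodule F (End F V)}

/-- `v ↦ β(x, v) w - β(w, v) x`. -/
def wedge (Q : QuadraticForm F V) (x : V) : V →ₗ[F] End F V :=
  LinearMap.smulRightₗ (polarBilin Q x) - (LinearMap.smulRightₗ.flip x) ∘ₗ polarBilin Q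

omit [FiniteDimensional F V] in
@[simp] theorem wedge_apply (x w v : V) :
    wedge Q x w v = polar Q x v • w - polar Q w v • x := rfl

theorem nU_mem_orth (hQ : (polarBilin Q).Nondegenerate) (h2 : (2 : F) ≠ 0) (h3 : 3 ≤ finrank F V)
    (h4 : 4 ≤ finrank F V ∨ ∃ t : F, t ≠ 0 ∧ t ^ 2 ≠ 1) {K : Subgroup (V ≃ₗ[F] V)} (hK : K ≤ OG Q)
    (hE : ∀ x w (hx : Q x = 0) (hw : polar Q x w = 0), (eichler hx hw).1 ∈ K)
    (hK' : ∀ x y, x ≠ 0 → Q x = 0 → Q y = 0 → polar Q x y = 0 → y ∉ F ∙ x →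
      ∃ g ∈ K, g x = x ∧ polar Q y (g y) ≠ 0)
    (hS : ∀ g ∈ K, ∀ A ∈ S, ∀ A' : End F V, (∀ v, A' (g v) = g (A v)) → A' ∈ S)
    (hP : ∀ A ∈ S, ∀ C ∈ S, ∀ A' C' : End F V, (∀ x y, polar Q (A x) y = polar Q x (A' y)) →
      (∀ x y, polar Q (C x) y = polar Q x (C' y)) → A * C' + C * A' ∈ S)
    {x : V} (hx : Q x = 0) {A : End F V} (hA : A ∈ S) (e : A x ∉ F ∙ x) :
    nU (polarBilin Q) x ∈ S := by
  have hW := isWittPair_quad Q hQ
  have x0 : x ≠ 0 := by rintro rfl; simp at e
  have hx' : polar Q x x = 0 := by simp [polar_self', hx]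
  by_contra hn
  set n := nU (polarBilin Q) x with en
  have n1 : ∀ v, n v = polar Q x v • x := fun _ => rfl
  set N := wedge Q x with eN
  have N1 : ∀ w v, N w v = polar Q x v • w - polar Q w v • x := fun _ _ => rfl
  clear_value n N
  have Hn : ∀ C ∈ S, ∀ κ : F, (∀ v, C v = (κ * polar Q x v) • x) → κ = 0 :=
    fun C hC κ e => by_contra fun κ0 => hn (by
      convert S.smul_mem κ⁻¹ hC using 1
      ext v
      simp [e, n1, smul_smul, κ0])
  have Hc : ∀ w, polar Q x w = 0 → (1 + N w - Q w • n) * A * (1 - N w - Q w • n) ∈ S :=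
    fun w hw => hS _ (hE x w hx hw) A hA _ fun v => by
      have : (1 - N w - Q w • n) ((eichler hx hw).1 v) = v := by
        simp [eichler_apply, N1, n1, hw, hx', polar_comm Q w x, polar_self']
        module
      rw [End.mul_apply, this]
      simp [eichler_apply, N1, n1, smul_smul]
      abel
  have Hev : ∀ w, polar Q x w = 0 →
      N w * A * N w + Q w • (n * A + A * n) - Q w ^ 2 • (n * A * n) ∈ S := fun w hw => by
    convert S.smul_mem (2 : F)⁻¹ (sub_mem (S.smul_mem 2 hA)
      (add_mem (Hc w hw) (Hc (-w) (by simp [hw])))) using 1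
    refine smul_right_injective _ h2 ?_
    simp only [smul_smul, mul_inv_cancel₀ h2, one_smul, map_neg, QuadraticMap.map_neg, mul_add,
      add_mul, mul_sub, sub_mul, smul_mul_assoc, mul_smul_comm, one_mul, mul_one, neg_mul, mul_neg]
    module
  have Hod : ∀ w, polar Q x w = 0 →
      N w * A - A * N w + Q w • (n * A * N w - N w * A * n) ∈ S := fun w hw => by
    convert S.smul_mem (2 : F)⁻¹ (sub_mem (Hc w hw) (Hc (-w) (by simp [hw]))) using 1
    refine smul_right_injective _ h2 ?_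
    simp only [smul_smul, mul_inv_cancel₀ h2, one_smul, map_neg, QuadraticMap.map_neg, mul_add,
      add_mul, mul_sub, sub_mul, smul_mul_assoc, mul_smul_comm, one_mul, mul_one, neg_mul, mul_neg]
    module
  obtain ⟨f, hf, e1⟩ := hW.exists_hyperbolic x0 (by simpa using hx)
  rw [polarBilin_apply_apply] at e1
  have H : ∀ w, polar Q x w = 0 → Q w ≠ 0 → n * A * n ∈ S ∧ n * A * N w - N w * A * n ∈ S :=
    fun w hw qw => by
    obtain h4 | ⟨t, t0, t1⟩ := h4
    · obtain ⟨w', b1, b2, b3⟩ : ∃ w', Q w' ≠ 0 ∧ polar Q x w' = 0 ∧ polar Q w w' = 0 := by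
        by_contra! hc
        have a4 := hW.finrank_perp (Submodule.span F {x, w})
        have a5 := IsWittPair.finrank_span_pair_le (F := F) x w
        obtain ⟨r, a6, a7⟩ := Geom.exists_notMem_of_finrank_lt (show finrank F (F ∙ x) <
          finrank F (perp (polarBilin Q) (Submodule.span F {x, w})) by
            rw [finrank_span_singleton x0]; omega)
        have a8 : r ∉ Submodule.span F {x, w} := fun e => by
          obtain ⟨a, b, rfl⟩ := Submodule.mem_span_pair.1 e
          have := (mem_perp_pair.1 a6).2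
          simp [polar_comm Q w x, hw, polar_self', h2, qw] at this
          exact a7 (by simpa [this] using Submodule.smul_mem _ a (Submodule.mem_span_singleton_self x))
        obtain ⟨s, b1, b2⟩ := hW.exists_dual_vec a8
        have b3 := b2 x (Submodule.subset_span (by simp))
        have b4 := b2 w (Submodule.subset_span (by simp))
        obtain ⟨b5, b6⟩ := mem_perp_pair.1 a6
        rw [polarBilin_apply_apply] at b1 b3 b4 b5 b6
        have b7 := not_not.1 fun e => hc r e b5 b6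
        have b8 := not_not.1 fun e => hc s e b3 b4
        have b9 := not_not.1 fun e => hc (r + s) e (by simp [b3, b5]) (by simp [b4, b6])
        simp [quad_add, b7, b8, b1] at b9
      have c1 : Q (w + w') = Q w + Q w' := by simp [quad_add, b3]
      have c2 : Q (w - w') = Q w + Q w' := by simp [quad_sub, b3]
      have d1 : polar Q x (w + w') = 0 := by simp [hw, b2]
      have d2 : polar Q x (w - w') = 0 := by simp [hw, b2]
      refine ⟨(S.smul_mem_iff (mul_ne_zero (mul_ne_zero h2 h2) (mul_ne_zero qw b1))).1 ?_,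
        (S.smul_mem_iff (mul_ne_zero h2 b1)).1 ?_⟩
      · convert sub_mem (S.smul_mem 2 (add_mem (Hev w hw) (Hev w' b2)))
          (add_mem (Hev _ d1) (Hev _ d2)) using 1
        simp only [c1, c2, map_add, map_sub, mul_add, add_mul, mul_sub, sub_mul]
        module
      · convert sub_mem (add_mem (Hod _ d1) (Hod _ d2)) (S.smul_mem 2 (Hod w hw)) using 1
        simp only [c1, c2, map_add, map_sub, mul_add, add_mul, mul_sub, sub_mul]
        module
    · have d1 : polar Q x (t • w) = 0 := by simp [hw]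
      have d2 := mul_ne_zero (mul_ne_zero t0 (sub_ne_zero.2 t1)) qw
      refine ⟨(S.smul_mem_iff (mul_ne_zero (mul_ne_zero t0 qw) d2)).1 ?_, (S.smul_mem_iff d2).1 ?_⟩
      · convert sub_mem (S.smul_mem (t ^ 2) (Hev w hw)) (Hev _ d1) using 1
        simp only [quad_smul, map_smul, smul_mul_assoc, mul_smul_comm]
        module
      · convert sub_mem (Hod _ d1) (S.smul_mem t (Hod w hw)) using 1
        simp only [quad_smul, map_smul, smul_mul_assoc, mul_smul_comm]
        module
  obtain ⟨w, qw, hw, -⟩ := exists_nonsingular_perp_hyp hQ h3 hx (by simpa using hf) e1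
  have a1 : polar Q x (A x) = 0 := Hn _ (H w hw qw).1 _ fun v => by simp [n1, smul_smul, mul_comm]
  have a2 : ∀ w, polar Q x w = 0 → Q w ≠ 0 → polar Q x (A w) + polar Q w (A x) = 0 :=
    fun w hw qw => Hn _ (H w hw qw).2 _ fun v => by simp [n1, N1, a1]; module
  have a3 : ∀ v, polar Q x v = 0 → polar Q x (A v) + polar Q v (A x) = 0 := fun v hv => by
    by_cases qv : Q v = 0
    · by_cases q1 : Q (v + w) = 0
      · have := a2 (v - w) (by simp [hv, hw]) fun q2 => by
          rw [quad_add] at q1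
          rw [quad_sub] at q2
          exact mul_ne_zero h2 qw (by linear_combination q1 + q2 - 2 * qv)
        simp only [map_sub, polar_sub_left, polar_sub_right] at this
        linear_combination this + a2 w hw qw
      have := a2 (v + w) (by simp [hv, hw]) q1
      simp only [map_add, polar_add_left, polar_add_right] at this
      linear_combination this - a2 w hw qw
    exact a2 v hv qv
  have a4 : ∀ v, polar Q x (A v) =
      (polar Q x (A f) + polar Q f (A x)) * polar Q x v - polar Q (A x) v := fun v => by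
    have := a3 (v - polar Q x v • f) (by simp [e1])
    simp only [map_sub, map_smul, polar_sub_left, polar_sub_right, polar_smul_left, polar_smul_right,
      smul_eq_mul, polar_comm Q v] at this
    linear_combination this
  generalize polar Q x (A f) + polar Q f (A x) = κ at a4
  obtain ⟨z, b1, b2, κ, b3⟩ : ∃ z, polar Q x z = 0 ∧ z ∉ F ∙ x ∧ ∃ κ : F, N z + κ • n ∈ S := by
    refine ⟨Q w • A x - polar Q (A x) w • w, by simp [a1, hw], fun e' => ?_,
      Q w * κ - polar Q w (A w), ?_⟩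
    · obtain ⟨c, hc⟩ := Submodule.mem_span_singleton.1 e'
      have := congrArg (polar Q w) hc
      simp only [polar_smul_right, polar_sub_right, polar_comm Q w x, hw, polar_self',
        polar_comm Q w (A x), smul_eq_mul] at this
      have b1 : polar Q (A x) w = 0 := mul_left_cancel₀ qw (by linear_combination this)
      rw [b1, zero_smul, sub_zero] at e'
      exact e ((Submodule.smul_mem_iff _ qw).1 e')
    · convert Hev w hw using 1
      ext v
      simp [n1, N1, a4 w, a4 v, hw, hx', a1, polar_comm Q w (A x)]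
      module
  have K1 : ∀ z z' κ κ', polar Q x z = 0 → polar Q x z' = 0 → N z + κ • n ∈ S → N z' + κ' • n ∈ S →
      polar Q z z' = 0 := fun z z' κ κ' c1 c2 c3 c4 => by
    have c5 : ∀ z (κ : F) a b, polar Q ((N z + κ • n) a) b = polar Q a ((-N z + κ • n) b) :=
      fun z κ a b => by simp [n1, N1, polar_comm Q a x, polar_comm Q a z]; ring
    refine mul_left_cancel₀ h2 ((Hn _ (hP _ c3 _ c4 _ _ (c5 z κ) (c5 z' κ')) _ fun v => ?_).trans
      (mul_zero _).symm)
    simp [n1, N1, c1, c2, hx', polar_comm Q z x, polar_comm Q z' x, polar_comm Q z' z]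
    module
  obtain ⟨g, c1, c2, c3⟩ := hK' x z x0 hx (by simpa [polar_self', h2] using K1 z z κ κ b1 b1 b3 b3) b1 b2
  have c4 : ∀ a b, polar Q (g a) (g b) = polar Q a b := (hK c1).1
  have c5 : ∀ a, polar Q x (g a) = polar Q x a := fun a => by rw [← c4 x a, c2]
  exact c3 (K1 z (g z) κ κ b1 (by rw [c5, b1]) b3 (hS g c1 _ b3 _ fun v => by
    simp [n1, N1, c4, c5, c2]))

theorem exists_eichler_move' (hQ : (polarBilin Q).Nondegenerate) (h4 : finrank F V ≠ 4) {x y : V}
    (x0 : x ≠ 0) (hx : Q x = 0) (hy : Q y = 0) (e : polar Q x y = 0) (hn : y ∉ F ∙ x) :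
    ∃ s w, ∃ (hs : Q s = 0) (hw : polar Q s w = 0),
      (eichler hs hw).1 x = x ∧ polar Q y ((eichler hs hw).1 y) ≠ 0 := by
  have hW := isWittPair_quad Q hQ
  obtain ⟨s, a1, a2, a3⟩ := hW.exists_partner hn (by simpa using hy) fun z hz => by
    obtain ⟨c, rfl⟩ := Submodule.mem_span_singleton.1 hz
    simp [e]
  have a4 := a3 x (Submodule.mem_span_singleton_self x)
  rw [polarBilin_apply_apply] at a2 a4
  rw [map_zero] at a1
  obtain ⟨w, b1, b2, b3⟩ := exists_nonsingular_perp_pair hQ h4 hx hy e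
    (LinearIndependent.pair_iff' x0 |>.2 fun c e => hn (Submodule.mem_span_singleton.2 ⟨c, e⟩))
  refine ⟨s, w - polar Q s w • y, a1, by simp [polar_comm Q s y, a2], ?_, ?_⟩
  · simp [eichler_apply, polar_comm Q s x, a4, polar_comm Q w x, b2, polar_comm Q y x, e]
  · simp [eichler_apply, polar_comm Q s y, a2, polar_self', hy, b3, polar_comm Q w y, quad_sub,
      quad_smul, b1]

end Orth

end CF.MaxSub
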