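/-
Overgroups of tensor product subgroups of classical groups: the global argument, I.
-/
import Cfsg.Agent.MaxSub.TE
import Cfsg.Agent.MaxSub.TA

set_option autoImplicit false

namespace CF.MaxSub

open Module Geom TensorProduct

variable {F V₁ V₂ : Type*} [Field F] [AddCommGroup V₁] [Module F V₁] [AddCommGroup V₂]
  [Module F V₂] {σ : F →+* F}

theorem cl_rG (l : Dual F V₁) (b : V₂ ≃ₗ[F] V₂) (v : V₁ ⊗[F] V₂) : cl l (rG V₁ b v) = b (cl l v) := by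
  induction v with
  | zero => simp
  | add a b ha hb => simp only [map_add, ha, hb]
  | tmul x w => simp

theorem rG_of_scalar [Nontrivial V₁] {a : V₁ ≃ₗ[F] V₁} {c : F} (e : ∀ x, a x = c • x)
    (b : V₂ ≃ₗ[F] V₂) : ∃ b', TensorProduct.congr a b = rG V₁ b' := by
  obtain ⟨x, hx⟩ := exists_ne (0 : V₁)
  exact ⟨b.trans (LinearEquiv.smulOfNeZero F V₂ c (by rintro rfl; simpa [hx] using e x)),
    tensor_ext fun x w => by simp [e, smul_tmul]⟩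

theorem lG_of_scalar [Nontrivial V₂] {b : V₂ ≃ₗ[F] V₂} {c : F} (e : ∀ x, b x = c • x)
    (a : V₁ ≃ₗ[F] V₁) : ∃ a', TensorProduct.congr a b = lG V₂ a' := by
  obtain ⟨x, hx⟩ := exists_ne (0 : V₂)
  exact ⟨a.trans (LinearEquiv.smulOfNeZero F V₁ c (by rintro rfl; simpa [hx] using e x)),
    tensor_ext fun x w => by simp [e, smul_tmul]⟩

theorem rG_of_ct [Nontrivial V₁] {k : V₁ ⊗[F] V₂ ≃ₗ[F] V₁ ⊗[F] V₂} (hk : k ∈ TenG F V₁ V₂)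
    {φ : Dual F V₂} {r : V₂} (e : ∀ x, ct φ (k (x ⊗ₜ r)) = x) : ∃ b, k = rG V₁ b := by
  obtain ⟨a, b, rfl⟩ := hk
  obtain ⟨x, hx⟩ := exists_ne (0 : V₁)
  have h0 : φ (b r) ≠ 0 := fun h => hx (by simpa [h] using (e x).symm)
  exact rG_of_scalar (c := (φ (b r))⁻¹) (fun x => by
    simpa [smul_smul, h0] using congrArg ((φ (b r))⁻¹ • ·) (e x)) b

theorem exists_ne_of_rG_ne {b : V₂ ≃ₗ[F] V₂} (h : rG V₁ b ≠ 1) : ∃ s, b s - s ≠ 0 := by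
  by_contra! hc
  exact h (tensor_ext fun x w => by simp [sub_eq_zero.1 (hc w)])

variable [FiniteDimensional F V₁] [FiniteDimensional F V₂]

omit [FiniteDimensional F V₂] in
theorem rG_or_lG [Nontrivial V₁] [Nontrivial V₂] (h2 : (2 : F) ≠ 0)
    {k : V₁ ⊗[F] V₂ ≃ₗ[F] V₁ ⊗[F] V₂} (hk : k ∈ TenG F V₁ V₂)
    (e : ∀ v, k (k v) + v = (2 : F) • k v) : (∃ b, k = rG V₁ b) ∨ ∃ a, k = lG V₂ a := by
  obtain ⟨a, b, rfl⟩ := hk
  by_cases hc : ∃ c : F, (a : End F V₁) = c • 1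
  · obtain ⟨c, hc⟩ := hc
    exact .inl (rG_of_scalar (fun x => LinearMap.congr_fun hc x) b)
  obtain ⟨x, hx⟩ := exists_not_eigen_end (not_exists.1 hc)
  obtain ⟨l, h1, h3⟩ := exists_dual_sep hx
  have H : ∀ w, l (a (a x)) • b w = (2 : F) • w := fun w => b.injective (by
    simpa [h1, show l (a x) = 1 from h3] using congrArg (cl l) (e (x ⊗ₜ w)))
  obtain ⟨w, hw⟩ := exists_ne (0 : V₂)
  have h0 : l (a (a x)) ≠ 0 := fun h => by simpa [h, h2, hw] using (H w).symm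
  exact .inr (lG_of_scalar (c := (l (a (a x)))⁻¹ * 2) (fun w => by
    simpa [smul_smul, h0] using congrArg ((l (a (a x)))⁻¹ • ·) (H w)) a)

theorem rG_of_lt [Nontrivial V₁] (hlt : finrank F V₁ < finrank F V₂)
    {k : V₁ ⊗[F] V₂ ≃ₗ[F] V₁ ⊗[F] V₂} (hk : k ∈ TenG F V₁ V₂) (τ : V₁ ⊗[F] V₂ →ₗ[F] V₁)
    (e : ∀ v, τ v = 0 → k v = v) : ∃ b, k = rG V₁ b := by
  obtain ⟨a, b, rfl⟩ := hk
  obtain ⟨c, hc⟩ : ∃ c : F, (a : End F V₁) = c • 1 := by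
    by_contra! hc
    obtain ⟨x, hx⟩ := exists_not_eigen_end hc
    obtain ⟨l, h1, h2⟩ := exists_dual_sep hx
    obtain ⟨w, h3, h4⟩ := Submodule.exists_mem_ne_zero_of_ne_bot (LinearMap.ker_ne_bot_of_finrank_lt
      (f := τ ∘ₗ TensorProduct.mk F V₁ V₂ x) hlt)
    have h6 := congrArg (cl l) (e (x ⊗ₜ w) h3)
    simp [h1, show l (a x) = 1 from h2, h4] at h6
  exact rG_of_scalar (fun x => LinearMap.congr_fun hc x) b

omit [FiniteDimensional F V₂] in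
theorem mem_range_lTensor {W : Submodule F V₂} {v : V₁ ⊗[F] V₂} (h : ∀ l, cl l v ∈ W) :
    v ∈ LinearMap.range (W.subtype.lTensor V₁) := by
  let b := Module.finBasis F V₁
  have : ∀ v : V₁ ⊗[F] V₂, v = ∑ i, b i ⊗ₜ cl (b.coord i) v := fun v => by
    induction v with
    | zero => simp
    | add x y hx hy => simp only [map_add, tmul_add, Finset.sum_add_distrib, ← hx, ← hy]
    | tmul x w => simp only [cl_tmul, ← smul_tmul, ← sum_tmul, Basis.coord_apply, b.sum_repr]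
  rw [this v]
  exact Submodule.sum_mem _ fun i _ => ⟨b i ⊗ₜ ⟨_, h _⟩, rfl⟩

theorem exists_tr_le [Nontrivial V₁] {M : Submodule F (V₁ ⊗[F] V₂)} {k : ℕ} (k0 : k ≠ 0)
    (hk : finrank F V₁ * k ≤ finrank F M) {W : Submodule F V₂} (hW : finrank F W ≤ k)
    (h : ∀ v ∈ M, ∀ l, cl l v ∈ W) : ∃ w, w ≠ 0 ∧ ∀ x, x ⊗ₜ w ∈ M := by
  have h1 := LinearMap.finrank_range_le (W.subtype.lTensor V₁)
  rw [finrank_tensorProduct] at h1
  have h2 : M ≤ LinearMap.range (W.subtype.lTensor V₁) := fun v hv => mem_range_lTensor (h v hv)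
  have h3 := Submodule.finrank_mono h2
  obtain ⟨w, h4, h5⟩ := Submodule.exists_mem_ne_zero_of_ne_bot (p := W) (by
    rintro rfl
    rw [finrank_bot] at h1
    have := Nat.mul_pos (finrank_pos (R := F) (M := V₁)) (Nat.pos_of_ne_zero k0)
    omega)
  exact ⟨w, h5, fun x => (Submodule.eq_of_le_of_finrank_le h2
    (h1.trans ((Nat.mul_le_mul_left _ hW).trans hk))).ge ⟨x ⊗ₜ ⟨w, h4⟩, rfl⟩⟩

theorem two_mul_le_finrank {M : Submodule F (V₁ ⊗[F] V₂)} {u w : V₂} (u0 : u ≠ 0) (hw : w ∉ F ∙ u)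
    (h1 : ∀ x, x ⊗ₜ u ∈ M) (h2 : ∀ x, x ⊗ₜ w ∈ M) : finrank F V₁ * 2 ≤ finrank F M := by
  obtain ⟨φ, a1, a2⟩ := exists_dual_sep hw
  have := LinearMap.finrank_le_finrank_of_injective
    (f := ((tr u).coprod (tr w)).codRestrict M fun p => add_mem (h1 p.1) (h2 p.2))
    ((injective_iff_map_eq_zero _).2 fun p e => by
      have e1 : p.1 ⊗ₜ[F] u + p.2 ⊗ₜ w = 0 := congrArg Subtype.val e
      have e2 : p.2 = 0 := by simpa [a1, a2] using congrArg (ct φ) e1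
      exact Prod.ext (tmul_left_inj u0 (by simpa [e2] using e1)) e2)
  rw [finrank_prod] at this
  omega

omit [FiniteDimensional F V₁] in
theorem _root_.CF.Geom.IsWittPair.exists_le_pair {B : V₂ →ₛₗ[σ] V₂ →ₗ[F] F} {Q : V₂ → F}
    (h : IsWittPair σ B Q) {x s : V₂} (hx : Q x = Q 0) (hs : Q s = Q 0) (e : B x s = 0)
    (hn : s ∉ F ∙ x) (h5 : ∃ r, B x r = 0 ∧ B s r = 0 ∧ r ∉ Submodule.span F {x, s})
    {W : Submodule F V₂} (hxW : x ∈ W) (hW : ∀ y, Q y = Q 0 → B x y = 0 → y ∉ F ∙ x → ∀ w ∈ W,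
      B x w = 0 → B y w = 0 → w ∈ Submodule.span F {x, y}) :
    ∃ w₀, ∀ w ∈ W, B x w = 0 → w ∈ Submodule.span F {x, w₀} := by
  by_contra! hc
  obtain ⟨w₁, a1, a2, a3⟩ := hc 0
  obtain ⟨w₂, b1, b2, b3⟩ := hc w₁
  have H : ∀ y, Q y = Q 0 → B x y = 0 → y ∉ F ∙ x → y ∈ W := fun y hy e1 e2 => by
    have K : ∀ w ∈ W, B x w = 0 → B y w = 0 → w ∉ F ∙ x → y ∈ W := fun w c1 c2 c3 c4 => by
      obtain ⟨a, b, rfl⟩ := Submodule.mem_span_pair.1 (hW y hy e1 e2 w c1 c2 c3)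
      refine (W.smul_mem_iff (s := b) ?_).1 ((add_mem_cancel_left (W.smul_mem a hxW)).1 c1)
      rintro rfl
      exact c4 (by simpa using Submodule.smul_mem _ a (Submodule.mem_span_singleton_self x))
    by_cases e3 : B y w₁ = 0
    · exact K w₁ a1 a2 e3 fun e => a3 (Submodule.span_mono (by simp) e)
    refine K (w₂ - (B y w₂ / B y w₁) • w₁) (sub_mem b1 (W.smul_mem _ a1)) (by simp [a2, b2])
      (by simp [e3]) fun e4 => b3 ?_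
    obtain ⟨c, hc⟩ := Submodule.mem_span_singleton.1 e4
    exact Submodule.mem_span_pair.2 ⟨c, B y w₂ / B y w₁, by rw [hc]; abel⟩
  obtain ⟨r, c1, c2, c3⟩ := h5
  exact c3 (hW s hs e hn r (h.perp_ind hx hs e hn (P := (· ∈ W)) (fun _ _ => add_mem)
    (fun c => W.smul_mem c (H s hs e hn)) (fun t d1 d2 d3 => H t d1 d2 fun e' => by
      obtain ⟨c, rfl⟩ := Submodule.mem_span_singleton.1 e'
      simp [h.refl e] at d3) c1) c1 c2)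

/-- The data of a proper overgroup whose radical algebra consists of scalars. -/
structure TS (B₁ : V₁ →ₛₗ[σ] V₁ →ₗ[F] F) (Q₁ : V₁ → F) (B₂ : V₂ →ₛₗ[σ] V₂ →ₗ[F] F) (Q₂ : V₂ → F)
    (B : V₁ ⊗[F] V₂ →ₛₗ[σ] V₁ ⊗[F] V₂ →ₗ[F] F) (Q : V₁ ⊗[F] V₂ → F)
    (G X : Subgroup (V₁ ⊗[F] V₂ ≃ₗ[F] V₁ ⊗[F] V₂)) : Prop extends TQ B₁ Q₁ B₂ Q₂ B Q G X where
  sc : ∀ A ∈ AL X w₂, ∃ c : F, A = c • 1

/-- `c • (1 ⊗ n_u)`. -/
def nA (V₁ : Type*) [AddCommGroup V₁] [Module F V₁] (B : V₂ →ₛₗ[σ] V₂ →ₗ[F] F) (c : F) (u : V₂) :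
    End F (V₁ ⊗[F] V₂) := tr u ∘ₗ (c • ct (B u))

omit [FiniteDimensional F V₁] [FiniteDimensional F V₂] in
theorem nA_apply (B : V₂ →ₛₗ[σ] V₂ →ₗ[F] F) (c : F) (u : V₂) (v : V₁ ⊗[F] V₂) :
    nA V₁ B c u v = (c • ct (B u) v) ⊗ₜ u := rfl

namespace TS

variable {B₁ : V₁ →ₛₗ[σ] V₁ →ₗ[F] F} {Q₁ : V₁ → F} {B₂ : V₂ →ₛₗ[σ] V₂ →ₗ[F] F} {Q₂ : V₂ → F}
  {B : V₁ ⊗[F] V₂ →ₛₗ[σ] V₁ ⊗[F] V₂ →ₗ[F] F} {Q : V₁ ⊗[F] V₂ → F}
  {G X : Subgroup (V₁ ⊗[F] V₂ ≃ₗ[F] V₁ ⊗[F] V₂)} (h : TS B₁ Q₁ B₂ Q₂ B Q G X)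
include h

omit [FiniteDimensional F V₁] [FiniteDimensional F V₂] in
theorem sing_of {w : V₂} {g : V₁ ⊗[F] V₂ ≃ₗ[F] V₁ ⊗[F] V₂} (hg : g ∈ X)
    (e : ∀ x y, B (g (x ⊗ₜ w)) (g (y ⊗ₜ w)) = 0) : Q₂ w = Q₂ 0 := by
  obtain ⟨x, y, e'⟩ := h.exists_one
  exact h.iso₂ w (by simpa [h.isom hg, h.eq, e'] using e x y)

theorem mem_of_tr {u w : V₂} (w0 : w ≠ 0) (hu : Q₂ u = Q₂ 0) {g : V₁ ⊗[F] V₂ ≃ₗ[F] V₁ ⊗[F] V₂}
    (hg : g ∈ X) (e : ∀ x, g (x ⊗ₜ w) ∈ LinearMap.range (tr u)) : g ∈ TenG F V₁ V₂ :=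
  h.stab_of_AL h.sc w0 (h.sing_of hg fun x y => by
    obtain ⟨x', e1⟩ := e x
    obtain ⟨y', e2⟩ := e y
    simp [← e1, ← e2, h.eq, h.w₂.self_eq_zero hu]) hu hg e

omit [FiniteDimensional F V₁] in
theorem range_nA {c : F} (c0 : c ≠ 0) {u : V₂} (u0 : u ≠ 0) (hu : Q₂ u = Q₂ 0) :
    LinearMap.range (nA V₁ B₂ c u) = LinearMap.range (tr u) := by
  obtain ⟨f, -, hf⟩ := h.w₂.exists_hyperbolic u0 hu
  exact le_antisymm (LinearMap.range_comp_le_range _ _) (by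
    rintro _ ⟨x, rfl⟩
    exact ⟨(c⁻¹ • x) ⊗ₜ f, by simp [nA_apply, hf, smul_smul, c0]⟩)

theorem un_nA {c : F} {u : V₂} (hu : Q₂ u = Q₂ 0) {t : V₂ ≃ₗ[F] V₂} (ht : t ∈ Rad B₂ Q₂ u ⊤)
    (e : ∀ w, t w = w + (c * B₂ u w) • u) : Un X (nA V₁ B₂ c u) :=
  un_of_apply (fun v => by simp [nA_apply, h.w₂.self_eq_zero hu]) (h.rG_rad hu ht) fun v => by
    induction v with
    | zero => simp
    | add a b ha hb => simp only [map_add, ha, hb]; abel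
    | tmul x w => simp [nA_apply, e, tmul_add, smul_tmul, smul_smul]

theorem mem_of_rG {c : F} (c0 : c ≠ 0) {u : V₂} (u0 : u ≠ 0) (hu : Q₂ u = Q₂ 0)
    {g : V₁ ⊗[F] V₂ ≃ₗ[F] V₁ ⊗[F] V₂} (hg : g ∈ X) {b : V₂ ≃ₗ[F] V₂}
    (e : ∀ v, rG V₁ b (g v) = g v + g (nA V₁ B₂ c u v)) : g ∈ TenG F V₁ V₂ := by
  obtain ⟨s, hs⟩ := exists_ne_of_rG_ne (V₁ := V₁) (b := b) fun e' => by
    obtain ⟨x, y, e1⟩ := h.exists_one
    obtain ⟨v, hv⟩ := (h.range_nA c0 u0 hu).ge ⟨x, rfl⟩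
    have := e v
    rw [e', hv, LinearEquiv.coe_one, id, left_eq_add, map_eq_zero_iff _ g.injective, tr_apply,
      ← zero_tmul V₁ u] at this
    simp [tmul_left_inj u0 this] at e1
  refine inv_mem_iff.1 (h.mem_of_tr hs hu (inv_mem hg) fun x =>
    (h.range_nA c0 u0 hu).le ⟨g⁻¹ (x ⊗ₜ s), g.injective ?_⟩)
  rw [apply_inv_apply, tmul_sub, ← rG_tmul, eq_sub_iff_add_eq', ← apply_inv_apply g (x ⊗ₜ s), e,
    inv_apply_apply]

/-- The global argument in odd characteristic when `V₂` has transvections. -/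
theorem le_of_tv [Finite F] (h2 : (2 : F) ≠ 0) {c : F} (c0 : c ≠ 0)
    (hT : ∀ u, Q₂ u = Q₂ 0 → ∃ t ∈ Rad B₂ Q₂ u ⊤, ∀ w, t w = w + (c * B₂ u w) • u)
    (hC : ∀ g ∈ X, ∀ u, u ≠ 0 → Q₂ u = Q₂ 0 → ∀ k ∈ TenG F V₁ V₂,
      (∀ v, k (g v) = g v + g (nA V₁ B₂ c u v)) → ∃ b, k = rG V₁ b) : X ≤ TenG F V₁ V₂ := by
  have hW := h.w₂
  have := h.nt
  intro g hg
  by_contra hg'
  have H : ∀ u, u ≠ 0 → Q₂ u = Q₂ 0 → ∀ z ∈ X, (∀ v, z (nA V₁ B₂ c u v) = nA V₁ B₂ c u (z v)) →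
      (∀ x, nA V₁ B₂ c u x = 0 → z x - x ∈ LinearMap.range (nA V₁ B₂ c u)) →
      ∃ b, z = rG V₁ b ∧ ∀ w, B₂ u w = 0 → b w - w ∈ F ∙ u := fun u u0 hu z hz e1 e2 => by
    rw [h.range_nA c0 u0 hu] at e2
    replace e2 := fun x w (hw : B₂ u w = 0) => e2 (x ⊗ₜ w) (by simp [nA_apply, hw])
    obtain ⟨f, qf, hf⟩ := hW.exists_hyperbolic u0 hu
    obtain ⟨r, r', a1, -, a2, -, a3⟩ := hW.exists_perp_pair h.three hu qf (by simp [hf])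
    obtain ⟨b, rfl⟩ := rG_of_ct (h.mem_of_tr u0 hu hz fun x => by
      obtain ⟨v, hv⟩ := (h.range_nA c0 u0 hu).ge ⟨x, rfl⟩
      exact (h.range_nA c0 u0 hu).le ⟨z v, by rw [← e1, hv, tr_apply]⟩) (φ := B₂ r) (r := r') fun x => by
        obtain ⟨y, e⟩ := e2 x r' a2
        simp [sub_eq_iff_eq_add.1 e.symm, a3, hW.refl a1]
    refine ⟨b, rfl, fun w hw => ?_⟩
    obtain ⟨x, y, e3⟩ := h.exists_one
    obtain ⟨y', e⟩ := e2 y w hw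
    exact Submodule.mem_span_singleton.2 ⟨B₁ x y', by simpa [e3] using congrArg (cl (B₁ x)) e⟩
  obtain ⟨u, u0, hu⟩ := h.ex
  let W : Submodule F V₂ := Submodule.span F {w | ∃ l x, w = cl l (g (x ⊗ₜ u))}
  obtain ⟨f, qf, hf⟩ := hW.exists_hyperbolic u0 hu
  obtain ⟨r, r', a1, -, a2, -, a3⟩ := hW.exists_perp_pair h.three hu qf (by simp [hf])
  obtain ⟨w₀, hw⟩ := hW.exists_le_pair (x := 0) rfl hu (by simp) (by simpa) ⟨r, by simp, a1, fun e => by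
    obtain ⟨a, b, rfl⟩ := Submodule.mem_span_pair.1 e
    simp [a2] at a3⟩ (W := W) (zero_mem _) fun y hy _ y0 w hw _ e => by
    obtain ⟨z, a1, a2, a3, -, a4⟩ := exists_invol_of_notMem h2
      (fun i : {u // u ≠ 0 ∧ Q₂ u = Q₂ 0} => nA V₁ B₂ c i.1)
      (fun i => let ⟨_, a, b⟩ := hT i.1 i.2.2; h.un_nA i.2.2 a b) (TenG F V₁ V₂)
      (fun g hg i k hk e => by
        obtain ⟨b, rfl⟩ := hC g hg i.1 i.2.1 i.2.2 k hk e
        exact h.mem_of_rG c0 i.2.1 i.2.2 hg e)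
      (fun g hg i j e => inv_mem_iff.1 (h.mem_of_tr i.2.1 j.2.2 (inv_mem hg) fun x => by
        obtain ⟨v, hv⟩ := (h.range_nA c0 i.2.1 i.2.2).ge ⟨x, rfl⟩
        exact (h.range_nA c0 j.2.1 j.2.2).le (by simpa only [hv, tr_apply] using e v)))
      (fun i z hz e1 e2 e3 => by
        obtain ⟨b, rfl, e4⟩ := H i.1 i.2.1 i.2.2 z hz e2 e3
        obtain ⟨d, e5⟩ := Submodule.mem_span_singleton.1 (e4 _ (hW.self_eq_zero i.2.2))
        obtain ⟨x, hx⟩ := exists_ne (0 : V₁)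
        obtain ⟨l, hl⟩ := exists_dual_eq_one (F := F) hx
        have e6 : b i.1 = (1 + d) • i.1 := by rw [add_smul, one_smul, e5]; abel
        have e7 := congrArg (cl l) (LinearEquiv.congr_fun e1 (x ⊗ₜ i.1))
        simp only [LinearEquiv.mul_apply, rG_tmul, e6, map_smul, smul_smul, cl_tmul, hl,
          LinearEquiv.coe_one, id, one_mul] at e7
        exact (mul_self_eq_one_iff.1 (smul_left_injective F i.2.1 e7)).imp
          (fun e v => by simp [nA_apply, e6, e]) fun e v => by simp [nA_apply, e6, e, tmul_neg])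
      hg hg' ⟨y, by simpa using y0, hy⟩ ⟨u, u0, hu⟩
    obtain ⟨b, rfl, a5⟩ := H y (by simpa using y0) hy z a1 a2 a3
    have a6 : W ≤ LinearMap.ker (b.toLinearMap + 1) := Submodule.span_le.2 (by
      rintro _ ⟨l, x, rfl⟩
      obtain ⟨v, hv⟩ := (h.range_nA c0 u0 hu).ge ⟨x, rfl⟩
      simpa [hv, cl_rG, add_eq_zero_iff_eq_neg] using congrArg (cl l) (a4 v))
    have a7 := a5 w e
    rw [show b w = -w from add_eq_zero_iff_eq_neg.1 (a6 hw), ← neg_add', ← two_smul F,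
      neg_mem_iff, Submodule.smul_mem_iff _ h2] at a7
    simpa using a7
  obtain ⟨w, b1, b2⟩ := exists_tr_le (M := (LinearMap.range (tr u)).map g.toLinearMap) one_ne_zero
    (by rw [LinearEquiv.finrank_map_eq, finrank_range_tr u0, mul_one]) (W := F ∙ w₀)
    (finrank_span_le_card _ |>.trans (by simp)) (by
      rintro _ ⟨_, ⟨x, rfl⟩, rfl⟩ l
      simpa using hw _ (Submodule.subset_span ⟨l, x, rfl⟩) (by simp))
  exact hg' (inv_mem_iff.1 (h.mem_of_tr b1 hu (inv_mem hg) fun x => mem_map_equiv'.1 (b2 x)))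

end TS

end CF.MaxSub
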