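/-
Overgroups of tensor product subgroups of classical groups: the global argument, II.
-/
import Cfsg.Agent.MaxSub.TG

set_option autoImplicit false

namespace CF.MaxSub

open Module Geom TensorProduct QuadraticMap

theorem exists_dihedral {G : Type*} [Group G] [Finite G] {s t : G} (hs : s * s = 1)
    (ht : t * t = 1) : ∃ z ∈ Subgroup.zpowers (s * t),
      z * s = t * z ∨ z ≠ 1 ∧ z * z = 1 ∧ z * s = s * z ∧ z * t = t * z := by
  have h1 : ∀ j : ℕ, (s * t) ^ j * s = s * ((s * t) ^ j)⁻¹ := fun j => by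
    rw [← inv_pow, mul_inv_rev, inv_eq_of_mul_eq_one_right hs, inv_eq_of_mul_eq_one_right ht]
    exact (SemiconjBy.pow_right (show SemiconjBy s (t * s) (s * t) from (mul_assoc _ _ _).symm) j).symm
  have h2 := pow_orderOf_eq_one (s * t)
  have h3 := orderOf_pos (s * t)
  obtain ⟨j, e | e⟩ := Nat.even_or_odd' (orderOf (s * t))
  · rw [e, two_mul, pow_add] at h2
    have h4 := h1 j
    rw [inv_eq_of_mul_eq_one_right h2] at h4
    refine ⟨_, Subgroup.npow_mem_zpowers _ j, .inr ⟨pow_ne_one_of_lt_orderOf (by omega) (by omega),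
      h2, h4, ?_⟩⟩
    have h5 : Commute ((s * t) ^ j) (s * (s * t)) :=
      Commute.mul_right h4 (Commute.pow_self (s * t) j)
    rwa [← mul_assoc, hs, one_mul] at h5
  · refine ⟨_, Subgroup.npow_mem_zpowers _ j, .inl ?_⟩
    rw [e, two_mul, add_assoc, pow_add] at h2
    rw [h1, inv_eq_of_mul_eq_one_right h2, pow_succ', ← mul_assoc, ← mul_assoc, hs, one_mul]

/-- The maximal intersection argument. -/
theorem exists_opp {F V : Type*} [Field F] [AddCommGroup V] [Module F V] [FiniteDimensional F V]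
    {X : Subgroup (V ≃ₗ[F] V)} {I : Type*} (N : I → End F V)
    (hN : ∀ i, Un X (N i)) (H : Subgroup (V ≃ₗ[F] V))
    (hC : ∀ g ∈ X, ∀ i, ∀ h ∈ H, (∀ v, h (g v) = g v + g (N i v)) → g ∈ H)
    {g : V ≃ₗ[F] V} (hg : g ∈ X) (hg' : g ∉ H) (i : I) :
    ∃ g₀ ∈ X, g₀ ∉ H ∧ ∃ i₀ j₀, ∀ g i j, g ∈ X → g ∉ H →
      finrank F (LinearMap.range (N i₀) ⊓ (LinearMap.range (N j₀)).map (g₀ : V →ₗ[F] V) :) ≤
        finrank F (LinearMap.range (N i) ⊓ (LinearMap.range (N j)).map (g : V →ₗ[F] V) :) →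
      (∀ m ∈ LinearMap.range (N i), g (N j (g⁻¹ m)) ∈ LinearMap.range (N i) →
        g⁻¹ m ∈ LinearMap.range (N j)) ∧
      ∀ m, g⁻¹ m ∈ LinearMap.range (N j) → g⁻¹ (N i m) ∈ LinearMap.range (N j) →
        m ∈ LinearMap.range (N i) := by
  let D : (V ≃ₗ[F] V) × I × I → Submodule F V := fun t =>
    LinearMap.range (N t.2.1) ⊓ (LinearMap.range (N t.2.2)).map (t.1 : V →ₗ[F] V)
  obtain ⟨t₀, ht₀, hmax⟩ := exists_max_nat (s := {t | t.1 ∈ X ∧ t.1 ∉ H})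
    (fun t => finrank F (D t)) (fun t _ => Submodule.finrank_le _) ⟨(g, i, i), hg, hg'⟩
  have P : ∀ g i j, g ∈ X → g ∉ H → finrank F (D t₀) ≤ finrank F (D (g, i, j)) →
      ∀ m ∈ LinearMap.range (N i), g (N j (g⁻¹ m)) ∈ LinearMap.range (N i) →
        g⁻¹ m ∈ LinearMap.range (N j) := fun g i j hg hg' hd m h1 h3 => by
    by_contra h4
    have h5 := (hN j).conj hg
    have h6 : ∀ v, unip _ h5.sq v = v + g (N j (g⁻¹ v)) := fun _ => rfl
    have h7 : (unip _ h5.sq)⁻¹ ∉ H := fun e => hg' (hC g hg j _ (inv_mem_iff.1 e) fun v => by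
      rw [h6, inv_apply_apply])
    have : D (g, i, j) < D ((unip _ h5.sq)⁻¹, i, i) := SetLike.lt_iff_le_and_exists.2
      ⟨fun y hy => ⟨hy.1, mem_map_equiv'.2 (by
        obtain ⟨v, e⟩ := mem_map_equiv'.1 hy.2
        rw [inv_inv, h6, ← e, (hN j).apply_apply, map_zero, add_zero]
        exact hy.1)⟩, m, Submodule.mem_inf.2 ⟨h1, mem_map_equiv'.2 (by
          rw [inv_inv, h6]
          exact add_mem h1 h3)⟩, fun e => h4 (mem_map_equiv'.1 (Submodule.mem_inf.1 e).2)⟩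
    exact absurd ((hmax (_, i, i) ⟨inv_mem h5.unip_mem, h7⟩).trans hd)
      (Submodule.finrank_lt_finrank_of_lt this).not_ge
  refine ⟨t₀.1, ht₀.1, ht₀.2, t₀.2.1, t₀.2.2, fun g i j hg hg' hd => ⟨P g i j hg hg' hd,
    fun m h1 h3 => ?_⟩⟩
  simpa [apply_inv_apply] using P g⁻¹ j i (inv_mem hg) (mt inv_mem_iff.1 hg') (hd.trans_eq (by
    rw [← LinearEquiv.finrank_map_eq g⁻¹, Submodule.map_inf _ g⁻¹.injective, map_inv_map,
      inf_comm])) _ h1 (by simpa [apply_inv_apply] using h3)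

variable {F V₁ V₂ : Type*} [Field F] [AddCommGroup V₁] [Module F V₁] [AddCommGroup V₂]
  [Module F V₂] [FiniteDimensional F V₁] [FiniteDimensional F V₂]

namespace TS

section Two

variable {σ : F →+* F} {B₁ : V₁ →ₛₗ[σ] V₁ →ₗ[F] F} {Q₁ : V₁ → F} {B₂ : V₂ →ₛₗ[σ] V₂ →ₗ[F] F}
  {Q₂ : V₂ → F} {B : V₁ ⊗[F] V₂ →ₛₗ[σ] V₁ ⊗[F] V₂ →ₗ[F] F} {Q : V₁ ⊗[F] V₂ → F}
  {G X : Subgroup (V₁ ⊗[F] V₂ ≃ₗ[F] V₁ ⊗[F] V₂)} (h : TS B₁ Q₁ B₂ Q₂ B Q G X)
include h

theorem rG_of_conj (hlt : finrank F V₁ < finrank F V₂) {c : F} {g k : V₁ ⊗[F] V₂ ≃ₗ[F] V₁ ⊗[F] V₂}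
    {u : V₂} (hk : k ∈ TenG F V₁ V₂) (e : ∀ v, k (g v) = g v + g (nA V₁ B₂ c u v)) :
    ∃ b, k = rG V₁ b :=
  have := h.nt
  rG_of_lt hlt hk (ct (B₂ u) ∘ₗ (g⁻¹).toLinearMap) fun v hv => by
    rw [← apply_inv_apply g v, e, nA_apply, show ct (B₂ u) (g⁻¹ v) = 0 from hv]
    simp

/-- The global argument in characteristic two. -/
theorem le_of_two [Finite F] (h2 : (2 : F) = 0) (hlt : finrank F V₁ < finrank F V₂) {c : F}
    (c0 : c ≠ 0) (hT : ∀ u, Q₂ u = Q₂ 0 → ∃ t ∈ Rad B₂ Q₂ u ⊤, ∀ w, t w = w + (c * B₂ u w) • u) :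
    X ≤ TenG F V₁ V₂ := by
  have hW := h.w₂
  have hV := h.pol.witt
  have := h.nt
  have : Finite (V₁ ⊗[F] V₂) := Module.finite_of_finite F
  have : Finite (V₁ ⊗[F] V₂ ≃ₗ[F] V₁ ⊗[F] V₂) := .of_injective _ DFunLike.coe_injective
  have add2 : ∀ v : V₁ ⊗[F] V₂, v + v = 0 := fun v => by rw [← two_smul F, h2, zero_smul]
  intro g hg
  by_contra hg'
  have hN : ∀ u, Q₂ u = Q₂ 0 → Un X (nA V₁ B₂ c u) := fun u hu =>
    let ⟨_, a, b⟩ := hT u hu; h.un_nA hu a b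
  have hC : ∀ g ∈ X, ∀ u, u ≠ 0 → Q₂ u = Q₂ 0 → ∀ k ∈ TenG F V₁ V₂,
      (∀ v, k (g v) = g v + g (nA V₁ B₂ c u v)) → g ∈ TenG F V₁ V₂ := fun g hg u u0 hu k hk e => by
    obtain ⟨b, rfl⟩ := h.rG_of_conj hlt hk e
    exact h.mem_of_rG c0 u0 hu hg e
  obtain ⟨u, u0, hu⟩ := h.ex
  obtain ⟨g, hg, hg', ⟨u, u0, hu⟩, ⟨u', u0', hu'⟩, P⟩ := exists_opp
    (fun i : {u // u ≠ 0 ∧ Q₂ u = Q₂ 0} => nA V₁ B₂ c i.1) (fun i => hN _ i.2.2) (TenG F V₁ V₂)
    (fun g hg i => hC g hg i.1 i.2.1 i.2.2) hg hg' ⟨u, u0, hu⟩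
  simp only [Subtype.forall] at P
  rw [h.range_nA c0 u0 hu, h.range_nA c0 u0' hu'] at P
  obtain ⟨w, qw, e, hn⟩ := h.idx u u0 hu
  have w0 : w ≠ 0 := by rintro rfl; exact hn (zero_mem _)
  have hL : ∀ s ∈ Submodule.span F {u, w}, Q₂ s = Q₂ 0 ∧ B₂ u s = 0 ∧ B₂ w s = 0 := fun s hs => by
    obtain ⟨a, b, rfl⟩ := Submodule.mem_span_pair.1 hs
    exact ⟨(hW.norm_add_singular (hW.norm_smul_singular qw b) (by simp [e])).trans
      (hW.norm_smul_singular hu a), by simp [e, hW.self_eq_zero hu],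
      by simp [hW.refl e, hW.self_eq_zero qw]⟩
  have hY := (hN u hu).add (hN w qw) (LinearMap.ext fun v => by simp [nA_apply, e])
    (LinearMap.ext fun v => by simp [nA_apply, hW.refl e])
  have hT' := (hN u' hu').conj hg
  set N' := (g : End F _) * nA V₁ B₂ c u' * ((g⁻¹ : V₁ ⊗[F] V₂ ≃ₗ[F] V₁ ⊗[F] V₂) : End F _)
  have n1 : ∀ v, N' v = g (nA V₁ B₂ c u' (g⁻¹ v)) := fun _ => rfl
  set M' := (LinearMap.range (tr (F := F) (V₁ := V₁) u')).map g.toLinearMap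
  have n2 : ∀ v, v ∈ M' ↔ ∃ y, N' y = v := fun v => by
    rw [mem_map_equiv', ← h.range_nA c0 u0' hu']
    exact ⟨fun ⟨y, e⟩ => ⟨g y, by rw [n1, inv_apply_apply, e, apply_inv_apply]⟩,
      fun ⟨y, e⟩ => ⟨g⁻¹ y, by rw [← e, n1, inv_apply_apply]⟩⟩
  have n3 : ∀ v ∈ perp B M', N' v = 0 := fun v hv => by
    rw [n1, nA_apply, h.mem_perp_tr.1 (mem_perp.2 fun m hm => by
      rw [← h.isom hg, apply_inv_apply]; exact mem_perp.1 hv _ ⟨m, hm, rfl⟩)]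
    simp
  have hI : ∀ {N : End F (V₁ ⊗[F] V₂)} (hN : Un X N), unip N hN.sq * unip N hN.sq = 1 := fun hN =>
    LinearEquiv.ext fun v => by simp [unip_apply, hN.apply_apply, add_assoc, add2]
  obtain ⟨z, a1, a2⟩ := exists_dihedral (hI hY) (hI hT')
  have a3 : z ∈ X := Subgroup.zpowers_le.2 (mul_mem hY.unip_mem hT'.unip_mem) a1
  have a4 : ∀ v, nA V₁ B₂ c u v + nA V₁ B₂ c w v = 0 → N' v = 0 → z v = v := fun v e1 e2 =>
    Subgroup.zpowers_le (H := MulAction.stabilizer _ v) |>.2 (by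
      simp [LinearEquiv.smul_def, unip_apply, e1, e2]) a1
  obtain ⟨f₁, b1, b2⟩ := hW.exists_dual_vec (x := u) (Z := F ∙ w) fun e => by
    obtain ⟨c, rfl⟩ := Submodule.mem_span_singleton.1 e
    exact hn ((Submodule.smul_mem_iff _ (left_ne_zero_of_smul u0)).1
      (Submodule.mem_span_singleton_self _))
  obtain ⟨f₂, b3, b4⟩ := hW.exists_dual_vec hn
  replace b2 := b2 w (Submodule.mem_span_singleton_self _)
  replace b4 := b4 u (Submodule.mem_span_singleton_self _)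
  have hE : ∀ x, ∀ s ∈ Submodule.span F {u, w}, ∃ v,
      nA V₁ B₂ c u v + nA V₁ B₂ c w v = x ⊗ₜ s := fun x s hs => by
    obtain ⟨a, b, rfl⟩ := Submodule.mem_span_pair.1 hs
    exact ⟨(c⁻¹ • x) ⊗ₜ (a • f₁ + b • f₂), by
      simp [nA_apply, b1, b2, b3, b4, smul_smul, mul_left_comm c, c0, tmul_add, smul_tmul]⟩
  have uL : u ∈ Submodule.span F {u, w} := Submodule.subset_span (by simp)
  have wL : w ∈ Submodule.span F {u, w} := Submodule.subset_span (by simp)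
  obtain a2 | ⟨a5, a6, a7, a8⟩ := a2
  · have H : ∀ s ∈ Submodule.span F {u, w}, ∀ x, x ⊗ₜ s ∈ M'.map (z⁻¹).toLinearMap := fun s hs x => by
      obtain ⟨v, hv⟩ := hE x s hs
      exact mem_map_equiv'.2 ((n2 _).2 ⟨z v, by
        simpa [unip_apply, hv] using (LinearEquiv.congr_fun a2 v).symm⟩)
    have := two_mul_le_finrank u0 hn (H u uL) (H w wL)
    rw [LinearEquiv.finrank_map_eq, LinearEquiv.finrank_map_eq, finrank_range_tr u0'] at this
    have := finrank_pos (R := F) (M := V₁)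
    omega
  replace a6 : ∀ v, z (z v) = v := LinearEquiv.congr_fun a6
  replace a8 : ∀ v, z (N' v) = N' (z v) := fun v => by
    simpa [unip_apply] using LinearEquiv.congr_fun a8 v
  replace a7 : ∀ x, ∀ s ∈ Submodule.span F {u, w}, ∃ y y', z (x ⊗ₜ s) = y ⊗ₜ u + y' ⊗ₜ w :=
    fun x s hs => by
    obtain ⟨v, hv⟩ := hE x s hs
    exact ⟨_, _, (by simpa [unip_apply, hv] using LinearEquiv.congr_fun a7 v :
      _ = nA V₁ B₂ c u (z v) + nA V₁ B₂ c w (z v))⟩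
  have hD : ∀ m ∈ LinearMap.range (tr u) ⊓ M', z m = m := fun m hm => by
    obtain ⟨⟨x, rfl⟩, h1⟩ := hm
    obtain ⟨y, h3⟩ := (n2 _).1 h1
    exact a4 _ (by simp [nA_apply, hL u uL]) (h3 ▸ hT'.apply_apply y)
  have hz : z ∈ TenG F V₁ V₂ := by
    by_contra hz
    refine hz (inv_mem_iff.1 (h.mem_of_tr u0 hu (inv_mem a3) fun x => ?_))
    have := (P z u ⟨u0, hu⟩ u ⟨u0, hu⟩ a3 hz (Submodule.finrank_mono fun m hm => by
      rw [h.range_nA c0 u0 hu]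
      exact ⟨hm.1, m, hm.1, hD m hm⟩)).1
    rw [h.range_nA c0 u0 hu] at this
    refine this _ ⟨x, rfl⟩ ?_
    obtain ⟨y, y', e1⟩ := a7 x u uL
    rw [show z⁻¹ (x ⊗ₜ u) = z (x ⊗ₜ u) from z.injective (by rw [apply_inv_apply, a6]), e1]
    simp [nA_apply, hL u uL, e]
  obtain ⟨x₀, hx⟩ := exists_ne (0 : V₁)
  obtain ⟨s, s1, s0, s2, s3⟩ : ∃ s ∈ Submodule.span F {u, w}, s ≠ 0 ∧
      (∀ x, z (x ⊗ₜ s) ∈ LinearMap.range (tr s)) ∧ finrank F (LinearMap.range (tr u) ⊓ M' :) ≤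
        finrank F (LinearMap.range (tr s) ⊓ M' :) := by
    obtain ⟨a, b, rfl⟩ := hz
    obtain ⟨l, hl⟩ := exists_dual_eq_one (F := F) ((map_ne_zero_iff _ a.injective).2 hx)
    by_cases hD' : LinearMap.range (tr u) ⊓ M' = ⊥
    · have c1 : b u ∈ Submodule.span F {u, w} := by
        obtain ⟨y, y', e1⟩ := a7 x₀ u uL
        exact Submodule.mem_span_pair.2 ⟨l y, l y', by simpa [hl] using congrArg (cl l) e1.symm⟩
      obtain ⟨l', hl'⟩ := exists_dual_eq_one (F := F)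
        ((map_ne_zero_iff _ a.injective).2 ((map_ne_zero_iff _ a.injective).2 hx))
      have : CharP F 2 := CharTwo.of_one_ne_zero_of_two_eq_zero one_ne_zero h2
      obtain ⟨ν, hν⟩ := surjective_frobenius F 2 (l' x₀)
      have c2 : b (b u) = ν ^ 2 • u := by
        simpa [hl', ← hν, frobenius_def] using congrArg (cl l') (a6 (x₀ ⊗ₜ u))
      by_cases c3 : b u - ν • u = 0
      · exact ⟨u, uL, u0, fun x => ⟨ν • a x, by simp [sub_eq_zero.1 c3, smul_tmul]⟩, le_rfl⟩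
      refine ⟨_, sub_mem c1 (Submodule.smul_mem _ ν uL), c3, fun x => ⟨-ν • a x, ?_⟩,
        by rw [hD', finrank_bot]; exact Nat.zero_le _⟩
      rw [tr_apply, smul_tmul, congr_tmul, map_sub, map_smul, c2]
      congr 1
      module
    obtain ⟨m, hm, m0⟩ := Submodule.exists_mem_ne_zero_of_ne_bot hD'
    have c1 := hD m hm
    obtain ⟨⟨x, rfl⟩, -⟩ := hm
    obtain ⟨l, hl⟩ := exists_dual_eq_one (F := F) ((map_ne_zero_iff _ a.injective).2
      (show x ≠ 0 by rintro rfl; simp at m0))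
    have c2 : b u = l x • u := by simpa [hl] using congrArg (cl l) c1
    exact ⟨u, uL, u0, fun y => ⟨l x • a y, by simp [c2, smul_tmul]⟩, le_rfl⟩
  obtain ⟨qs, s4, s5⟩ := hL s s1
  have s6 : ∀ t ∈ Submodule.span F {u, w}, B₂ s t = 0 := fun t ht => by
    obtain ⟨a, b, rfl⟩ := Submodule.mem_span_pair.1 ht
    simp [hW.refl s4, hW.refl s5]
  obtain ⟨P1, P2⟩ := P g s ⟨s0, qs⟩ u' ⟨u0', hu'⟩ hg hg' (by rwa [h.range_nA c0 s0 qs, h.range_nA c0 u0' hu'])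
  rw [h.range_nA c0 s0 qs, h.range_nA c0 u0' hu'] at P1 P2
  replace P2 : ∀ m ∈ M', m ∈ perp B (LinearMap.range (tr s)) → m ∈ LinearMap.range (tr s) :=
    fun m h1 h3 => P2 m (mem_map_equiv'.1 h1) (by simp [nA_apply, h.mem_perp_tr.1 h3])
  obtain ⟨t, t1, t2⟩ : ∃ t ∈ Submodule.span F {u, w}, t ∉ F ∙ s := by
    by_contra! hc
    obtain ⟨a, rfl⟩ := Submodule.mem_span_singleton.1 (hc u uL)
    exact hn ((Submodule.span_singleton_smul_eq (IsUnit.mk0 a (left_ne_zero_of_smul u0)) s).ge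
      (hc w wL))
  obtain ⟨φ, t3, t4⟩ := exists_dual_sep t2
  obtain ⟨b, rfl⟩ := rG_of_ct hz (φ := φ) (r := t) fun x => by
    have c1 : x ⊗ₜ t ∈ perp B (M' ⊓ perp B (LinearMap.range (tr s))) := mem_perp.2 fun m hm => by
      obtain ⟨y, rfl⟩ := P2 m hm.1 hm.2
      simp [h.eq, s6 t t1]
    rw [hV.perp_inf, hV.perp_perp] at c1
    obtain ⟨γ, c2, _, ⟨y, rfl⟩, c3⟩ := Submodule.mem_sup.1 c1
    obtain ⟨y', c4⟩ := s2 y
    have c5 : γ = x ⊗ₜ t - y ⊗ₜ s := eq_sub_of_add_eq c3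
    rw [← c3, map_add, a4 γ (by simp [c5, nA_apply, hL t t1, s4, s5]) (n3 γ c2), tr_apply, ← c4, c5]
    simp [t3, t4]
  obtain ⟨l, hl⟩ := exists_dual_eq_one (F := F) hx
  have c1 : ∀ r, b (b r) = r := fun r => by simpa [hl] using congrArg (cl l) (a6 (x₀ ⊗ₜ r))
  have c2 : b s = s := by
    obtain ⟨y, e1⟩ := s2 x₀
    have e2 : b s = l y • s := by simpa [hl] using congrArg (cl l) e1.symm
    have e3 := c1 s
    rw [e2, map_smul, e2, smul_smul, ← sub_eq_zero, ← one_smul F s, smul_smul, ← sub_smul,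
      smul_eq_zero, or_iff_left s0] at e3
    rw [e2, sub_eq_zero.1 (pow_eq_zero_iff two_ne_zero |>.1 (show (l y - 1) ^ 2 = 0 by
      linear_combination e3 + (1 - l y) * h2)), one_smul]
  have c3 : ∀ m ∈ M', rG V₁ b m - m ∈ LinearMap.range (tr s) := fun m hm => by
    obtain ⟨y, rfl⟩ := (n2 m).1 hm
    refine P2 _ ((n2 _).2 ⟨rG V₁ b y - y, by rw [map_sub, a8]⟩) (mem_perp.2 ?_)
    rintro _ ⟨x, rfl⟩
    rw [map_sub, ← h.isom a3 (tr s x) (N' y), tr_apply, rG_tmul, c2, sub_self]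
  by_cases c4 : ∀ m ∈ M', rG V₁ b m = m
  · obtain ⟨r, hr⟩ := exists_ne_of_rG_ne a5
    have c5 : b (b r - r) = b r - r := by
      rw [map_sub, c1, sub_eq_sub_iff_add_eq_add, ← two_smul F, ← two_smul F, h2, zero_smul, zero_smul]
    refine hg' (hC g hg u' u0' hu' _ (h.mem_of_tr (u := b r - r) hr (h.iso₂ _ (by
      nth_rw 1 [map_sub]
      rw [← h.isom₂ a3 _ r, c5, sub_self])) hT'.unip_mem fun x => ⟨x, ?_⟩)
      fun v => by rw [unip_apply, n1, inv_apply_apply])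
    rw [unip_apply, n3 _ (mem_perp.2 fun m hm => by
      rw [tmul_sub, map_sub, ← rG_tmul, ← h.isom a3 m (x ⊗ₜ r), c4 m hm, sub_self]), add_zero, tr_apply]
  push Not at c4
  obtain ⟨m, d1, d2⟩ := c4
  obtain ⟨y, d3⟩ := c3 m d1
  obtain ⟨l', d4⟩ := exists_dual_eq_one (F := F) (show y ≠ 0 by
    rintro rfl; exact d2 (sub_eq_zero.1 (by simpa using d3.symm)))
  have d5 : s = b (cl l' m) - cl l' m := by simpa [d4, cl_rG] using congrArg (cl l') d3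
  refine hg' (inv_mem_iff.1 (h.mem_of_tr s0 hu' (inv_mem hg) fun x => P1 _ ⟨x, rfl⟩ ?_))
  rw [← n1]
  nth_rw 2 [d5]
  rw [tmul_sub, map_sub, ← rG_tmul, ← a8]
  exact c3 _ ((n2 _).2 ⟨_, rfl⟩)

end Two

end TS

end CF.MaxSub
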