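/-
Overgroups of tensor product subgroups of classical groups: the global argument, III.
-/
import Cfsg.Agent.MaxSub.TH

set_option autoImplicit false

namespace CF.MaxSub

open Module Geom TensorProduct QuadraticMap

variable {F V₁ V₂ : Type*} [Field F] [AddCommGroup V₁] [Module F V₁] [AddCommGroup V₂]
  [Module F V₂] [FiniteDimensional F V₁] [FiniteDimensional F V₂]

/-- Totally singular lines with a basis. -/
structure TL (Q : QuadraticForm F V₂) (u w : V₂) : Prop where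
  q₁ : Q u = 0
  q₂ : Q w = 0
  e : polar Q u w = 0
  ne : u ≠ 0
  nm : w ∉ F ∙ u

/-- `1 ⊗ (u ∧ w)`. -/
def nB (V₁ : Type*) [AddCommGroup V₁] [Module F V₁] (Q : QuadraticForm F V₂) (u w : V₂) :
    End F (V₁ ⊗[F] V₂) := tr w ∘ₗ ct (polarBilin Q u) - tr u ∘ₗ ct (polarBilin Q w)

omit [FiniteDimensional F V₁] [FiniteDimensional F V₂] in
theorem nB_apply (Q : QuadraticForm F V₂) (u w : V₂) (v : V₁ ⊗[F] V₂) :
    nB V₁ Q u w v = ct (polarBilin Q u) v ⊗ₜ w - ct (polarBilin Q w) v ⊗ₜ u := rfl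

omit [FiniteDimensional F V₁] [FiniteDimensional F V₂] in
theorem nB_tmul (Q : QuadraticForm F V₂) (u w : V₂) (x : V₁) (s : V₂) :
    nB V₁ Q u w (x ⊗ₜ s) = x ⊗ₜ (polar Q u s • w - polar Q w s • u) := by
  simp [nB_apply, tmul_sub, smul_tmul]

namespace TL

variable {Q : QuadraticForm F V₂} {u w : V₂}

theorem exists_dual (h : TL Q u w) (hQ : (polarBilin Q).Nondegenerate) :
    ∃ f g, polar Q u f = 1 ∧ polar Q w f = 0 ∧ polar Q u g = 0 ∧ polar Q w g = 1 := by
  have hW := isWittPair_quad Q hQ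
  obtain ⟨f, b1, b2⟩ := hW.exists_dual_vec (x := u) (Z := F ∙ w) fun e => by
    obtain ⟨c, rfl⟩ := Submodule.mem_span_singleton.1 e
    exact h.nm ((Submodule.smul_mem_iff _ (left_ne_zero_of_smul h.ne)).1
      (Submodule.mem_span_singleton_self _))
  obtain ⟨g, b3, b4⟩ := hW.exists_dual_vec h.nm
  exact ⟨f, g, b1, b2 w (Submodule.mem_span_singleton_self _),
    b4 u (Submodule.mem_span_singleton_self _), b3⟩

omit [FiniteDimensional F V₁] in
theorem tmul_mem (h : TL Q u w) (hQ : (polarBilin Q).Nondegenerate) (x : V₁) {s : V₂}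
    (hs : s ∈ Submodule.span F {u, w}) : x ⊗ₜ s ∈ LinearMap.range (nB V₁ Q u w) := by
  obtain ⟨f, g, a1, a2, a3, a4⟩ := h.exists_dual hQ
  obtain ⟨a, b, rfl⟩ := Submodule.mem_span_pair.1 hs
  exact ⟨x ⊗ₜ (b • f - a • g), by simp [nB_tmul, a1, a2, a3, a4, add_comm]⟩

theorem exists_nonsing (h : TL Q u w) (hQ : (polarBilin Q).Nondegenerate)
    (h5 : 5 ≤ finrank F V₂) : ∃ z, Q z ≠ 0 ∧ polar Q u z = 0 ∧ polar Q w z = 0 :=
  exists_nonsingular_perp_pair hQ (by omega) h.q₁ h.q₂ h.e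
    (LinearIndependent.pair_iff' h.ne |>.2 fun c e => h.nm (Submodule.mem_span_singleton.2 ⟨c, e⟩))

end TL

namespace TS

variable {B₁ : LinearMap.BilinForm F V₁} {Q₁ : V₁ → F} {Q₂ : QuadraticForm F V₂}
  {B : LinearMap.BilinForm F (V₁ ⊗[F] V₂)} {Q : V₁ ⊗[F] V₂ → F}
  {G X : Subgroup (V₁ ⊗[F] V₂ ≃ₗ[F] V₁ ⊗[F] V₂)} (h : TS B₁ Q₁ (polarBilin Q₂) Q₂ B Q G X)
  (hQ : (polarBilin Q₂).Nondegenerate) (h2 : (2 : F) ≠ 0) (h5 : 5 ≤ finrank F V₂)
include h

theorem rG_eichler {u w : V₂} (hu : Q₂ u = 0) (e : polar Q₂ u w = 0) :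
    rG V₁ (eichler hu e).1 ∈ X :=
  h.rG_rad (by simpa using hu) (eichler_mem_Rad hu e (A := ⊤) trivial trivial)

theorem un_nB {u w : V₂} (hL : TL Q₂ u w) : Un X (nB V₁ Q₂ u w) :=
  un_of_apply (fun v => by
    simp [nB_apply, polar_self', hL.q₁, hL.q₂, hL.e, polar_comm Q₂ w u])
    (h.rG_eichler hL.q₁ hL.e) fun v => by
    induction v with
    | zero => simp
    | add a b ha hb => simp only [map_add, ha, hb]; abel
    | tmul x w => simp [nB_tmul, eichler_apply, hL.q₂, tmul_add, tmul_sub, add_sub_assoc]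

include hQ h2 h5

theorem mem_of_line {u w s : V₂} (hL : TL Q₂ u w) (s0 : s ≠ 0)
    {g : V₁ ⊗[F] V₂ ≃ₗ[F] V₁ ⊗[F] V₂} (hg : g ∈ X)
    (e : ∀ x, g (x ⊗ₜ s) ∈ LinearMap.range (nB V₁ Q₂ u w)) : g ∈ TenG F V₁ V₂ := by
  have := h.nt
  obtain ⟨r, a1, a2, a3⟩ := hL.exists_nonsing hQ h5
  have a4 := h.rG_eichler hL.q₁ a2
  set E := (eichler hL.q₁ a2).1
  have a5 : ∀ v, E v = v + polar Q₂ u v • r - polar Q₂ r v • u - (Q₂ r * polar Q₂ u v) • u :=
    fun _ => rfl
  have uu : polar Q₂ u u = 0 := by simp [polar_self', hL.q₁]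
  have a6 : g⁻¹ * rG V₁ E * g ∈ X := mul_mem (mul_mem (inv_mem hg) a4) hg
  have a7 : ∀ x, (g⁻¹ * rG V₁ E * g) (x ⊗ₜ s) = x ⊗ₜ s := fun x => g.injective (by
    obtain ⟨v, hv⟩ := e x
    simp [apply_inv_apply, ← hv, nB_apply, a5, hL.e, uu, polar_comm Q₂ r, a2, a3])
  obtain ⟨φ, hφ⟩ := exists_dual_eq_one (F := F) s0
  obtain ⟨b, hb⟩ := rG_of_ct (h.mem_of_tr s0 (h.sing_of hg fun x y => by
    obtain ⟨v, hv⟩ := e x
    obtain ⟨v', hv'⟩ := e y
    simp [← hv, ← hv', nB_apply, h.eq, uu, hL.e, polar_comm Q₂ w u, polar_self', hL.q₂]) a6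
    fun x => ⟨x, (a7 x).symm⟩) (φ := φ) (r := s) fun x => by simp only [a7, ct_tmul, hφ, one_smul]
  have a8 : ∀ v, g (rG V₁ b v) = rG V₁ E (g v) := fun v => by simp [← hb, apply_inv_apply]
  have a9 : ∀ v, rG V₁ E (rG V₁ E v) - (2 : F) • rG V₁ E v + v =
      (-(2 * Q₂ r) • ct (polarBilin Q₂ u) v) ⊗ₜ u := fun v => by
    induction v with
    | zero => simp
    | add a b ha hb => simp only [map_add, smul_add, add_tmul, ← ha, ← hb]; abel
    | tmul x t =>
      rw [rG_tmul, rG_tmul, ← tmul_smul, ← tmul_sub, ← tmul_add, ct_tmul, smul_smul, smul_tmul]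
      simp [a5, uu, a2, polar_comm Q₂ r u, polar_self']
      congr 1
      module
  obtain ⟨t, ht⟩ : ∃ t, b (b t) - (2 : F) • b t + t ≠ 0 := by
    by_contra! hc
    have H : ∀ v, rG V₁ b (rG V₁ b v) - (2 : F) • rG V₁ b v + v = 0 := fun v => by
      induction v with
      | zero => simp
      | add a b ha hb => simp only [map_add, smul_add]; linear_combination (norm := abel) ha + hb
      | tmul x t => rw [rG_tmul, rG_tmul, ← tmul_smul, ← tmul_sub, ← tmul_add, hc, tmul_zero]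
    obtain ⟨f, -, b1, -⟩ := hL.exists_dual hQ
    obtain ⟨x, hx⟩ := exists_ne (0 : V₁)
    have := congrArg g (H (g⁻¹ (x ⊗ₜ f)))
    rw [map_add, map_sub, map_smul, a8, a8, apply_inv_apply, a9, map_zero, ← zero_tmul V₁ u] at this
    simpa [b1, h2, a1, hx] using tmul_left_inj hL.ne this
  exact h.mem_of_tr ht (by simpa using hL.q₁) hg fun x => ⟨_, by
    rw [tr_apply, ← a9 (g (x ⊗ₜ t)), tmul_add, tmul_sub, tmul_smul, ← rG_tmul, ← rG_tmul, map_add, map_sub,
      map_smul, a8, a8]⟩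

theorem rG_of_comm {u w : V₂} (hL : TL Q₂ u w) {z : V₁ ⊗[F] V₂ ≃ₗ[F] V₁ ⊗[F] V₂} (hz : z ∈ X)
    (e1 : ∀ v, z (nB V₁ Q₂ u w v) = nB V₁ Q₂ u w (z v))
    (e2 : ∀ x, nB V₁ Q₂ u w x = 0 → z x - x ∈ LinearMap.range (nB V₁ Q₂ u w)) :
    ∃ b, z = rG V₁ b ∧ ∀ s, polar Q₂ u s = 0 → polar Q₂ w s = 0 →
      b s - s ∈ Submodule.span F {u, w} := by
  have := h.nt
  replace e2 := fun x s (a : polar Q₂ u s = 0) (b : polar Q₂ w s = 0) =>
    e2 (x ⊗ₜ s) (by simp [nB_tmul, a, b])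
  obtain ⟨r, a1, a2, a3⟩ := hL.exists_nonsing hQ h5
  obtain ⟨b, rfl⟩ := rG_of_ct (h.mem_of_line hQ h2 h5 hL hL.ne hz fun x => by
    obtain ⟨v, hv⟩ := hL.tmul_mem hQ x (s := u) (Submodule.subset_span (by simp))
    exact ⟨z v, by rw [← e1, hv]⟩) (φ := (2 * Q₂ r)⁻¹ • polarBilin Q₂ r) (r := r) fun x => by
      obtain ⟨y, e⟩ := e2 x r a2 a3
      simp [sub_eq_iff_eq_add.1 e.symm, nB_apply, polar_comm Q₂ r, a2, a3, polar_self', mul_assoc,
        h2, a1]
  refine ⟨b, rfl, fun s b1 b2 => ?_⟩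
  obtain ⟨x, y, e3⟩ := h.exists_one
  obtain ⟨y', e⟩ := e2 y s b1 b2
  exact Submodule.mem_span_pair.2 ⟨-B₁ x (ct (polarBilin Q₂ w) y'), B₁ x (ct (polarBilin Q₂ u) y'), by
    simpa [e3, nB_apply, neg_add_eq_sub] using congrArg (cl (B₁ x)) e⟩

/-- The global argument when `V₂` is orthogonal. -/
theorem le_of_orth [Finite F] (hJ : ∀ g ∈ X, ∀ u w, TL Q₂ u w → ∀ a,
    ¬ ∀ v, lG V₂ a (g v) = g v + g (nB V₁ Q₂ u w v)) : X ≤ TenG F V₁ V₂ := by
  have hW := h.w₂
  have := h.nt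
  have : Nontrivial V₂ := nontrivial_of_finrank_pos (R := F) (by omega)
  intro g hg
  by_contra hg'
  obtain ⟨x₀, hx⟩ := exists_ne (0 : V₁)
  obtain ⟨l, hl⟩ := exists_dual_eq_one (F := F) hx
  obtain ⟨u, u0, hu⟩ := h.ex
  obtain ⟨w, qw, e, hn⟩ := h.idx u u0 hu
  have hL : TL Q₂ u w := ⟨by simpa using hu, by simpa using qw, e, u0, hn⟩
  let W : Submodule F V₂ := Submodule.span F {s | ∃ l v, s = cl l (g (nB V₁ Q₂ u w v))}
  have H : ∀ x y, TL Q₂ x y → ∀ s ∈ W ⊔ F ∙ x, polar Q₂ x s = 0 → polar Q₂ y s = 0 →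
      s ∈ Submodule.span F {x, y} := fun x y hxy s hs e1 e2 => by
    obtain ⟨z, a1, a2, a3, a4, a5⟩ := exists_invol_of_notMem h2
      (fun i : {p : V₂ × V₂ // TL Q₂ p.1 p.2} => nB V₁ Q₂ i.1.1 i.1.2) (fun i => h.un_nB i.2)
      (TenG F V₁ V₂)
      (fun g hg i k hk e => by
        obtain ⟨b, rfl⟩ | ⟨a, rfl⟩ := rG_or_lG h2 hk fun v => by
          obtain ⟨v, rfl⟩ := g.surjective v
          rw [e, map_add, e, e, (h.un_nB i.2).apply_apply, map_zero]
          module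
        · obtain ⟨s, hs⟩ := exists_ne_of_rG_ne (V₁ := V₁) (b := b) fun e' => by
            obtain ⟨v, hv⟩ := i.2.tmul_mem hQ x₀ (s := i.1.1) (Submodule.subset_span (by simp))
            have := e v
            rw [e', hv, LinearEquiv.coe_one, id, left_eq_add, map_eq_zero_iff _ g.injective,
              ← zero_tmul V₁ i.1.1] at this
            exact hx (tmul_left_inj i.2.ne this)
          refine inv_mem_iff.1 (h.mem_of_line hQ h2 h5 i.2 hs (inv_mem hg) fun x =>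
            ⟨g⁻¹ (x ⊗ₜ s), g.injective ?_⟩)
          rw [apply_inv_apply, tmul_sub, ← rG_tmul, eq_sub_iff_add_eq',
            ← apply_inv_apply g (x ⊗ₜ s), e, inv_apply_apply]
        · exact (hJ g hg _ _ i.2 a e).elim)
      (fun g hg i j e => inv_mem_iff.1 (h.mem_of_line hQ h2 h5 j.2 i.2.ne (inv_mem hg) fun x => by
        obtain ⟨v, hv⟩ := i.2.tmul_mem hQ x (s := i.1.1) (Submodule.subset_span (by simp))
        simpa only [hv] using e v))
      (fun ⟨⟨u, w⟩, hL⟩ z hz e1 e2 e3 => by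
        obtain ⟨b, rfl, -⟩ := h.rG_of_comm hQ h2 h5 hL hz e2 e3
        obtain ⟨f, f', c1, c2, c3, c4⟩ := hL.exists_dual hQ
        have c5 : ∀ s, b (b s) = s := fun s => by
          simpa [hl] using congrArg (cl l) (LinearEquiv.congr_fun e1 (x₀ ⊗ₜ s))
        have c6 : ∀ s t, polar Q₂ s (b t) = polar Q₂ t (b s) := fun s t => by
          rw [polar_comm]
          exact (h.isom₂ hz _ _).symm.trans (by rw [c5]; rfl)
        have c7 : ∀ s, polar Q₂ u s • b w - polar Q₂ w s • b u =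
            polar Q₂ s (b u) • w - polar Q₂ s (b w) • u := fun s => by
          simpa [nB_tmul, hl, c6 _ s] using congrArg (cl l) (e2 (x₀ ⊗ₜ s))
        have d1 := c7 f
        have d2 := c7 f'
        simp only [c1, c2, c3, c4, one_smul, zero_smul, sub_zero, zero_sub] at d1 d2
        have d3 := congrArg (polar Q₂ f) d1
        have d4 := congrArg (polar Q₂ f') d2
        have d5 := congrArg (polar Q₂ f') d1
        simp only [polar_sub_right, polar_smul_right, polar_neg_right, polar_comm Q₂ f u,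
          polar_comm Q₂ f w, polar_comm Q₂ f' u, polar_comm Q₂ f' w, c1, c2, c3, c4, smul_eq_mul] at d3 d4 d5
        have d6 : polar Q₂ f (b w) = 0 := mul_left_cancel₀ h2 (by linear_combination d3)
        have d7 : polar Q₂ f' (b u) = 0 := mul_left_cancel₀ h2 (by linear_combination -d4)
        rw [d6, zero_smul, sub_zero] at d1
        rw [d7, zero_smul, zero_sub, neg_inj, d5, mul_one, mul_zero, sub_zero] at d2
        generalize polar Q₂ f (b u) = α at d1 d2
        have d8 := c5 u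
        rw [d2, map_smul, d2, smul_smul] at d8
        exact (mul_self_eq_one_iff.1 (smul_left_injective F hL.ne (d8.trans (one_smul F u).symm))).imp
          (fun e v => by simp [nB_apply, d1, d2, e])
          fun e v => by simp [nB_apply, d1, d2, e, tmul_neg, neg_add_eq_sub])
      hg hg' ⟨(x, y), hxy⟩ ⟨(u, w), hL⟩
    obtain ⟨b, rfl, a6⟩ := h.rG_of_comm hQ h2 h5 hxy a1 a2 a3
    have a7 : W ⊔ F ∙ x ≤ LinearMap.ker (b.toLinearMap + 1) := sup_le (Submodule.span_le.2 (by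
      rintro _ ⟨l, v, rfl⟩
      simpa [cl_rG, add_eq_zero_iff_eq_neg] using congrArg (cl l) (a5 v)))
      ((Submodule.span_singleton_le_iff_mem _ _).2 (by
        obtain ⟨v, hv⟩ := hxy.tmul_mem hQ x₀ (s := x) (Submodule.subset_span (by simp))
        simpa [hv, hl, add_eq_zero_iff_eq_neg] using congrArg (cl l) (a4 v)))
    have a8 := a6 s e1 e2
    rwa [show b s = -s from add_eq_zero_iff_eq_neg.1 (a7 hs), ← neg_add', ← two_smul F,
      neg_mem_iff, Submodule.smul_mem_iff _ h2] at a8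
  have K : ∀ x, x ≠ 0 → Q₂ x = Q₂ 0 → finrank F (W ⊔ F ∙ x :) ≤ 3 := fun x x0 qx => by
    obtain ⟨s, qs, e, hn⟩ := h.idx x x0 qx
    obtain ⟨w₀, hw⟩ := hW.exists_le_pair qx qs e hn (hW.exists_perp_notMem h5 x s) (W := W ⊔ F ∙ x)
      (Submodule.mem_sup_right (Submodule.mem_span_singleton_self x)) fun y a1 a2 a3 =>
        H x y ⟨by simpa using qx, by simpa using a1, a2, x0, a3⟩
    by_cases hc : ∀ s ∈ W ⊔ F ∙ x, polarBilin Q₂ x s = 0
    · exact (Submodule.finrank_mono fun s hs => hw s hs (hc s hs)).trans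
        ((IsWittPair.finrank_span_pair_le _ _).trans (by omega))
    push Not at hc
    obtain ⟨t, a1, a2⟩ := hc
    refine (Submodule.finrank_mono (t := Submodule.span F {x, w₀} ⊔ F ∙ t) fun s hs => ?_).trans
      ((Submodule.finrank_add_le_finrank_add_finrank _ _).trans (add_le_add
        (IsWittPair.finrank_span_pair_le _ _) (finrank_span_singleton (by rintro rfl; simp at a2)).le))
    simpa using Submodule.add_mem_sup (hw (s - (polarBilin Q₂ x s / polarBilin Q₂ x t) • t)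
      (sub_mem hs (Submodule.smul_mem _ _ a1)) (by rw [map_sub, map_smul, smul_eq_mul]; field_simp; ring))
      (Submodule.smul_mem _ (polarBilin Q₂ x s / polarBilin Q₂ x t) (Submodule.mem_span_singleton_self t))
  have K2 : finrank F W ≤ 2 := by
    by_contra hc
    have : ∀ x, Q₂ x = Q₂ 0 → x ∈ W := fun x qx => by
      by_contra hx
      have := K x (by rintro rfl; exact hx (zero_mem _)) qx
      have := Submodule.finrank_lt_finrank_of_lt (lt_of_le_of_ne (le_sup_left : W ≤ W ⊔ F ∙ x)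
        fun e => hx (e.ge (Submodule.mem_sup_right (Submodule.mem_span_singleton_self x))))
      omega
    have h1 : ⊤ ≤ W := fun v _ => all_ind hW u0 hu (P := (· ∈ W)) (fun _ _ => add_mem)
      (fun c => W.smul_mem c (this u hu)) (fun t a _ => this t a) v
    have := (Submodule.finrank_mono (h1.trans le_sup_left)).trans (K u u0 hu)
    rw [finrank_top] at this
    omega
  obtain ⟨s, b1, b2⟩ := exists_tr_le (M := (LinearMap.range (nB V₁ Q₂ u w)).map g.toLinearMap)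
    two_ne_zero (by
      rw [LinearEquiv.finrank_map_eq]
      exact two_mul_le_finrank u0 hn (fun x => hL.tmul_mem hQ x (Submodule.subset_span (by simp)))
        fun x => hL.tmul_mem hQ x (Submodule.subset_span (by simp))) K2 (by
      rintro _ ⟨_, ⟨x, rfl⟩, rfl⟩ l
      exact Submodule.subset_span ⟨l, x, rfl⟩)
  exact hg' (inv_mem_iff.1 (h.mem_of_line hQ h2 h5 hL b1 (inv_mem hg) fun x =>
    mem_map_equiv'.1 (b2 x)))

end TS

end CF.MaxSub
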