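/-
Maximality of tensor product subgroups of classical groups.
-/
import Cfsg.Agent.MaxSub.TI

set_option autoImplicit false

namespace CF.MaxSub

open Module Geom TensorProduct QuadraticMap

variable {F V₁ V₂ : Type*} [Field F] [AddCommGroup V₁] [Module F V₁] [AddCommGroup V₂]
  [Module F V₂] {σ : F →+* F} [FiniteDimensional F V₁] [FiniteDimensional F V₂]

/-- A tensor product of two formed spaces. -/
structure TZ (B₁ : V₁ →ₛₗ[σ] V₁ →ₗ[F] F) (Q₁ : V₁ → F) (B₂ : V₂ →ₛₗ[σ] V₂ →ₗ[F] F) (Q₂ : V₂ → F)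
    (B : V₁ ⊗[F] V₂ →ₛₗ[σ] V₁ ⊗[F] V₂ →ₗ[F] F) (Q : V₁ ⊗[F] V₂ → F)
    (G : Subgroup (V₁ ⊗[F] V₂ ≃ₗ[F] V₁ ⊗[F] V₂)) : Prop where
  w₁ : IsWittPair σ B₁ Q₁
  w₂ : IsWittPair σ B₂ Q₂
  pol : PolarG B Q G
  eq : ∀ x y s t, B (x ⊗ₜ s) (y ⊗ₜ t) = B₁ x y * B₂ s t
  iso : ∀ a b, (∀ v w, B (TensorProduct.congr a b v) (TensorProduct.congr a b w) = B v w) →
    TensorProduct.congr a b ∈ Isom B Q
  sing : ∀ x u, Q₁ x = Q₁ 0 ∨ Q₂ u = Q₂ 0 → Q (x ⊗ₜ u) = Q 0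
  three : 3 ≤ finrank F V₂
  two : 2 ≤ finrank F V₁
  ex : ∃ u, u ≠ 0 ∧ Q₂ u = Q₂ 0
  idx : ∀ u, u ≠ 0 → Q₂ u = Q₂ 0 → ∃ s, Q₂ s = Q₂ 0 ∧ B₂ u s = 0 ∧ s ∉ F ∙ u
  pur : 5 ≤ finrank F V₂ ∨ ∀ s (c : F), ∃ t ∈ Rad B₂ Q₂ s ⊤, ∀ w, t w = w + (c * B₂ s w) • s
  com : ComT B Q
  iso₂ : ∀ w, B₂ w w = 0 → Q₂ w = Q₂ 0

theorem TZ.maxIn {B₁ : V₁ →ₛₗ[σ] V₁ →ₗ[F] F} {Q₁ : V₁ → F} {B₂ : V₂ →ₛₗ[σ] V₂ →ₗ[F] F}
    {Q₂ : V₂ → F} {B : V₁ ⊗[F] V₂ →ₛₗ[σ] V₁ ⊗[F] V₂ →ₗ[F] F} {Q : V₁ ⊗[F] V₂ → F}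
    {G : Subgroup (V₁ ⊗[F] V₂ ≃ₗ[F] V₁ ⊗[F] V₂)} (h : TZ B₁ Q₁ B₂ Q₂ B Q G)
    (H : ∀ X, TQ B₁ Q₁ B₂ Q₂ B Q G X → X ≤ TenG F V₁ V₂) : MaxIn G (TenG F V₁ V₂) := by
  have h2 := h.two
  have : Nontrivial V₁ := nontrivial_of_finrank_pos (R := F) (by omega)
  refine ⟨fun hle => ?_, fun X a1 a2 m hm hm' => by_contra fun hc => hm' (H X
    ⟨⟨h.w₁, h.w₂, h.pol, h.eq, h.iso, h.sing, this, h.three, fun g a b => a1 ⟨b, a⟩, a2, hc⟩,
      h.two, h.ex, h.idx, h.pur, h.com, h.iso₂⟩ hm)⟩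
  obtain ⟨u, u0, hu⟩ := h.ex
  obtain ⟨w, -, a1, a2⟩ := h.idx u u0 hu
  obtain ⟨f, -, a3⟩ := h.w₂.exists_hyperbolic u0 hu
  obtain ⟨x, hx⟩ := exists_ne (0 : V₁)
  obtain ⟨y, hy⟩ := exists_apply_eq_one (φ := B₁ x) fun e => hx (h.w₁.nondeg x fun y => by simp [e])
  obtain ⟨x', a4⟩ := exists_notMem_line h2 y
  obtain ⟨l, a5, a6⟩ := exists_dual_sep a4
  have hu' := h.sing x u (.inr hu)
  obtain ⟨g, a7, c, a8⟩ := h.pol.witt.exists_Rad_add hu' (A := ⊤) trivial (y := y ⊗ₜ f)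
    (w := x' ⊗ₜ w) (by simp [h.eq, hy, a3]) (by simp [h.eq, a1]) trivial
  obtain ⟨a, b, rfl⟩ := hle (h.pol.rad_le _ (fun e => by simpa [e, hy, a3] using h.eq x y u f) hu' a7)
  have b1 : B₂ u (b f) • a y = y := by
    simpa [a1, a3, h.w₂.self_eq_zero hu] using congrArg (ct (B₂ u)) a8
  have b2 : l (a y) = 0 := by
    have := congrArg l b1
    rw [map_smul, a5, smul_eq_zero] at this
    exact this.resolve_left fun e => by
      rw [e, zero_smul] at b1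
      simp [← b1] at hy
  exact a2 (Submodule.mem_span_singleton.2 ⟨-(c * l x), by
    simpa [a5, a6, b2, smul_smul, neg_eq_iff_add_eq_zero, add_comm] using
      (congrArg (cl l) a8).symm⟩)

theorem finrank_mul_le {J : Submodule F V₁} {M : Submodule F (V₁ ⊗[F] V₂)}
    (h : ∀ x ∈ J, ∀ s, x ⊗ₜ s ∈ M) : finrank F J * finrank F V₂ ≤ finrank F M := by
  rw [← finrank_tensorProduct]
  have H : ∀ v, J.subtype.rTensor V₂ v ∈ M := fun v => by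
    induction v with
    | zero => simp
    | add a b ha hb => rw [map_add]; exact add_mem ha hb
    | tmul x s => exact h x x.2 s
  exact LinearMap.finrank_le_finrank_of_injective (f := (J.subtype.rTensor V₂).codRestrict M H)
    fun a b e => Module.Flat.rTensor_preserves_injective_linearMap _ J.injective_subtype
      (congrArg Subtype.val e)

omit [FiniteDimensional F V₁] in
theorem exists_quad (h2 : (2 : F) ≠ 0) {B : LinearMap.BilinForm F V₁} (hS : ∀ x y, B x y = B y x) :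
    ∃ Q : QuadraticForm F V₁, polarBilin Q = B :=
  ⟨(2 : F)⁻¹ • B.toQuadraticMap, LinearMap.ext₂ fun x y => by
    simp only [polarBilin_apply_apply, polar, QuadraticMap.smul_apply,
      LinearMap.BilinMap.toQuadraticMap_apply, map_add, LinearMap.add_apply, smul_eq_mul, hS y x]
    field_simp
    ring⟩

theorem two_le_finrank_range (h2 : (2 : F) ≠ 0) {Q : QuadraticForm F V₁}
    (hQ : (polarBilin Q).Nondegenerate) {a : V₁ ≃ₗ[F] V₁}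
    (ha : ∀ x y, polar Q (a x) (a y) = polar Q x y) (h1 : ∃ x, a x - x ≠ 0)
    (hJ : ∀ x, polar Q (a x - x) (a x - x) = 0) :
    2 ≤ finrank F (LinearMap.range (a.toLinearMap - 1)) := by
  obtain ⟨v, hv⟩ := h1
  have H : ∀ x, polar Q x (a x - x) = 0 := fun x => mul_left_cancel₀ h2 (by
    have := hJ x
    simp only [polar_sub_left, polar_sub_right, ha, polar_comm Q (a x) x] at this ⊢
    linear_combination -this)
  by_contra hc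
  have K : ∀ y, a y - y ∈ F ∙ (a v - v) := fun y =>
    (Submodule.eq_of_le_of_finrank_le (S₁ := F ∙ (a v - v)) (S₂ := LinearMap.range (a.toLinearMap - 1))
      ((Submodule.span_singleton_le_iff_mem _ _).2 ⟨v, rfl⟩)
      (by rw [finrank_span_singleton hv]; omega)).ge ⟨y, rfl⟩
  refine hv (hQ.2 _ fun y => ?_)
  obtain ⟨c, e⟩ := Submodule.mem_span_singleton.1 (K y)
  have e1 := H y
  have e2 := H (y + v)
  rw [map_add, add_sub_add_comm, ← e] at e2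
  rw [← e] at e1
  simp only [polar_add_left, polar_add_right, polar_smul_right, H v, smul_eq_mul] at e1 e2
  rw [polarBilin_apply_apply]
  linear_combination e2 - e1

theorem finrank_range_nB (Q : QuadraticForm F V₂) {u w : V₂} (h : TL Q u w) :
    finrank F (LinearMap.range (nB V₁ Q u w)) ≤ 2 * finrank F V₁ := by
  refine (Submodule.finrank_mono (t := LinearMap.range (tr w) ⊔ LinearMap.range (tr u)) (by
    rintro _ ⟨v, rfl⟩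
    exact sub_mem (Submodule.mem_sup_left (LinearMap.mem_range_self _ _))
      (Submodule.mem_sup_right (LinearMap.mem_range_self _ _)))).trans
    ((Submodule.finrank_add_le_finrank_add_finrank _ _).trans ?_)
  rw [finrank_range_tr h.ne, finrank_range_tr (by rintro rfl; exact h.nm (zero_mem _)), two_mul]

namespace TQ

variable {B₁ : V₁ →ₛₗ[σ] V₁ →ₗ[F] F} {Q₁ : V₁ → F} {B₂ : V₂ →ₛₗ[σ] V₂ →ₗ[F] F} {Q₂ : V₂ → F}
  {B : V₁ ⊗[F] V₂ →ₛₗ[σ] V₁ ⊗[F] V₂ →ₗ[F] F} {Q : V₁ ⊗[F] V₂ → F}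
  {G X : Subgroup (V₁ ⊗[F] V₂ ≃ₗ[F] V₁ ⊗[F] V₂)} (h : TQ B₁ Q₁ B₂ Q₂ B Q G X)
include h

theorem ts_of_tv (h5 : 5 ≤ finrank F V₂) (hq : ∀ w, B₁ w w = 0 → Q₁ w = Q₁ 0) {T : F → Prop}
    (hT : ∀ c, T c → ∀ s, Q₁ s = Q₁ 0 → ∃ t ∈ Rad B₁ Q₁ s ⊤, ∀ v, t v = v + (c * B₁ s v) • s)
    {c : F} (c0 : c ≠ 0) (hc : T c)
    (h3 : 3 ≤ finrank F V₁ ∨ finrank F V₁ = 2 ∧ ∃ c', c' ≠ 0 ∧ c' ≠ c ∧ T c')
    (he : ∀ A : End F V₁, (∀ x, Q₁ x = Q₁ 0 → A x ∈ F ∙ x) → ∃ c : F, A = c • 1) :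
    TS B₁ Q₁ B₂ Q₂ B Q G X :=
  ⟨h, fun _ hA => scalar_of_nU h.w₁ h.AL_ne_top (fun _ _ _ _ => h.mul_mem_of_five h5)
    (fun _ hx _ hA e => nU_mem_tv h.w₁ hq
      (fun _ hx _ hg _ hA _ => h.conj_mem_AL (h.lG_rad hx hg) hA)
      (fun _ a _ b => h.mul_mem_of_five h5 a b) hT c0 hc h3 hx hA e) he hA⟩

omit [FiniteDimensional F V₁] [FiniteDimensional F V₂] in
theorem isom₁ {a : V₁ ≃ₗ[F] V₁} (ha : lG V₂ a ∈ X) [FiniteDimensional F V₂] (x y : V₁) :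
    B₁ (a x) (a y) = B₁ x y := by
  obtain ⟨u, u0, hu⟩ := h.ex
  obtain ⟨f, -, e⟩ := h.w₂.exists_hyperbolic u0 hu
  simpa [h.eq, e] using h.isom ha (x ⊗ₜ u) (y ⊗ₜ f)

theorem range_data {g : V₁ ⊗[F] V₂ ≃ₗ[F] V₁ ⊗[F] V₂} (hg : g ∈ X) {N : End F (V₁ ⊗[F] V₂)}
    (hN : Un X N) (h0 : N ≠ 0) (hB : ∀ v w, B (N v) (N w) = 0) {a : V₁ ≃ₗ[F] V₁}
    (e : ∀ v, lG V₂ a (g v) = g v + g (N v)) :
    lG V₂ a ∈ X ∧ (∃ x, a x - x ≠ 0) ∧ (∀ x y, B₁ (a x - x) (a y - y) = 0) ∧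
      finrank F (LinearMap.range (a.toLinearMap - 1)) * finrank F V₂ ≤
        finrank F (LinearMap.range N) := by
  have H : ∀ x s, (a x - x) ⊗ₜ s = g (N (g⁻¹ (x ⊗ₜ s))) := fun x s => by
    rw [sub_tmul, ← lG_tmul, sub_eq_iff_eq_add', ← apply_inv_apply g (x ⊗ₜ s), e, inv_apply_apply]
  refine ⟨?_, by_contra fun hc => h0 (LinearMap.ext fun v => ?_), fun x y => ?_, ?_⟩
  · convert (hN.conj hg).unip_mem
    ext v
    obtain ⟨v, rfl⟩ := g.surjective v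
    simp [e, unip_apply, inv_apply_apply]
  · push Not at hc
    have := e v
    rw [show a = 1 from LinearEquiv.ext fun x => sub_eq_zero.1 (hc x), map_one] at this
    simpa using this
  · obtain ⟨u, u0, hu⟩ := h.ex
    obtain ⟨f, -, e⟩ := h.w₂.exists_hyperbolic u0 hu
    rw [← mul_one (B₁ _ _), ← e, ← h.eq, H, H, h.isom hg, hB]
  · rw [← LinearEquiv.finrank_map_eq g (LinearMap.range N)]
    refine finrank_mul_le ?_
    rintro _ ⟨x, rfl⟩ s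
    exact ⟨_, ⟨_, rfl⟩, (H x s).symm⟩

end TQ

theorem exists_ne_zero_one (h2 : (2 : F) ≠ 0) : (-1 : F) ≠ 0 ∧ (-1 : F) ≠ 1 :=
  ⟨by simp, fun e => h2 (by linear_combination -e)⟩

omit [FiniteDimensional F V₁] in
theorem eigen_alt (A : End F V₁) (h : ∀ x, (0 : F) = 0 → A x ∈ F ∙ x) : ∃ c : F, A = c • 1 := by
  by_contra! hc
  obtain ⟨z, hz⟩ := exists_not_eigen_end hc
  exact hz (h z rfl)

theorem idx_alt {B : LinearMap.BilinForm F V₂} (hW : IsWittPair (RingHom.id F) B fun _ => 0)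
    (h3 : 3 ≤ finrank F V₂) (u : V₂) (u0 : u ≠ 0) (_ : (0 : F) = 0) :
    ∃ s, (0 : F) = 0 ∧ B u s = 0 ∧ s ∉ F ∙ u := by
  have := hW.finrank_perp (F ∙ u)
  obtain ⟨s, h1, h2⟩ := Geom.exists_notMem_of_finrank_lt
    (show finrank F (F ∙ u) < finrank F (perp B (F ∙ u)) by
      rw [finrank_span_singleton u0] at this ⊢; omega)
  exact ⟨s, rfl, mem_perp_singleton.1 h1, h2⟩

variable [Finite F]

theorem tz_orth {B₁ : LinearMap.BilinForm F V₁} {Q₁ : V₁ → F} {Q₂ : QuadraticForm F V₂}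
    (hQ : (polarBilin Q₂).Nondegenerate) (h2 : (2 : F) ≠ 0) (h5 : 5 ≤ finrank F V₂)
    {B : LinearMap.BilinForm F (V₁ ⊗[F] V₂)} {Q : V₁ ⊗[F] V₂ → F}
    {G : Subgroup (V₁ ⊗[F] V₂ ≃ₗ[F] V₁ ⊗[F] V₂)} (w₁ : IsWittPair (RingHom.id F) B₁ Q₁)
    (pol : PolarG B Q G) (eq : ∀ x y s t, B (x ⊗ₜ s) (y ⊗ₜ t) = B₁ x y * polar Q₂ s t)
    (iso : ∀ g : V₁ ⊗[F] V₂ ≃ₗ[F] V₁ ⊗[F] V₂, (∀ v w, B (g v) (g w) = B v w) → g ∈ Isom B Q)
    (sing : ∀ v, B v v = 0 → Q v = Q 0) (two : 2 ≤ finrank F V₁) (com : ComT B Q) :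
    TZ B₁ Q₁ (polarBilin Q₂) Q₂ B Q G where
  w₁ := w₁
  w₂ := isWittPair_quad Q₂ hQ
  pol := pol
  eq := eq
  iso _ _ := iso _
  sing x u e := sing _ (by
    rw [eq]
    exact e.elim (fun e => by simp [w₁.self_eq_zero e]) fun e => by simp [polar_self', e])
  three := by omega
  two := two
  ex := by simpa using exists_singular_of_three_le Q₂ (by omega)
  idx u u0 hu := by simpa using exists_singular_perp_of_five_le hQ h5 u0 (by simpa using hu)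
  pur := .inl h5
  com := com
  iso₂ w e := by simpa [polar_self', h2] using e

/-- `Sp₂ ⊗ O_n` in `Sp_{2n}`. -/
theorem sp_maxIn_so (h2 : (2 : F) ≠ 0) {B₁ : LinearMap.BilinForm F V₁} (n₁ : B₁.Nondegenerate)
    (a₁ : B₁.IsAlt) {B₂ : LinearMap.BilinForm F V₂} (n₂ : B₂.Nondegenerate)
    (s₂ : ∀ x y, B₂ x y = B₂ y x) {B : LinearMap.BilinForm F (V₁ ⊗[F] V₂)} (hB : B.Nondegenerate)
    (hA : B.IsAlt) (eq : ∀ x y s t, B (x ⊗ₜ s) (y ⊗ₜ t) = B₁ x y * B₂ s t)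
    (d₁ : finrank F V₁ = 2) (d₂ : 5 ≤ finrank F V₂) : MaxIn (SpG B) (TenG F V₁ V₂) := by
  obtain ⟨Q₂, rfl⟩ := exists_quad h2 s₂
  refine (tz_orth n₂ h2 d₂ (isWittPair_alt B₁ n₁ a₁) (polarG_sp hB hA) eq (fun _ => mem_SpG.2)
    (fun _ _ => rfl) d₁.ge (comT_alt hA h2)).maxIn fun X h => ?_
  have hS := h.ts_of_tv d₂ (fun _ _ => rfl) (T := fun _ => True) (fun c _ s _ =>
    ⟨_, spTrans_mem_Rad a₁ (-c) (A := ⊤) trivial, fun v => by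
      simp [spTrans_apply, ← a₁.neg_eq s v]⟩) one_ne_zero trivial
    (.inr ⟨d₁, -1, (exists_ne_zero_one h2).1, (exists_ne_zero_one h2).2, trivial⟩) eigen_alt
  refine hS.le_of_orth n₂ h2 d₂ fun g hg u w hL a e => ?_
  obtain ⟨-, ⟨x, a1⟩, -, a2⟩ := h.range_data hg (hS.un_nB hL) (fun e' => by
    obtain ⟨x, y, e1⟩ := h.exists_one
    obtain ⟨v, hv⟩ := hL.tmul_mem n₂ x (s := u) (Submodule.subset_span (by simp))
    rw [e', LinearMap.zero_apply, ← zero_tmul V₁ u] at hv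
    simp [← tmul_left_inj hL.ne hv] at e1) (fun v v' => by
      simp [nB_apply, eq, polar_self', hL.q₁, hL.q₂, hL.e, polar_comm Q₂ w u]) e
  have a3 := finrank_range_nB (V₁ := V₁) Q₂ hL
  have a4 := Submodule.one_le_finrank_iff.2 (show LinearMap.range (a.toLinearMap - 1) ≠ ⊥ from
    fun e => a1 (by simpa using e.le ⟨x, rfl⟩))
  nlinarith

/-- `O_n ⊗ O_m` in `Ω_{nm}`. -/
theorem omega_maxIn_oo (h2 : (2 : F) ≠ 0) {B₁ : LinearMap.BilinForm F V₁} (n₁ : B₁.Nondegenerate)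
    (s₁ : ∀ x y, B₁ x y = B₁ y x) {B₂ : LinearMap.BilinForm F V₂} (n₂ : B₂.Nondegenerate)
    (s₂ : ∀ x y, B₂ x y = B₂ y x) {Q : QuadraticForm F (V₁ ⊗[F] V₂)}
    (hQ : (polarBilin Q).Nondegenerate)
    (eq : ∀ x y s t, polar Q (x ⊗ₜ s) (y ⊗ₜ t) = B₁ x y * B₂ s t) (d₁ : 3 ≤ finrank F V₁)
    (d₁' : 4 ≤ finrank F V₁ ∨ 3 < Nat.card F) (d₂ : 5 ≤ finrank F V₂)
    (hlt : finrank F V₁ < finrank F V₂) (h4 : finrank F V₁ ≠ 4 ∨
      ∀ x y, x ≠ 0 → B₁ x x = 0 → B₁ y y = 0 → B₁ x y = 0 → y ∈ F ∙ x) :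
    MaxIn (OmG Q) (TenG F V₁ V₂) := by
  obtain ⟨Q₁, rfl⟩ := exists_quad h2 s₁
  obtain ⟨Q₂, rfl⟩ := exists_quad h2 s₂
  have hW := isWittPair_quad Q₁ n₁
  refine (tz_orth n₂ h2 d₂ hW (polarG_omega' hQ (by rw [finrank_tensorProduct]; nlinarith)) eq
    (fun g e => ⟨e, fun v => mul_left_cancel₀ h2 (by simpa [polar_self'] using e v v)⟩)
    (fun v e => by simpa [polar_self', h2] using e) (by omega) (comT_quad Q)).maxIn fun X h => ?_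
  obtain ⟨u, u0, hu⟩ := h.ex
  have H : ∀ A ∈ AL X h.w₂, ∀ A' : End F V₁, (∀ x y, polar Q₁ (A x) y = polar Q₁ x (A' y)) →
      A' ∈ AL X h.w₂ := fun A hA A' e => by
    simpa using sub_mem hA (h.mem_of_un u0 hu (h.un_comm (ε := 1) (fun x y => by
      simp [polar_comm Q₂ x y]) u0 hu hA h.one_mem_AL e (C' := 1) fun _ _ => rfl))
  obtain ⟨x₀, x0, hx⟩ := exists_singular_of_three_le Q₁ d₁
  have hE : ∀ x w (hx : Q₁ x = 0) (hw : polar Q₁ x w = 0),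
      (eichler hx hw).1 ∈ OG Q₁ ⊓ X.comap (lG V₂) := fun x w hx hw => ⟨(eichler hx hw).2,
    h.lG_rad (by simpa using hx) (eichler_mem_Rad hx hw (A := ⊤) trivial trivial)⟩
  have hS : TS _ _ _ _ _ _ _ X := ⟨h, fun _ hA => scalar_of_nU hW h.AL_ne_top
    (fun _ _ _ _ => h.mul_mem_of_five d₂) (fun x hx A hA e => nU_mem_orth n₁ h2 d₁
      (d₁'.imp_right exists_sq_ne_one') inf_le_left hE (fun x y x0 a1 a2 a3 a4 => by
        obtain h4 | h4 := h4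
        · obtain ⟨s, w, b1, b2, b3⟩ := exists_eichler_move' n₁ h4 x0 a1 a2 a3 a4
          exact ⟨_, hE s w b1 b2, b3⟩
        exact (a4 (h4 x y x0 (by simp [polar_self', a1]) (by simp [polar_self', a2]) a3)).elim)
      (fun g hg A hA A' => h.conj_mem_AL hg.2 hA) (fun A hA C hC A' C' e1 e2 => add_mem
        (h.mul_mem_of_five d₂ hA (H C hC C' e2)) (h.mul_mem_of_five d₂ hC (H A hA A' e1)))
      (by simpa using hx) hA e) (fun _ => scalar_of_eigen hW d₁ (exists_ne_zero_one h2).1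
        (exists_ne_zero_one h2).2 x0 (by simpa using hx)) hA⟩
  refine hS.le_of_orth n₂ h2 d₂ fun g hg u w hL a e => ?_
  obtain ⟨a0, a1, a5, a2⟩ := h.range_data hg (hS.un_nB hL) (fun e' => by
    obtain ⟨v, hv⟩ := hL.tmul_mem n₂ x₀ (s := u) (Submodule.subset_span (by simp))
    rw [e', LinearMap.zero_apply, ← zero_tmul V₁ u] at hv
    exact x0 (tmul_left_inj hL.ne hv).symm) (fun v v' => by
      simp [nB_apply, eq, polar_self', hL.q₁, hL.q₂, hL.e, polar_comm Q₂ w u]) e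
  have a3 := finrank_range_nB (V₁ := V₁) Q₂ hL
  have a4 := two_le_finrank_range h2 n₁ (h.isom₁ a0) a1 fun x => a5 x x
  nlinarith

end CF.MaxSub
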