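/-
Overgroups of `ΓO_d(q^r) ∩ Ω_{dr}(q)` in `Ω_{dr}(q)`, `q` odd: the stabiliser of a singular point
over the extension field.
-/
import Cfsg.Agent.MaxSub.F3V
import Cfsg.Agent.MaxSub.TJ

set_option autoImplicit false

namespace CF.MaxSub

open Module Geom QuadraticMap

variable {F K V : Type*} [Field F] [Field K] [Algebra F K]
  [AddCommGroup V] [Module F V] [Module K V] [IsScalarTower F K V]

/-- An orthogonal space over an extension field seen as an orthogonal space. -/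
structure OF (Q : QuadraticForm F V) (Qk : QuadraticForm K V) (ν : Dual F K)
    (X : Subgroup (V ≃ₗ[F] V)) : Prop where
  nd : (polarBilin Q).Nondegenerate
  ndk : (polarBilin Qk).Nondegenerate
  nu : ν ≠ 0
  q : ∀ x, Q x = ν (Qk x)
  two : (2 : F) ≠ 0
  prime : (finrank F K).Prime
  dim : 3 ≤ finrank K V
  le : X ≤ OmG Q
  mem : OmG Q ⊓ SemiG F K V ≤ X

/-- The unipotent radical of the stabiliser of `K u`. -/
structure RM (Qk : QuadraticForm K V) (u : V) (k : V ≃ₗ[F] V) : Prop where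
  fix : ∀ c : K, k (c • u) = c • u
  sub : ∀ x, polar Qk u x = 0 → k x - x ∈ K ∙ u

/-- Its centre. -/
structure ZM (X : Subgroup (V ≃ₗ[F] V)) (Qk : QuadraticForm K V) (u : V) (N : End F V) :
    Prop where
  un : Un X N
  im : ∀ x, N x ∈ K ∙ u
  ker : ∀ x, polar Qk u x = 0 → N x = 0

section

variable {Qk : QuadraticForm K V} {u : V} {k e : V ≃ₗ[F] V}

omit [Algebra F K] [IsScalarTower F K V] in
theorem RM.fix' (h : RM Qk u k) {m : V} (hm : m ∈ K ∙ u) : k m = m := by
  obtain ⟨c, rfl⟩ := Submodule.mem_span_singleton.1 hm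
  exact h.fix c

theorem rm_of_rad {g : V ≃ₗ[K] V} {A : Submodule K V} (hg : g ∈ Rad (polarBilin Qk) Qk u A) :
    RM Qk u (g.restrictScalars F) :=
  ⟨fun c => by simp [hg.2.1], hg.2.2.1⟩

omit [Module F V] [IsScalarTower F K V] in
theorem exists_nu_sq {ν : Dual F K} (hν : ν ≠ 0) (h2 : (2 : K) ≠ 0) {a : K} (ha : a ≠ 0) :
    ∃ k, ν (k ^ 2 * a) ≠ 0 := by
  by_contra! hc
  refine mul_ne_zero h2 ha (eq_zero_of_nu hν fun k => ?_)
  have := hc (k + 1)
  rw [show (k + 1) ^ 2 * a = k ^ 2 * a + 1 ^ 2 * a + k * (2 * a) by ring] at this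
  simpa only [map_add, hc, zero_add] using this

omit [Algebra F K] [Module F V] [IsScalarTower F K V] in
theorem perp_of_mem_line (hu : Qk u = 0) {m : V} (hm : m ∈ K ∙ u) : polar Qk u m = 0 := by
  obtain ⟨c, rfl⟩ := Submodule.mem_span_singleton.1 hm
  simp [hu]

end

namespace OF

variable {Q : QuadraticForm F V} {Qk : QuadraticForm K V} {ν : Dual F K}
  {X : Subgroup (V ≃ₗ[F] V)} (h : OF Q Qk ν X)
include h

theorem eq (x y : V) : polar Q x y = ν (polar Qk x y) := by simp [polar, h.q]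

theorem two' : (2 : K) ≠ 0 := by
  simpa [map_ofNat] using (map_ne_zero (algebraMap F K)).2 h.two

theorem witt : IsWittPair (RingHom.id K) (polarBilin Qk) Qk := isWittPair_quad Qk h.ndk

theorem finK : FiniteDimensional F K := .of_finrank_pos h.prime.pos

theorem fin : FiniteDimensional K V := .of_finrank_pos (by have := h.dim; omega)

theorem finF : FiniteDimensional F V := have := h.finK; have := h.fin; Module.Finite.trans K V

theorem five : 5 ≤ finrank F V := by
  have := finrank_mul_finrank F K V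
  have := h.dim
  have := h.prime.two_le
  nlinarith

theorem og {g : V ≃ₗ[K] V} (hg : g ∈ OG Qk) : g.restrictScalars F ∈ OG Q :=
  mem_OG.2 fun v => by simp [h.q, mem_OG.1 hg]

theorem ogX {g : V ≃ₗ[F] V} (hg : g ∈ X) : g ∈ OG Q := OmG_le (h.le hg)

theorem isom {g : V ≃ₗ[F] V} (hg : g ∈ X) (x y : V) : polar Q (g x) (g y) = polar Q x y :=
  (h.ogX hg).1 x y

theorem perp_iff {u x : V} : (∀ k : K, polar Q (k • u) x = 0) ↔ polar Qk u x = 0 :=
  ⟨fun e => eq_zero_of_nu h.nu fun k => by simpa [h.eq] using e k, fun e k => by simp [h.eq, e]⟩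

theorem mem_line {u y : V} (e : ∀ x, polar Qk u x = 0 → polar Qk y x = 0) : y ∈ K ∙ u := by
  have := h.fin
  by_contra hc
  obtain ⟨x, h1, h2⟩ := h.witt.exists_dual_vec hc
  simpa [e x (h2 u (Submodule.mem_span_singleton_self u))] using h1

theorem mem_line' {u y : V} (e : ∀ x, polar Qk u x = 0 → polar Q y x = 0) : y ∈ K ∙ u :=
  h.mem_line fun x hx => eq_zero_of_nu h.nu fun k => by
    simpa [h.eq] using e (k • x) (by simp [hx])

theorem exists_dual {u y : V} (hy : y ∉ K ∙ u) : ∃ w, polar Qk u w = 0 ∧ polar Qk w y = 1 := by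
  have := h.fin
  obtain ⟨x, h1, h2⟩ := h.witt.exists_dual_vec hy
  exact ⟨x, h2 u (Submodule.mem_span_singleton_self u), (polar_comm _ _ _).trans h1⟩

theorem exists_hyp {u : V} (u0 : u ≠ 0) (hu : Qk u = 0) : ∃ f, Qk f = 0 ∧ polar Qk u f = 1 := by
  have := h.fin
  simpa using h.witt.exists_hyperbolic u0 (by simpa using hu)

theorem exists_ns {u f : V} (hu : Qk u = 0) (hf : Qk f = 0) (e : polar Qk u f = 1) :
    ∃ z, Qk z ≠ 0 ∧ polar Qk u z = 0 ∧ polar Qk f z = 0 :=
  have := h.fin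
  exists_nonsingular_perp_hyp h.ndk h.dim hu hf e

theorem polar_fix {u : V} {k : V ≃ₗ[F] V} (hk : k ∈ OG Q) (e : ∀ c : K, k (c • u) = c • u)
    (x : V) : polar Qk u (k x) = polar Qk u x := by
  rw [← sub_eq_zero, ← polar_sub_right, ← h.perp_iff]
  intro c
  rw [polar_sub_right, sub_eq_zero]
  conv_lhs => rw [← e c]
  exact hk.1 _ _

theorem rm_inv {u : V} {k : V ≃ₗ[F] V} (hk : k ∈ OG Q) (hr : RM Qk u k) : RM Qk u k⁻¹ := by
  have h1 : ∀ c : K, k⁻¹ (c • u) = c • u := fun c => by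
    conv_lhs => rw [← hr.fix c, inv_apply_apply]
  refine ⟨h1, fun x hx => ?_⟩
  have := neg_mem (hr.sub (k⁻¹ x) (by rw [h.polar_fix (inv_mem hk) h1, hx]))
  rwa [apply_inv_apply, neg_sub] at this

theorem rm_mul {u : V} {k e : V ≃ₗ[F] V} (he : e ∈ OG Q) (hr : RM Qk u k) (hr' : RM Qk u e) :
    RM Qk u (k * e) := by
  refine ⟨fun c => by simp [hr.fix, hr'.fix], fun x hx => ?_⟩
  simpa using add_mem (hr.sub (e x) (by rw [h.polar_fix he hr'.fix, hx])) (hr'.sub x hx)

theorem zm_of_fix {u : V} (hu : Qk u = 0) {g : V ≃ₗ[F] V} (hg : g ∈ X)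
    (e : ∀ x, polar Qk u x = 0 → g x = x) : ZM X Qk u ((g : End F V) - 1) := by
  have h1 : ∀ x, g x - x ∈ K ∙ u := fun x => h.mem_line' fun y hy => by
    rw [polar_sub_left, sub_eq_zero]
    conv_lhs => rw [← e y hy, h.isom hg]
  exact ⟨un_of_apply (fun v => sub_eq_zero.2 (e _ (perp_of_mem_line hu (h1 v)))) hg
    fun v => by simp, h1, fun x hx => sub_eq_zero.2 (e x hx)⟩

theorem comm {u : V} (hu : Qk u = 0) {k e : V ≃ₗ[F] V} (hk : k ∈ X) (he : e ∈ X) (hr : RM Qk u k)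
    (hr' : RM Qk u e) : ZM X Qk u ((k : End F V) * e - (e : End F V) * k) := by
  have h1 : ∀ x, polar Qk u x = 0 → k (e x) - e (k x) = 0 := fun x hx => by
    have a := hr.fix' (hr'.sub x hx)
    have b := hr'.fix' (hr.sub x hx)
    rw [map_sub] at a b
    linear_combination (norm := module) a - b
  have h2 := h.zm_of_fix hu (mul_mem (mul_mem hk he) (inv_mem (mul_mem he hk))) fun x hx => by
    have := h1 ((e * k)⁻¹ x) (by
      rw [← h.polar_fix (h.ogX (mul_mem he hk)) (h.rm_mul (h.ogX hk) hr' hr).fix, apply_inv_apply,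
        hx])
    exact (sub_eq_zero.1 this).trans (apply_inv_apply (e * k) x)
  have h3 : ∀ v, (k * e * (e * k)⁻¹) v - v = k (e v) - e (k v) := fun v => by
    have := h1 (v - (e * k)⁻¹ v) (by
      rw [polar_sub_right, h.polar_fix (inv_mem (h.ogX (mul_mem he hk)))
        (h.rm_inv (h.ogX (mul_mem he hk)) (h.rm_mul (h.ogX hk) hr' hr)).fix, sub_self])
    have e1 : e (k ((e * k)⁻¹ v)) = v := apply_inv_apply (e * k) v
    simp only [map_sub, e1, LinearEquiv.mul_apply] at this ⊢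
    linear_combination (norm := module) -this
  exact ⟨h2.un.congr h3, fun x => (congrArg (· ∈ K ∙ u) (h3 x)).mp (h2.im x), h1⟩

variable [Finite K]

theorem finite : Finite F := .of_injective _ (algebraMap F K).injective

theorem pol : PolarG (polarBilin Q) Q (OmG Q) :=
  have := h.finite
  have := h.finF
  polarG_omega' h.nd h.five

theorem rm_om {u : V} (hu : Qk u = 0) {k : V ≃ₗ[F] V} (hk : k ∈ OG Q) (hr : RM Qk u k) :
    k ∈ OmG Q := by
  have := h.finF
  refine mem_of_radical h.pol (kl F K u) (fun m hm => ?_) (fun m hm => mem_perp.2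
    fun x hx => ?_) hk (fun m hm => hr.fix' hm) fun x hx => hr.sub x (h.perp_iff.1 fun k => ?_)
  · obtain ⟨k, rfl⟩ := mem_kl.1 hm
    simp [h.q, quad_smul, hu]
  · obtain ⟨k, rfl⟩ := mem_kl.1 hm
    obtain ⟨l, rfl⟩ := mem_kl.1 hx
    simp [h.eq, hu]
  · exact mem_perp.1 hx _ (smul_mem_kl k u)

theorem rad_mem {u : V} (hu : Qk u = 0) {A : Submodule K V} {g : V ≃ₗ[K] V}
    (hg : g ∈ Rad (polarBilin Qk) Qk u A) : g.restrictScalars F ∈ X :=
  h.mem ⟨h.rm_om hu (h.og hg.1) (rm_of_rad hg), restrict_mem_semiG g⟩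

theorem eich {u w : V} (hu : Qk u = 0) (hw : polar Qk u w = 0) : ∃ e ∈ X, RM Qk u e ∧
    (∀ (c : K) x, e (c • x) = c • e x) ∧
    ∀ x, e x = x + polar Qk u x • w - polar Qk w x • u - (Qk w * polar Qk u x) • u :=
  have := eichler_mem_Rad hu hw (A := ⊤) trivial trivial
  ⟨_, h.rad_mem hu this, rm_of_rad this, fun c x => map_smul (eichler hu hw).1 c x, fun _ => rfl⟩

omit [Finite K] in
theorem sq_mem {g : V ≃ₗ[K] V} (hg : g ∈ OG Qk) : (g * g).restrictScalars F ∈ X :=
  have := h.finF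
  h.mem ⟨sq_mem_OmG h.nd h.five (h.og hg), restrict_mem_semiG _⟩

theorem exists_move {u u' : V} (u0 : u ≠ 0) (u0' : u' ≠ 0) (hu : Qk u = 0) (hu' : Qk u' = 0) :
    ∃ b ∈ OG Qk, b.restrictScalars F ∈ X ∧ ∃ c : K, c ≠ 0 ∧ b u = c • u' := by
  have := h.fin
  have hW := h.witt
  obtain ⟨z, hz, e, e'⟩ := hW.exists_common_partner' h.dim u0 u0' (by simpa using hu)
    (by simpa using hu')
  have a1 := mt hW.refl e
  have a2 := mt hW.refl e'
  obtain ⟨b, hb, e⟩ := hW.exists_Rad hz (A := ⊤) trivial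
    (y' := (polarBilin Qk z u / polarBilin Qk z u') • u') a1
    (by rw [map_smul, smul_eq_mul, div_mul_cancel₀ _ a2]) (by simp [quad_smul, hu, hu']) trivial
  exact ⟨b, hb.1, h.rad_mem (by simpa using hz) hb, _, div_ne_zero a1 a2, e⟩

theorem exists_dil {u f : V} (hu : Qk u = 0) (hf : Qk f = 0) (e : polar Qk u f = 1) {μ : K}
    (μ0 : μ ≠ 0) : ∃ b ∈ OG Qk, b.restrictScalars F ∈ X ∧ b u = μ ^ 2 • u ∧
      ∀ x, polar Qk u x = 0 → b x - x ∈ K ∙ u := by
  have := h.fin
  let b₀ : End K V := 1 + (μ - 1) • (polarBilin Qk f).smulRight u +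
    (μ⁻¹ - 1) • (polarBilin Qk u).smulRight f
  have h1 : ∀ x, b₀ x = x + ((μ - 1) * polar Qk f x) • u + ((μ⁻¹ - 1) * polar Qk u x) • f :=
    fun x => by simp [b₀, mul_smul]
  have h2 : ∀ x, Qk (b₀ x) = Qk x := fun x => by
    simp only [h1, quad_add, quad_smul, hu, hf, polar_add_left, polar_smul_left, polar_smul_right,
      e, smul_eq_mul, polar_comm Qk x]
    field_simp
    ring
  have h3 : ∀ x y, polarBilin Qk (b₀ x) (b₀ y) = polarBilin Qk x y := fun x y => by
    simp only [polarBilin_apply_apply, polar, ← map_add, h2]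
  obtain ⟨b, hb⟩ := h.witt.exists_equiv b₀ h3
  have h4 : b ∈ OG Qk := mem_OG.2 fun v => by rw [hb, h2]
  have h5 : b u = μ • u := by simp [hb, h1, polar_comm Qk f u, e, hu, sub_smul]
  have h6 : ∀ x, polar Qk u x = 0 → b x - x ∈ K ∙ u := fun x hx =>
    Submodule.mem_span_singleton.2 ⟨(μ - 1) * polar Qk f x, by rw [hb, h1, hx]; module⟩
  refine ⟨b * b, mul_mem h4 h4, h.sq_mem h4, by simp [h5, smul_smul, pow_two], fun x hx => ?_⟩
  obtain ⟨c, hc⟩ := Submodule.mem_span_singleton.1 (h6 x hx)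
  rw [LinearEquiv.mul_apply, eq_add_of_sub_eq hc.symm, map_add, map_smul, h5,
    eq_add_of_sub_eq hc.symm]
  exact Submodule.mem_span_singleton.2 ⟨c * μ + c, by module⟩

theorem zm_move {u u' : V} {N : End F V} (hN : ZM X Qk u N) {b : V ≃ₗ[K] V} (hb : b ∈ OG Qk)
    (hb' : b.restrictScalars F ∈ X) {c : K} (e : b u = c • u') :
    ∃ N', ZM X Qk u' N' ∧ ∀ x, N' (b x) = b (N x) := by
  refine ⟨_, ⟨hN.un.conj hb', fun x => ?_, fun x hx => ?_⟩, fun x => ?_⟩
  · obtain ⟨a, ha⟩ := Submodule.mem_span_singleton.1 (hN.im (b⁻¹ x))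
    exact Submodule.mem_span_singleton.2 ⟨a * c, by
      change _ = b (N (b⁻¹ x)); rw [← ha, map_smul, e, mul_smul]⟩
  · change b (N (b⁻¹ x)) = 0
    rw [hN.ker, map_zero]
    have := hb.1 u (b⁻¹ x)
    rw [apply_inv_apply, e] at this
    simpa [hx] using this.symm
  · change b (N (b⁻¹ (b x))) = _
    rw [inv_apply_apply]

section NoZ

variable {u : V} (u0 : u ≠ 0) (hu : Qk u = 0) (hZ : ∀ N, ZM X Qk u N → N = 0)
include u0 hu hZ

theorem lin_of_rm {k : V ≃ₗ[F] V} (hk : k ∈ X) (hr : RM Qk u k) (c : K) (x : V) :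
    k (c • x) = c • k x := by
  obtain ⟨f, -, hf⟩ := h.exists_hyp u0 hu
  have hw : polar Qk u (k f - f) = 0 := by
    rw [polar_sub_right, h.polar_fix (h.ogX hk) hr.fix, sub_self]
  obtain ⟨e, he, -, a1, a2⟩ := h.eich hu hw
  have h1 : ∀ x, polar Qk u x = 0 → e x = k x := fun x hx => by
    obtain ⟨e', he', hr', -, a3⟩ := h.eich hu hx
    have := LinearMap.congr_fun (hZ _ (h.comm hu hk he' hr hr')) f
    simp only [LinearMap.sub_apply, Module.End.mul_apply, LinearEquiv.coe_coe, a3, hf, map_add,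
      map_sub, hr.fix, h.polar_fix (h.ogX hk) hr.fix, one_smul, LinearMap.zero_apply] at this
    rw [a2, hx, polar_sub_left, polar_comm _ f, polar_comm _ (k f)]
    linear_combination (norm := module) -this
  have h2 := hZ _ (h.zm_of_fix hu (mul_mem (inv_mem he) hk) fun x hx => by
    rw [LinearEquiv.mul_apply, ← h1 x hx, inv_apply_apply])
  have h3 : ∀ x, k x = e x := fun x => by
    have := sub_eq_zero.1 (LinearMap.congr_fun h2 x)
    rw [← apply_inv_apply e (k x)]
    exact congrArg e this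
  rw [h3, h3, a1]

variable {g : V ≃ₗ[F] V} (hg : g ∈ X) (e : ∀ c : K, g (c • u) ∈ K ∙ u)
include hg e

omit hZ hg hu [Finite K] in
theorem stab_inv (c : K) : g⁻¹ (c • u) ∈ K ∙ u := by
  have := h.finF
  have h1 : (kl F K u).map (g : V →ₗ[F] V) = kl F K u := Submodule.eq_of_le_of_finrank_eq
    (by rintro _ ⟨_, hm, rfl⟩; obtain ⟨c, rfl⟩ := mem_kl.1 hm; exact e c)
    (LinearEquiv.finrank_map_eq _ _)
  exact mem_map_equiv'.1 (h1.ge (smul_mem_kl c u))

omit hZ [Finite K] in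
theorem stab_perp {x : V} (hx : polar Qk u x = 0) : polar Qk u (g x) = 0 :=
  h.perp_iff.1 fun c => by
    obtain ⟨a, ha⟩ := Submodule.mem_span_singleton.1 (h.stab_inv u0 e c)
    rw [← apply_inv_apply g (c • u), h.isom hg, ← ha, h.perp_iff.2 hx]

theorem semi (κ : K) : ∃ κ' : K, (∀ m ∈ K ∙ u, g (κ • m) = κ' • g m) ∧
    (∀ x, polar Qk u x = 0 → g (κ • x) - κ' • g x ∈ K ∙ u) ∧
    ∀ x, polar Qk u (g (κ • x) - κ' • g x) = 0 := by
  have e' := h.stab_inv u0 e
  have h1 : ∀ w x, polar Qk u w = 0 → polar Qk u x = 0 →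
      g⁻¹ (polar Qk w (g (κ • x)) • u) = κ • g⁻¹ (polar Qk w (g x) • u) := fun w x hw hx => by
    obtain ⟨t, ht, hr, -, a⟩ := h.eich hu hw
    have a1 : ∀ x, polar Qk u x = 0 → (g⁻¹ * t * g) x = x - g⁻¹ (polar Qk w (g x) • u) :=
      fun x hx => by simp [a, h.stab_perp u0 hu hg e hx, inv_apply_apply]
    have := h.lin_of_rm u0 hu hZ (mul_mem (mul_mem (inv_mem hg) ht) hg) ⟨fun c => by
      simp only [LinearEquiv.mul_apply, hr.fix' (e c), inv_apply_apply], fun x hx => by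
        rw [a1 x hx, sub_sub_cancel_left]; exact neg_mem (e' _)⟩ κ x
    rwa [a1 _ hx, a1 _ (by simp [hx]), smul_sub, sub_right_inj] at this
  obtain ⟨f, hf, a1⟩ := h.exists_hyp u0 hu
  obtain ⟨z, z0, z1, -⟩ := h.exists_ns hu hf a1
  have h2 := h1 z (g⁻¹ z)
  have z2 := h.stab_perp u0 hu (inv_mem hg) e' z1
  have z3 : 2 * Qk z ≠ 0 := mul_ne_zero h.two' z0
  have h3 : ∀ m ∈ K ∙ u, g (κ • m) = (polar Qk z (g (κ • g⁻¹ z)) / (2 * Qk z)) • g m :=
    fun m hm => by
    obtain ⟨c, rfl⟩ := Submodule.mem_span_singleton.1 hm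
    obtain ⟨a, ha⟩ := Submodule.mem_span_singleton.1 (e c)
    have := h1 ((a / (2 * Qk z)) • z) (g⁻¹ z) (by simp [z1]) z2
    rw [apply_inv_apply, polar_smul_left, polar_smul_left, polar_self', smul_eq_mul, smul_eq_mul,
      div_mul_cancel₀ _ z3, ha, inv_apply_apply] at this
    rw [← this, apply_inv_apply, ← ha, smul_smul]
    congr 1
    ring
  generalize polar Qk z (g (κ • g⁻¹ z)) / (2 * Qk z) = κ' at h3
  refine ⟨κ', h3, fun x hx => h.mem_line fun w hw => ?_, fun x => h.perp_iff.1 fun c => ?_⟩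
  · have := congrArg g (h1 w x hw hx)
    rw [h3 _ (e' _), apply_inv_apply, apply_inv_apply, smul_smul] at this
    rw [polar_comm, polar_sub_right, smul_left_injective K u0 this, polar_smul_right, smul_eq_mul,
      sub_self]
  · have a2 : ∀ (k : K) x y, polar Q x (k • y) = polar Q (k • x) y := fun k x y => by
      simp [h.eq]
    rw [polar_sub_right, a2, ← apply_inv_apply g (c • u), ← h3 _ (e' c), h.isom hg, h.isom hg, a2,
      sub_self]

/-- The stabiliser of a singular point over `K` is semilinear. -/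
theorem stab : g ∈ SemiG F K V := by
  have := h.finF
  have : Nontrivial V := nontrivial_of_ne _ _ u0
  obtain ⟨f, hf, a1⟩ := h.exists_hyp u0 hu
  have a2 : polar Qk f u = 1 := (polar_comm _ _ _).trans a1
  let pu : End K V := (polarBilin Qk f).smulRight u
  let pf : End K V := (polarBilin Qk u).smulRight f
  let pt : End K V := 1 - pu - pf
  have b1 : ∀ x, pu x = polar Qk f x • u := fun _ => rfl
  have b2 : ∀ x, pf x = polar Qk u x • f := fun _ => rfl
  have b3 : ∀ x, pt x = x - pu x - pf x := fun _ => rfl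
  have b4 : ∀ x, polar Qk u (pt x) = 0 := fun x => by simp [b1, b2, b3, hu, a1]
  have b5 : ∀ x, polar Qk f (pt x) = 0 := fun x => by simp [b1, b2, b3, hf, a2]
  have b6 : ∀ m ∈ K ∙ u, pt m = 0 := fun m hm => by
    obtain ⟨c, rfl⟩ := Submodule.mem_span_singleton.1 hm
    simp [b1, b2, b3, hu, a2]
  let k₀ : End F V := g.toLinearMap ∘ₗ pu.restrictScalars F +
    pt.restrictScalars F ∘ₗ g.toLinearMap ∘ₗ pt.restrictScalars F +
    pf.restrictScalars F ∘ₗ g.toLinearMap ∘ₗ pf.restrictScalars F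
  have c1 : ∀ x, k₀ x = g (pu x) + pt (g (pt x)) + pf (g (pf x)) := fun _ => rfl
  have c2 : ∀ x, Q x = Q (pt x) + polar Q (pu x) (pf x) := fun x => by
    rw [h.q, h.q, h.eq, ← map_add]
    conv_lhs => rw [show x = pt x + (pu x + pf x) by rw [b3]; abel]
    simp [quad_add, quad_smul, hu, hf, polar_comm Qk (pt _), b4, b5, b1, b2]
  have c3 : ∀ x, polar Qk u x = 0 → Q (pt x) = Q x := fun x hx => by simp [c2 x, b2, hx]
  have c4 : ∀ m ∈ K ∙ u, ∀ x, polar Q m (pf x) = polar Q m x := fun m hm x => by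
    obtain ⟨c, rfl⟩ := Submodule.mem_span_singleton.1 hm
    simp [h.eq, b2, a1, mul_comm]
  have c5 : ∀ x, Q (k₀ x) = Q x := fun x => by
    obtain ⟨a, ha⟩ := Submodule.mem_span_singleton.1 (e (polar Qk f x))
    have d1 : pu (k₀ x) = g (pu x) := by simp [c1, b1 x, ← ha, b1, b5, b2, a2, hf]
    have d2 : pf (k₀ x) = pf (g (pf x)) := by simp [c1, b1 x, ← ha, b4, b2, a1, hu]
    rw [c2 (k₀ x), b3, d1, d2, c1, c2 x, c4 (g (pu x)) (e _), h.isom hg, ← mem_OG.1 (h.ogX hg) (pt x),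
      ← c3 _ (h.stab_perp u0 hu hg e (b4 x))]
    congr 2
    abel
  obtain ⟨k, hk⟩ := h.pol.witt.exists_equiv k₀ fun x y => by
    simp only [polarBilin_apply_apply, polar, ← map_add, c5]
  have d1 : k ∈ OG Q := mem_OG.2 fun v => by rw [hk, c5]
  have d2 : ∀ c : K, k (c • u) = g (c • u) := fun c => by
    simp [hk, c1, b6 _ (smul_mem_kl (F := F) c u), b1, b2, a2, hu]
  have d3 : k ∈ SemiG F K V := mem_semiG fun κ => by
    obtain ⟨κ', e1, e2, e3⟩ := h.semi u0 hu hZ hg e κ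
    refine ⟨κ', fun v => ?_⟩
    have e4 := b6 _ (e2 _ (b4 v))
    have e5 : pf (g (κ • pf v) - κ' • g (pf v)) = 0 := by rw [b2, e3, zero_smul]
    simp only [map_sub, map_smul, sub_eq_zero] at e4 e5
    simp only [hk, c1, map_smul, e4, e5, smul_add, e1 (pu v) (smul_mem_kl (F := F) _ u)]
  have d4 : RM Qk u (k⁻¹ * g) := ⟨fun c => by rw [LinearEquiv.mul_apply, ← d2, inv_apply_apply],
    fun x hx => by
      have e1 : pf x = 0 := by rw [b2, hx, zero_smul]
      have e2 : g x - k x = pu (g (pt x)) := by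
        rw [hk, c1, e1, b3 (g _), b2 (g (pt x)), h.stab_perp u0 hu hg e (b4 x), b3, e1]
        simp only [map_sub, map_zero]
        module
      rw [LinearEquiv.mul_apply, eq_add_of_sub_eq e2, map_add, inv_apply_apply, add_sub_cancel_right]
      exact h.stab_inv u0 (fun c => d2 c ▸ e c) _⟩
  have d5 := h.rm_om hu (mul_mem (inv_mem d1) (h.ogX hg)) d4
  have d6 : k ∈ X := h.mem ⟨by simpa using mul_mem (h.le hg) (inv_mem d5), d3⟩
  simpa using mul_mem d3 (lin_mem_semiG (h.lin_of_rm u0 hu hZ (mul_mem (inv_mem d6) hg) d4))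

end NoZ

end OF

end CF.MaxSub
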