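/-
Overgroups of `ΓO_d(q^r) ∩ Ω_{dr}(q)` in `Ω_{dr}(q)`, `q` odd: generation from the centre of a
radical.
-/
import Cfsg.Agent.MaxSub.F3O

set_option autoImplicit false

namespace CF.MaxSub

open Module Geom QuadraticMap

variable {F K V : Type*} [Field F] [Field K] [Algebra F K]
  [AddCommGroup V] [Module F V] [Module K V] [IsScalarTower F K V]

omit [Module F V] [IsScalarTower F K V] in
/-- A subalgebra of `End_F K` properly containing `K` is everything, in prime degree. -/
theorem end_subalgebra_eq_top [Finite K] (hr : (finrank F K).Prime) (A : Subalgebra F (End F K))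
    (h1 : ∀ k, LinearMap.mulLeft F k ∈ A) {z : End F K} (hz : z ∈ A)
    (h2 : ∀ k, z ≠ LinearMap.mulLeft F k) : A = ⊤ := by
  have := Fintype.ofFinite K
  have : IsSimpleModule A K := (isSimpleModule_iff _ _).2 ⟨fun S => by
    refine or_iff_not_imp_left.2 fun e => Submodule.eq_top_iff'.2 fun k => ?_
    obtain ⟨a, ha, a0⟩ := Submodule.exists_mem_ne_zero_of_ne_bot e
    simpa [Subalgebra.smul_def, a0] using S.smul_mem ⟨_, h1 (k / a)⟩ ha⟩
  have h3 : ∀ d : End A K, ∃ c : F, ∀ k, d k = c • k := fun d => by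
    have h4 : ∀ k, d k = d 1 * k := fun k => by
      simpa [Subalgebra.smul_def, mul_comm] using d.map_smul ⟨_, h1 k⟩ 1
    let L : Subalgebra F K :=
      { carrier := {c | ∀ k, z (c * k) = c * z k}
        mul_mem' := fun {a b} ha hb k => by rw [mul_assoc, ha, hb, mul_assoc]
        add_mem' := fun {a b} ha hb k => by rw [add_mul, map_add, ha, hb, add_mul]
        algebraMap_mem' := fun a k => by simp [← Algebra.smul_def] }
    by_contra! hc
    have := subalgebra_top_of_prime hr L (c := d 1) (fun k => by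
      rw [← h4, ← h4]; exact (d.map_smul ⟨z, hz⟩ k).symm) fun a e => by
        obtain ⟨k, hk⟩ := hc a
        exact hk (by rw [h4, e, Algebra.smul_def])
    refine h2 (z 1) (LinearMap.ext fun k => ?_)
    simpa [mul_comm] using this.ge (Algebra.mem_top (x := k)) 1
  refine Algebra.eq_top_iff.2 fun f => ?_
  obtain ⟨r, hr⟩ := jacobson_density (R := A) (M := K) ⟨⟨f, f.map_add⟩, fun d k => by
    obtain ⟨c, hc⟩ := h3 d
    simp [hc]⟩ Finset.univ
  exact (LinearMap.ext fun k => hr k (Finset.mem_univ k) : f = r.1) ▸ r.2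

omit [Module F V] [IsScalarTower F K V] in
theorem exists_mul_isSquare [Finite K] (h2 : (2 : F) ≠ 0) (hr : Odd (finrank F K)) (a : K) :
    ∃ ε : F, ε ≠ 0 ∧ IsSquare (algebraMap F K ε * a) := by
  have : Finite F := .of_injective _ (algebraMap F K).injective
  by_cases ha : IsSquare a
  · exact ⟨1, one_ne_zero, by simpa using ha⟩
  obtain ⟨ε, hε⟩ := FiniteField.exists_nonsquare (F := F) fun e => h2 (by
    have := ringChar.Nat.cast_ringChar (R := F)
    rw [e] at this
    exact_mod_cast this)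
  have ε0 : ε ≠ 0 := by rintro rfl; simp at hε
  refine ⟨ε, ε0, isSquare_mul_of_not_isSquare (fun ⟨y, hy⟩ => hε ?_) ha⟩
  obtain ⟨j, hj⟩ := hr
  have := congrArg (Algebra.norm F) hy
  rw [Algebra.norm_algebraMap, map_mul, hj] at this
  exact ⟨Algebra.norm F y / ε ^ j, by field_simp; linear_combination this⟩

omit [Module F V] [IsScalarTower F K V] in
theorem isSquare_algebraMap [Finite K] (h2 : (2 : F) ≠ 0) (hr : finrank F K = 2) (t : F) :
    IsSquare (algebraMap F K t) := by
  have : Finite F := .of_injective _ (algebraMap F K).injective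
  have := Fintype.ofFinite F
  have := Fintype.ofFinite K
  by_cases ht : t = 0
  · simp [ht]
  have h3 : ringChar K ≠ 2 := fun e => (map_ne_zero (algebraMap F K)).2 h2 (by
    have := ringChar.Nat.cast_ringChar (R := K)
    rw [e] at this
    simpa [map_ofNat] using this)
  have h4 := FiniteField.odd_card_of_char_ne_two h3
  rw [FiniteField.isSquare_iff h3 (by simpa using ht), ← map_pow]
  rw [Module.card_eq_pow_finrank (K := F), hr] at h4 ⊢
  obtain ⟨j, hj⟩ : Odd (Fintype.card F) := (Nat.odd_pow_iff two_ne_zero).1 (Nat.odd_iff.2 h4)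
  have := FiniteField.pow_card_sub_one_eq_one t ht
  rw [hj] at this ⊢
  rw [show (2 * j + 1) ^ 2 / 2 = (2 * j + 1 - 1) * (j + 1) by
    rw [show (2 * j + 1) ^ 2 = 1 + 2 * (2 * j * (j + 1)) by ring]; simp; omega, pow_mul, this]
  simp

omit [Module F V] [IsScalarTower F K V] in
theorem exists_coord_two (hr : finrank F K = 2) {ω : K} (hω : ∀ a : F, ω ≠ algebraMap F K a)
    (k : K) : ∃ s t : F, k = s • (1 : K) + t • ω := by
  have : FiniteDimensional F K := .of_finrank_pos (by omega)
  have h1 : ω ∉ F ∙ (1 : K) := fun e => by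
    obtain ⟨a, ha⟩ := Submodule.mem_span_singleton.1 e
    exact hω a (by rw [← ha, Algebra.algebraMap_eq_smul_one])
  have := Submodule.eq_top_of_finrank_eq ((finrank_span_pair (linearIndependent_pair_of_notMem
    one_ne_zero h1)).trans hr.symm)
  obtain ⟨s, t, e⟩ := Submodule.mem_span_pair.1 (this.ge (Submodule.mem_top (x := k)))
  exact ⟨s, t, e.symm⟩

omit [Algebra F K] [IsScalarTower F K V] in
theorem smul_mem_of_sq (h2 : (2 : K) ≠ 0) {Y : Submodule F V} {a : K} (ha : a ≠ 0) {s : V}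
    (h : ∀ k : K, (k ^ 2 * a) • s ∈ Y) (k : K) : k • s ∈ Y := by
  convert sub_mem (sub_mem (h (k / (2 * a) + 1)) (h (k / (2 * a)))) (h 1) using 1
  rw [← sub_smul, ← sub_smul]
  congr 1
  field_simp
  ring

/-- The nilpotent part of a long root element. -/
def wg (Q : QuadraticForm F V) (a b : V) : End F V :=
  (polarBilin Q a).smulRight b - (polarBilin Q b).smulRight a

omit [Algebra F K] [IsScalarTower F K V] in
theorem wg_apply (Q : QuadraticForm F V) (a b x : V) :
    wg Q a b x = polar Q a x • b - polar Q b x • a := rfl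

theorem em_of_un {Q : QuadraticForm F V} {X : Subgroup (V ≃ₗ[F] V)} {a b : V}
    (h : Un X (wg Q a b)) (ha : Q a = 0) (hb : Q b = 0) (e : polar Q a b = 0) : EM Q X a b :=
  ⟨ha, e, by
    convert h.unip_mem using 1
    ext x
    simp [eichler_apply, unip_apply, wg_apply, hb, add_sub_assoc]⟩

section

variable {Qk : QuadraticForm K V} {X : Subgroup (V ≃ₗ[F] V)} {u : V} {N N' : End F V}

omit [Algebra F K] [IsScalarTower F K V] in
theorem ZM.add (hu : Qk u = 0) (h : ZM X Qk u N) (h' : ZM X Qk u N') : ZM X Qk u (N + N') :=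
  ⟨h.un.add h'.un (LinearMap.ext fun x => h.ker _ (perp_of_mem_line hu (h'.im x)))
    (LinearMap.ext fun x => h'.ker _ (perp_of_mem_line hu (h.im x))),
    fun x => add_mem (h.im x) (h'.im x), fun x hx => by simp [h.ker x hx, h'.ker x hx]⟩

omit [Algebra F K] [IsScalarTower F K V] in
theorem ZM.sum (hu : Qk u = 0) {ι : Type*} (s : Finset ι) {N : ι → End F V}
    (h : ∀ i, ZM X Qk u (N i)) : ZM X Qk u (∑ i ∈ s, N i) :=
  Finset.sum_induction _ _ (fun _ _ => ZM.add hu) ⟨Un.zero, by simp, by simp⟩ fun i _ => h i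

/-- The maps induced by the radical. -/
def AM (X : Subgroup (V ≃ₗ[F] V)) (Qk : QuadraticForm K V) (u : V) (a : End F K) : Prop :=
  ∀ w, polar Qk u w = 0 → ∃ k ∈ X, RM Qk u k ∧
    ∀ x, polar Qk u x = 0 → k x = x + a (polar Qk w x) • u

end

namespace OF

variable {Q : QuadraticForm F V} {Qk : QuadraticForm K V} {ν : Dual F K}
  {X : Subgroup (V ≃ₗ[F] V)} (h : OF Q Qk ν X)
include h

theorem sing {u : V} (hu : Qk u = 0) (c : K) : Q (c • u) = 0 := by simp [h.q, quad_smul, hu]

theorem sing' {u : V} (hu : Qk u = 0) (a c : K) : polar Q (a • u) (c • u) = 0 := by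
  simp [h.eq, hu]

theorem skew {u : V} (hu : Qk u = 0) {N : End F V} (hN : ZM X Qk u N) (x : V) :
    polar Q x (N x) = 0 := by
  obtain ⟨c, hc⟩ := Submodule.mem_span_singleton.1 (hN.im x)
  simpa [unip_apply, quad_add, ← hc, h.sing hu] using mem_OG.1 (h.ogX hN.un.unip_mem) x

theorem zm_wg {u : V} {a c : K} (e : Un X (wg Q (a • u) (c • u))) :
    ZM X Qk u (wg Q (a • u) (c • u)) :=
  ⟨e, fun x => sub_mem ((kl F K u).smul_mem _ (smul_mem_kl c u))
    ((kl F K u).smul_mem _ (smul_mem_kl a u)), fun x hx => by simp [wg_apply, h.eq, hx]⟩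

variable [Finite K]

theorem am_top {u : V} (u0 : u ≠ 0) (hu : Qk u = 0) {z : V ≃ₗ[F] V} (hz : z ∈ X)
    (e : ∀ x, polar Qk u x = 0 → z x - x ∈ K ∙ u) (hn : ∀ k : K, ¬ ∀ c : K, z (c • u) = k • c • u)
    (a : End F K) : AM X Qk u a := by
  obtain ⟨f, hf, a1⟩ := h.exists_hyp u0 hu
  let A : Subalgebra F (End F K) :=
    { carrier := {b | ∀ a, AM X Qk u a → AM X Qk u (b * a)}
      mul_mem' := fun {b c} hb hc a ha => by rw [mul_assoc]; exact hb _ (hc a ha)
      add_mem' := fun {b c} hb hc a ha w hw => by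
        obtain ⟨k, k1, k2, k3⟩ := hb a ha w hw
        obtain ⟨l, l1, l2, l3⟩ := hc a ha w hw
        exact ⟨k * l, mul_mem k1 l1, h.rm_mul (h.ogX l1) k2 l2, fun x hx => by
          simp [l3 x hx, k3 x hx, k2.fix, add_smul, add_assoc]⟩
      algebraMap_mem' := fun c a ha w hw => by
        obtain ⟨k, k1, k2, k3⟩ := ha (algebraMap F K c • w) (by simp [hw])
        refine ⟨k, k1, k2, fun x hx => ?_⟩
        rw [k3 x hx, polar_smul_left, algebraMap_smul, map_smul]
        simp }
  have h1 : ∀ g ∈ X, (∀ x, polar Qk u x = 0 → g x - x ∈ K ∙ u) → ∀ b : End F K,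
      (∀ c, g (c • u) = b c • u) → b ∈ A := fun g hg e b e' a ha w hw => by
    obtain ⟨k, k1, k2, k3⟩ := ha w hw
    have e1 := h.stab_inv u0 (g := g) fun c => e' c ▸ smul_mem_kl (F := F) _ u
    have e2 : ∀ x, polar Qk u x = 0 → (g * k * g⁻¹) x = x + b (a (polar Qk w x)) • u :=
      fun x hx => by
      have e3 := h.stab_perp u0 hu (inv_mem hg) e1 hx
      obtain ⟨c, hc⟩ := Submodule.mem_span_singleton.1 (e _ e3)
      have e4 := congrArg (polar Qk w) hc
      rw [apply_inv_apply, polar_sub_right, polar_smul_right, polar_comm, hw, smul_zero, eq_comm,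
        sub_eq_zero] at e4
      rw [LinearEquiv.mul_apply, LinearEquiv.mul_apply, k3 _ e3, map_add, e', e4, apply_inv_apply]
    exact ⟨_, mul_mem (mul_mem hg k1) (inv_mem hg), ⟨fun c => by
      simp only [LinearEquiv.mul_apply, k2.fix' (e1 c), apply_inv_apply], fun x hx => by
        rw [e2 x hx, add_sub_cancel_left]; exact smul_mem_kl (F := F) _ u⟩, e2⟩
  have h2 : ∀ μ : K, LinearMap.mulLeft F (μ ^ 2) ∈ A := fun μ => by
    by_cases μ0 : μ = 0
    · simpa [μ0] using zero_mem A
    obtain ⟨b, -, b2, b3, b4⟩ := h.exists_dil hu hf a1 μ0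
    exact h1 _ b2 b4 _ fun c => by simp [b3, smul_smul, mul_comm]
  have h3 : ∀ c : K, z (c • u) = polar Qk f (z (c • u)) • u := fun c => by
    obtain ⟨t, ht⟩ := Submodule.mem_span_singleton.1 (e (c • u) (by simp [hu]))
    rw [eq_add_of_sub_eq ht.symm, ← add_smul]
    simp [polar_comm Qk f, a1]
  have h4 := end_subalgebra_eq_top h.prime A (fun k => by
    convert sub_mem (sub_mem (h2 (k / 2 + 1)) (h2 (k / 2))) (h2 1) using 1
    ext x
    have := h.two'
    simp only [LinearMap.mulLeft_apply, LinearMap.sub_apply]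
    field_simp
    ring) (h1 z hz e ((polarBilin Qk f).restrictScalars F ∘ₗ z.toLinearMap ∘ₗ
      (LinearMap.toSpanSingleton K V u).restrictScalars F) h3) fun k e => hn k fun c => by
    rw [h3, smul_smul]
    exact congrArg (· • u) (LinearMap.congr_fun e c)
  simpa using h4.ge (Algebra.mem_top (x := a)) 1 fun w hw => by
    obtain ⟨t, t1, t2, -, t3⟩ := h.eich hu (w := -w) (by simp [hw])
    exact ⟨t, t1, t2, fun x hx => by simp [t3, hx]⟩

theorem am_of_odd (hr : Odd (finrank F K)) {u : V} (u0 : u ≠ 0) (hu : Qk u = 0) {N : End F V}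
    (hN : ZM X Qk u N) (N0 : N ≠ 0) (a : End F K) : AM X Qk u a := by
  have := h.finF
  have := h.finite
  obtain ⟨f, hf, a1⟩ := h.exists_hyp u0 hu
  have a2 : polar Qk f u = 1 := (polar_comm _ _ _).trans a1
  have f0 : f ≠ 0 := by rintro rfl; simp at a1
  have h1 : ∀ x, N x = N (polar Qk u x • f) := fun x => by
    rw [← sub_eq_zero, ← map_sub]
    exact hN.ker _ (by simp [a1])
  obtain ⟨v, hv⟩ := DFunLike.ne_iff.1 N0
  obtain ⟨x₀, hx⟩ := Submodule.mem_span_singleton.1 (hN.im v)
  have x0 : x₀ ≠ 0 := by rintro rfl; simp [← hx] at hv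
  have y0 : polar Qk u v ≠ 0 := fun e => hv (hN.ker v e)
  obtain ⟨b, b1, b2, c, c0, b3⟩ := h.exists_move u0 f0 hu hf
  obtain ⟨ε, ε0, μ, hμ⟩ := exists_mul_isSquare h.two hr (polar Qk u v / x₀ / c)
  have μ0 : μ ≠ 0 := by rintro rfl; simp [ε0, y0, x0, c0] at hμ
  obtain ⟨d, d1, d2, d3, -⟩ := h.exists_dil hu hf a1 μ0
  have b4 : (b * d) u = (ε • (polar Qk u v / x₀)) • f := by
    rw [LinearEquiv.mul_apply, d3, map_smul, b3, smul_smul, pow_two, ← hμ, Algebra.smul_def]
    congr 1
    field_simp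
  obtain ⟨N', hN', e⟩ := h.zm_move hN (mul_mem b1 d1) (mul_mem b2 d2) b4
  have h2 : N' (x₀ • u) = (ε ^ 2 • polar Qk u v) • f := by
    have := (mul_mem b1 d1).1 u ((b * d)⁻¹ (x₀ • u))
    rw [apply_inv_apply, b4] at this
    simp only [polarBilin_apply_apply, polar_smul_left, polar_smul_right, a2, smul_eq_mul] at this
    rw [← apply_inv_apply (b * d) (x₀ • u), e, h1, ← this, show x₀ * (ε • (polar Qk u v / x₀) * 1) =
      ε • polar Qk u v by rw [Algebra.smul_def, Algebra.smul_def]; field_simp, smul_assoc, map_smul,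
      ← h1, ← hx, ← smul_assoc, map_smul, b4, smul_smul]
    simp only [Algebra.smul_def, map_pow]
    congr 1
    field_simp
  have h3 : (N * N' + N' * N) (x₀ • u) = ε ^ 2 • x₀ • u := by
    rw [LinearMap.add_apply, Module.End.mul_apply, Module.End.mul_apply, h2,
      hN.ker (x₀ • u) (by simp [hu]), smul_assoc, map_smul, ← h1, hx, map_zero, add_zero]
  obtain ⟨z, z1, z2, z3, t, t1, t2, z4⟩ := hN.un.exists_central h.two hN'.un (by
    rintro ⟨k, hk⟩
    have : ((N * N' + N' * N) ^ k) (x₀ • u) = (ε ^ 2) ^ k • x₀ • u := by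
      clear hk
      induction k with
      | zero => simp
      | succ k ih => rw [pow_succ', Module.End.mul_apply, ih, map_smul, h3, smul_smul, ← pow_succ]
    rw [hk, eq_comm] at this
    simp [ε0, x0, u0] at this)
  have z5 : ∀ x, z x = x + t (N (N' x) + N' (N x)) := LinearMap.congr_fun z4
  have z6 : ∀ x, polar Qk u x = 0 → z x - x ∈ K ∙ u := fun x hx => by
    rw [z5, hN.ker x hx, map_zero, add_zero, add_sub_cancel_left,
      show t (N (N' x)) = N (t (N' x)) from LinearMap.congr_fun t1.eq _]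
    exact hN.im _
  refine h.am_top u0 hu z1 z6 (fun k hk => z2 ?_) a
  let l := (LinearMap.toSpanSingleton K V u).restrictScalars F
  obtain ⟨m, m0, hm⟩ : ∃ m : K, m ≠ 0 ∧ N' (m • u) = 0 := by
    by_contra! hc
    have hA : ((polarBilin Q).compl₁₂ l (N' ∘ₗ l)).IsAlt := fun x => h.skew hf hN' (x • u)
    have h4 : ∀ y, (∀ x, (polarBilin Q).compl₁₂ l (N' ∘ₗ l) x y = 0) → y = 0 := fun y hy => by
      by_contra y0
      obtain ⟨s, hs⟩ := Submodule.mem_span_singleton.1 (hN'.im (y • u))
      have := h.perp_iff.1 hy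
      change polar Qk u (N' (y • u)) = 0 at this
      rw [← hs, polar_smul_right, a1, smul_eq_mul, mul_one] at this
      exact hc y y0 (by rw [← hs, this, zero_smul])
    have := h.finK
    exact Nat.not_even_iff_odd.2 hr (even_finrank_of_alt
      ⟨fun x hx => h4 x fun y => hA.isRefl _ _ (hx y), h4⟩ hA)
  have h5 := hk m
  rw [z5, hm, hN.ker (m • u) (by simp [hu])] at h5
  have h6 : ∀ c : K, z (c • u) = c • u := fun c => by
    rw [hk, smul_left_injective K (smul_ne_zero m0 u0) (h5.symm.trans (by simp) : _ = (1 : K) • _),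
      one_smul]
  refine LinearEquiv.ext fun x => ?_
  have e1 : z (z x) = x := LinearEquiv.congr_fun z3 x
  have e2 := (⟨h6, z6⟩ : RM Qk u z).fix' (z6 (z x - x) (by
    rw [polar_sub_right, h.polar_fix (h.ogX z1) h6, sub_self]))
  simp only [map_sub, e1] at e2
  refine smul_right_injective _ (mul_ne_zero h.two h.two) ?_
  change (2 * 2 : F) • z x = (2 * 2 : F) • x
  linear_combination (norm := module) e2

theorem un_wg {u : V} (u0 : u ≠ 0) (hu : Qk u = 0) (hA : ∀ a, AM X Qk u a) (δ κ : K) :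
    Un X (wg Q (δ • u) (κ • u)) := by
  obtain ⟨f, hf, a1⟩ := h.exists_hyp u0 hu
  obtain ⟨w, w0, w1, -⟩ := h.exists_ns hu hf a1
  obtain ⟨k, k1, k2, k3⟩ := hA (ν.smulRight δ) w w1
  obtain ⟨e, e1, e2, -, e3⟩ := h.eich hu (w := (-κ / (2 * Qk w)) • w) (by simp [w1])
  refine (h.comm hu k1 e1 k2 e2).un.congr fun v => ?_
  obtain ⟨t, ht⟩ := Submodule.mem_span_singleton.1 (h.mem_line' (u := u)
    (y := k v - v + polar Q (δ • u) v • w) fun x hx => by
      have := h.isom k1 v x
      have a3 := h.isom k1 v (δ • u)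
      rw [k2.fix] at a3
      rw [k3 x hx, LinearMap.smulRight_apply, smul_assoc, ← h.eq, polar_add_right,
        polar_smul_right, a3] at this
      rw [polar_add_left, polar_sub_left, polar_smul_left, polar_comm Q (δ • u)]
      linear_combination this)
  have a3 : polar Qk w ((-κ / (2 * Qk w)) • w) = -κ := by
    rw [polar_smul_right, polar_self', smul_eq_mul, div_mul_cancel₀ _ (mul_ne_zero h.two' w0)]
  have a4 : polar Qk u ((-κ / (2 * Qk w)) • w) = 0 := by simp [w1]
  generalize (-κ / (2 * Qk w)) • w = w' at *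
  have a5 := congrArg (polar Qk w') ht
  rw [polar_smul_right, polar_comm, a4, polar_add_right, polar_sub_right,
    ← algebraMap_smul K _ w, polar_smul_right, polar_comm Qk w' w, a3, smul_zero,
    algebraMap_smul, eq_comm, add_eq_zero_iff_eq_neg, sub_eq_iff_eq_add] at a5
  simp only [LinearMap.sub_apply, Module.End.mul_apply, LinearEquiv.coe_coe, e3, map_add, map_sub,
    k2.fix, h.polar_fix (h.ogX k1) k2.fix, a5, wg_apply, k3 _ (by simp [a4] :
      polar Qk u (polar Qk u v • w') = 0), h.eq (κ • u), polar_smul_right, polar_smul_left, a3,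
    LinearMap.smulRight_apply, smul_eq_mul, mul_neg, map_neg, mul_comm κ, add_smul, neg_smul,
    smul_assoc]
  module

omit [Finite K] in
theorem mem_of_fix {u : V} (u0 : u ≠ 0) (hu : Qk u = 0)
    (hW : ∀ δ κ : K, Un X (wg Q (δ • u) (κ • u))) {g : V ≃ₗ[F] V} (hg : g ∈ OG Q)
    (e : ∀ x, polar Qk u x = 0 → g x = x) : g ∈ X := by
  have := h.finK
  obtain ⟨f, hf, a1⟩ := h.exists_hyp u0 hu
  have h1 : ∀ x, g x - x ∈ K ∙ u := fun x => h.mem_line' fun y hy => by
    rw [polar_sub_left, sub_eq_zero]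
    conv_lhs => rw [← e y hy]
    exact hg.1 _ _
  choose n hn using fun c : K => Submodule.mem_span_singleton.1 (h1 (c • f))
  have h2 : ∀ x, g x = x + n (polar Qk u x) • u := fun x => by
    have := e (x - polar Qk u x • f) (by simp [a1])
    rw [map_sub] at this
    rw [hn]
    linear_combination (norm := module) this
  let b := finBasis F K
  choose φ hφ using fun i => exists_dual_repr' (V := K) h.nu (b.coord i)
  have h3 : ∀ i c, b.repr c i = ν (φ i 1 * c) := fun i c => by
    rw [mul_comm, ← smul_eq_mul, ← map_smul, ← hφ]; simp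
  have h4 : ∀ c, n c = ∑ i, ν (φ i 1 * c) • n (b i) := fun c => smul_left_injective K u0 (by
    simp only [hn, Finset.sum_smul, smul_assoc, ← h3, smul_sub, Finset.sum_sub_distrib,
      ← map_smul, ← map_sum]
    simp only [← smul_assoc, ← Finset.sum_smul, b.sum_repr])
  have h5 : ∀ c d, ν (n c * d) = -ν (n d * c) := fun c d => by
    have := hg.1 (c • f) (d • f)
    simp only [polarBilin_apply_apply, h2, h.eq] at this
    simp [hf, hu, a1, polar_comm Qk f u] at this
    rw [mul_comm]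
    linear_combination this
  have h6 : ∀ c, ∑ i, ν (n (b i) * c) • φ i 1 = -n c := fun c => sub_eq_zero.1 (eq_zero_of_nu h.nu
    fun k => by
      rw [mul_sub, map_sub, mul_neg, map_neg, mul_comm k (n c), ← h5, h4 k, Finset.mul_sum,
        Finset.sum_mul, map_sum, map_sum, sub_eq_zero]
      exact Finset.sum_congr rfl fun i _ => by simp [mul_comm])
  convert (ZM.sum hu Finset.univ fun i => h.zm_wg (hW (φ i 1) ((2 : F)⁻¹ • n (b i)))).un.unip_mem
  ext x
  simp only [unip_apply, h2, LinearMap.sum_apply, wg_apply, h.eq, polar_smul_left, smul_eq_mul,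
    smul_mul_assoc, map_smul, ← smul_assoc, ← sub_smul, ← Finset.sum_smul, add_right_inj]
  congr 1
  simp only [Finset.sum_sub_distrib, mul_comm _ (2 : F)⁻¹, mul_smul, ← Finset.smul_sum, ← h4, h6]
  match_scalars
  field_simp [h.two]
  ring

theorem exists_nu_ns {u f : V} (hu : Qk u = 0) (hf : Qk f = 0) (e : polar Qk u f = 1) {a : K}
    (ha : a ≠ 0) : ∃ w, ν (Qk w * a) ≠ 0 ∧ polar Qk u w = 0 ∧ polar Qk f w = 0 := by
  obtain ⟨w, w0, w1, w2⟩ := h.exists_ns hu hf e
  obtain ⟨k, hk⟩ := exists_nu_sq h.nu h.two' (mul_ne_zero w0 ha)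
  exact ⟨k • w, by rwa [quad_smul, mul_assoc], by simp [w1], by simp [w2]⟩

theorem le_of_am (hA : ∀ u, u ≠ 0 → Qk u = 0 → ∀ a, AM X Qk u a) : OmG Q ≤ X := by
  have := h.finF
  have := h.fin
  have := h.finite
  have h1 : ∀ u, u ≠ 0 → Qk u = 0 → ∀ (δ : K) w, polar Qk u w = 0 → EM Q X (δ • u) w :=
    fun u u0 hu δ w hw => by
    obtain ⟨k, k1, -, k3⟩ := hA u u0 hu (ν.smulRight δ) (-w) (by simp [hw])
    have a1 := h.perp_iff.2 hw δ
    refine ⟨h.sing hu δ, a1, ?_⟩
    simpa using mul_mem k1 (h.mem_of_fix u0 hu (h.un_wg u0 hu (hA u u0 hu)) (mul_mem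
      (inv_mem (h.ogX k1)) (eichler (h.sing hu δ) a1).2) fun x hx => by
        refine k.injective ?_
        rw [LinearEquiv.mul_apply, eichler_apply_of_perp _ _ (h.perp_iff.2 hx δ), h.eq,
          apply_inv_apply, k3 x hx]
        simp [sub_eq_add_neg])
  obtain ⟨u, u0, hu⟩ := exists_singular_of_three_le Qk h.dim
  obtain ⟨f, hf, a1⟩ := h.exists_hyp u0 hu
  have a2 : polar Qk f u = 1 := (polar_comm _ _ _).trans a1
  have hu' : Q u = 0 := by simp [h.q, hu]
  have h2 : ∀ w, polar Qk u w = 0 → w ∈ Ysub X hu' := fun w hw c => by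
    simpa using h1 u u0 hu 1 (c • w) (by rw [← algebraMap_smul K, polar_smul_right, hw, smul_zero])
  obtain ⟨w, w0, w1, w2⟩ := h.exists_nu_ns hu hf a1 one_ne_zero
  obtain ⟨e, e1, -, -, e2⟩ := h.eich hf w2
  refine le_of_Ysub h.nd h.five u0 (hu := hu') (fun x hx => ?_) e1 (h.ogX e1)
    (by simpa [e2, h.eq, hu, a1, a2, w1, polar_comm Qk w] using w0)
  obtain ⟨b1, b2, b3⟩ := h1 f (by rintro rfl; simp at a1) hf (polar Qk u x) w w2
  have := sub_mem (h2 w w1) (Ysub.map (h2 w w1) (eichler b1 b2).2 b3 (by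
    rw [eichler_apply_of_perp _ _ (by simpa [h.eq, a2] using hx)]
    simp [h.eq, polar_comm Qk w, w1]))
  rw [eichler_apply_of_perp _ _ b2, sub_sub_cancel, Submodule.smul_mem_iff _ (by
    simpa [polar_self', h.two, h.q] using w0)] at this
  simpa using add_mem (h2 (x - polar Qk u x • f) (by simp [a1])) this

end OF

end CF.MaxSub
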