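/-
Maximality of tensor product subgroups of classical groups, II.
-/
import Cfsg.Agent.MaxSub.TJ
import Cfsg.Agent.Geom.FrO5

set_option autoImplicit false

namespace CF.MaxSub

open Module Geom TensorProduct QuadraticMap

variable {F V₁ V₂ : Type*} [Field F] [AddCommGroup V₁] [Module F V₁] [AddCommGroup V₂]
  [Module F V₂] {σ : F →+* F} [FiniteDimensional F V₁] [FiniteDimensional F V₂]

omit [FiniteDimensional F V₁] in
theorem tv_alt {B : LinearMap.BilinForm F V₁} (hA : B.IsAlt) (s : V₁) (c : F) :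
    ∃ t ∈ Rad B (fun _ => (0 : F)) s ⊤, ∀ w, t w = w + (c * B s w) • s :=
  ⟨_, spTrans_mem_Rad hA (-c) (A := ⊤) trivial, fun v => by simp [spTrans_apply, ← hA.neg_eq s v]⟩

theorem TS.le_of_lt [Finite F] {B₁ : V₁ →ₛₗ[σ] V₁ →ₗ[F] F} {Q₁ : V₁ → F}
    {B₂ : V₂ →ₛₗ[σ] V₂ →ₗ[F] F} {Q₂ : V₂ → F} {B : V₁ ⊗[F] V₂ →ₛₗ[σ] V₁ ⊗[F] V₂ →ₗ[F] F}
    {Q : V₁ ⊗[F] V₂ → F} {G X : Subgroup (V₁ ⊗[F] V₂ ≃ₗ[F] V₁ ⊗[F] V₂)}
    (h : TS B₁ Q₁ B₂ Q₂ B Q G X) (hlt : finrank F V₁ < finrank F V₂) {c : F} (c0 : c ≠ 0)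
    (hT : ∀ u, Q₂ u = Q₂ 0 → ∃ t ∈ Rad B₂ Q₂ u ⊤, ∀ w, t w = w + (c * B₂ u w) • u) :
    X ≤ TenG F V₁ V₂ := by
  by_cases h2 : (2 : F) = 0
  · exact h.le_of_two h2 hlt c0 hT
  exact h.le_of_tv h2 c0 hT fun _ _ _ _ _ _ hk e => h.rG_of_conj hlt hk e

variable [Finite F]

/-- `Sp_n ⊗ Sp_m` in `Ω_{nm}`. -/
theorem omega_maxIn_ss {B₁ : LinearMap.BilinForm F V₁} (n₁ : B₁.Nondegenerate)
    (a₁ : B₁.IsAlt) {B₂ : LinearMap.BilinForm F V₂} (n₂ : B₂.Nondegenerate)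
    (a₂ : B₂.IsAlt) {Q : QuadraticForm F (V₁ ⊗[F] V₂)} (hQ : (polarBilin Q).Nondegenerate)
    (eq : ∀ x y s t, polar Q (x ⊗ₜ s) (y ⊗ₜ t) = B₁ x y * B₂ s t) (hp : ∀ x s, Q (x ⊗ₜ s) = 0)
    (d₁ : 3 ≤ finrank F V₁ ∨ finrank F V₁ = 2 ∧ ∃ c : F, c ≠ 0 ∧ c ≠ 1) (d₂ : 5 ≤ finrank F V₂)
    (hlt : finrank F V₁ < finrank F V₂) : MaxIn (OmG Q) (TenG F V₁ V₂) := by
  have : Nontrivial V₂ := nontrivial_of_finrank_pos (R := F) (by omega)
  have two : 2 ≤ finrank F V₁ := by omega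
  have w₂ := isWittPair_alt B₂ n₂ a₂
  refine TZ.maxIn ⟨isWittPair_alt B₁ n₁ a₁, w₂,
    polarG_omega' hQ (by rw [finrank_tensorProduct]; nlinarith), eq, fun a b e => ⟨e, fun v => ?_⟩,
    fun x u _ => by simp [hp], by omega, two, by simpa using exists_ne (0 : V₂),
    idx_alt w₂ (by omega), .inl d₂, comT_quad Q, fun _ _ => rfl⟩ fun X h => ?_
  · induction v with
    | zero => simp
    | add x y hx hy => rw [map_add, quad_add, quad_add, hx, hy]; exact congrArg _ (e x y)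
    | tmul x s => simp [hp]
  exact (h.ts_of_tv d₂ (fun _ _ => rfl) (T := fun _ => True) (fun c _ s _ => tv_alt a₁ s c)
    one_ne_zero trivial (d₁.imp_right fun ⟨a, c, b, d⟩ => ⟨a, c, b, d, trivial⟩) eigen_alt).le_of_lt
    hlt one_ne_zero fun u _ => tv_alt a₂ u 1

theorem eigen_herm {B : V₁ →ₛₗ[σ] V₁ →ₗ[F] F} (hH : IsHerm B) (hB : B.Nondegenerate)
    (h2 : 2 ≤ finrank F V₁) (A : End F V₁) (h : ∀ x, B x x = B 0 0 → A x ∈ F ∙ x) :
    ∃ c : F, A = c • 1 := by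
  have hW := hH.wittPair hB
  obtain ⟨x, x0, hx⟩ := exists_isotropic_of_two_le hH.ne_id hH.invol hH.symm h2
  obtain ⟨t, ht⟩ : ∃ t, σ t ≠ t := by
    by_contra! hc
    exact hH.ne_id (RingHom.ext hc)
  obtain h3 | h3 := h2.lt_or_eq
  · exact scalar_of_eigen hW h3 (t := t) (by rintro rfl; simp at ht) (by rintro rfl; simp at ht) x0
      (by simpa using hx) h
  obtain ⟨f, hf, e⟩ := hW.exists_hyperbolic x0 (by simpa using hx)
  obtain ⟨s, s0, hs⟩ := exists_skew_ne_zero hH.ne_id hH.invol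
  simp only [map_zero] at hf h
  obtain ⟨α, a1⟩ := Submodule.mem_span_singleton.1 (h x hx)
  obtain ⟨β, a2⟩ := Submodule.mem_span_singleton.1 (h f hf)
  obtain ⟨γ, a3⟩ := Submodule.mem_span_singleton.1 (h (x + s • f) (by
    simp [hx, hf, e, hH.flip_one e, hs]))
  rw [map_add, map_smul, ← a1, ← a2] at a3
  have b1 : γ = β := by simpa [hx, e, s0, mul_comm] using congrArg (B x) a3
  have b2 : γ = α := by simpa [hf, hH.flip_one e] using congrArg (B f) a3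
  refine ⟨α, LinearMap.ext fun v => ?_⟩
  obtain ⟨a, b, rfl⟩ := Submodule.mem_span_pair.1 ((Submodule.eq_top_of_finrank_eq
    ((IsWittPair.finrank_span_hyperbolic hx (by simp [e] : B x f ≠ 0)).trans h3)).ge (trivial : v ∈ ⊤))
  simp [← a1, ← a2, ← b1, ← b2, smul_smul, mul_comm]

/-- `U_n ⊗ U_m` in `SU_{nm}`. -/
theorem su_maxIn_ten {B₁ : V₁ →ₛₗ[σ] V₁ →ₗ[F] F} (h₁ : IsHerm B₁) (n₁ : B₁.Nondegenerate)
    {B₂ : V₂ →ₛₗ[σ] V₂ →ₗ[F] F} (h₂ : IsHerm B₂) (n₂ : B₂.Nondegenerate)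
    {B : V₁ ⊗[F] V₂ →ₛₗ[σ] V₁ ⊗[F] V₂ →ₗ[F] F} (hH : IsHerm B) (hB : B.Nondegenerate)
    (eq : ∀ x y s t, B (x ⊗ₜ s) (y ⊗ₜ t) = B₁ x y * B₂ s t)
    (d₁ : 3 ≤ finrank F V₁ ∨ finrank F V₁ = 2 ∧ ∃ c : F, c ≠ 0 ∧ c ≠ 1 ∧ σ c = c)
    (d₂ : 5 ≤ finrank F V₂) (hlt : finrank F V₁ < finrank F V₂) :
    MaxIn (SUG B) (TenG F V₁ V₂) := by
  have two : 2 ≤ finrank F V₁ := by omega
  have w₂ := h₂.wittPair n₂
  obtain ⟨c, c0, hc⟩ := exists_skew_ne_zero hH.ne_id hH.invol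
  refine TZ.maxIn ⟨h₁.wittPair n₁, w₂,
    polarG_su' hH hB (by rw [finrank_tensorProduct]; nlinarith), eq, fun a b => mem_UG.2,
    fun x u e => ?_, by omega, two,
    by simpa using exists_isotropic_of_two_le hH.ne_id hH.invol h₂.symm (by omega),
    fun u u0 hu => ?_, .inl d₂, comT_herm hH, fun _ e => by simpa using e⟩ fun X h => ?_
  · simpa [eq] using e
  · obtain ⟨f, hf, e⟩ := w₂.exists_hyperbolic u0 hu
    have a1 := w₂.finrank_perp (Submodule.span F {u, f})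
    have a2 := IsWittPair.finrank_span_pair_le (F := F) u f
    obtain ⟨s, a3, a4, a5⟩ := exists_isotropic_mem hH.ne_id hH.invol h₂.symm
      (U := perp B₂ (Submodule.span F {u, f})) (by omega)
    refine ⟨s, by simpa using a5, (mem_perp_pair.1 a3).1, fun e' => ?_⟩
    obtain ⟨c, rfl⟩ := Submodule.mem_span_singleton.1 e'
    exact a4 (by simpa [h₂.flip_one e] using congrArg (· • u) (mem_perp_pair.1 a3).2)
  exact (h.ts_of_tv d₂ (fun _ e => by simpa using e) (T := fun c => σ c = -c)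
    (fun c hc s hs => ⟨_, uTrans_mem_Rad h₁ (by simpa using hs) hc (A := ⊤) trivial,
      uTrans_apply h₁ _ hc⟩) c0 hc (d₁.imp_right fun ⟨a, t, b, d, e⟩ =>
        ⟨a, t * c, mul_ne_zero b c0, by simpa [c0] using d, by simp [e, hc]⟩)
    (eigen_herm h₁ n₁ two)).le_of_lt hlt c0 fun u hu =>
      ⟨_, uTrans_mem_Rad h₂ (by simpa using hu) hc (A := ⊤) trivial, uTrans_apply h₂ _ hc⟩

/-- `O_n ⊗ Sp_m` in `Sp_{nm}`. -/
theorem sp_maxIn_os (h2 : (2 : F) ≠ 0) {B₁ : LinearMap.BilinForm F V₁} (n₁ : B₁.Nondegenerate)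
    (s₁ : ∀ x y, B₁ x y = B₁ y x) {B₂ : LinearMap.BilinForm F V₂} (n₂ : B₂.Nondegenerate)
    (a₂ : B₂.IsAlt) {B : LinearMap.BilinForm F (V₁ ⊗[F] V₂)} (hB : B.Nondegenerate)
    (hA : B.IsAlt) (eq : ∀ x y s t, B (x ⊗ₜ s) (y ⊗ₜ t) = B₁ x y * B₂ s t)
    (d₁ : 3 ≤ finrank F V₁) (d₁' : 4 ≤ finrank F V₁ ∨ 3 < Nat.card F) (d₂ : 3 ≤ finrank F V₂) :
    MaxIn (SpG B) (TenG F V₁ V₂) := by
  obtain ⟨Q₁, rfl⟩ := exists_quad h2 s₁
  have : Nontrivial V₂ := nontrivial_of_finrank_pos (R := F) (by omega)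
  have hW := isWittPair_quad Q₁ n₁
  have w₂ := isWittPair_alt B₂ n₂ a₂
  refine TZ.maxIn ⟨hW, w₂, polarG_sp hB hA, eq, fun a b => mem_SpG.2, fun _ _ _ => rfl, d₂,
    by omega, by simpa using exists_ne (0 : V₂), idx_alt w₂ d₂, .inr (tv_alt a₂), comT_alt hA h2,
    fun _ _ => rfl⟩ fun X h => ?_
  have hX : ∀ a ∈ OG Q₁, lG V₂ a ∈ X := fun a ha =>
    h.mem _ (lG_mem a) (h.congr_isom fun x y s t => by simp [OG_polar ⟨a, ha⟩])
  obtain ⟨u, u0, hu⟩ := h.ex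
  have hε : ∀ x y, RingHom.id F (B₂ y x) = -1 * B₂ x y := fun x y => by simp [a₂.neg_eq]
  obtain ⟨x₀, x0, hx⟩ := exists_singular_of_three_le Q₁ d₁
  have hS : TS _ _ _ _ _ _ _ X := ⟨h, fun _ hA => scalar_of_nU hW h.AL_ne_top
    (fun x y _ _ a b => h.mul_mem_of_un u0 hu a (by
      convert h.un_comm hε u0 hu (Submodule.smul_mem _ (2 : F)⁻¹ b) h.one_mem_AL (C' := 1)
        (A' := (2 : F)⁻¹ • nU (polarBilin Q₁) y) (fun a b => by simp [polar_comm Q₁ a y, mul_comm])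
        fun _ _ => rfl using 2
      rw [mul_one, one_mul, neg_smul, one_smul, sub_neg_eq_add, ← add_smul, ← two_mul,
        mul_inv_cancel₀ h2, one_smul])) (fun x hx A hA e => nU_mem_orth n₁ h2 d₁
      (d₁'.imp_right exists_sq_ne_one') le_rfl (fun _ _ a b => (eichler a b).2)
      (fun x y x0 a1 a2 a3 a4 => ?_) (fun g hg A hA A' => h.conj_mem_AL (hX g hg) hA)
      (fun A hA C hC A' C' e1 e2 => by simpa using h.mem_of_un u0 hu (h.un_comm hε u0 hu hA hC e1 e2))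
      (by simpa using hx) hA e) (fun _ => scalar_of_eigen hW d₁ (exists_ne_zero_one h2).1
        (exists_ne_zero_one h2).2 x0 (by simpa using hx)) hA⟩
  swap
  · obtain ⟨s, b1, b2, b3⟩ := hW.exists_partner a4 (by simpa using a2) fun z hz => by
      obtain ⟨c, rfl⟩ := Submodule.mem_span_singleton.1 hz
      simp [a3]
    have b4 := b3 x (Submodule.mem_span_singleton_self x)
    rw [polarBilin_apply_apply] at b2 b4
    rw [map_zero] at b1
    refine ⟨_, (oRefl Q₁ (y + s)).2, oRefl_of_polar_eq_zero (by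
      simp [polar_comm Q₁ y x, polar_comm Q₁ s x, a3, b4]), ?_⟩
    simp [oRefl_apply, quad_add, a2, b1, b2, polar_self', polar_comm Q₁ s y]
  have := h.nt
  refine hS.le_of_tv h2 one_ne_zero (fun u _ => tv_alt a₂ u 1) fun g hg u u0 hu k hk e => ?_
  obtain ⟨t, b1, b2⟩ := tv_alt a₂ u (1 : F)
  have hN := hS.un_nA hu b1 b2
  refine (rG_or_lG h2 hk fun v => ?_).resolve_right ?_
  · obtain ⟨v, rfl⟩ := g.surjective v
    rw [e, map_add, e, e, hN.apply_apply, map_zero]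
    module
  rintro ⟨a, rfl⟩
  have b3 := hS.range_nA one_ne_zero u0 hu
  obtain ⟨a0, a1, a5, a2⟩ := h.range_data hg hN (fun e' => by
    obtain ⟨v, hv⟩ := b3.ge ⟨x₀, rfl⟩
    rw [e', LinearMap.zero_apply, tr_apply, ← zero_tmul V₁ u] at hv
    exact x0 (tmul_left_inj u0 hv).symm) (fun v v' => by
      simp [nA_apply, eq, a₂.self_eq_zero]) e
  have a4 := two_le_finrank_range h2 n₁ (h.isom₁ a0) a1 fun x => a5 x x
  rw [b3, finrank_range_tr u0] at a2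
  set J := LinearMap.range (a.toLinearMap - 1)
  obtain ⟨d, c1, c2⟩ : ∃ d ∈ perp (polarBilin Q₁) J, Q₁ d ≠ 0 := by
    by_contra! hc
    have := hW.two_mul_finrank_le (le_perp_of_totally_singular hc)
    have := hW.finrank_perp J
    nlinarith
  have c3 := hX _ (oRefl Q₁ d).2
  have c4 : g⁻¹ * lG V₂ (oRefl Q₁ d).1 * g ∈ X := mul_mem (mul_mem (inv_mem hg) c3) hg
  have c5 : ∀ x, (g⁻¹ * lG V₂ (oRefl Q₁ d).1 * g) (x ⊗ₜ u) = x ⊗ₜ u := fun x => g.injective (by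
    obtain ⟨v, hv⟩ := b3.ge ⟨x, rfl⟩
    rw [LinearEquiv.mul_apply, LinearEquiv.mul_apply, apply_inv_apply, ← tr_apply, ← hv,
      eq_sub_of_add_eq' (e v).symm]
    generalize g v = v
    induction v with
    | zero => simp
    | add x y hx hy => rw [map_add, add_sub_add_comm, map_add, hx, hy]
    | tmul x s =>
      rw [lG_tmul, ← sub_tmul, lG_tmul, oRefl_of_polar_eq_zero]
      rw [polar_comm]
      exact mem_perp.1 c1 _ ⟨x, rfl⟩)
  obtain ⟨φ, hφ⟩ := exists_dual_eq_one (F := F) u0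
  obtain ⟨b, hb⟩ := rG_of_ct (hS.mem_of_tr u0 hu c4 fun x => ⟨x, (c5 x).symm⟩) (φ := φ) (r := u)
    fun x => by simp only [c5, ct_tmul, hφ, one_smul]
  have c6 : ∀ v, g (rG V₁ b v) = lG V₂ (oRefl Q₁ d).1 (g v) := fun v => by
    simp [← hb, apply_inv_apply]
  obtain ⟨s, hs⟩ := exists_ne_of_rG_ne (V₁ := V₁) (b := b) fun e' => by
    have := c6 (g⁻¹ (d ⊗ₜ u))
    rw [e', LinearEquiv.coe_one, id, apply_inv_apply, lG_tmul, oRefl_self c2] at this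
    have := tmul_left_inj u0 this
    rw [eq_neg_iff_add_eq_zero, ← two_smul F, smul_eq_zero, or_iff_right h2] at this
    simp [this] at c2
  have c7 := LinearMap.finrank_le_finrank_of_injective
    (f := (g.toLinearMap ∘ₗ tr (b s - s)).codRestrict (LinearMap.range (TensorProduct.mk F V₁ V₂ d))
      fun x => by
        rw [LinearMap.comp_apply, tr_apply, tmul_sub, ← rG_tmul, map_sub, LinearEquiv.coe_coe, c6]
        generalize g (x ⊗ₜ s) = v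
        induction v with
        | zero => simp
        | add x y hx hy => rw [map_add, add_sub_add_comm]; exact add_mem hx hy
        | tmul y t => exact ⟨-((Q₁ d)⁻¹ * polar Q₁ d y) • t, by
            simp [oRefl_apply, sub_tmul, smul_tmul, tmul_neg]⟩)
    fun x y e => tmul_left_inj hs (g.injective (congrArg Subtype.val e))
  have := LinearMap.finrank_range_le (TensorProduct.mk F V₁ V₂ d)
  nlinarith

end CF.MaxSub
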