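/-
Maximality of tensor product subgroups of classical groups: matrix form.
-/
import Cfsg.Agent.MaxSub.TK
import Cfsg.Agent.Geom.UMat

set_option autoImplicit false

namespace CF.MaxSub

open Module Geom TensorProduct QuadraticMap Matrix Cfsg Cfsg.Geo Kronecker

variable {F : Type*} [Field F] {ι : Type} [Fintype ι] [DecidableEq ι] {n₁ n₂ : ℕ} {σ : F →+* F}

theorem formOfGram_gram {f : (ι → F) → (ι → F) → F} {B : (ι → F) →ₛₗ[σ] (ι → F) →ₗ[F] F}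
    (h : ∀ u v, f u v = B v u) (x y : ι → F) : formOfGram σ (gramMatrix f) x y = B y x := by
  conv_rhs => rw [pi_eq_sum_univ' x, pi_eq_sum_univ' y]
  simp only [formOfGram, gramMatrix, h, map_sum, LinearMap.sum_apply, map_smul,
    LinearMap.map_smulₛₗ₂, smul_eq_mul, Finset.mul_sum]
  exact Finset.sum_congr rfl fun a _ => Finset.sum_congr rfl fun b _ => by ring

theorem formOfGram_kron (G₁ : Matrix (Fin n₁) (Fin n₁) F) (G₂ : Matrix (Fin n₂) (Fin n₂) F)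
    (x y : Fin n₁ → F) (s t : Fin n₂ → F) :
    formOfGram σ (G₁ ⊗ₖ G₂) (fun a => x a.1 * s a.2) (fun a => y a.1 * t a.2) =
      formOfGram σ G₁ x y * formOfGram σ G₂ s t := by
  simp only [formOfGram, Fintype.sum_prod_type, kroneckerMap_apply, map_mul, Finset.sum_mul_sum]
  exact Finset.sum_congr rfl fun a _ => Finset.sum_congr rfl fun a _ =>
    Finset.sum_congr rfl fun b _ => Finset.sum_congr rfl fun b _ => by ring

theorem exists_ten {f : (ι → F) → (ι → F) → F} {f₁ : (Fin n₁ → F) → (Fin n₁ → F) → F}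
    {f₂ : (Fin n₂ → F) → (Fin n₂ → F) → F} {B : (ι → F) →ₛₗ[σ] (ι → F) →ₗ[F] F}
    {B₁ : (Fin n₁ → F) →ₛₗ[σ] (Fin n₁ → F) →ₗ[F] F} {B₂ : (Fin n₂ → F) →ₛₗ[σ] (Fin n₂ → F) →ₗ[F] F}
    (h : ∀ u v, f u v = B v u) (h₁ : ∀ u v, f₁ u v = B₁ v u) (h₂ : ∀ u v, f₂ u v = B₂ v u)
    {e : ι ≃ Fin n₁ × Fin n₂} {P : GL ι F} (hT : IsTensorFormStructure σ f f₁ f₂ e P) :
    ∃ (κ : (Fin n₁ → F) ⊗[F] (Fin n₂ → F) ≃ₗ[F] (ι → F)) (c : F), c ≠ 0 ∧
      (∀ x y s t, B (κ (x ⊗ₜ s)) (κ (y ⊗ₜ t)) = c * B₁ x y * B₂ s t) ∧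
      (∀ x s, κ (x ⊗ₜ s) = (P : Matrix ι ι F) *ᵥ ((fun a : Fin n₁ × Fin n₂ => x a.1 * s a.2) ∘ e)) ∧
      ∀ g, g ∈ tensorProductSubgroup n₁ n₂ e P ↔
        autCongr κ.symm (Geom.glEquiv ι F g) ∈ TenG F _ _ := by
  obtain ⟨c, c0, hc⟩ := hT
  have H : ∀ x s, ((tenEquiv F _ _).symm.trans (crd e P)) (x ⊗ₜ s) =
      (P : Matrix ι ι F) *ᵥ ((fun a : Fin n₁ × Fin n₂ => x a.1 * s a.2) ∘ e) := fun x s => by
    rw [LinearEquiv.trans_apply, crd_apply, funext (tenEquiv_symm_tmul x s)]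
  refine ⟨_, c, c0, fun x y s t => ?_, H, fun g => ?_⟩
  · rw [H, H, ← h, hc, formOfGram_kron, formOfGram_gram h₁, formOfGram_gram h₂, mul_assoc]
  rw [mem_tensorProductSubgroup, ← tenGL_mem_TenG]
  refine iff_of_eq (congrArg (· ∈ TenG F _ _) (LinearEquiv.ext fun v => ?_))
  simp [tenGL, autCongr_apply, mulVec_crd, coe_coordGL]

theorem autCongr_comm_mem {V₁ V₂ : Type*} [AddCommGroup V₁] [Module F V₁] [AddCommGroup V₂]
    [Module F V₂] (g : V₁ ⊗[F] V₂ ≃ₗ[F] V₁ ⊗[F] V₂) :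
    autCongr (TensorProduct.comm F V₁ V₂) g ∈ TenG F V₂ V₁ ↔ g ∈ TenG F V₁ V₂ :=
  ⟨fun ⟨a, b, e⟩ => ⟨b, a, (autCongr (TensorProduct.comm F V₁ V₂)).injective
    (e.trans (tensor_ext fun _ _ => rfl))⟩,
    fun ⟨a, b, e⟩ => ⟨b, a, e ▸ tensor_ext fun _ _ => rfl⟩⟩

section Pull

variable {V W : Type*} [AddCommGroup V] [Module F V] [AddCommGroup W] [Module F W]

/-- Pull-back of a form. -/
def pull (B : V →ₛₗ[σ] V →ₗ[F] F) (κ : W ≃ₗ[F] V) : W →ₛₗ[σ] W →ₗ[F] F :=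
  (B.comp κ.toLinearMap).compl₂ κ.toLinearMap

@[simp] theorem pull_apply (B : V →ₛₗ[σ] V →ₗ[F] F) (κ : W ≃ₗ[F] V) (x y : W) :
    pull B κ x y = B (κ x) (κ y) := rfl

theorem pull_nondeg {B : V →ₛₗ[σ] V →ₗ[F] F} (h : B.Nondegenerate) (κ : W ≃ₗ[F] V) :
    (pull B κ).Nondegenerate :=
  ⟨fun x e => (map_eq_zero_iff _ κ.injective).1 (h.1 _ fun y => by simpa using e (κ.symm y)),
    fun x e => (map_eq_zero_iff _ κ.injective).1 (h.2 _ fun y => by simpa using e (κ.symm y))⟩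

theorem pull_isom {B : V →ₛₗ[σ] V →ₗ[F] F} (κ : W ≃ₗ[F] V) (g : V ≃ₗ[F] V) :
    (∀ x y, pull B κ (autCongr κ.symm g x) (autCongr κ.symm g y) = pull B κ x y) ↔
      ∀ x y, B (g x) (g y) = B x y := by
  simp only [κ.surjective.forall (p := fun x => ∀ y, B (g x) (g y) = B x y),
    κ.surjective.forall (p := fun y => B (g (κ _)) (g y) = B (κ _) y)]
  simp [autCongr_apply]

theorem smul_nondeg {B : V →ₛₗ[σ] V →ₗ[F] F} (h : B.Nondegenerate) {c : F} (hc : c ≠ 0) :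
    (c • B).Nondegenerate :=
  ⟨fun x e => h.1 _ fun y => by simpa [hc] using e y, fun x e => h.2 _ fun y => by
    simpa [hc] using e y⟩

theorem sp_of_pull {B : LinearMap.BilinForm F (ι → F)} {κ : W ≃ₗ[F] (ι → F)}
    {H : Subgroup (W ≃ₗ[F] W)} (h : MaxIn (SpG (pull B κ)) H) {K H' : Subgroup (GL ι F)}
    (hK : ∀ g, g ∈ K ↔ Geom.glEquiv ι F g ∈ SpG B)
    (hH : ∀ g, g ∈ H' ↔ autCongr κ.symm (Geom.glEquiv ι F g) ∈ H) : IsMaximalIn K (H' ⊓ K) :=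
  h.isMaximalIn ((Geom.glEquiv ι F).trans (autCongr κ.symm))
    (fun g => by rw [hK, mem_SpG, mem_SpG, ← pull_isom κ]; rfl) hH

theorem omega_of_pull [Finite F] {Q : QuadraticForm F (ι → F)} {κ : W ≃ₗ[F] (ι → F)}
    {H : Subgroup (W ≃ₗ[F] W)} (h : MaxIn (OmG (Q.comp κ.toLinearMap)) H) {H' : Subgroup (GL ι F)}
    (hH : ∀ g, g ∈ H' ↔ autCongr κ.symm (Geom.glEquiv ι F g) ∈ H) :
    IsMaximalIn (omegaGL Q) (H' ⊓ omegaGL Q) :=
  h.isMaximalIn ((Geom.glEquiv ι F).trans (autCongr κ.symm))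
    (fun g => (mem_omegaGL_iff Q g).trans
      (autCongr_mem_OmG κ.symm one_ne_zero (fun x => by simp) _).symm) hH

theorem polar_comp (Q : QuadraticForm F V) (κ : W ≃ₗ[F] V) (x y : W) :
    polar (Q.comp κ.toLinearMap) x y = polar Q (κ x) (κ y) := by simp [polar]

theorem comp_nondeg {Q : QuadraticForm F V} (h : (polarBilin Q).Nondegenerate) (κ : W ≃ₗ[F] V) :
    (polarBilin (Q.comp κ.toLinearMap)).Nondegenerate := by
  rw [show polarBilin (Q.comp κ.toLinearMap) = pull (polarBilin Q) κ from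
    LinearMap.ext₂ fun x y => polar_comp Q κ x y]
  exact pull_nondeg h κ

end Pull

theorem exists_alt {f : (ι → F) → (ι → F) → F} (hf : IsSymplecticForm f) :
    ∃ B : LinearMap.BilinForm F (ι → F), (∀ u v, f u v = B v u) ∧ B.Nondegenerate ∧ B.IsAlt := by
  obtain ⟨B, h1, h2⟩ := exists_bilin hf.bilinear hf.nondegenerate
  exact ⟨B.flip, h1, ⟨h2.2, h2.1⟩, fun x => (h1 x x).symm.trans (hf.alternating x)⟩

theorem exists_sym {f : (ι → F) → (ι → F) → F} (hf : IsSymmetricForm f) :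
    ∃ B : LinearMap.BilinForm F (ι → F), (∀ u v, f u v = B v u) ∧ B.Nondegenerate ∧
      ∀ x y, B x y = B y x := by
  obtain ⟨B, h1, h2⟩ := exists_bilin hf.bilinear hf.nondegenerate
  exact ⟨B, fun u v => by rw [hf.symm, h1], h2, fun x y => by rw [← h1, ← h1, hf.symm]⟩

theorem exists_ne_zero_ne_one [Fintype F] (h : Fintype.card F ≠ 2) : ∃ c : F, c ≠ 0 ∧ c ≠ 1 := by
  classical
  by_contra! hc
  exact h (le_antisymm ((Finset.card_le_card (t := {0, 1}) fun c _ => by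
    by_cases h : c = 0
    · simp [h]
    · simp [hc c h]).trans Finset.card_le_two) Fintype.one_lt_card)

theorem three_lt_card [Fintype F] (h : Odd (Fintype.card F)) (h3 : Fintype.card F ≠ 3) :
    3 < Nat.card F := by
  have := Fintype.one_lt_card (α := F)
  rw [Nat.card_eq_fintype_card]
  obtain ⟨k, hk⟩ := h
  omega

theorem even_of_symplectic {f : (Fin n₁ → F) → (Fin n₁ → F) → F} (hf : IsSymplecticForm f) :
    Even n₁ := by
  obtain ⟨B, -, h1, h2⟩ := exists_alt hf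
  simpa using even_finrank_of_alt h1 h2

variable [Fintype F]

theorem isMaximalIn_sp_tensor {m : ℕ} (hodd : Odd (Fintype.card F)) (hn₂ : 3 ≤ n₂)
    (hex : ¬ (Fintype.card F = 3 ∧ n₂ = 3)) (hn : 3 ≤ n₁ ∨ n₁ = 2 ∧ 5 ≤ n₂)
    {e : (Fin m ⊕ Fin m) ≃ Fin n₁ × Fin n₂} {P : GL (Fin m ⊕ Fin m) F}
    {f₁ : (Fin n₁ → F) → (Fin n₁ → F) → F} {f₂ : (Fin n₂ → F) → (Fin n₂ → F) → F}
    (hf₁ : IsSymplecticForm f₁) (hf₂ : IsSymmetricForm f₂)
    (hT : IsTensorFormStructure id (sympForm m F) f₁ f₂ e P) :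
    IsMaximalIn (spGL m F) (tensorProductSubgroup n₁ n₂ e P ⊓ spGL m F) := by
  obtain ⟨B₁, a1, a2, a3⟩ := exists_alt hf₁
  obtain ⟨B₂, b1, b2, b3⟩ := exists_sym hf₂
  have h2 := Geom.two_ne_zero_of_odd_card hodd
  have hA := sympBilin_isAlt (F := F) m
  obtain ⟨κ, c, c0, h1, -, h3⟩ := exists_ten (σ := RingHom.id F) (B := -sympBilin m F)
    (fun u v => by simp [← sympBilin_apply, hA.neg_eq]) a1 b1 hT
  have a4 := smul_nondeg a2 (neg_ne_zero.2 c0)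
  have a5 : (-c • B₁).IsAlt := fun x => by simp [a3.self_eq_zero]
  obtain hn | ⟨hn, hn'⟩ := hn
  · refine sp_of_pull (κ := (TensorProduct.comm F _ _).trans κ) (sp_maxIn_os h2 b2 b3 a4 a5
      (pull_nondeg (sympBilin_nondegenerate m) _) (fun x => hA _) (fun x y s t => by
        simpa [neg_eq_iff_eq_neg, mul_comm] using h1 s t x y) (by simpa using hn₂) ?_
      (by simpa using hn)) (mem_spGL_iff m) fun g => (h3 g).trans (autCongr_comm_mem _).symm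
    by_cases h4 : n₂ = 3
    · exact .inr (three_lt_card hodd fun e => hex ⟨e, h4⟩)
    exact .inl (by simp; omega)
  exact sp_of_pull (sp_maxIn_so h2 a4 a5 b2 b3 (pull_nondeg (sympBilin_nondegenerate m) κ)
    (fun x => hA _) (fun x y s t => by simpa [neg_eq_iff_eq_neg] using h1 x y s t)
    (by simpa using hn) (by simpa using hn')) (mem_spGL_iff m) h3

theorem isMaximalIn_su_tensor {n q : ℕ} (hF : Fintype.card F = q ^ 2) (h1 : 2 ≤ n₁) (h12 : n₁ < n₂)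
    (h5 : 5 ≤ n₂) (hex : ¬ (n₁ = 2 ∧ q = 2)) {e : Fin n ≃ Fin n₁ × Fin n₂} {P : GL (Fin n) F}
    {f₁ : (Fin n₁ → F) → (Fin n₁ → F) → F} {f₂ : (Fin n₂ → F) → (Fin n₂ → F) → F}
    (hf₁ : IsUnitaryFormPow q f₁) (hf₂ : IsUnitaryFormPow q f₂)
    (hT : IsTensorFormStructure (fun x : F => x ^ q) (hermForm n F q) f₁ f₂ e P) :
    IsMaximalIn (GU n F q ⊓ specialLinear (Fin n) F)
      (tensorProductSubgroup n₁ n₂ e P ⊓ (GU n F q ⊓ specialLinear (Fin n) F)) := by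
  obtain ⟨σ, s1, s2, s3⟩ := exists_conj hF
  obtain ⟨B₁, a1, a2, a3⟩ := exists_sesq s2 s3 hf₁.add_left hf₁.smul_left
    (fun v w => by rw [s1, hf₁.herm]) hf₁.nondegenerate
  obtain ⟨B₂, b1, b2, b3⟩ := exists_sesq s2 s3 hf₂.add_left hf₂.smul_left
    (fun v w => by rw [s1, hf₂.herm]) hf₂.nondegenerate
  obtain ⟨κ, c, c0, c1, -, c3⟩ := exists_ten (hermForm_eq s1) a1 b1 (funext s1 ▸ hT)
  have hS := hermSesq_isSymm (ι := Fin n) s3
  have c4 : σ c = c := by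
    obtain ⟨x, x0, -⟩ := exists_isotropic_of_two_le s2 s3 a2.symm (by simpa using h1)
    obtain ⟨s, s0, -⟩ := exists_isotropic_of_two_le s2 s3 b2.symm (by simp; omega)
    obtain ⟨y, hy⟩ := exists_apply_eq_one (φ := B₁ x) fun e => x0 (a3.1 x fun y => by simp [e])
    obtain ⟨t, ht⟩ := exists_apply_eq_one (φ := B₂ s) fun e => s0 (b3.1 s fun y => by simp [e])
    simpa [c1, hy, ht, a2.flip_one hy, b2.flip_one ht] using hS.eq (κ (x ⊗ₜ s)) (κ (y ⊗ₜ t))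
  refine (su_maxIn_ten (B₁ := c • B₁) (B := pull (hermSesq (Fin n) σ) κ)
    ⟨s2, s3, ⟨fun x y => by simp [c4, a2.eq]⟩⟩ (smul_nondeg a3 c0) b2 b3
    ⟨s2, s3, ⟨fun x y => hS.eq _ _⟩⟩ (pull_nondeg (hermSesq_nondegenerate σ) κ) c1 ?_
    (by simpa using h5) (by simpa using h12)).isMaximalIn
    ((Geom.glEquiv _ F).trans (autCongr κ.symm)) (fun g => ?_) c3
  · obtain h | h := h1.lt_or_eq
    · exact .inl (by simp; omega)
    refine .inr ⟨by simp [h], by_contra fun hc => hex ⟨h.symm, le_antisymm ?_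
      (two_le_of_card_eq_sq hF)⟩⟩
    push Not at hc
    rw [← card_fixed_eq hF]
    exact (Set.ncard_le_ncard (s := {x : F | x ^ q = x}) (t := {0, 1}) fun c e => by
      by_contra! h
      simp only [Set.mem_insert_iff, Set.mem_singleton_iff, not_or] at h
      exact hc c h.1 h.2 ((s1 c).trans e)).trans (Set.ncard_pair zero_ne_one).le
  · rw [mem_SU_iff s1, Subgroup.mem_inf, Subgroup.mem_inf, mem_UG, mem_UG, ← pull_isom κ]
    exact and_congr Iff.rfl (autCongr_mem_SLG κ.symm _).symm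

theorem isMaximalIn_omega_ss {Q : (ι → F) → F} (hQ : IsNondegenerateQuadraticForm Q)
    (h12 : n₁ < n₂) (h5 : 5 ≤ n₂) (hex : ¬ (Fintype.card F = 2 ∧ n₁ = 2)) (h1 : 2 ≤ n₁)
    {e : ι ≃ Fin n₁ × Fin n₂} {P : GL ι F}
    {f₁ : (Fin n₁ → F) → (Fin n₁ → F) → F} {f₂ : (Fin n₂ → F) → (Fin n₂ → F) → F}
    (hf₁ : IsSymplecticForm f₁) (hf₂ : IsSymplecticForm f₂)
    (hT : IsTensorFormStructure id (polar Q) f₁ f₂ e P)
    (hp : ∀ (x₁ : Fin n₁ → F) (x₂ : Fin n₂ → F),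
      Q ((P : Matrix ι ι F) *ᵥ ((fun a : Fin n₁ × Fin n₂ => x₁ a.1 * x₂ a.2) ∘ e)) = 0) :
    IsMaximalIn (omegaGL Q) (tensorProductSubgroup n₁ n₂ e P ⊓ omegaGL Q) := by
  obtain ⟨Q, rfl, hQ'⟩ := exists_quadraticForm hQ
  obtain ⟨B₁, a1, a2, a3⟩ := exists_alt hf₁
  obtain ⟨B₂, b1, b2, b3⟩ := exists_alt hf₂
  obtain ⟨κ, c, c0, c1, c2, c3⟩ := exists_ten (σ := RingHom.id F) (B := polarBilin Q)
    (polar_comm Q) a1 b1 hT
  refine omega_of_pull (omega_maxIn_ss (smul_nondeg a2 c0) (fun x => by simp [a3.self_eq_zero]) b2 b3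
    (comp_nondeg hQ' κ) (fun x y s t => (polar_comp Q κ _ _).trans (c1 x y s t))
    (fun x s => by simp [c2, hp]) ?_ (by simpa using h5) (by simpa using h12)) c3
  obtain h | h := h1.lt_or_eq
  · exact .inl (by simp; omega)
  exact .inr ⟨by simp [h], exists_ne_zero_ne_one fun e => hex ⟨e, h.symm⟩⟩

theorem isMaximalIn_omega_oo {Q : (ι → F) → F} (hQ : IsNondegenerateQuadraticForm Q)
    (hodd : Odd (Fintype.card F)) (h1 : 3 ≤ n₁) (h1' : n₁ ≠ 4)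
    (hex : ¬ (Fintype.card F = 3 ∧ n₁ = 3)) {e : ι ≃ Fin n₁ × Fin n₂} {P : GL ι F}
    {f₁ : (Fin n₁ → F) → (Fin n₁ → F) → F} {f₂ : (Fin n₂ → F) → (Fin n₂ → F) → F}
    (hf₁ : IsSymmetricForm f₁) (hf₂ : IsSymmetricForm f₂)
    (hn : n₁ < n₂ ∧ 5 ≤ n₂ ∨ n₂ < n₁ ∧ 4 ≤ n₂ ∧ (n₂ ≠ 4 ∨ ¬ IsPlusTypeOn (fun v => f₂ v v) ⊤))
    (hT : IsTensorFormStructure id (polar Q) f₁ f₂ e P) :
    IsMaximalIn (omegaGL Q) (tensorProductSubgroup n₁ n₂ e P ⊓ omegaGL Q) := by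
  obtain ⟨Q, rfl, hQ'⟩ := exists_quadraticForm hQ
  obtain ⟨B₁, a1, a2, a3⟩ := exists_sym hf₁
  obtain ⟨B₂, b1, b2, b3⟩ := exists_sym hf₂
  have h2 := Geom.two_ne_zero_of_odd_card hodd
  obtain ⟨κ, c, c0, c1, -, c3⟩ := exists_ten (σ := RingHom.id F) (B := polarBilin Q)
    (polar_comm Q) a1 b1 hT
  have a4 := smul_nondeg a2 c0
  have a5 : ∀ x y, (c • B₁) x y = (c • B₁) y x := fun x y => by simp [a3 x y]
  obtain ⟨hn, hn'⟩ | ⟨hn, hn', hn''⟩ := hn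
  · refine omega_of_pull (omega_maxIn_oo h2 a4 a5 b2 b3 (comp_nondeg hQ' κ)
      (fun x y s t => (polar_comp Q κ _ _).trans (c1 x y s t)) (by simpa using h1) ?_
      (by simpa using hn') (by simpa using hn) (.inl (by simpa using h1'))) c3
    by_cases h4 : n₁ = 3
    · exact .inr (three_lt_card hodd fun e => hex ⟨e, h4⟩)
    exact .inl (by simp; omega)
  refine omega_of_pull (κ := (TensorProduct.comm F _ _).trans κ) (omega_maxIn_oo h2 b2 b3 a4 a5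
    (comp_nondeg hQ' _) (fun x y s t => (polar_comp Q _ _ _).trans
      ((c1 s t x y).trans (mul_comm _ _))) (by simp; omega) (.inl (by simpa using hn'))
      (by simp; omega) (by simpa using hn) ?_) fun g => (c3 g).trans (autCongr_comm_mem _).symm
  by_cases h4 : n₂ = 4
  · refine .inr fun x y x0 d1 d2 d3 => by_contra fun d4 => hn''.resolve_left (not_not.2 h4)
      ⟨Submodule.span F {x, y}, le_top, fun w hw => ?_, ?_⟩
    · obtain ⟨a, b, rfl⟩ := Submodule.mem_span_pair.1 hw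
      simp [b1, d1, d2, d3, b3 y x]
    · have := finrank_span_eq_card (LinearIndependent.pair_iff' x0 |>.2 fun c e =>
        d4 (Submodule.mem_span_singleton.2 ⟨c, e⟩) : LinearIndependent F ![x, y])
      rw [Matrix.range_cons_cons_empty] at this
      simp [this, h4]
  exact .inl (by simpa using h4)

end CF.MaxSub
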