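/-
`Sp₄` in characteristic two: matrices, the exceptional isogeny, parabolic subgroups.
-/
import Cfsg.Agent.BN.SzMat

set_option autoImplicit false

namespace CF.MaxSub.E4

open Matrix Cfsg.Lie CF.BN.Suz

/-- Four by four matrices. -/
abbrev M4 (F : Type*) := Matrix (Fin 4) (Fin 4) F

/-- Two by two matrices. -/
abbrev M2 (F : Type*) := Matrix (Fin 2) (Fin 2) F

variable {F : Type*} [Field F] {M N B : M4 F}

/-- Symplectic matrices. -/
def Sp (M : M4 F) : Prop := Mᵀ * wM F * M = wM F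

theorem bf_eq (u v : Fin 4 → F) : altForm4 u v = u ⬝ᵥ wM F *ᵥ v := by
  simp [altForm4, wM, dotProduct, mulVec, Fin.sum_univ_four]

theorem Sp.bf (h : Sp M) (u v : Fin 4 → F) : altForm4 (M *ᵥ u) (M *ᵥ v) = altForm4 u v := by
  have : u ⬝ᵥ (Mᵀ * wM F * M) *ᵥ v = u ⬝ᵥ wM F *ᵥ v := by rw [h]
  rw [bf_eq, bf_eq, ← this, ← mulVec_mulVec, ← mulVec_mulVec, dotProduct_mulVec u, vecMul_transpose]

theorem sp_of_bf (h : ∀ u v, altForm4 (M *ᵥ u) (M *ᵥ v) = altForm4 u v) : Sp M := by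
  ext i j
  have := h (Pi.single i 1) (Pi.single j 1)
  rw [bf_eq, bf_eq, mulVec_mulVec, ← vecMul_transpose, ← dotProduct_mulVec, mulVec_mulVec,
    ← mul_assoc] at this
  simpa using this

theorem Sp.mul (h : Sp M) (k : Sp N) : Sp (M * N) :=
  sp_of_bf fun u v => by rw [← mulVec_mulVec, ← mulVec_mulVec, h.bf, k.bf]

theorem sp_one : Sp (1 : M4 F) := by simp [Sp]

/-- The inverse of a symplectic matrix. -/
def spi (M : M4 F) : M4 F := wM F * Mᵀ * wM F

theorem Sp.spi_mul (h : Sp M) : spi M * M = 1 := by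
  rw [spi, mul_assoc, mul_assoc, ← mul_assoc Mᵀ, h, wM_mul_wM]

theorem Sp.mul_spi (h : Sp M) : M * spi M = 1 := mul_eq_one_comm.1 h.spi_mul

theorem Sp.spi_mulVec (h : Sp M) (v : Fin 4 → F) : spi M *ᵥ M *ᵥ v = v := by
  rw [mulVec_mulVec, h.spi_mul, one_mulVec]

theorem Sp.mulVec_spi (h : Sp M) (v : Fin 4 → F) : M *ᵥ spi M *ᵥ v = v := by
  rw [mulVec_mulVec, h.mul_spi, one_mulVec]

theorem Sp.spi (h : Sp M) : Sp (spi M) :=
  sp_of_bf fun u v => by rw [← h.bf, h.mulVec_spi, h.mulVec_spi]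

theorem Sp.ne_zero (h : Sp M) {v : Fin 4 → F} (h0 : v ≠ 0) : M *ᵥ v ≠ 0 := fun e =>
  h0 (by rw [← h.spi_mulVec v, e, mulVec_zero])

theorem Sp.cancel (h : Sp B) (e : M * B = N * B) : M = N := by
  rw [← mul_one M, ← h.mul_spi, ← mul_assoc, e, mul_assoc, h.mul_spi, mul_one]

theorem bf_add_left (u v w : Fin 4 → F) : altForm4 (u + v) w = altForm4 u w + altForm4 v w := by
  simp only [altForm4, Pi.add_apply]; ring

theorem bf_add_right (u v w : Fin 4 → F) : altForm4 w (u + v) = altForm4 w u + altForm4 w v := by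
  simp only [altForm4, Pi.add_apply]; ring

theorem bf_smul_left (c : F) (u v : Fin 4 → F) : altForm4 (c • u) v = c * altForm4 u v := by
  simp only [altForm4, Pi.smul_apply, smul_eq_mul]; ring

theorem bf_smul_right (c : F) (u v : Fin 4 → F) : altForm4 u (c • v) = c * altForm4 u v := by
  simp only [altForm4, Pi.smul_apply, smul_eq_mul]; ring

theorem bf_comm (u v : Fin 4 → F) : altForm4 u v = altForm4 v u := by
  simp only [altForm4]; ring

theorem bf_zero_left (v : Fin 4 → F) : altForm4 0 v = 0 := by simp [altForm4]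

theorem exists_bf {v : Fin 4 → F} (h : v ≠ 0) : ∃ x, altForm4 x v ≠ 0 := by
  by_contra k
  push Not at k
  apply h
  have a := k (Pi.single 0 1); have b := k (Pi.single 1 1)
  have c := k (Pi.single 2 1); have d := k (Pi.single 3 1)
  simp [altForm4] at a b c d
  ext i; fin_cases i <;> simp [*]

theorem mulVec4 (M : M4 F) (v : Fin 4 → F) (i : Fin 4) :
    (M *ᵥ v) i = M i 0 * v 0 + M i 1 * v 1 + M i 2 * v 2 + M i 3 * v 3 := by
  simp [mulVec, dotProduct, Fin.sum_univ_four]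

theorem mul4 (M N : M4 F) (i j : Fin 4) :
    (M * N) i j = M i 0 * N 0 j + M i 1 * N 1 j + M i 2 * N 2 j + M i 3 * N 3 j := by
  simp [mul_apply, Fin.sum_univ_four]

theorem ext4 {u v : Fin 4 → F} (h0 : u 0 = v 0) (h1 : u 1 = v 1) (h2 : u 2 = v 2) (h3 : u 3 = v 3) :
    u = v := by
  ext i; fin_cases i <;> assumption

theorem Sp.col (h : Sp M) :
    M 0 0 * M 3 1 + M 1 0 * M 2 1 + M 2 0 * M 1 1 + M 3 0 * M 0 1 = 0 ∧
    M 0 0 * M 3 2 + M 1 0 * M 2 2 + M 2 0 * M 1 2 + M 3 0 * M 0 2 = 0 ∧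
    M 0 0 * M 3 3 + M 1 0 * M 2 3 + M 2 0 * M 1 3 + M 3 0 * M 0 3 = 1 ∧
    M 0 1 * M 3 2 + M 1 1 * M 2 2 + M 2 1 * M 1 2 + M 3 1 * M 0 2 = 1 ∧
    M 0 1 * M 3 3 + M 1 1 * M 2 3 + M 2 1 * M 1 3 + M 3 1 * M 0 3 = 0 ∧
    M 0 2 * M 3 3 + M 1 2 * M 2 3 + M 2 2 * M 1 3 + M 3 2 * M 0 3 = 0 :=
  ⟨sp_col h 0 1, sp_col h 0 2, sp_col h 0 3, sp_col h 1 2, sp_col h 1 3, sp_col h 2 3⟩

theorem Sp.row (h : Sp M) :
    M 0 0 * M 1 3 + M 0 1 * M 1 2 + M 0 2 * M 1 1 + M 0 3 * M 1 0 = 0 ∧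
    M 0 0 * M 2 3 + M 0 1 * M 2 2 + M 0 2 * M 2 1 + M 0 3 * M 2 0 = 0 ∧
    M 0 0 * M 3 3 + M 0 1 * M 3 2 + M 0 2 * M 3 1 + M 0 3 * M 3 0 = 1 ∧
    M 1 0 * M 2 3 + M 1 1 * M 2 2 + M 1 2 * M 2 1 + M 1 3 * M 2 0 = 1 ∧
    M 1 0 * M 3 3 + M 1 1 * M 3 2 + M 1 2 * M 3 1 + M 1 3 * M 3 0 = 0 ∧
    M 2 0 * M 3 3 + M 2 1 * M 3 2 + M 2 2 * M 3 1 + M 2 3 * M 3 0 = 0 :=
  ⟨sp_row h 0 1, sp_row h 0 2, sp_row h 0 3, sp_row h 1 2, sp_row h 1 3, sp_row h 2 3⟩

/-- The second coefficient of the characteristic polynomial. -/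
def e2 (M : M4 F) : F :=
  M 0 0 * M 1 1 - M 0 1 * M 1 0 + (M 0 0 * M 2 2 - M 0 2 * M 2 0) + (M 0 0 * M 3 3 - M 0 3 * M 3 0) +
    (M 1 1 * M 2 2 - M 1 2 * M 2 1) + (M 1 1 * M 3 3 - M 1 3 * M 3 1) + (M 2 2 * M 3 3 - M 2 3 * M 3 2)

theorem e2_comm (M N : M4 F) : e2 (M * N) = e2 (N * M) := by
  simp only [e2, mul4]; ring

theorem trace4 (M : M4 F) : M.trace = M 0 0 + M 1 1 + M 2 2 + M 3 3 := by
  simp [trace, Fin.sum_univ_four]

theorem star4_map {K : Type*} [Field K] (φ : F →+* K) (M : M4 F) :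
    star4 (M.map φ) = (star4 M).map φ := by
  ext i j; simp [star4]

theorem Sp.map {K : Type*} [Field K] (φ : F →+* K) (h : Sp M) : Sp (M.map φ) := by
  have : (wM F).map φ = wM K := by
    ext i j; fin_cases i <;> fin_cases j <;> simp [wM]
  rw [Sp, ← this, ← transpose_map, ← Matrix.map_mul, ← Matrix.map_mul, h]

/-- The upper unitriangular symplectic matrices. -/
def uu (s t z y : F) : M4 F := !![1, t, z + s * t, y; 0, 1, s, z; 0, 0, 1, t; 0, 0, 0, 1]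

theorem uu_zero : uu (0 : F) 0 0 0 = 1 := by
  ext i j; fin_cases i <;> fin_cases j <;> simp [uu]

theorem uu_inj {s t z y s' t' z' y' : F} (h : uu s t z y = uu s' t' z' y') :
    s = s' ∧ t = t' ∧ z = z' ∧ y = y' :=
  ⟨congrFun₂ h 1 2, congrFun₂ h 0 1, congrFun₂ h 1 3, congrFun₂ h 0 3⟩

theorem uu_eq {s t z y s' t' z' y' : F} (h1 : s = s') (h2 : t = t') (h3 : z = z') (h4 : y = y') :
    uu s t z y = uu s' t' z' y' := by rw [h1, h2, h3, h4]

/-- Stabiliser of the first point. -/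
def PP (M : M4 F) : Prop := M 1 0 = 0 ∧ M 2 0 = 0 ∧ M 3 0 = 0

/-- Stabiliser of the first line. -/
def PL (M : M4 F) : Prop := M 2 0 = 0 ∧ M 3 0 = 0 ∧ M 2 1 = 0 ∧ M 3 1 = 0

theorem PP.mul (h : PP M) (k : PP N) : PP (M * N) := by
  obtain ⟨a, b, c⟩ := h; obtain ⟨d, e, f⟩ := k
  simp [PP, mul4, *]

theorem PL.mul (h : PL M) (k : PL N) : PL (M * N) := by
  obtain ⟨a, b, c, d⟩ := h; obtain ⟨e, f, g, i⟩ := k
  simp [PL, mul4, *]

theorem pp_uu (s t z y : F) : PP (uu s t z y) := by simp [PP, uu]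

theorem pl_uu (s t z y : F) : PL (uu s t z y) := by simp [PL, uu]

theorem PP.sp (h : PP M) (k : Sp M) :
    M 3 1 = 0 ∧ M 3 2 = 0 ∧ M 0 0 * M 3 3 = 1 ∧ M 1 1 * M 2 2 + M 2 1 * M 1 2 = 1 := by
  obtain ⟨a, b, c⟩ := h
  obtain ⟨c1, c2, c3, c4, -, -⟩ := k.col
  grind

/-- The middle block. -/
def mid (M : M4 F) : M2 F := !![M 1 1, M 1 2; M 2 1, M 2 2]

/-- The upper left block. -/
def top (M : M4 F) : M2 F := !![M 0 0, M 0 1; M 1 0, M 1 1]

theorem mid_mul (h : PP M) (k : PP N) (s : Sp N) : mid (M * N) = mid M * mid N := by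
  obtain ⟨a, b, c⟩ := h
  obtain ⟨d, e, -⟩ := k.sp s
  ext i j; fin_cases i <;> fin_cases j <;> simp [mid, mul4, *]

theorem top_mul (k : PL N) : top (M * N) = top M * top N := by
  obtain ⟨a, b, c, d⟩ := k
  ext i j; fin_cases i <;> fin_cases j <;> simp [top, mul4, *]

theorem mid_one : mid (1 : M4 F) = 1 := by
  ext i j; fin_cases i <;> fin_cases j <;> simp [mid]

theorem top_one : top (1 : M4 F) = 1 := by
  ext i j; fin_cases i <;> fin_cases j <;> simp [top]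

/-- The matrix `M` is the transvection `x ↦ x + a (x, v) v`. -/
def Tv (M : M4 F) (v : Fin 4 → F) (a : F) : Prop := ∀ x, M *ᵥ x = x + (a * altForm4 x v) • v

/-- The matrix of a transvection. -/
def tvM (v : Fin 4 → F) (a : F) : M4 F := 1 + a • vecMulVec v (wM F *ᵥ v)

theorem tv_tvM (v : Fin 4 → F) (a : F) : Tv (tvM v a) v a := fun x => by
  rw [tvM, add_mulVec, one_mulVec, smul_mulVec, vecMulVec_mulVec, bf_eq, dotProduct_comm]
  simp [smul_smul]

theorem Tv.eq {v : Fin 4 → F} {a : F} (h : Tv M v a) (k : Tv N v a) : M = N :=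
  ext_of_mulVec_single fun i => by rw [h, k]

theorem Tv.smul {v : Fin 4 → F} {a c : F} : Tv M (c • v) a ↔ Tv M v (c ^ 2 * a) := by
  refine forall_congr' fun x => ?_
  rw [bf_smul_right, smul_smul]
  congr! 3; ring

theorem Tv.cj {v : Fin 4 → F} {a : F} (h : Tv M v a) (hB : Sp B) :
    Tv (B * M * spi B) (B *ᵥ v) a := fun x => by
  rw [← mulVec_mulVec, ← mulVec_mulVec, h, mulVec_add, hB.mulVec_spi, mulVec_smul, ← hB.bf,
    hB.mulVec_spi]

theorem Tv.entry {v : Fin 4 → F} {a : F} (h : Tv M v a) (i j : Fin 4) :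
    M i j = (1 : M4 F) i j + a * v i * v (Fin.rev j) := by
  have := congrFun (h (Pi.single j 1)) i
  rw [mulVec_single_one] at this
  rw [show M i j = M.col j i from rfl, this, one_apply]
  fin_cases j <;> simp [altForm4, Pi.single_apply] <;> ring

variable [CharP F 2]

theorem bf_self (v : Fin 4 → F) : altForm4 v v = 0 := by
  simp only [altForm4]; grind

theorem Tv.sp {v : Fin 4 → F} {a : F} (h : Tv M v a) : Sp M := sp_of_bf fun x y => by
  rw [h, h, bf_add_left, bf_add_right, bf_add_right, bf_smul_left, bf_smul_right, bf_smul_left,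
    bf_smul_right, bf_self v, bf_comm v y]
  grind

theorem Tv.mul {v : Fin 4 → F} {a b : F} (h : Tv M v a) (k : Tv N v b) : Tv (M * N) v (a + b) :=
  fun x => by
    rw [← mulVec_mulVec, k, h, bf_add_left, bf_smul_left, bf_self, add_assoc, ← add_smul]
    congr 2; ring

theorem Sp.det (h : Sp M) : M.det = 1 := by
  have := congrArg Matrix.det h
  rw [det_mul, det_mul, det_transpose, Tits.det_wM] at this
  grind

theorem Sp.star (h : Sp M) : Sp (star4 M) := by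
  have d := h.det
  obtain ⟨c1, c2, -, -, c3, c4⟩ := h.col
  simp [det_succ_row_zero, Fin.sum_univ_succ, Fin.succAbove] at d
  ext i j
  fin_cases i <;> fin_cases j <;> simp [star4, pairOf, wM, mul_apply, Fin.sum_univ_four] <;> grind

theorem Sp.star_star (h : Sp M) : star4 (star4 M) = M.map (frobenius F 2) := by
  have e : adjugate M = E4.spi M := by
    rw [← one_mul (adjugate M), ← h.spi_mul, mul_assoc, mul_adjugate, h.det, one_smul, mul_one]
  have k := fun i j => congrFun₂ e i j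
  simp only [adjugate_fin_succ_eq_det_submatrix, det_fin_three, submatrix_apply] at k
  have k00 := k 0 0; have k01 := k 0 1; have k02 := k 0 2; have k03 := k 0 3
  have k10 := k 1 0; have k11 := k 1 1; have k12 := k 1 2; have k13 := k 1 3
  have k20 := k 2 0; have k21 := k 2 1; have k22 := k 2 2; have k23 := k 2 3
  have k30 := k 3 0; have k31 := k 3 1; have k32 := k 3 2; have k33 := k 3 3
  simp [E4.spi, wM, mul_apply, Fin.sum_univ_four, Fin.succAbove] at k00 k01 k02 k03 k10 k11 k12 k13 k20 k21 k22 k23 k30 k31 k32 k33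
  obtain ⟨c1, c2, c3, c4, c5, c6⟩ := h.col
  obtain ⟨r1, r2, r3, r4, r5, r6⟩ := h.row
  ext i j
  fin_cases i <;> fin_cases j <;> simp [star4, pairOf, frobenius_def] <;> grind

theorem Sp.trace_star (h : Sp M) : (star4 M).trace = e2 M := by
  obtain ⟨c1, c2, c3, c4, c5, c6⟩ := h.col
  obtain ⟨r1, r2, r3, r4, r5, r6⟩ := h.row
  simp [trace4, star4, pairOf, e2]
  grind

theorem uu_mul (s t z y s' t' z' y' : F) : uu s t z y * uu s' t' z' y' =
    uu (s + s') (t + t') (z + z' + s * t') (y + y' + t * z' + (z + s * t) * t') := by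
  ext i j; fin_cases i <;> fin_cases j <;> simp [uu, mul4] <;> grind

theorem sp_uu (s t z y : F) : Sp (uu s t z y) := by
  ext i j; fin_cases i <;> fin_cases j <;> simp [uu, mul4, wM] <;> grind

theorem star_uu (s t z y : F) :
    star4 (uu s t z y) = uu (t ^ 2) s (y + t * z + s * t ^ 2) (z ^ 2 + s * t * z + s * y) := by
  ext i j; fin_cases i <;> fin_cases j <;> simp [uu, star4, pairOf] <;> grind

theorem uu_sq (s t z y : F) : uu s t z y * uu s t z y = uu 0 0 (s * t) (s * t ^ 2) := by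
  rw [uu_mul]; apply uu_eq <;> grind

theorem uu_pow (s t z y : F) : uu s t z y ^ 4 = 1 := by
  rw [show uu s t z y ^ 4 = _ from pow_mul _ 2 2, sq, sq, uu_sq, uu_sq, ← uu_zero]
  apply uu_eq <;> grind

theorem tv_uu {v : Fin 4 → F} {a : F} (h : Tv M v a) (h2 : v 2 = 0) (h3 : v 3 = 0) :
    M = uu (a * v 1 ^ 2) 0 (a * v 0 * v 1) (a * v 0 ^ 2) := by
  ext i j; rw [h.entry]
  fin_cases i <;> fin_cases j <;> simp [uu, h2, h3, Fin.rev] <;> ring

theorem Tv.of_uu (a b : F) : Tv (uu (b ^ 2) 0 (a * b) (a ^ 2)) ![a, b, 0, 0] 1 := by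
  have := tv_uu (tv_tvM ![a, b, 0, 0] (1 : F)) rfl rfl
  simp only [one_mul] at this
  exact this ▸ tv_tvM _ _

theorem Tv.pl {v : Fin 4 → F} {a : F} (h : Tv M v a) (ha : a ≠ 0) (k : PL M) :
    v 2 = 0 ∧ v 3 = 0 := by
  obtain ⟨-, b, c, -⟩ := k
  rw [h.entry] at b c
  simp [Fin.rev, ha] at b c
  exact ⟨c, b⟩

theorem isU_of (h : Sp M) (p : PP M) (l : PL M) (h0 : M 0 0 = 1) (h1 : M 1 1 = 1) :
    M = uu (M 1 2) (M 0 1) (M 1 3) (M 0 3) := by
  obtain ⟨a, b, c⟩ := p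
  obtain ⟨-, -, d, e⟩ := l
  obtain ⟨c1, c2, c3, c4, c5, c6⟩ := h.col
  ext i j; fin_cases i <;> fin_cases j <;> simp [uu] <;> grind

theorem rp_mul (h : Sp M) (p : PP M) (t z y : F) : M * uu 0 t z y =
    uu 0 (M 0 0 * (M 2 1 * z + M 2 2 * t)) (M 0 0 * (M 1 1 * z + M 1 2 * t)) (M 0 0 ^ 2 * y) * M := by
  obtain ⟨d, e, f, g⟩ := p.sp h
  obtain ⟨a, b, c⟩ := p
  obtain ⟨c1, c2, c3, c4, c5, c6⟩ := h.col
  obtain ⟨r1, r2, r3, r4, r5, r6⟩ := h.row
  ext i j; fin_cases i <;> fin_cases j <;> simp [uu, mul4] <;> grind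

theorem rl_mul (h : Sp M) (p : PL M) (s z y : F) : M * uu s 0 z y =
    uu (M 1 0 ^ 2 * y + M 1 1 ^ 2 * s) 0
      (M 0 0 * M 1 0 * y + M 0 1 * M 1 1 * s + (M 0 0 * M 1 1 + M 0 1 * M 1 0) * z)
      (M 0 0 ^ 2 * y + M 0 1 ^ 2 * s) * M := by
  obtain ⟨a, b, c, d⟩ := p
  obtain ⟨c1, c2, c3, c4, c5, c6⟩ := h.col
  obtain ⟨r1, r2, r3, r4, r5, r6⟩ := h.row
  ext i j; fin_cases i <;> fin_cases j <;> simp [uu, mul4] <;> grind

theorem pp_star (h : Sp M) : PP (star4 M) ↔ PL M := by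
  obtain ⟨c1, c2, c3, c4, c5, c6⟩ := h.col
  obtain ⟨r1, r2, r3, r4, r5, r6⟩ := h.row
  simp only [PP, PL, star4, pairOf, of_apply, cons_val_zero, cons_val_one, cons_val]
  constructor
  · rintro ⟨a, b, c⟩
    refine ⟨?_, ?_, ?_, ?_⟩ <;> grind
  · rintro ⟨a, b, c, d⟩
    simp [*]

theorem pl_star (h : Sp M) : PL (star4 M) ↔ PP M := by
  rw [← pp_star h.star, h.star_star]
  simp [PP, frobenius_def]

theorem pp_of_rp (h : Sp M) {t z y t' z' y' : F} (hy : y' ≠ 0)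
    (e : M * uu 0 t z y = uu 0 t' z' y' * M) : PP M := by
  have k := fun i j => congrFun₂ e i j
  have k00 := k 0 0; have k10 := k 1 0; have k20 := k 2 0
  have k01 := k 0 1; have k11 := k 1 1; have k21 := k 2 1; have k31 := k 3 1
  have k02 := k 0 2; have k12 := k 1 2; have k22 := k 2 2; have k32 := k 3 2
  simp [uu, mul4] at k00 k10 k20 k01 k11 k21 k31 k02 k12 k22 k32
  obtain ⟨c1, c2, c3, c4, c5, c6⟩ := h.col
  obtain ⟨r1, r2, r3, r4, r5, r6⟩ := h.row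
  have a : M 3 0 = 0 := by grind
  have b : M 3 1 = 0 := by grind
  have c : M 3 2 = 0 := by grind
  refine ⟨?_, ?_, a⟩ <;> grind

omit [CharP F 2] in
theorem pl_of_rl {s z y s' z' y' : F} (hy : s' * y' - z' ^ 2 ≠ 0)
    (e : M * uu s 0 z y = uu s' 0 z' y' * M) : PL M := by
  have k := fun i j => congrFun₂ e i j
  have k00 := k 0 0; have k10 := k 1 0
  have k01 := k 0 1; have k11 := k 1 1
  simp [uu, mul4] at k00 k10 k01 k11
  refine ⟨?_, ?_, ?_, ?_⟩ <;> grind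

end CF.MaxSub.E4
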