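/-
Faithful representations of a finite group in `Sp₄` (characteristic two): conjugation, the
exceptional isogeny, normal forms.
-/
import Cfsg.Agent.MaxSub.E4A
import Cfsg.Agent.BG.B4

set_option autoImplicit false

namespace CF.MaxSub.E4

open Matrix Cfsg.Lie CF.BN.Suz CF.BG

variable {F : Type*} [Field F] {M N B C : M4 F}

/-- The first basis vector. -/
def e0 : Fin 4 → F := ![1, 0, 0, 0]

/-- The second basis vector. -/
def e1 : Fin 4 → F := ![0, 1, 0, 0]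

/-- The last basis vector. -/
def e3 : Fin 4 → F := ![0, 0, 0, 1]

theorem mv_e0 (M : M4 F) (i : Fin 4) : (M *ᵥ e0) i = M i 0 := by simp [mulVec4, e0]

theorem mv_e1 (M : M4 F) (i : Fin 4) : (M *ᵥ e1) i = M i 1 := by simp [mulVec4, e1]

theorem mv_e3 (M : M4 F) (i : Fin 4) : (M *ᵥ e3) i = M i 3 := by simp [mulVec4, e3]

theorem e0_ne : (e0 : Fin 4 → F) ≠ 0 := fun h => by simpa [e0] using congrFun h 0

theorem spi_mul (M N : M4 F) : spi (M * N) = spi N * spi M := by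
  simp only [spi, transpose_mul, mul_assoc]
  rw [← mul_assoc (wM F) (wM F), wM_mul_wM, one_mul]

theorem Sp.eq_spi (h : Sp M) (e : N * M = 1) : N = E4.spi M :=
  h.cancel (e.trans h.spi_mul.symm)

theorem Sp.inj (h : Sp M) {u v : Fin 4 → F} (e : M *ᵥ u = M *ᵥ v) : u = v := by
  rw [← h.spi_mulVec u, e, h.spi_mulVec]

theorem pp_iff : PP M ↔ ∃ c : F, M *ᵥ e0 = c • e0 := by
  constructor
  · rintro ⟨a, b, c⟩
    exact ⟨M 0 0, funext fun i => (mv_e0 M i).trans (by fin_cases i <;> simp [e0, *])⟩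
  · rintro ⟨c, h⟩
    have k := fun i => (mv_e0 M i).symm.trans (congrFun h i)
    exact ⟨by simpa [e0] using k 1, by simpa [e0] using k 2, by simpa [e0] using k 3⟩

theorem PL.mv (h : PL M) {v : Fin 4 → F} (h2 : v 2 = 0) (h3 : v 3 = 0) :
    (M *ᵥ v) 2 = 0 ∧ (M *ᵥ v) 3 = 0 := by
  obtain ⟨a, b, c, d⟩ := h
  simp [mulVec4, *]

theorem pl_of_two {u v : Fin 4 → F} (u2 : u 2 = 0) (u3 : u 3 = 0) (v2 : v 2 = 0) (v3 : v 3 = 0)
    (hd : u 0 * v 1 - u 1 * v 0 ≠ 0) (a : (M *ᵥ u) 2 = 0 ∧ (M *ᵥ u) 3 = 0)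
    (b : (M *ᵥ v) 2 = 0 ∧ (M *ᵥ v) 3 = 0) : PL M := by
  simp only [mulVec4, u2, u3, v2, v3] at a b
  refine ⟨?_, ?_, ?_, ?_⟩ <;> grind

/-- Levi factor of the point stabiliser. -/
def lev (a b c d : F) : M4 F := !![1, 0, 0, 0; 0, a, c, 0; 0, b, d, 0; 0, 0, 0, 1]

/-- Levi factor of the line stabiliser. -/
def levL (a b c d : F) : M4 F := !![a, c, 0, 0; b, d, 0, 0; 0, 0, a, c; 0, 0, b, d]

theorem exists_det {a b : F} (h : a ≠ 0 ∨ b ≠ 0) : ∃ c d : F, a * d + b * c = 1 := by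
  rcases h with h | h
  exacts [⟨0, a⁻¹, by simp [h]⟩, ⟨b⁻¹, 0, by simp [h]⟩]

variable [CharP F 2]

theorem sp_lev {a b c d : F} (h : a * d + b * c = 1) : Sp (lev a b c d) := by
  ext i j; fin_cases i <;> fin_cases j <;> simp [lev, mul4, wM] <;> grind

theorem sp_levL {a b c d : F} (h : a * d + b * c = 1) : Sp (levL a b c d) := by
  ext i j; fin_cases i <;> fin_cases j <;> simp [levL, mul4, wM] <;> grind

theorem exists_tv {u v : Fin 4 → F} (h : altForm4 u v ≠ 0) : ∃ B, Sp B ∧ B *ᵥ u = v := by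
  refine ⟨_, (tv_tvM (u + v) (altForm4 u v)⁻¹).sp, ?_⟩
  rw [tv_tvM, bf_add_right, bf_self, zero_add, inv_mul_cancel₀ h, one_smul, ← add_assoc,
    ← two_smul F u, CharTwo.two_eq_zero, zero_smul, zero_add]

theorem exB0 {v : Fin 4 → F} (h : v ≠ 0) : ∃ B, Sp B ∧ B *ᵥ e0 = v := by
  by_cases h3 : v 3 = 0
  · obtain ⟨x, hx⟩ := exists_bf h
    obtain ⟨y, h1, h2⟩ : ∃ y, altForm4 e0 y ≠ 0 ∧ altForm4 y v ≠ 0 := by
      by_cases k : x 3 = 0
      · by_cases k0 : v 0 = 0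
        · exact ⟨x + e3, by simp [altForm4, e0, e3, k], by simpa [bf_add_left, altForm4, e3, k0, k, h3]
            using hx⟩
        · exact ⟨e3, by simp [altForm4, e0, e3], by simpa [altForm4, e3]⟩
      · exact ⟨x, by simpa [altForm4, e0], hx⟩
    obtain ⟨B, hB, e⟩ := exists_tv h1
    obtain ⟨C, hC, e'⟩ := exists_tv h2
    exact ⟨C * B, hC.mul hB, by rw [← mulVec_mulVec, e, e']⟩
  · exact exists_tv (by simpa [altForm4, e0])

theorem exB01 {u v : Fin 4 → F} (hu : u ≠ 0) (hv : ∀ c : F, v ≠ c • u) (h : altForm4 u v = 0) :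
    ∃ B, Sp B ∧ B *ᵥ e0 = u ∧ B *ᵥ e1 = v := by
  obtain ⟨B, hB, rfl⟩ := exB0 hu
  obtain ⟨w, rfl⟩ : ∃ w, v = B *ᵥ w := ⟨_, (hB.mulVec_spi v).symm⟩
  rw [hB.bf] at h
  have h3 : w 3 = 0 := by simpa [altForm4, e0] using h
  obtain ⟨c, d, k⟩ := exists_det (a := w 1) (b := w 2) (by
    by_contra k
    push Not at k
    refine hv (w 0) ?_
    rw [← mulVec_smul]
    exact congrArg _ (ext4 (by simp [e0]) (by simp [e0, k]) (by simp [e0, k]) (by simp [e0, h3])))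
  refine ⟨B * (uu 0 (w 0 * d) (w 0 * c) 0 * lev (w 1) (w 2) c d),
    hB.mul ((sp_uu ..).mul (sp_lev k)), ?_, ?_⟩ <;> rw [← mulVec_mulVec] <;> congr 1 <;>
    apply ext4 <;> simp [mv_e0, mv_e1, mul4, uu, lev, e0, h3]
  grind

theorem exB03 {u v : Fin 4 → F} (h : altForm4 u v = 1) :
    ∃ B, Sp B ∧ B *ᵥ e0 = u ∧ B *ᵥ e3 = v := by
  obtain ⟨B, hB, rfl⟩ := exB0 (v := u) (fun e => by simp [e, bf_zero_left] at h)
  obtain ⟨w, rfl⟩ : ∃ w, v = B *ᵥ w := ⟨_, (hB.mulVec_spi v).symm⟩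
  rw [hB.bf] at h
  have h3 : w 3 = 1 := by simpa [altForm4, e0] using h
  refine ⟨B * uu 0 (w 2) (w 1) (w 0), hB.mul (sp_uu ..), ?_, ?_⟩ <;> rw [← mulVec_mulVec] <;>
    congr 1 <;> apply ext4 <;> simp [mv_e0, mv_e3, uu, e0, h3]

theorem star_one : star4 (1 : M4 F) = 1 := by
  rw [← uu_zero, star_uu]; apply uu_eq <;> simp

theorem Sp.star_spi (h : Sp M) : star4 (E4.spi M) = E4.spi (star4 M) :=
  h.star.eq_spi (by rw [← star4_mul h.spi h, h.spi_mul, star_one])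

theorem Sp.star_inj (h : Sp M) (k : Sp N) (e : star4 M = star4 N) : M = N :=
  Matrix.map_injective (frobenius_inj F 2) (by simp only [← h.star_star, ← k.star_star, e])

theorem exists_sq [Finite F] (a : F) : ∃ b, b ^ 2 = a := surjective_frobenius F 2 a

theorem Sp.exists_star [Finite F] (h : Sp B) : ∃ C, Sp C ∧ star4 C = B := by
  let φ := (frobeniusEquiv F 2).symm
  have k := h.map (φ : F →+* F)
  refine ⟨_, k.star, ?_⟩
  rw [k.star_star]
  ext i j
  exact (frobeniusEquiv F 2).apply_symm_apply _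

/-- A faithful representation in `Sp₄`. -/
structure Rep (G F : Type*) [Group G] [Field F] where
  /-- the homomorphism -/
  ρ : G →* M4 F
  sp : ∀ g, Sp (ρ g)
  inj : Function.Injective ρ

namespace Rep

variable {G : Type*} [Group G] (R : Rep G F) {g h x : G}

omit [CharP F 2]

theorem ρ_inv (g : G) : R.ρ g⁻¹ = spi (R.ρ g) :=
  (R.sp g).eq_spi (by rw [← map_mul, inv_mul_cancel, map_one])

theorem mv_mul (g h : G) (v : Fin 4 → F) : R.ρ (g * h) *ᵥ v = R.ρ g *ᵥ R.ρ h *ᵥ v := by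
  rw [map_mul, mulVec_mulVec]

theorem mv_inv (g : G) (v : Fin 4 → F) : R.ρ g⁻¹ *ᵥ R.ρ g *ᵥ v = v := by
  rw [← mv_mul, inv_mul_cancel, map_one, one_mulVec]

theorem mv_inv' (g : G) (v : Fin 4 → F) : R.ρ g *ᵥ R.ρ g⁻¹ *ᵥ v = v := by
  rw [← mv_mul, mul_inv_cancel, map_one, one_mulVec]

theorem tv_conj {v : Fin 4 → F} {a : F} (h : Tv (R.ρ x) v a) (g : G) :
    Tv (R.ρ (g * x * g⁻¹)) (R.ρ g *ᵥ v) a := by
  rw [map_mul, map_mul, ρ_inv]; exact h.cj (R.sp g)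

theorem conj_eq (e : R.ρ g * R.ρ x = R.ρ h * R.ρ g) : g * x * g⁻¹ = h := by
  rw [← map_mul, ← map_mul] at e
  rw [R.inj e, mul_inv_cancel_right]

theorem ρ_conj (e : R.ρ g * R.ρ x = M * R.ρ g) : R.ρ (g * x * g⁻¹) = M :=
  (R.sp g).cancel (by rw [← e, ← map_mul, ← map_mul, inv_mul_cancel_right])

theorem eq_of_conj (e : g * x * g⁻¹ = h) : R.ρ g * R.ρ x = R.ρ h * R.ρ g := by
  rw [← map_mul, ← map_mul, ← e, inv_mul_cancel_right]

/-- Change of basis. -/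
def cj (hB : Sp B) : Rep G F where
  ρ :=
    { toFun g := spi B * R.ρ g * B
      map_one' := by rw [map_one, mul_one, hB.spi_mul]
      map_mul' g h := by
        rw [map_mul, mul_assoc (spi B * R.ρ g), ← mul_assoc B, ← mul_assoc B, hB.mul_spi, one_mul]
        simp only [mul_assoc] }
  sp g := (hB.spi.mul (R.sp g)).mul hB
  inj g h e := by
    have := congrArg (B * ·) (hB.cancel e)
    simp only [← mul_assoc, hB.mul_spi, one_mul] at this
    exact R.inj this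

theorem cj_ρ (hB : Sp B) (g : G) : (R.cj hB).ρ g = spi B * R.ρ g * B := rfl

theorem cj_mul (hB : Sp B) (g : G) : B * (R.cj hB).ρ g = R.ρ g * B := by
  rw [cj_ρ, ← mul_assoc, ← mul_assoc, hB.mul_spi, one_mul]

theorem cj_mv (hB : Sp B) (g : G) (v : Fin 4 → F) :
    B *ᵥ (R.cj hB).ρ g *ᵥ v = R.ρ g *ᵥ B *ᵥ v := by
  rw [mulVec_mulVec, cj_mul, mulVec_mulVec]

theorem ext' {R R' : Rep G F} (h : ∀ g, R.ρ g = R'.ρ g) : R = R' := by
  obtain ⟨a, _, _⟩ := R
  obtain ⟨b, _, _⟩ := R'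
  obtain rfl : a = b := MonoidHom.ext h
  rfl

theorem cj_cj (hB : Sp B) (hC : Sp C) : (R.cj hB).cj hC = R.cj (hB.mul hC) :=
  ext' fun g => by simp only [cj_ρ, spi_mul, mul_assoc]

theorem cj_tv (hB : Sp B) {v : Fin 4 → F} {a : F} :
    Tv ((R.cj hB).ρ g) v a ↔ Tv (R.ρ g) (B *ᵥ v) a := by
  constructor
  · intro h
    have := h.cj hB
    rwa [cj_mul, mul_assoc, hB.mul_spi, mul_one] at this
  · intro h x
    apply hB.inj
    rw [cj_mv, h, hB.bf, mulVec_add, mulVec_smul]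

theorem cj_trace (hB : Sp B) (g : G) : ((R.cj hB).ρ g).trace = (R.ρ g).trace := by
  rw [cj_ρ, trace_mul_comm, ← mul_assoc, hB.mul_spi, one_mul]

theorem cj_e2 (hB : Sp B) (g : G) : e2 ((R.cj hB).ρ g) = e2 (R.ρ g) := by
  rw [cj_ρ, e2_comm, ← mul_assoc, hB.mul_spi, one_mul]

/-- Irreducibility. -/
def Irr : Prop :=
  ∀ W : Submodule F (Fin 4 → F), (∀ g, ∀ v ∈ W, R.ρ g *ᵥ v ∈ W) → W = ⊥ ∨ W = ⊤

/-- Quadratic forms polarising to the symplectic form. -/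
structure _root_.CF.MaxSub.E4.IsQ (Q : (Fin 4 → F) → F) : Prop where
  add : ∀ u v, Q (u + v) = Q u + Q v + altForm4 u v
  smul : ∀ (c : F) v, Q (c • v) = c ^ 2 * Q v

/-- No invariant quadratic form. -/
def NQ : Prop := ∀ Q, IsQ Q → ¬ ∀ g v, Q (R.ρ g *ᵥ v) = Q v

/-- No transvection. -/
def NT : Prop := ∀ g v, Tv (R.ρ g) v 1 → v = 0

/-- The image is all of `Sp₄`. -/
def Full : Prop := ∀ M, Sp M → ∃ g, R.ρ g = M

/-- The image is everything, or the characteristic polynomials lie in a proper subfield. -/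
def Sub : Prop := R.Full ∨ ∃ σ : F →+* F, (∃ x, σ x ≠ x) ∧
  ∀ g, σ (R.ρ g).trace = (R.ρ g).trace ∧ σ (e2 (R.ρ g)) = e2 (R.ρ g)

variable {R}

theorem Irr.cj (h : R.Irr) (hB : Sp B) : (R.cj hB).Irr := fun W hW => by
  rcases h (W.map (toLin' B)) (by
    rintro g _ ⟨v, hv, rfl⟩
    exact ⟨_, hW g v hv, R.cj_mv hB g v⟩) with k | k
  · refine Or.inl (W.eq_bot_iff.2 fun v hv => by_contra fun h0 => hB.ne_zero h0 ?_)
    exact (Submodule.eq_bot_iff _).1 k _ ⟨v, hv, rfl⟩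
  · refine Or.inr (W.eq_top_iff'.2 fun v => ?_)
    obtain ⟨w, hw, e⟩ : B *ᵥ v ∈ W.map (toLin' B) := k ▸ trivial
    exact hB.inj e ▸ hw

theorem NQ.cj (h : R.NQ) (hB : Sp B) : (R.cj hB).NQ := fun Q hQ k =>
  h (fun v => Q (spi B *ᵥ v)) ⟨fun u v => by rw [mulVec_add, hQ.add, hB.spi.bf],
    fun c v => by rw [mulVec_smul, hQ.smul]⟩ fun g v => by
      rw [← k g (spi B *ᵥ v), cj_ρ, ← mulVec_mulVec, hB.mulVec_spi, mulVec_mulVec]

theorem NT.cj (h : R.NT) (hB : Sp B) : (R.cj hB).NT := fun g _ k =>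
  by_contra fun h0 => hB.ne_zero h0 (h g _ ((R.cj_tv hB).1 k))

theorem Sub.of_cj {hB : Sp B} (h : (R.cj hB).Sub) : R.Sub := by
  rcases h with h | h
  · refine Or.inl fun M hM => ?_
    obtain ⟨g, e⟩ := h _ ((hB.spi.mul hM).mul hB)
    refine ⟨g, hB.cancel ?_⟩
    rw [← R.cj_mul hB, e, ← mul_assoc, ← mul_assoc, hB.mul_spi, one_mul]
  · exact Or.inr (by simpa only [cj_trace, cj_e2] using h)

variable (R) [CharP F 2]

/-- Composition with the exceptional isogeny. -/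
def st : Rep G F where
  ρ :=
    { toFun g := star4 (R.ρ g)
      map_one' := by rw [map_one, star_one]
      map_mul' g h := by rw [map_mul, star4_mul (R.sp g) (R.sp h)] }
  sp g := (R.sp g).star
  inj g h e := R.inj ((R.sp g).star_inj (R.sp h) e)

theorem st_ρ (g : G) : R.st.ρ g = star4 (R.ρ g) := rfl

theorem cj_st (hB : Sp B) : (R.cj hB).st = R.st.cj hB.star :=
  ext' fun g => by
    rw [st_ρ, cj_ρ, cj_ρ, star4_mul (hB.spi.mul (R.sp g)) hB, star4_mul hB.spi (R.sp g),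
      hB.star_spi, st_ρ]

variable {R} [Finite F]

theorem NT.st_st (h : R.NT) : R.st.st.NT := fun g v k => by
  have hs := surjective_frobenius F 2
  obtain ⟨w, rfl⟩ : ∃ w : Fin 4 → F, v = frobenius F 2 ∘ w := ⟨fun i => (hs (v i)).choose,
    funext fun i => (hs (v i)).choose_spec.symm⟩
  have : w = 0 := h g w fun x => funext fun i => frobenius_inj F 2 (by
    have := congrFun (k (frobenius F 2 ∘ x)) i
    rw [st_ρ, st_ρ, (R.sp g).star_star, ← RingHom.map_mulVec] at this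
    rw [this]
    simp [altForm4])
  ext i; simp [this]

theorem NQ.st_st (h : R.NQ) : R.st.st.NQ := fun Q hQ k => by
  let φ := (frobeniusEquiv F 2).symm
  have e (x : F) : φ (frobenius F 2 x) = x := (frobeniusEquiv F 2).symm_apply_apply x
  refine h (fun v => φ (Q (frobenius F 2 ∘ v))) ⟨fun u v => ?_, fun c v => ?_⟩ fun g v => ?_
  · rw [show frobenius F 2 ∘ (u + v) = frobenius F 2 ∘ u + frobenius F 2 ∘ v by ext; simp, hQ.add,
      map_add, map_add, ← e (altForm4 u v)]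
    simp [altForm4]
  · rw [show frobenius F 2 ∘ (c • v) = frobenius F 2 c • frobenius F 2 ∘ v by ext; simp, hQ.smul,
      map_mul, map_pow, e]
  · rw [← k g (frobenius F 2 ∘ v), st_ρ, st_ρ, (R.sp g).star_star]
    congr 2; ext i; exact RingHom.map_mulVec _ _ _ i

theorem Sub.of_st (h : R.st.Sub) : R.Sub := by
  rcases h with h | ⟨σ, h, k⟩
  · refine Or.inl fun M hM => ?_
    obtain ⟨g, e⟩ := h _ hM.star
    exact ⟨g, (R.sp g).star_inj hM e⟩
  · refine Or.inr ⟨σ, h, fun g => ⟨frobenius_inj F 2 ?_, ?_⟩⟩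
    · have := (k g).2
      rw [← (R.st.sp g).trace_star, st_ρ, (R.sp g).star_star, ← AddMonoidHom.map_trace] at this
      rw [← this, frobenius_def, frobenius_def, map_pow]
    · have := (k g).1
      rwa [st_ρ, (R.sp g).trace_star] at this

end Rep

end CF.MaxSub.E4
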