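/-
Subgroups of `Sp₄` in characteristic two: Sylow subgroups, averaging, transfer, subgroups of `SL₂`.
-/
import Cfsg.Agent.MaxSub.E4B
import Cfsg.Agent.MH.L2
import Cfsg.Agent.Transfer.Tate

set_option autoImplicit false

namespace CF.MaxSub.E4

open Matrix Cfsg.Lie CF.BN.Suz CF.BG CF.Classical
open scoped MatrixGroups

/-- A multiplicatively closed subset of a finite group is a subgroup. -/
def subOf {H : Type*} [Group H] [Finite H] (P : H → Prop) (h1 : P 1)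
    (hm : ∀ a b, P a → P b → P (a * b)) : Subgroup H where
  carrier := {g | P g}
  one_mem' := h1
  mul_mem' := hm _ _
  inv_mem' {g} h := by
    have : ∀ n : ℕ, P (g ^ n) := fun n => by
      induction n with
      | zero => rwa [pow_zero]
      | succ n ih => rw [pow_succ]; exact hm _ _ ih h
    rw [← eq_inv_of_mul_eq_one_left (a := g ^ (orderOf g - 1))
      (by rw [← pow_succ, Nat.sub_add_cancel (orderOf_pos g), pow_orderOf_eq_one])]
    exact this _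

variable {F : Type*} [Field F] {G : Type*} [Group G] {M N B : M4 F}

theorem hom_triv [IsSimpleGroup G] (nc : ¬ IsMulCommutative G) {A : Type*} [CommGroup A]
    (f : G →* A) (g : G) : f g = 1 := by
  rcases IsSimpleGroup.eq_bot_or_eq_top_of_normal f.ker inferInstance with h | h
  · exact absurd ⟨⟨fun a b => (f.ker_eq_bot_iff.1 h) (by rw [map_mul, map_mul, mul_comm])⟩⟩ nc
  · exact (h ▸ Subgroup.mem_top g : g ∈ f.ker)

variable [Finite G]

theorem common {S C X Y : Subgroup G} (hS : Syl 2 S ⊤) (hX : X ≤ C) (hY : Y ≤ C)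
    (pX : PiGrp {2} X) (pY : PiGrp {2} Y) : ∃ c ∈ C, ∃ h, cj h X ≤ S ∧ cj (h * c) Y ≤ S := by
  obtain ⟨P, hP, k⟩ := exists_syl_le hX pX
  obtain ⟨c, hc, k'⟩ := hP.syl_cj_le hY pY
  obtain ⟨h, -, l⟩ := hS.syl_cj_le le_top hP.pi
  exact ⟨c, hc, h, (cj_mono h k).trans l, cj_cj h c Y ▸ (cj_mono h k').trans l⟩

theorem Hall.odd {S K L : Subgroup G} (hS : Syl 2 S ⊤) (h : S ⊓ L ≤ K) (hL : S ≤ L) :
    Odd (K.relIndex L) := by
  have := (hS.of_le hL le_top).idx_of_le (K := K ⊓ L) (le_inf ((le_inf le_rfl hL).trans h) hL)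
  rw [Subgroup.inf_relIndex_right, piNat_compl_single Nat.prime_two] at this
  exact Nat.odd_iff.2 (Nat.two_dvd_ne_zero.1 this)

variable [CharP F 2]

theorem no_hom [IsSimpleGroup G] (nc : ¬ IsMulCommutative G) {K : Subgroup G} (hK : Odd K.index)
    {t : G} (ht : t * t = 1) (htK : t ∈ K)
    (hc : ∀ g, g⁻¹ * t * g ∈ K → ∃ k ∈ K, k * t * k⁻¹ = g⁻¹ * t * g) (φ : G → F)
    (hφ : ∀ a ∈ K, ∀ b ∈ K, φ (a * b) = φ a + φ b) : φ t = 0 := by
  let f : K →* Multiplicative F := MonoidHom.mk' (fun k => Multiplicative.ofAdd (φ k))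
    fun a b => congrArg Multiplicative.ofAdd (hφ a a.2 b b.2)
  have a2 : f ⟨t, htK⟩ ^ 2 = 1 := by
    rw [← map_pow, ← map_one f]; congr 1; exact Subtype.ext ((sq t).trans ht)
  have := CF.Transfer.transfer_eq_pow_of_forall f t (f ⟨t, htK⟩) fun k g hg => by
    obtain ⟨m, rfl | rfl⟩ := Nat.even_or_odd' k
    · rw [pow_mul (f _), a2, one_pow, ← map_one f]
      congr 1; ext; simp [pow_mul, sq, ht]
    · have e : t ^ (2 * m + 1) = t := by rw [pow_succ, pow_mul, sq, ht, one_pow, one_mul]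
      obtain ⟨k, hk, e'⟩ := hc g (e ▸ hg)
      rw [pow_succ (f _), pow_mul (f _), a2, one_pow, one_mul,
        show (⟨_, hg⟩ : K) = ⟨k, hk⟩ * ⟨t, htK⟩ * ⟨k, hk⟩⁻¹ from Subtype.ext (by simp [e, e']),
        map_mul, map_mul, map_inv, mul_inv_cancel_comm]
  obtain ⟨m, hm⟩ := hK
  rw [hom_triv nc, hm, pow_succ, pow_mul, a2, one_pow, one_mul] at this
  exact this.symm

theorem exists_avg {n : ℕ} {K S : Subgroup G} (hS : Odd (S.relIndex K))
    (φ : G → Matrix (Fin n) (Fin n) F) (hφ : ∀ a ∈ K, ∀ b ∈ K, φ (a * b) = φ a * φ b)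
    (b : (Fin n → F) → (Fin n → F) → F) (hb : ∀ k ∈ K, ∀ u v, b (φ k *ᵥ u) (φ k *ᵥ v) = b u v)
    (Q : (Fin n → F) → F) (h1 : ∀ u v, Q (u + v) = Q u + Q v + b u v)
    (h2 : ∀ (c : F) v, Q (c • v) = c ^ 2 * Q v) (h3 : ∀ s ∈ S, s ∈ K → ∀ v, Q (φ s *ᵥ v) = Q v) :
    ∃ Q' : (Fin n → F) → F, (∀ u v, Q' (u + v) = Q' u + Q' v + b u v) ∧
      (∀ (c : F) v, Q' (c • v) = c ^ 2 * Q' v) ∧ ∀ k ∈ K, ∀ v, Q' (φ k *ᵥ v) = Q' v := by
  classical
  let X := K ⧸ S.subgroupOf K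
  have : Fintype X := Fintype.ofFinite _
  refine ⟨fun v => ∑ q : X, Q (φ (q.out⁻¹ : K) *ᵥ v), fun u v => ?_, fun c v => ?_,
    fun k hk v => ?_⟩
  · simp only [mulVec_add, h1, hb _ (SetLike.coe_mem _), Finset.sum_add_distrib, Finset.sum_const]
    obtain ⟨m, hm⟩ := hS
    rw [Finset.card_univ, ← Nat.card_eq_fintype_card, show Nat.card X = 2 * m + 1 from hm,
      add_smul, mul_smul, two_smul, CharTwo.add_self_eq_zero, zero_add, one_smul]
  · simp only [mulVec_smul, h2, Finset.mul_sum]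
  · refine (Fintype.sum_equiv (MulAction.toPerm (⟨k, hk⟩ : K)) _ _ fun q => ?_).symm
    obtain ⟨s, e⟩ := QuotientGroup.mk_out_eq_mul (S.subgroupOf K) (⟨k, hk⟩ * q.out)
    have e' : MulAction.toPerm (⟨k, hk⟩ : K) q = ((⟨k, hk⟩ * q.out : K) : X) :=
      (MulAction.Quotient.mk_smul_out _ _ q).symm
    rw [e', e, mulVec_mulVec, ← hφ _ (SetLike.coe_mem _) _ hk,
      ← h3 (s : K)⁻¹ (inv_mem s.2) (inv_mem s.1.2), mulVec_mulVec,
      ← hφ _ (inv_mem s.1.2) _ (SetLike.coe_mem _)]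
    congr 3
    simp [mul_assoc]

theorem exists_fix [Finite F] {n : ℕ} {P : Subgroup G} (hP : PiGrp {2} P)
    (φ : G → Matrix (Fin (n + 1)) (Fin (n + 1)) F) (h1 : φ 1 = 1)
    (hφ : ∀ a ∈ P, ∀ b ∈ P, φ (a * b) = φ a * φ b) : ∃ v, v ≠ 0 ∧ ∀ g ∈ P, φ g *ᵥ v = v := by
  letI : MulAction P (Fin (n + 1) → F) :=
    { smul g v := φ g *ᵥ v
      one_smul v := by change φ 1 *ᵥ v = v; rw [h1, one_mulVec]
      mul_smul a b v := by
        change φ (a * b) *ᵥ v = φ a *ᵥ φ b *ᵥ v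
        rw [hφ _ a.2 _ b.2, mulVec_mulVec] }
  have := Fintype.ofFinite F
  obtain ⟨m, -, hm⟩ := FiniteField.card F 2
  obtain ⟨v, hv, h0⟩ := hP.isPGroup.exists_fixed_point_of_prime_dvd_card_of_fixed_point
    (Fin (n + 1) → F) (a := 0)
    (by simp [hm, pow_succ, dvd_mul_of_dvd_right (dvd_pow_self 2 m.ne_zero)])
    fun g => mulVec_zero _
  exact ⟨v, h0.symm, fun g hg => hv ⟨g, hg⟩⟩

/-- Upper unitriangular matrices. -/
def up (a : F) : M2 F := !![1, a; 0, 1]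

/-- Lower unitriangular matrices. -/
def lo (a : F) : M2 F := !![1, 0; a, 1]

omit [CharP F 2] in
theorem up_mul (a b : F) : up a * up b = up (a + b) := by simp [up, add_comm]

omit [CharP F 2] in
theorem up_zero : up (0 : F) = 1 := by rw [one_fin_two]; rfl

theorem up_sq (a : F) : up a * up a = 1 := by rw [up_mul, CharTwo.add_self_eq_zero, up_zero]

theorem l2a [Finite F] (P : M2 F → Prop) (hm : ∀ M N, P M → P N → P (M * N))
    (hd : ∀ M, P M → M.det = 1) {a₀ b₀ : F} (ha : a₀ ≠ 0) (hb : b₀ ≠ 0) (pa : P (up a₀))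
    (pb : P (lo b₀)) : (∀ a, P (up a) → a = 0 ∨ a = a₀) ∨ ∃ K : Subfield F,
      (∃ x ∈ K, x ≠ 0 ∧ x ≠ 1) ∧ (∀ x, x ∈ K ↔ P (up (x * a₀))) ∧ ∀ x, x ∈ K ↔ P (lo (x / a₀)) := by
  have hd' (M) (h : P M) : M 0 0 * M 1 1 - M 0 1 * M 1 0 ≠ 0 := by
    rw [← det_fin_two, hd M h]; exact one_ne_zero
  let H : Subgroup PGL(2, F) := subOf (fun x => ∃ M, ∃ h : P M, x = pgl _ _ _ _ (hd' M h))
    ⟨_, up_sq a₀ ▸ hm _ _ pa pa, by simp [one_eq_pgl]⟩ (by
      rintro _ _ ⟨M, h, rfl⟩ ⟨N, k, rfl⟩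
      exact ⟨_, hm _ _ h k, by simp [pgl_mul, mul_apply]⟩)
  have mem (a b c d : F) (h) (e : a * d - b * c = 1) : pgl a b c d h ∈ H ↔ P !![a, b; c, d] := by
    refine ⟨fun ⟨M, k, e'⟩ => ?_, fun k => ⟨_, k, rfl⟩⟩
    obtain ⟨u, h1, h2, h3, h4⟩ := pgl_eq_pgl_iff.1 e'
    have := hd M k
    rw [det_fin_two] at this
    obtain rfl : u = 1 := by grind
    rw [one_mul] at h1 h2 h3 h4
    rwa [← h1, ← h2, ← h3, ← h4, ← eta_fin_two]
  obtain ⟨A, B, hA, hB⟩ := CF.MH.exists_roots H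
  have hA' (a) : a ∈ A ↔ P (up a) := (hA a).trans (mem _ _ _ _ _ (by simp))
  have hB' (a) : a ∈ B ↔ P (lo a) := (hB a).trans (mem _ _ _ _ _ (by simp))
  obtain ⟨-, h | h | ⟨K, h, k⟩⟩ := CF.MH.l2 H A B hA hB ((hA' _).2 pa) ((hB' _).2 pb) ha hb
  · exact Or.inl fun a p => CF.MH.eq_of_card_two h ((hA' _).2 pa) ha ((hA' _).2 p)
  · have := h.1
    grind
  · by_cases e : ∃ x ∈ K, x ≠ 0 ∧ x ≠ 1
    · exact Or.inr ⟨K, e, fun x => (h x).trans (hA' _), fun x => (k x).trans (hB' _)⟩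
    · refine Or.inl fun a p => ?_
      have := not_exists.1 e (a / a₀)
      rw [h, div_mul_cancel₀ _ ha, hA'] at this
      grind

theorem l2b [Finite F] (P : M2 F → Prop) (hm : ∀ M N, P M → P N → P (M * N))
    (hd : ∀ M, P M → M.det = 1) {a₀ : F} (ha : a₀ ≠ 0) (pa : P (up a₀)) {N : M2 F} (pN : P N)
    (h2 : N * N = 1) (h10 : N 1 0 ≠ 0) : (∀ a, P (up a) → a = 0 ∨ a = a₀) ∨ ∃ K : Subfield F,
      (∃ x ∈ K, x ≠ 0 ∧ x ≠ 1) ∧ (∀ x, x ∈ K ↔ P (up (x * a₀))) ∧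
      ∀ x ∈ K, x ≠ 0 → ∃ M, P M ∧ M 1 0 = 0 ∧ M 0 0 = x ∧ M 1 1 = x⁻¹ := by
  obtain ⟨d, hd0⟩ : ∃ d, d * N 1 0 = N 0 0 + 1 := ⟨_, div_mul_cancel₀ _ h10⟩
  have e (a : F) : up d * up a * up d = up a := by
    rw [up_mul, up_mul]; congr 1; grind
  have := l2a (fun M => P (up d * M * up d)) (fun M N h k => by
      have := hm _ _ h k
      rwa [mul_assoc, ← mul_assoc (up d), ← mul_assoc (up d), up_sq, one_mul, ← mul_assoc,
        mul_assoc (up d)] at this)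
    (fun M h => by
      simpa only [det_mul, up, det_fin_two_of, mul_zero, sub_zero, mul_one, one_mul] using hd _ h)
    ha h10 (by rwa [e]) (by
      convert pN
      have k := fun i j => congrFun₂ h2 i j
      have k00 := k 0 0; have k10 := k 1 0
      simp [mul_apply] at k00 k10
      ext i j; fin_cases i <;> fin_cases j <;> simp [up, lo] <;> grind)
  simp only [e] at this
  refine this.imp_right fun ⟨K, h, k, l⟩ => ⟨K, h, k, fun x hx x0 => ?_⟩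
  have n (x) (hx : x ∈ K) := hm _ _ (hm _ _ ((k x).1 hx) ((l _).1 (K.inv_mem hx))) ((k x).1 hx)
  refine ⟨_, hm _ _ (n x hx) (n 1 K.one_mem), ?_, ?_, ?_⟩ <;> simp [up, lo] <;> grind

theorem isU_lev (hM : Sp M) (hN : Sp N) (p : PP M) (h0 : M 0 0 = 1) {w : Fin 2 → F} {c d : F}
    (k : w 0 * d + w 1 * c = 1) (e : lev (w 0) (w 1) c d * N = M * lev (w 0) (w 1) c d)
    (hw : mid M *ᵥ w = w) : ∃ s t z y, N = uu s t z y := by
  have e := fun i j => congrFun₂ e i j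
  have e00 := e 0 0; have e10 := e 1 0; have e20 := e 2 0; have e30 := e 3 0
  have e11 := e 1 1; have e21 := e 2 1; have e31 := e 3 1
  have w1 := congrFun hw 0; have w2 := congrFun hw 1
  obtain ⟨a4, a5, -⟩ := p.sp hM
  obtain ⟨a1, a2, a3⟩ := p
  simp [mul4, lev, mid, mulVec, dotProduct] at e00 e10 e20 e30 e11 e21 e31 w1 w2
  refine ⟨_, _, _, _, isU_of hN ⟨?_, ?_, ?_⟩ ⟨?_, ?_, ?_, ?_⟩ ?_ ?_⟩ <;> grind

namespace Rep

variable (R : Rep G F) {g x : G}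

omit [CharP F 2] in
/-- The subgroup defined by a property of matrices. -/
def sub (P : M4 F → Prop) (h1 : P 1) (hm : ∀ M N, P M → P N → P (M * N)) : Subgroup G :=
  subOf (fun g => P (R.ρ g)) (by rwa [map_one]) fun a b h k => by rw [map_mul]; exact hm _ _ h k

/-- The unitriangular elements. -/
def U : Subgroup G := R.sub (fun M => ∃ s t z y, M = uu s t z y) ⟨_, _, _, _, uu_zero.symm⟩ (by
  rintro _ _ ⟨s, t, z, y, rfl⟩ ⟨s', t', z', y', rfl⟩; exact ⟨_, _, _, _, uu_mul ..⟩)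

/-- The radical of the line stabiliser. -/
def A : Subgroup G := R.sub (fun M => ∃ s z y, M = uu s 0 z y) ⟨_, _, _, uu_zero.symm⟩ (by
  rintro _ _ ⟨s, z, y, rfl⟩ ⟨s', z', y', rfl⟩; exact ⟨_, _, _, by rw [uu_mul, add_zero]⟩)

/-- The radical of the point stabiliser. -/
def E : Subgroup G := R.sub (fun M => ∃ t z y, M = uu 0 t z y) ⟨_, _, _, uu_zero.symm⟩ (by
  rintro _ _ ⟨s, z, y, rfl⟩ ⟨s', z', y', rfl⟩; exact ⟨_, _, _, by rw [uu_mul, add_zero]⟩)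

omit [CharP F 2] in
/-- The point stabiliser. -/
def NP : Subgroup G := R.sub PP (by simp [PP]) fun _ _ => PP.mul

omit [CharP F 2] in
/-- The line stabiliser. -/
def NL : Subgroup G := R.sub PL (by simp [PL]) fun _ _ => PL.mul

variable {R}

theorem mem_U : g ∈ R.U ↔ ∃ s t z y, R.ρ g = uu s t z y := Iff.rfl

theorem mem_A : g ∈ R.A ↔ ∃ s z y, R.ρ g = uu s 0 z y := Iff.rfl

theorem mem_E : g ∈ R.E ↔ ∃ t z y, R.ρ g = uu 0 t z y := Iff.rfl

omit [CharP F 2] in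
theorem mem_NP : g ∈ R.NP ↔ PP (R.ρ g) := Iff.rfl

omit [CharP F 2] in
theorem mem_NL : g ∈ R.NL ↔ PL (R.ρ g) := Iff.rfl

variable (R)

theorem U_le_NP : R.U ≤ R.NP := fun _ ⟨_, _, _, _, h⟩ => mem_NP.2 (h ▸ pp_uu ..)

theorem U_le_NL : R.U ≤ R.NL := fun _ ⟨_, _, _, _, h⟩ => mem_NL.2 (h ▸ pl_uu ..)

theorem A_le_U : R.A ≤ R.U := fun _ ⟨_, _, _, h⟩ => ⟨_, _, _, _, h⟩

theorem E_le_U : R.E ≤ R.U := fun _ ⟨_, _, _, h⟩ => ⟨_, _, _, _, h⟩

theorem pow_four (h : g ∈ R.U) : g ^ 4 = 1 := by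
  obtain ⟨s, t, z, y, h⟩ := h
  exact R.inj (by rw [map_pow, h, uu_pow, map_one])

theorem pi_U : PiGrp {2} R.U := piGrp_of_forall_elt fun _ h =>
  (piNat_pow_self Nat.prime_two 2).dvd (orderOf_dvd_of_pow_eq_one (R.pow_four h))

theorem exists_cj_le [Finite F] {P : Subgroup G} (hP : PiGrp {2} P) :
    ∃ B, ∃ hB : Sp B, P ≤ (R.cj hB).U := by
  obtain ⟨v, h0, hv⟩ := exists_fix hP R.ρ (map_one _) fun a _ b _ => map_mul _ a b
  obtain ⟨B, hB, rfl⟩ := exB0 h0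
  have h1 (g) (hg : g ∈ P) : (R.cj hB).ρ g *ᵥ e0 = e0 := hB.inj (by rw [cj_mv, hv g hg])
  have p1 (g) (hg : g ∈ P) : PP ((R.cj hB).ρ g) := pp_iff.2 ⟨1, by rw [h1 g hg, one_smul]⟩
  obtain ⟨w, w0, hw⟩ := exists_fix hP (fun g => mid ((R.cj hB).ρ g)) (by rw [map_one, mid_one])
    fun a ha b hb => by rw [map_mul, mid_mul (p1 a ha) (p1 b hb) (Rep.sp _ b)]
  obtain ⟨c, d, k⟩ := exists_det (a := w 0) (b := w 1) (by
    by_contra k
    push Not at k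
    exact w0 (funext fun i => by fin_cases i <;> simp [k]))
  refine ⟨_, hB.mul (sp_lev k), fun g hg => ?_⟩
  rw [← cj_cj _ hB (sp_lev k)]
  exact isU_lev (Rep.sp _ g) (Rep.sp _ g) (p1 g hg)
    ((mv_e0 _ 0).symm.trans (congrFun (h1 g hg) 0)) k ((R.cj hB).cj_mul (sp_lev k) g) (hw g hg)

theorem exists_syl [Finite F] : ∃ B, ∃ hB : Sp B, Syl 2 (R.cj hB).U ⊤ := by
  obtain ⟨P, hP⟩ := BG.exists_syl 2 (⊤ : Subgroup G)
  obtain ⟨B, hB, h⟩ := R.exists_cj_le hP.pi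
  exact ⟨B, hB, hP.eq_of_le h le_top (pi_U _) ▸ hP⟩

end Rep

end CF.MaxSub.E4
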