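/-
Irreducible simple subgroups of `Sp₄` (characteristic two) with two transvections at a point.
-/
import Cfsg.Agent.MaxSub.E4C
import Cfsg.Agent.MaxSub.Root
import Cfsg.Agent.Geom.SpGen

set_option autoImplicit false

namespace CF.MaxSub.E4

open Matrix Cfsg.Lie CF.BN.Suz CF.BG CF.Geom

variable {F : Type*} [Field F] {G : Type*} [Group G] {M N B : M4 F} {u v w : Fin 4 → F}

/-- The symplectic form as a bilinear form. -/
def bfL (F : Type*) [Field F] : LinearMap.BilinForm F (Fin 4 → F) :=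
  LinearMap.mk₂ F altForm4 bf_add_left bf_smul_left (fun a b c => bf_add_right b c a)
    fun c a b => bf_smul_right c a b

theorem bfL_apply (u v : Fin 4 → F) : bfL F u v = altForm4 u v := rfl

theorem bfL_nondeg : (bfL F).Nondegenerate :=
  ⟨fun v h => by_contra fun h0 => (exists_bf h0).elim fun x hx => hx (bf_comm v x ▸ h x),
    fun v h => by_contra fun h0 => (exists_bf h0).elim fun x hx => hx (h x)⟩

/-- Embedding of `SL₂` on the first and last coordinates. -/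
def emb (M : M2 F) : M4 F := !![M 0 0, 0, 0, M 0 1; 0, 1, 0, 0; 0, 0, 1, 0; M 1 0, 0, 0, M 1 1]

theorem emb_mul (M N : M2 F) : emb M * emb N = emb (M * N) := by
  ext i j; fin_cases i <;> fin_cases j <;> simp [emb, mul_apply, Fin.sum_univ_four]

theorem tv_emb_up (a : F) : Tv (emb (up a)) e0 a := fun x => by
  apply ext4 <;> simp [emb, up, mulVec4, e0, altForm4]

theorem tv_emb_lo (a : F) : Tv (emb (lo a)) e3 a := fun x => by
  apply ext4 <;> simp [emb, lo, mulVec4, e3, altForm4, add_comm]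

theorem Tv.eq_one {a : F} (h : Tv M v a) (e : M = 1) : a = 0 ∨ v = 0 := by
  refine or_iff_not_imp_right.2 fun h0 => ?_
  obtain ⟨x, hx⟩ := exists_bf h0
  simpa [e, hx, h0] using h x

theorem e2_map {K : Type*} [Field K] (φ : F →+* K) (M : M4 F) : e2 (M.map φ) = φ (e2 M) := by
  simp [e2]

namespace Rep

variable (R : Rep G F) {g x : G}

/-- Vectors whose transvection lies in the group. -/
def Om (v : Fin 4 → F) : Prop := ∃ g, Tv (R.ρ g) v 1

variable {R}

theorem Om.mv (h : R.Om v) (g : G) : R.Om (R.ρ g *ᵥ v) := h.elim fun _ k => ⟨_, R.tv_conj k g⟩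

theorem Om.add (h : R.Om v) (k : R.Om w) : R.Om (w + altForm4 w v • v) := by
  obtain ⟨g, h⟩ := h
  have := k.mv g
  rwa [h, one_mul] at this

theorem om_cj (hB : Sp B) : (R.cj hB).Om v ↔ R.Om (B *ᵥ v) := exists_congr fun _ => R.cj_tv hB

theorem om_smul {c : F} : R.Om (c • v) ↔ ∃ g, Tv (R.ρ g) v (c ^ 2) :=
  exists_congr fun _ => by rw [Tv.smul, mul_one]

theorem Irr.orb (h : R.Irr) (hv : v ≠ 0) (hw : w ≠ 0) : ∃ g, altForm4 (R.ρ g *ᵥ v) w ≠ 0 := by
  by_contra k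
  push Not at k
  let W : Submodule F (Fin 4 → F) :=
    { carrier := {x | ∀ g, altForm4 (R.ρ g *ᵥ x) w = 0}
      add_mem' := fun a b g => by rw [mulVec_add, bf_add_left, a, b, add_zero]
      zero_mem' := fun g => by rw [mulVec_zero, bf_zero_left]
      smul_mem' := fun c x a g => by rw [mulVec_smul, bf_smul_left, a, mul_zero] }
  rcases h W (fun g x a g' => by rw [← mv_mul, a]) with e | e
  · exact hv ((Submodule.eq_bot_iff _).1 e v k)
  · obtain ⟨x, hx⟩ := exists_bf hw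
    have := (e ▸ trivial : x ∈ W) 1
    rw [map_one, one_mulVec] at this
    exact hx this

variable [Finite G]

theorem Irr.gen [IsSimpleGroup G] (h : R.Irr) (hv : R.Om v) (h0 : v ≠ 0)
    (Y : Submodule F (Fin 4 → F)) (hY : ∀ w, R.Om w → ∀ y ∈ Y, altForm4 y w • w ∈ Y) :
    Y = ⊥ ∨ Y = ⊤ := by
  let H : Subgroup G := R.sub (fun M => ∀ y ∈ Y, M *ᵥ y ∈ Y) (by simp)
    fun M N a b y hy => mulVec_mulVec y M N ▸ a _ (b y hy)
  obtain ⟨t, ht⟩ := hv
  rcases IsSimpleGroup.eq_bot_or_eq_top_of_normal (Subgroup.normalClosure {t}) inferInstance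
    with e | e
  · have : t = 1 := Subgroup.mem_bot.1 (e ▸ Subgroup.subset_normalClosure rfl)
    simpa [h0] using ht.eq_one (by rw [this, map_one])
  · have : Subgroup.normalClosure {t} ≤ H := (Subgroup.closure_le _).2 fun x hx y hy => by
      obtain ⟨_, rfl, k⟩ := Group.mem_conjugatesOfSet_iff.1 hx
      obtain ⟨g, rfl⟩ := isConj_iff.1 k
      rw [R.tv_conj ht g, one_mul]
      exact add_mem hy (hY _ ⟨_, R.tv_conj ht g⟩ y hy)
    exact h Y fun g => this (e ▸ Subgroup.mem_top g)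

variable [CharP F 2] [Finite F]

omit [Finite G] in
theorem plane {c : F} (hv : R.Om v) (hc : R.Om (c • v)) (c0 : c ≠ 0) (c1 : c ≠ 1) (hw : R.Om w)
    (h : altForm4 v w ≠ 0) : ∃ K : Subfield F, (∀ x, x ∈ K ↔ R.Om (x • v)) ∧ altForm4 v w ∈ K ∧
      ∃ g, R.ρ g *ᵥ v = w := by
  generalize hb : altForm4 v w = b at h
  obtain ⟨B, hB, rfl, e⟩ := exB03 (u := v) (v := b⁻¹ • w)
    (by rw [bf_smul_right, hb, inv_mul_cancel₀ h])
  obtain rfl : w = B *ᵥ (b • e3) := by rw [mulVec_smul, e, smul_inv_smul₀ h]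
  simp only [← mulVec_smul, ← om_cj hB, ← R.cj_mv hB] at *
  generalize R.cj hB = R at *
  have hu (a : F) : (∃ g, R.ρ g = emb (up a)) ↔ ∃ g, Tv (R.ρ g) e0 a :=
    exists_congr fun g => ⟨fun e => e ▸ tv_emb_up a, fun e => e.eq (tv_emb_up a)⟩
  obtain k | ⟨K, -, k, l⟩ := l2a (fun M => ∃ g, R.ρ g = emb M) (by
      rintro M N ⟨g, a⟩ ⟨h, b⟩
      exact ⟨g * h, by rw [map_mul, a, b, emb_mul]⟩) (by
      rintro M ⟨g, a⟩
      have := (a ▸ R.sp g).col.2.2.1
      simp [emb] at this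
      rw [det_fin_two]; grind) one_ne_zero (pow_ne_zero 2 h) ((hu 1).2 hv)
      ((om_smul.1 hw).imp fun g e => e.eq (tv_emb_lo _))
  · have := k _ ((hu _).2 (om_smul.1 hc))
    grind
  simp only [mul_one, div_one] at k l
  have sq (x : F) : x ∈ K ↔ x ^ 2 ∈ K := ⟨fun h => pow_mem h 2, fun h => by
    obtain ⟨y, hy, e⟩ := CF.MH.exists_sq CharTwo.two_eq_zero K h
    rwa [show x = y by grind]⟩
  have hb : b ∈ K := (sq b).2 ((l _).2 ((om_smul.1 hw).imp fun g e => e.eq (tv_emb_lo _)))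
  refine ⟨K, fun x => by rw [sq, k, hu, om_smul], hb, ?_⟩
  obtain ⟨g, a⟩ := (k _).1 (inv_mem hb)
  obtain ⟨g', a'⟩ := (l _).1 hb
  refine ⟨g * g', congrArg _ ?_⟩
  rw [map_mul, a, a', emb_mul]
  apply ext4 <;> simp [mv_e0, emb, up, lo, e3, h, CharTwo.add_self_eq_zero]

omit [Finite G] in
theorem Irr.field (h : R.Irr) {c : F} (h0 : v ≠ 0) (hv : R.Om v) (hc : R.Om (c • v)) (c0 : c ≠ 0)
    (c1 : c ≠ 1) : ∃ K : Subfield F, (∀ x ∈ K, ∀ w, R.Om w → R.Om (x • w)) ∧
      ∀ u w, R.Om u → R.Om w → altForm4 u w ∈ K := by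
  obtain ⟨g, hg⟩ := h.orb h0 h0
  obtain ⟨K, hK, -⟩ := plane hv hc c0 c1 (hv.mv g) (bf_comm v _ ▸ hg)
  have orb (w) (hw : R.Om w) (w0 : w ≠ 0) : ∃ g, R.ρ g *ᵥ v = w := by
    obtain ⟨g, hg⟩ := h.orb w0 h0
    obtain ⟨-, -, -, g', e⟩ := plane hv hc c0 c1 (hw.mv g) (bf_comm v _ ▸ hg)
    exact ⟨g⁻¹ * g', by rw [mv_mul, e, mv_inv]⟩
  refine ⟨K, fun x hx w hw => ?_, fun u w hu hw => ?_⟩
  · by_cases w0 : w = 0
    · rwa [w0, smul_zero, ← w0]
    obtain ⟨g, rfl⟩ := orb w hw w0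
    exact mulVec_smul (R.ρ g) x v ▸ ((hK x).1 hx).mv g
  · by_cases u0 : u = 0
    · rw [u0, bf_zero_left]; exact zero_mem K
    obtain ⟨g, rfl⟩ := orb u hu u0
    rw [← (R.sp g⁻¹).bf, mv_inv]
    by_cases e : altForm4 v (R.ρ g⁻¹ *ᵥ w) = 0
    · rw [e]; exact zero_mem K
    obtain ⟨K', hK', k, -⟩ := plane hv hc c0 c1 (hw.mv g⁻¹) e
    exact (hK _).2 ((hK' _).1 k)

omit [Finite G] [CharP F 2] [Finite F] in
theorem Irr.fixed (h : R.Irr) (h0 : v ≠ 0) (hv : R.Om v) (σ : F →+* F)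
    (k : ∀ u w, R.Om u → R.Om w → σ (altForm4 u w) = altForm4 u w) (g : G) :
    σ (R.ρ g).trace = (R.ρ g).trace ∧ σ (e2 (R.ρ g)) = e2 (R.ρ g) := by
  have ht : Submodule.span F {w | R.Om w} = ⊤ := (h _ fun g x hx => by
    induction hx using Submodule.span_induction with
    | mem x hx => exact Submodule.subset_span (hx.mv g)
    | zero => simp
    | add x y _ _ a b => rw [mulVec_add]; exact add_mem a b
    | smul c x _ a => rw [mulVec_smul]; exact Submodule.smul_mem _ c a).resolve_left fun e =>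
      h0 ((Submodule.eq_bot_iff _).1 e v (Submodule.subset_span hv))
  have := Submodule.exists_fun_fin_finrank_span_eq F {w | R.Om w}
  rw [ht, finrank_top, Module.finrank_fin_fun] at this
  obtain ⟨f, hf, -, li⟩ := this
  obtain ⟨P, hP⟩ : IsUnit (Matrix.of f)ᵀ := linearIndependent_cols_iff_isUnit.1 li
  have e (M : M4 F) (i j) : (P.valᵀ * wM F * (M * P.val)) i j = altForm4 (f i) (M *ᵥ f j) := by
    simp [hP, mul4, mulVec4, altForm4, wM]; ring
  have m (g : G) : (P.valᵀ * wM F * (R.ρ g * P.val)).map σ = P.valᵀ * wM F * (R.ρ g * P.val) := by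
    ext i j; rw [map_apply, e, k _ _ (hf i) ((hf j).mv g)]
  have m1 := m 1
  have m2 := m g
  rw [map_one, one_mul] at m1
  have u : IsUnit (P.valᵀ * wM F * P.val) :=
    (((isUnit_transpose _).2 P.isUnit).mul (IsUnit.of_mul_eq_one _ (wM_mul_wM F))).mul P.isUnit
  rw [show R.ρ g * P.val = P.val * (P⁻¹.val * (R.ρ g * P.val)) by simp, ← mul_assoc,
    Matrix.map_mul, m1, u.mul_right_inj] at m2
  have a : (P⁻¹.val * (R.ρ g * P.val)).trace = (R.ρ g).trace := by rw [trace_mul_comm]; simp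
  have b : e2 (P⁻¹.val * (R.ρ g * P.val)) = e2 (R.ρ g) := by rw [e2_comm]; simp
  rw [← a, ← b, ← e2_map, AddMonoidHom.map_trace, m2]
  exact ⟨rfl, rfl⟩

omit [Finite G] [Finite F] in
theorem full_of_om (h : ∀ v, R.Om v) (hs : ∀ a : F, ∃ b, b ^ 2 = a) : R.Full := fun M hM => by
  have hA : (bfL F).IsAlt := bf_self
  let H : Subgroup (SpG (bfL F)) :=
    { carrier := {x | ∃ g, ∀ v, x.1 v = R.ρ g *ᵥ v}
      one_mem' := ⟨1, fun v => by simp⟩
      mul_mem' := by
        rintro x y ⟨g, a⟩ ⟨g', b⟩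
        exact ⟨g * g', fun v => by rw [mv_mul, ← b, ← a]; rfl⟩
      inv_mem' := by
        rintro x ⟨g, a⟩
        refine ⟨g⁻¹, fun v => x.1.injective ?_⟩
        rw [a (_ *ᵥ _), mv_inv']
        exact x.1.apply_symm_apply v }
  have : ⊤ ≤ H := closure_spTrans bfL_nondeg hA ▸ (Subgroup.closure_le _).2 (by
    rintro _ ⟨v, c, rfl⟩
    obtain ⟨b, rfl⟩ := hs c
    obtain ⟨g, k⟩ := om_smul.1 (h (b • v))
    exact ⟨g, fun x => by rw [k, spTrans_apply, bfL_apply]⟩)
  obtain ⟨g, k⟩ := this (Subgroup.mem_top ⟨LinearEquiv.ofLinear (toLin' M) (toLin' (spi M))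
    (LinearMap.ext hM.mulVec_spi) (LinearMap.ext hM.spi_mulVec), mem_SpG.2 hM.bf⟩)
  exact ⟨g, ext_of_mulVec_single fun i => (k _).symm⟩

theorem Irr.all_om [IsSimpleGroup G] (h : R.Irr) (h4 : 4 ≤ Nat.card F) (h0 : v ≠ 0) (hv : R.Om v)
    (hs : ∀ (x : F) w, R.Om w → R.Om (x • w)) (w : Fin 4 → F) : R.Om w := by
  classical
  have := Fintype.ofFinite F
  have line {u w} (hu : R.Om u) (hw : R.Om w) (e : altForm4 u w ≠ 0) (c : F) : R.Om (u + c • w) := by
    obtain ⟨b, hb⟩ := exists_sq (c / altForm4 u w)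
    have := (hs b w hw).add hu
    rwa [bf_smul_right, smul_smul, mul_right_comm, ← sq, hb, div_mul_cancel₀ _ e] at this
  have step {a b : Fin 4 → F} (ex : ∃ u, R.Om u ∧ altForm4 u a ≠ 0 ∧ altForm4 u b ≠ 0) :
      Submodule.span F {u | R.Om u ∧ altForm4 u a ≠ 0 ∧ altForm4 u b ≠ 0} = ⊤ := by
    refine (h.gen hv h0 _ fun w hw y hy => ?_).resolve_left fun e => ?_
    · by_cases k : ∃ u, (R.Om u ∧ altForm4 u a ≠ 0 ∧ altForm4 u b ≠ 0) ∧ altForm4 u w ≠ 0
      · obtain ⟨u, hu, k⟩ := k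
        obtain ⟨c, -, hc⟩ := Finset.exists_mem_notMem_of_card_lt_card (s := {0,
          altForm4 u a / altForm4 w a, altForm4 u b / altForm4 w b}) (t := Finset.univ)
          (Finset.card_le_three.trans_lt (by rwa [Finset.card_univ, ← Nat.card_eq_fintype_card]))
        simp only [Finset.mem_insert, Finset.mem_singleton, not_or] at hc
        refine Submodule.smul_mem _ _ ((Submodule.smul_mem_iff _ hc.1).1 ?_)
        rw [← add_sub_cancel_left u (c • w)]
        refine sub_mem (Submodule.subset_span ⟨line hu.1 hw k c, ?_, ?_⟩) (Submodule.subset_span hu)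
          <;> rw [bf_add_left, bf_smul_left] <;> grind
      · have : altForm4 y w = 0 := Submodule.span_le (p := LinearMap.ker ((bfL F).flip w)).2
          (fun u hu => by_contra fun e => k ⟨u, hu, e⟩) hy
        rw [this, zero_smul]; exact zero_mem _
    · obtain ⟨u, hu⟩ := ex
      exact hu.2.1 (by rw [(Submodule.eq_bot_iff _).1 e u (Submodule.subset_span hu), bf_zero_left])
  have next {a b c : Fin 4 → F} (ex : ∃ u, R.Om u ∧ altForm4 u a ≠ 0 ∧ altForm4 u b ≠ 0)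
      (hc : c ≠ 0) : ∃ u, (R.Om u ∧ altForm4 u a ≠ 0 ∧ altForm4 u b ≠ 0) ∧ altForm4 u c ≠ 0 := by
    by_contra k
    obtain ⟨x, hx⟩ := exists_bf hc
    exact hx (Submodule.span_le (p := LinearMap.ker ((bfL F).flip c)).2
      (fun u hu => by_contra fun e => k ⟨u, hu, e⟩) (step ex ▸ Submodule.mem_top : x ∈ _))
  have o0 : R.Om 0 := zero_smul F v ▸ hs 0 v hv
  have add (a b) (ha : R.Om a) (hb : R.Om b) : R.Om (a + b) := by
    by_cases e : altForm4 a b = 0
    swap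
    · exact one_smul F b ▸ line ha hb e 1
    by_cases a0 : a = 0
    · rwa [a0, zero_add]
    by_cases b0 : b = 0
    · rwa [b0, add_zero]
    by_cases c0 : a + b = 0
    · rwa [c0]
    obtain ⟨g, hg⟩ := h.orb h0 a0
    obtain ⟨u, ⟨hu, u1, -⟩, u2⟩ := next ⟨_, hv.mv g, hg, hg⟩ b0
    obtain ⟨u, ⟨hu, u1, u2⟩, u3⟩ := next ⟨u, hu, u1, u2⟩ c0
    have k := line (line (line hu ha u1 1) hb (by rwa [bf_add_left, one_smul, e, add_zero]) 1) hu
      (by rwa [one_smul, one_smul, add_assoc, bf_add_left, bf_self, zero_add, bf_comm]) (-1)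
    convert k using 1
    module
  let W : Submodule F (Fin 4 → F) :=
    { carrier := {x | R.Om x}
      add_mem' := add _ _
      zero_mem' := o0
      smul_mem' := fun c x a => hs c x a }
  rcases h W fun g x a => a.mv g with e | e
  · exact absurd ((Submodule.eq_bot_iff _).1 e v hv) h0
  · exact (e ▸ trivial : w ∈ W)

theorem Irr.two [IsSimpleGroup G] (h : R.Irr) (h4 : 4 ≤ Nat.card F) {c : F} (h0 : v ≠ 0)
    (hv : R.Om v) (hc : R.Om (c • v)) (c0 : c ≠ 0) (c1 : c ≠ 1) : R.Sub := by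
  obtain ⟨K, k, l⟩ := h.field h0 hv hc c0 c1
  by_cases e : K = ⊤
  · exact Or.inl (full_of_om (h.all_om h4 h0 hv fun x => k x (e ▸ trivial)) exists_sq)
  · obtain ⟨σ, hσ⟩ := exists_frob K
    refine Or.inr ⟨σ, ?_, h.fixed h0 hv σ fun u w a b => (hσ _).2 (l u w a b)⟩
    by_contra k
    push Not at k
    exact e (eq_top_iff.2 fun x _ => (hσ x).1 (k x))

end Rep

end CF.MaxSub.E4
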