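/-
`Sp₄` in odd characteristic: matrices, the five-dimensional module, transvections, blocks.
-/
import Cfsg.Agent.MaxSub.E4D

set_option autoImplicit false

namespace CF.MaxSub.O4

open Matrix
open CF.MaxSub.E4 (M4 M2 mulVec4 mul4 ext4 trace4 e0 e1 e3 mv_e0 mv_e1 mv_e3 e0_ne)

variable {F : Type*} [Field F] {M N B C : M4 F} {u v w : Fin 4 → F} {x y : Fin 5 → F}

/-- The alternating form. -/
def bf (u v : Fin 4 → F) : F := u 0 * v 3 + u 1 * v 2 - u 2 * v 1 - u 3 * v 0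

/-- The adjoint. -/
def adj (M : M4 F) : M4 F := !![M 3 3, M 2 3, -M 1 3, -M 0 3; M 3 2, M 2 2, -M 1 2, -M 0 2;
  -M 3 1, -M 2 1, M 1 1, M 0 1; -M 3 0, -M 2 0, M 1 0, M 0 0]

theorem bf_adj (M : M4 F) (u v : Fin 4 → F) : bf (M *ᵥ u) v = bf u (adj M *ᵥ v) := by
  simp [bf, adj, mulVec4]; ring

theorem adj_mul (M N : M4 F) : adj (M * N) = adj N * adj M := by
  ext i j; fin_cases i <;> fin_cases j <;> simp [adj, mul4] <;> ring

@[simp] theorem adj_adj (M : M4 F) : adj (adj M) = M := by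
  ext i j; fin_cases i <;> fin_cases j <;> simp [adj]

@[simp] theorem adj_add (M N : M4 F) : adj (M + N) = adj M + adj N := by
  ext i j; fin_cases i <;> fin_cases j <;> simp [adj] <;> ring

@[simp] theorem adj_neg (M : M4 F) : adj (-M) = -adj M := by
  ext i j; fin_cases i <;> fin_cases j <;> simp [adj]

@[simp] theorem adj_smul (c : F) (M : M4 F) : adj (c • M) = c • adj M := by
  ext i j; fin_cases i <;> fin_cases j <;> simp [adj]

@[simp] theorem adj_one : adj (1 : M4 F) = 1 := by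
  ext i j; fin_cases i <;> fin_cases j <;> simp [adj]

@[simp] theorem adj_zero : adj (0 : M4 F) = 0 := by
  ext i j; fin_cases i <;> fin_cases j <;> simp [adj]

@[simp] theorem trace_adj (M : M4 F) : (adj M).trace = M.trace := by
  simp [adj, trace4]; ring

theorem adj_map {K : Type*} [Field K] (φ : F →+* K) (M : M4 F) :
    adj (M.map φ) = (adj M).map φ := by
  ext i j; fin_cases i <;> fin_cases j <;> simp [adj]

theorem bf_add_left (u v w : Fin 4 → F) : bf (u + v) w = bf u w + bf v w := by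
  simp only [bf, Pi.add_apply]; ring

theorem bf_add_right (u v w : Fin 4 → F) : bf w (u + v) = bf w u + bf w v := by
  simp only [bf, Pi.add_apply]; ring

theorem bf_smul_left (c : F) (u v : Fin 4 → F) : bf (c • u) v = c * bf u v := by
  simp only [bf, Pi.smul_apply, smul_eq_mul]; ring

theorem bf_smul_right (c : F) (u v : Fin 4 → F) : bf u (c • v) = c * bf u v := by
  simp only [bf, Pi.smul_apply, smul_eq_mul]; ring

theorem bf_skew (u v : Fin 4 → F) : bf u v = -bf v u := by simp only [bf]; ring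

theorem bf_self (v : Fin 4 → F) : bf v v = 0 := by simp only [bf]; ring

theorem bf_zero_left (v : Fin 4 → F) : bf 0 v = 0 := by simp [bf]

theorem bf_zero_right (v : Fin 4 → F) : bf v 0 = 0 := by simp [bf]

theorem exists_bf (h : v ≠ 0) : ∃ x, bf x v ≠ 0 := by
  by_contra! k
  apply h
  have a := k (Pi.single 0 1); have b := k (Pi.single 1 1)
  have c := k (Pi.single 2 1); have d := k (Pi.single 3 1)
  simp [bf] at a b c d
  exact ext4 d c b a

/-- Symplectic matrices. -/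
def Sp (M : M4 F) : Prop := adj M * M = 1

theorem Sp.mul_adj (h : Sp M) : M * adj M = 1 := mul_eq_one_comm.1 h

theorem Sp.adj (h : Sp M) : Sp (adj M) := by rw [Sp, adj_adj, h.mul_adj]

theorem Sp.mul (h : Sp M) (k : Sp N) : Sp (M * N) := by
  rw [Sp, adj_mul, mul_assoc, ← mul_assoc _ M, h, one_mul, k]

theorem sp_one : Sp (1 : M4 F) := by simp [Sp]

theorem Sp.adj_mv (h : Sp M) (v : Fin 4 → F) : O4.adj M *ᵥ M *ᵥ v = v := by
  rw [mulVec_mulVec, h, one_mulVec]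

theorem Sp.mv_adj (h : Sp M) (v : Fin 4 → F) : M *ᵥ O4.adj M *ᵥ v = v := by
  rw [mulVec_mulVec, h.mul_adj, one_mulVec]

theorem Sp.bf (h : Sp M) (u v : Fin 4 → F) : bf (M *ᵥ u) (M *ᵥ v) = bf u v := by
  rw [bf_adj, h.adj_mv]

theorem Sp.inj (h : Sp M) (e : M *ᵥ u = M *ᵥ v) : u = v := by rw [← h.adj_mv u, e, h.adj_mv]

theorem Sp.ne_zero (h : Sp M) (h0 : v ≠ 0) : M *ᵥ v ≠ 0 := fun e =>
  h0 (h.inj (e.trans (mulVec_zero M).symm))

theorem Sp.cancel (h : Sp B) (e : M * B = N * B) : M = N := by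
  rw [← mul_one M, ← h.mul_adj, ← mul_assoc, e, mul_assoc, h.mul_adj, mul_one]

theorem Sp.cancel' (h : Sp B) (e : B * M = B * N) : M = N := by
  rw [← one_mul M, ← h, mul_assoc, e, ← mul_assoc, h, one_mul]

theorem Sp.eq_adj (h : Sp M) (e : N * M = 1) : N = O4.adj M := h.cancel (e.trans h.symm)

theorem Sp.map {K : Type*} [Field K] (φ : F →+* K) (h : Sp M) : Sp (M.map φ) := by
  rw [Sp, adj_map, ← Matrix.map_mul, h, Matrix.map_one _ φ.map_zero φ.map_one]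

theorem Sp.col (h : Sp M) :
    M 0 0 * M 3 1 + M 1 0 * M 2 1 - M 2 0 * M 1 1 - M 3 0 * M 0 1 = 0 ∧
    M 0 0 * M 3 2 + M 1 0 * M 2 2 - M 2 0 * M 1 2 - M 3 0 * M 0 2 = 0 ∧
    M 0 0 * M 3 3 + M 1 0 * M 2 3 - M 2 0 * M 1 3 - M 3 0 * M 0 3 = 1 ∧
    M 0 1 * M 3 2 + M 1 1 * M 2 2 - M 2 1 * M 1 2 - M 3 1 * M 0 2 = 1 ∧
    M 0 1 * M 3 3 + M 1 1 * M 2 3 - M 2 1 * M 1 3 - M 3 1 * M 0 3 = 0 ∧
    M 0 2 * M 3 3 + M 1 2 * M 2 3 - M 2 2 * M 1 3 - M 3 2 * M 0 3 = 0 := by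
  have k := fun i j => congrFun₂ h i j
  have a := k 3 1; have b := k 3 2; have c := k 3 3; have d := k 2 2; have e := k 2 3
  have f := k 1 3
  simp [O4.adj, mul4] at a b c d e f
  grind

theorem sp_of_col (h1 : M 0 0 * M 3 1 + M 1 0 * M 2 1 - M 2 0 * M 1 1 - M 3 0 * M 0 1 = 0)
    (h2 : M 0 0 * M 3 2 + M 1 0 * M 2 2 - M 2 0 * M 1 2 - M 3 0 * M 0 2 = 0)
    (h3 : M 0 0 * M 3 3 + M 1 0 * M 2 3 - M 2 0 * M 1 3 - M 3 0 * M 0 3 = 1)
    (h4 : M 0 1 * M 3 2 + M 1 1 * M 2 2 - M 2 1 * M 1 2 - M 3 1 * M 0 2 = 1)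
    (h5 : M 0 1 * M 3 3 + M 1 1 * M 2 3 - M 2 1 * M 1 3 - M 3 1 * M 0 3 = 0)
    (h6 : M 0 2 * M 3 3 + M 1 2 * M 2 3 - M 2 2 * M 1 3 - M 3 2 * M 0 3 = 0) : Sp M := by
  ext i j; fin_cases i <;> fin_cases j <;> simp [adj, mul4] <;> grind

/-- Transvections. -/
def tv (v : Fin 4 → F) (a : F) : M4 F := 1 + a • vecMulVec v ![v 3, v 2, -v 1, -v 0]

theorem tv_mv (v : Fin 4 → F) (a : F) (x : Fin 4 → F) : tv v a *ᵥ x = x + (a * bf x v) • v := by
  apply ext4 <;> simp [tv, mulVec4, bf, vecMulVec_apply] <;> ring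

theorem ext_mv (h : ∀ x, M *ᵥ x = N *ᵥ x) : M = N := ext_of_mulVec_single fun _ => h _

theorem tv_mul (v : Fin 4 → F) (a b : F) : tv v a * tv v b = tv v (a + b) := ext_mv fun x => by
  rw [← mulVec_mulVec, tv_mv, tv_mv, tv_mv, bf_add_left, bf_smul_left, bf_self]
  module

theorem tv_zero (v : Fin 4 → F) : tv v 0 = 1 := by simp [tv]

theorem adj_tv (v : Fin 4 → F) (a : F) : adj (tv v a) = tv v (-a) := by
  ext i j; fin_cases i <;> fin_cases j <;> simp [adj, tv, vecMulVec_apply] <;> grind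

theorem sp_tv (v : Fin 4 → F) (a : F) : Sp (tv v a) := by
  rw [Sp, adj_tv, tv_mul, neg_add_cancel, tv_zero]

theorem tv_smul (c : F) (v : Fin 4 → F) (a : F) : tv (c • v) a = tv v (c ^ 2 * a) :=
  ext_mv fun x => by rw [tv_mv, tv_mv, bf_smul_right]; module

theorem Sp.mul_tv (h : Sp B) (v : Fin 4 → F) (a : F) : B * tv v a = tv (B *ᵥ v) a * B :=
  ext_mv fun x => by
    rw [← mulVec_mulVec, ← mulVec_mulVec, tv_mv, tv_mv, h.bf, mulVec_add, mulVec_smul]

theorem tv_eq_one {a : F} (h : tv v a = 1) : a = 0 ∨ v = 0 := by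
  refine or_iff_not_imp_right.2 fun h0 => ?_
  obtain ⟨x, hx⟩ := exists_bf h0
  simpa [h, hx, h0] using tv_mv v a x

theorem exists_tv (h : bf u v ≠ 0) : ∃ B, Sp B ∧ B *ᵥ u = v :=
  ⟨_, sp_tv (v + (-1 : F) • u) (bf u v)⁻¹, by
    rw [tv_mv, bf_add_right, bf_smul_right, bf_self, mul_zero, add_zero, inv_mul_cancel₀ h]
    module⟩

theorem exB0 (h : v ≠ 0) : ∃ B, Sp B ∧ B *ᵥ e0 = v := by
  by_cases h3 : v 3 = 0
  · obtain ⟨x, hx⟩ := exists_bf h
    obtain ⟨y, h1, h2⟩ : ∃ y, bf e0 y ≠ 0 ∧ bf y v ≠ 0 := by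
      by_cases k : x 3 = 0
      · by_cases k0 : v 0 = 0
        · exact ⟨x + e3, by simp [bf, e0, e3, k], by simpa [bf_add_left, bf, e3, k0, k, h3] using hx⟩
        · exact ⟨e3, by simp [bf, e0, e3], by simpa [bf, e3]⟩
      · exact ⟨x, by simpa [bf, e0], hx⟩
    obtain ⟨B, hB, e⟩ := exists_tv h1
    obtain ⟨C, hC, e'⟩ := exists_tv h2
    exact ⟨C * B, hC.mul hB, by rw [← mulVec_mulVec, e, e']⟩
  · exact exists_tv (by simpa [bf, e0])

/-- The third basis vector. -/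
def e2 : Fin 4 → F := ![0, 0, 1, 0]

theorem mv_e2 (M : M4 F) (i : Fin 4) : (M *ᵥ e2) i = M i 2 := by simp [mulVec4, e2]

theorem exB012 (hu : u ≠ 0) (h1 : bf u v = 0) (h2 : bf u w = 0) (h : bf v w = 1) :
    ∃ B, Sp B ∧ B *ᵥ e0 = u ∧ B *ᵥ e1 = v ∧ B *ᵥ e2 = w := by
  obtain ⟨B, hB, rfl⟩ := exB0 hu
  obtain ⟨v, rfl⟩ : ∃ x, v = B *ᵥ x := ⟨_, (hB.mv_adj v).symm⟩
  obtain ⟨w, rfl⟩ : ∃ x, w = B *ᵥ x := ⟨_, (hB.mv_adj w).symm⟩
  rw [hB.bf] at h h1 h2
  simp [bf, e0] at h h1 h2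
  refine ⟨B * !![1, v 0, w 0, 0; 0, v 1, w 1, w 0 * v 1 - v 0 * w 1; 0, v 2, w 2,
    w 0 * v 2 - v 0 * w 2; 0, 0, 0, 1], hB.mul (by apply sp_of_col <;> simp <;> grind), ?_, ?_, ?_⟩ <;>
    rw [← mulVec_mulVec] <;> congr 1 <;> apply ext4 <;> simp [mv_e0, mv_e1, mv_e2, e0, h1, h2]

theorem exB01 (hu : u ≠ 0) (hv : ∀ c : F, v ≠ c • u) (h : bf u v = 0) :
    ∃ B, Sp B ∧ B *ᵥ e0 = u ∧ B *ᵥ e1 = v := by
  obtain ⟨w, h1, h2⟩ : ∃ w, bf u w = 0 ∧ bf v w = 1 := by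
    obtain ⟨B, hB, rfl⟩ := exB0 hu
    obtain ⟨v, rfl⟩ : ∃ x, v = B *ᵥ x := ⟨_, (hB.mv_adj v).symm⟩
    rw [hB.bf] at h
    simp [bf, e0] at h
    by_cases k : v 1 = 0
    · refine ⟨B *ᵥ (-(v 2)⁻¹ • e1), by rw [hB.bf]; simp [bf, e0, e1], ?_⟩
      have : v 2 ≠ 0 := fun e => hv (v 0) (by
        rw [← mulVec_smul]; exact congrArg _ (by apply ext4 <;> simp [e0, *]))
      rw [hB.bf]; simp [bf, e1, this]
    · exact ⟨B *ᵥ ((v 1)⁻¹ • e2), by rw [hB.bf]; simp [bf, e0, e2], by rw [hB.bf]; simp [bf, e2, k]⟩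
  obtain ⟨B, hB, a, b, -⟩ := exB012 hu h h1 h2
  exact ⟨B, hB, a, b⟩

theorem exB03 (h : bf u v = 1) : ∃ B, Sp B ∧ B *ᵥ e0 = u ∧ B *ᵥ e3 = v := by
  obtain ⟨B, hB, rfl⟩ := exB0 (v := u) (fun e => by simp [e, bf_zero_left] at h)
  obtain ⟨w, rfl⟩ : ∃ w, v = B *ᵥ w := ⟨_, (hB.mv_adj v).symm⟩
  rw [hB.bf] at h
  have h3 : w 3 = 1 := by simpa [bf, e0] using h
  refine ⟨B * !![1, -w 2, w 1, w 0; 0, 1, 0, w 1; 0, 0, 1, w 2; 0, 0, 0, 1],
    hB.mul (by apply sp_of_col <;> simp), ?_, ?_⟩ <;> rw [← mulVec_mulVec] <;>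
    congr 1 <;> apply ext4 <;> simp [mv_e0, mv_e3, e0, h3]

/-! ### Blocks -/

/-- Block matrices. -/
def bl (a b c d : M2 F) : M4 F := !![a 0 0, a 0 1, b 0 0, b 0 1; a 1 0, a 1 1, b 1 0, b 1 1;
  c 0 0, c 0 1, d 0 0, d 0 1; c 1 0, c 1 1, d 1 0, d 1 1]

/-- Transposition in the second diagonal. -/
def st (a : M2 F) : M2 F := !![a 1 1, a 0 1; a 1 0, a 0 0]

section bl
variable {a b c d a' b' c' d' : M2 F}

theorem exists_bl (M : M4 F) : ∃ a b c d, M = bl a b c d :=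
  ⟨!![M 0 0, M 0 1; M 1 0, M 1 1], !![M 0 2, M 0 3; M 1 2, M 1 3], !![M 2 0, M 2 1; M 3 0, M 3 1],
    !![M 2 2, M 2 3; M 3 2, M 3 3], by ext i j; fin_cases i <;> fin_cases j <;> rfl⟩

theorem bl_mul (a b c d a' b' c' d' : M2 F) : bl a b c d * bl a' b' c' d' =
    bl (a * a' + b * c') (a * b' + b * d') (c * a' + d * c') (c * b' + d * d') := by
  ext i j; fin_cases i <;> fin_cases j <;> simp [bl, mul_apply, Fin.sum_univ_four] <;> ring

theorem bl_add (a b c d a' b' c' d' : M2 F) : bl a b c d + bl a' b' c' d' =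
    bl (a + a') (b + b') (c + c') (d + d') := by
  ext i j; fin_cases i <;> fin_cases j <;> simp [bl]

theorem bl_one : (1 : M4 F) = bl 1 0 0 1 := by
  ext i j; fin_cases i <;> fin_cases j <;> simp [bl]

theorem bl_zero : (0 : M4 F) = bl 0 0 0 0 := by
  ext i j; fin_cases i <;> fin_cases j <;> simp [bl]

theorem bl_inj : bl a b c d = bl a' b' c' d' ↔ a = a' ∧ b = b' ∧ c = c' ∧ d = d' := by
  refine ⟨fun h => ?_, by rintro ⟨rfl, rfl, rfl, rfl⟩; rfl⟩
  have k := fun i j => congrFun₂ h i j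
  refine ⟨?_, ?_, ?_, ?_⟩ <;> ext i j <;> fin_cases i <;> fin_cases j
  exacts [k 0 0, k 0 1, k 1 0, k 1 1, k 0 2, k 0 3, k 1 2, k 1 3, k 2 0, k 2 1, k 3 0, k 3 1,
    k 2 2, k 2 3, k 3 2, k 3 3]

theorem adj_bl (a b c d : M2 F) : adj (bl a b c d) = bl (st d) (-st b) (-st c) (st a) := by
  ext i j; fin_cases i <;> fin_cases j <;> simp [bl, adj, st]

@[simp] theorem st_one : st (1 : M2 F) = 1 := by
  ext i j; fin_cases i <;> fin_cases j <;> simp [st]

@[simp] theorem st_zero : st (0 : M2 F) = 0 := by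
  ext i j; fin_cases i <;> fin_cases j <;> simp [st]

@[simp] theorem st_neg (a : M2 F) : st (-a) = -st a := by
  ext i j; fin_cases i <;> fin_cases j <;> simp [st]

@[simp] theorem st_st (a : M2 F) : st (st a) = a := by
  ext i j; fin_cases i <;> fin_cases j <;> simp [st]

theorem st_mul (a b : M2 F) : st (a * b) = st b * st a := by
  ext i j; fin_cases i <;> fin_cases j <;> simp [st, mul_apply] <;> ring

@[simp] theorem det_st (a : M2 F) : (st a).det = a.det := by simp [st, det_fin_two]; ring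

theorem sp_bl : Sp (bl a b c d) ↔ st d * a - st b * c = 1 ∧ st d * b = st b * d ∧
    st a * c = st c * a ∧ st a * d - st c * b = 1 := by
  rw [Sp, adj_bl, bl_mul, bl_one, bl_inj]
  simp only [neg_mul, ← sub_eq_add_neg, neg_add_eq_sub, sub_eq_zero]

end bl

/-! ### The five-dimensional module -/

/-- Self-adjoint matrices of trace zero. -/
def wm (x : Fin 5 → F) : M4 F :=
  !![x 0, x 1, x 2, 0; x 3, -x 0, 0, -x 2; x 4, 0, -x 0, x 1; 0, -x 4, x 3, x 0]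

/-- The symmetric form. -/
def bw (x y : Fin 5 → F) : F := 2 * x 0 * y 0 + x 1 * y 3 + x 3 * y 1 + x 2 * y 4 + x 4 * y 2

/-- Coordinates of a self-adjoint matrix. -/
def wv (M : M4 F) : Fin 5 → F := ![(M 0 0 - M 1 1) / 2, M 0 1, M 0 2, M 1 0, M 2 0]

theorem ext5 (h0 : x 0 = y 0) (h1 : x 1 = y 1) (h2 : x 2 = y 2) (h3 : x 3 = y 3) (h4 : x 4 = y 4) :
    x = y := by
  ext i; fin_cases i <;> assumption

theorem wm_anti (x y : Fin 5 → F) : wm x * wm y + wm y * wm x = bw x y • 1 := by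
  ext i j; fin_cases i <;> fin_cases j <;> simp [wm, bw, mul4] <;> ring

theorem wm_mul (x y : Fin 5 → F) : wm x * wm y = bw x y • 1 - wm y * wm x :=
  eq_sub_of_add_eq (wm_anti x y)

@[simp] theorem adj_wm (x : Fin 5 → F) : adj (wm x) = wm x := by
  ext i j; fin_cases i <;> fin_cases j <;> simp [wm, adj]

@[simp] theorem trace_wm (x : Fin 5 → F) : (wm x).trace = 0 := by simp [wm, trace4]

@[simp] theorem wm_add (x y : Fin 5 → F) : wm (x + y) = wm x + wm y := by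
  ext i j; fin_cases i <;> fin_cases j <;> simp [wm] <;> ring

@[simp] theorem wm_smul (c : F) (x : Fin 5 → F) : wm (c • x) = c • wm x := by
  ext i j; fin_cases i <;> fin_cases j <;> simp [wm]

@[simp] theorem wm_neg (x : Fin 5 → F) : wm (-x) = -wm x := by
  ext i j; fin_cases i <;> fin_cases j <;> simp [wm]

@[simp] theorem wm_sub (x y : Fin 5 → F) : wm (x - y) = wm x - wm y := by
  simp [sub_eq_add_neg]

@[simp] theorem wm_zero : wm (0 : Fin 5 → F) = 0 := by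
  ext i j; fin_cases i <;> fin_cases j <;> simp [wm]

theorem wm_inj (h : wm x = wm y) : x = y :=
  ext5 (congrFun₂ h 0 0) (congrFun₂ h 0 1) (congrFun₂ h 0 2) (congrFun₂ h 1 0) (congrFun₂ h 2 0)

theorem trace_wm_mul (x y : Fin 5 → F) : (wm x * wm y).trace = 2 * bw x y := by
  simp [wm, bw, mul4, trace4]; ring

theorem bw_comm (x y : Fin 5 → F) : bw x y = bw y x := by simp only [bw]; ring

theorem wv_add (M N : M4 F) : wv (M + N) = wv M + wv N := by
  apply ext5 <;> simp [wv]; ring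

theorem wv_smul (c : F) (M : M4 F) : wv (c • M) = c • wv M := by
  apply ext5 <;> simp [wv]; ring

theorem wv_one : wv (1 : M4 F) = 0 := by apply ext5 <;> simp [wv]

theorem exists_bw (h2 : (2 : F) ≠ 0) (h : x ≠ 0) : ∃ y, bw x y = 1 := by
  suffices ∃ y, bw x y ≠ 0 by
    obtain ⟨y, k⟩ := this
    exact ⟨(bw x y)⁻¹ • y, by rw [← inv_mul_cancel₀ k]; simp [bw]; ring⟩
  by_contra! k
  have a := k (Pi.single 0 1); have b := k (Pi.single 1 1); have c := k (Pi.single 2 1)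
  have d := k (Pi.single 3 1); have e := k (Pi.single 4 1)
  simp [bw, h2] at a b c d e
  exact h (ext5 a d e b c)

variable (h2 : (2 : F) ≠ 0)
include h2

theorem four_ne : (4 : F) ≠ 0 := fun e => mul_ne_zero h2 h2 (by linear_combination e)

theorem wv_wm (x : Fin 5 → F) : wv (wm x) = x := by
  apply ext5 <;> simp [wv, wm]; field_simp; ring

theorem eq_wm (h : adj M = M) : M = (M.trace / 4) • 1 + wm (wv M) := by
  have k := fun i j => congrFun₂ h i j
  have a := k 0 0; have b := k 0 1; have c := k 0 2; have d := k 0 3; have e := k 1 0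
  have f := k 1 1; have g := k 1 2; have l := k 2 0; have m := k 2 1; have n := k 3 0
  simp [adj] at a b c d e f g l m n
  have h4 := four_ne h2
  ext i j; fin_cases i <;> fin_cases j <;> simp [wm, wv, trace4] <;> grind

theorem wm_sq (x : Fin 5 → F) : wm x * wm x = (bw x x / 2) • 1 := by
  apply smul_right_injective _ h2
  simp only [two_smul, wm_anti, ← add_smul]
  congr 1; field_simp; ring

theorem sq_zero_of (h0 : x ≠ 0) (h : wm x * M = 0) (k : M * wm x = 0) : M * M = 0 := by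
  obtain ⟨y, e⟩ := exists_bw h2 h0
  have := wm_anti x y
  rw [e, one_smul] at this
  calc M * M = M * (wm x * wm y + wm y * wm x) * M := by rw [this, mul_one]
    _ = M * wm x * wm y * M + M * wm y * (wm x * M) := by noncomm_ring
    _ = 0 := by simp [h, k]

omit h2 in
theorem exists_nf {ε : F} (h : N * N = 0) (e : adj N = ε • N) :
    ∃ B, Sp B ∧ ∃ A, adj B * N * B = bl 0 A 0 0 := by
  suffices ∃ B, Sp B ∧ N *ᵥ B *ᵥ e0 = 0 ∧ N *ᵥ B *ᵥ e1 = 0 by
    obtain ⟨B, hB, a, b⟩ := this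
    refine ⟨B, hB, ?_⟩
    have e' : N = ε • adj N := by simpa using congrArg adj e
    have e'' : adj B * N * B = ε • adj (adj B * N * B) := by
      rw [adj_mul, adj_mul, adj_adj, ← mul_smul_comm, ← smul_mul_assoc, ← e', mul_assoc]
    replace a : (adj B * N * B) *ᵥ e0 = 0 := by simp [← mulVec_mulVec, a]
    replace b : (adj B * N * B) *ᵥ e1 = 0 := by simp [← mulVec_mulVec, b]
    obtain ⟨p, q, r, s, k⟩ := exists_bl (adj B * N * B)
    rw [k] at a b e'' ⊢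
    have a' := fun i => (mv_e0 _ i).symm.trans (congrFun a i)
    have b' := fun i => (mv_e1 _ i).symm.trans (congrFun b i)
    have p0 : p = 0 := by
      ext i j; fin_cases i <;> fin_cases j
      exacts [a' 0, b' 0, a' 1, b' 1]
    have r0 : r = 0 := by
      ext i j; fin_cases i <;> fin_cases j
      exacts [a' 2, b' 2, a' 3, b' 3]
    subst p0 r0
    refine ⟨q, bl_inj.2 ⟨rfl, rfl, rfl, ?_⟩⟩
    have k := fun i j => congrFun₂ e'' i j
    ext i j; fin_cases i <;> fin_cases j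
    exacts [by simpa [adj, bl] using k 2 2, by simpa [adj, bl] using k 2 3,
      by simpa [adj, bl] using k 3 2, by simpa [adj, bl] using k 3 3]
  have z (x) : N *ᵥ N *ᵥ x = 0 := by rw [mulVec_mulVec, h, zero_mulVec]
  by_cases h0 : ∀ x, N *ᵥ x = 0
  · exact ⟨1, sp_one, h0 _, h0 _⟩
  push Not at h0
  obtain ⟨x, hx⟩ := h0
  by_cases h1 : ∀ y, ∃ c : F, N *ᵥ y = c • N *ᵥ x
  · obtain ⟨B, hB, k⟩ := exB0 hx
    refine ⟨B, hB, k ▸ z x, ?_⟩
    obtain ⟨c, hc⟩ := h1 (B *ᵥ e1)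
    obtain ⟨d, hd⟩ := h1 (B *ᵥ e3)
    have : bf (N *ᵥ B *ᵥ e1) (B *ᵥ e3) = c := by rw [hc, ← k, bf_smul_left, hB.bf]; simp [bf, e0, e3]
    rw [bf_adj, e, smul_mulVec, hd, ← k, bf_smul_right, bf_smul_right, hB.bf] at this
    simp [bf, e0, e1] at this
    rw [hc, ← this, zero_smul]
  push Not at h1
  obtain ⟨y, hy⟩ := h1
  obtain ⟨B, hB, a, b⟩ := exB01 hx hy (by rw [bf_adj, e, smul_mulVec, z, smul_zero, bf_zero_right])
  exact ⟨B, hB, a ▸ z x, b ▸ z y⟩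

end CF.MaxSub.O4
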