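/-
Faithful representations in `Sp₄` (odd characteristic); groups containing a transvection.
-/
import Cfsg.Agent.MaxSub.O4A

set_option autoImplicit false

namespace CF.MaxSub.O4

open Matrix CF.Classical CF.Geom
open CF.MaxSub.E4 (M4 M2 mulVec4 mul4 ext4 trace4 e0 e1 e3 mv_e0 mv_e1 mv_e3 e0_ne subOf up lo
  up_mul up_zero emb emb_mul)
open scoped MatrixGroups

variable {F : Type*} [Field F] {M N B C : M4 F} {u v w z : Fin 4 → F} {a b c : F}

theorem three_cases (h2 : (2 : F) ≠ 0) {A : AddSubgroup F} (h : Nat.card A = 3) (ha : a ∈ A)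
    (a0 : a ≠ 0) (hb : b ∈ A) : b = 0 ∨ b = a ∨ b = -a := by
  have : ({0, a, -a} : Set F) = A := Set.eq_of_subset_of_ncard_le (by
    simp [Set.insert_subset_iff, ha]) (h.trans (Set.ncard_eq_three.2
      ⟨0, a, -a, a0.symm, by simpa, fun e => mul_ne_zero h2 a0 (by linear_combination e),
        rfl⟩).symm).le (Nat.finite_of_card_ne_zero (by simp [h]))
  exact this.ge hb

theorem lo_mul (a b : F) : lo a * lo b = lo (a + b) := by simp [lo]

theorem l2o [Finite F] (h2 : (2 : F) ≠ 0) (P : M2 F → Prop) (h1 : P 1)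
    (hm : ∀ M N, P M → P N → P (M * N)) (hd : ∀ M, P M → M.det = 1) (ha : a ≠ 0) (hb : b ≠ 0)
    (pa : P (up a)) (pb : P (lo b)) : ∃ A B : AddSubgroup F, (∀ x, x ∈ A ↔ P (up x)) ∧
      (∀ x, x ∈ B ↔ P (lo x)) ∧ Nat.card A = Nat.card B ∧
      (((3 : F) = 0 ∧ Nat.card A = 3 ∧ (a * b) ^ 2 = -1) ∨
        ∃ K : Subfield F, (∀ x, x ∈ K ↔ x * a ∈ A) ∧ ∀ x, x ∈ K ↔ x / a ∈ B) := by
  have hd' (M) (h : P M) : M 0 0 * M 1 1 - M 0 1 * M 1 0 ≠ 0 := by
    rw [← det_fin_two, hd M h]; exact one_ne_zero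
  let H : Subgroup PGL(2, F) := subOf (fun x => ∃ M, ∃ h : P M, x = pgl _ _ _ _ (hd' M h))
    ⟨_, h1, by simp [one_eq_pgl]⟩ (by
      rintro _ _ ⟨M, h, rfl⟩ ⟨N, k, rfl⟩
      exact ⟨_, hm _ _ h k, by simp [pgl_mul, mul_apply]⟩)
  obtain ⟨n, hn⟩ := CF.MH.exists_half h2
  have key (f : F → M2 F) (f0 : f 0 = 1) (hf : ∀ a b, f a * f b = f (a + b)) (x : F)
      (h : P (-f x)) : P (f x) := by
    have : ∀ m : ℕ, P (f (m * 2 * x)) := fun m => by
      induction m with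
      | zero => simpa [f0]
      | succ m ih =>
        convert hm _ _ ih (hm _ _ h h) using 1
        rw [neg_mul_neg, hf, hf]; congr 1; push_cast; ring
    simpa [hn] using this n
  have mem (a b c d : F) (h) (e : a * d - b * c = 1) :
      pgl a b c d h ∈ H ↔ P !![a, b; c, d] ∨ P (-!![a, b; c, d]) := by
    refine ⟨fun ⟨M, k, e'⟩ => ?_, fun k => k.elim (fun k => ⟨_, k, rfl⟩) fun k =>
      ⟨_, k, pgl_congr _ _ (-1) (by simp) (by simp) (by simp) (by simp)⟩⟩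
    obtain ⟨u, h1, h2, h3, h4⟩ := pgl_eq_pgl_iff.1 e'
    have := hd M k
    rw [det_fin_two] at this
    obtain rfl | rfl : u = 1 ∨ u = -1 := by grind
    · left; convert k; ext i j; fin_cases i <;> fin_cases j <;> simp [*]
    · right; convert k; ext i j; fin_cases i <;> fin_cases j <;> simp [*]
  obtain ⟨A, B, hA, hB⟩ := CF.MH.exists_roots H
  have hA' (a) : a ∈ A ↔ P (up a) := (hA a).trans ((mem _ _ _ _ _ (by simp)).trans
    (or_iff_left_of_imp (key up up_zero up_mul a)))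
  have hB' (a) : a ∈ B ↔ P (lo a) := (hB a).trans ((mem _ _ _ _ _ (by simp)).trans
    (or_iff_left_of_imp (key lo (by rw [one_fin_two]; rfl) lo_mul a)))
  obtain ⟨k, h | ⟨h, h', c, hc, e⟩ | h⟩ :=
    CF.MH.l2 H A B hA hB ((hA' _).2 pa) ((hB' _).2 pb) ha hb
  · have := CF.MH.eq_of_card_two h ((hA' _).2 pa) ha (neg_mem ((hA' _).2 pa))
    grind
  · refine ⟨A, B, hA', hB', k, .inl ⟨h, h', ?_⟩⟩
    have := three_cases h2 (k ▸ h') ((hB' _).2 pb) hb hc
    grind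
  · exact ⟨A, B, hA', hB', k, .inr h⟩

/-- A faithful representation in `Sp₄`. -/
structure Rep (G F : Type*) [Group G] [Field F] where
  /-- the homomorphism -/
  ρ : G →* M4 F
  sp : ∀ g, Sp (ρ g)
  inj : Function.Injective ρ

namespace Rep

variable {G : Type*} [Group G] (R : Rep G F) {g h x : G}

theorem ρ_inv (g : G) : R.ρ g⁻¹ = adj (R.ρ g) :=
  (R.sp g).eq_adj (by rw [← map_mul, inv_mul_cancel, map_one])

theorem mv_mul (g h : G) (v : Fin 4 → F) : R.ρ (g * h) *ᵥ v = R.ρ g *ᵥ R.ρ h *ᵥ v := by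
  rw [map_mul, mulVec_mulVec]

theorem mv_inv (g : G) (v : Fin 4 → F) : R.ρ g⁻¹ *ᵥ R.ρ g *ᵥ v = v := by
  rw [← mv_mul, inv_mul_cancel, map_one, one_mulVec]

theorem mv_inv' (g : G) (v : Fin 4 → F) : R.ρ g *ᵥ R.ρ g⁻¹ *ᵥ v = v := by
  rw [← mv_mul, mul_inv_cancel, map_one, one_mulVec]

theorem ρ_conj (e : R.ρ g * R.ρ x = M * R.ρ g) : R.ρ (g * x * g⁻¹) = M :=
  (R.sp g).cancel (by rw [← e, ← map_mul, ← map_mul, inv_mul_cancel_right])

theorem eq_one (e : R.ρ g = 1) : g = 1 := R.inj (e.trans (map_one _).symm)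

/-- Change of basis. -/
def cj (hB : Sp B) : Rep G F where
  ρ :=
    { toFun g := adj B * R.ρ g * B
      map_one' := by rw [map_one, mul_one, hB]
      map_mul' g h := by
        rw [map_mul, mul_assoc (adj B * R.ρ g), ← mul_assoc B, ← mul_assoc B, hB.mul_adj, one_mul]
        simp only [mul_assoc] }
  sp g := (hB.adj.mul (R.sp g)).mul hB
  inj g h e := R.inj (hB.adj.cancel' (hB.cancel e))

theorem cj_ρ (hB : Sp B) (g : G) : (R.cj hB).ρ g = adj B * R.ρ g * B := rfl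

theorem cj_mul (hB : Sp B) (g : G) : B * (R.cj hB).ρ g = R.ρ g * B := by
  rw [cj_ρ, ← mul_assoc, ← mul_assoc, hB.mul_adj, one_mul]

theorem cj_eq (hB : Sp B) : (R.cj hB).ρ g = M ↔ R.ρ g * B = B * M :=
  ⟨fun e => e ▸ (R.cj_mul hB g).symm, fun e => hB.cancel' (by rw [cj_mul, e])⟩

theorem cj_mv (hB : Sp B) (g : G) (v : Fin 4 → F) :
    B *ᵥ (R.cj hB).ρ g *ᵥ v = R.ρ g *ᵥ B *ᵥ v := by
  rw [mulVec_mulVec, cj_mul, mulVec_mulVec]

theorem cj_smul (hB : Sp B) : (R.cj hB).ρ g = c • 1 ↔ R.ρ g = c • 1 := by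
  rw [cj_eq, mul_smul_comm, mul_one]
  exact ⟨fun e => hB.cancel (by simpa), fun e => by simp [e]⟩

/-- The image is all of `Sp₄`. -/
def Full : Prop := ∀ M, Sp M → ∃ g, R.ρ g = M

/-- The standing hypotheses. -/
structure Core : Prop where
  two : (2 : F) ≠ 0
  qs : ∀ N : Subgroup G, N.Normal → ∀ g ∈ N, (∀ c : F, R.ρ g ≠ c • 1) → N = ⊤
  gen : ∀ S : AddSubgroup (M4 F), (∀ g, R.ρ g ∈ S) → S = ⊤
  nf : ¬ R.Full

/-- Transvections in the group. -/
def Om (v : Fin 4 → F) (a : F) : Prop := ∃ g, R.ρ g = tv v a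

variable {R}

theorem Core.all (h : R.Core) (p : M4 F → Prop) (hs : ∀ M N, p M → p N → p (M - N))
    (k : ∀ g, p (R.ρ g)) (M : M4 F) : p M := by
  have z : p 0 := sub_self (R.ρ 1) ▸ hs _ _ (k 1) (k 1)
  let S : AddSubgroup (M4 F) :=
    { carrier := {M | p M}
      zero_mem' := z
      neg_mem' {M} e := zero_sub M ▸ hs _ _ z e
      add_mem' {M N} a b := by simpa using hs _ _ a (hs _ _ z b) }
  exact (h.gen S k ▸ AddSubgroup.mem_top M : M ∈ S)

theorem Core.cj (h : R.Core) (hB : Sp B) : (R.cj hB).Core where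
  two := h.two
  qs N hN g hg k := h.qs N hN g hg fun c e => k c ((R.cj_smul hB).2 e)
  gen S k := eq_top_iff.2 fun M _ => by
    have := h.all (fun M => adj B * M * B ∈ S) (fun M N a b => by
      rw [mul_sub, sub_mul]; exact sub_mem a b) k (B * M * adj B)
    rwa [← mul_assoc, ← mul_assoc, hB, one_mul, mul_assoc, hB, mul_one] at this
  nf k := h.nf fun M hM => by
    obtain ⟨g, e⟩ := k _ ((hB.adj.mul hM).mul hB)
    exact ⟨g, hB.adj.cancel' (hB.cancel e)⟩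

theorem Core.cen (h : R.Core) (k : ∀ g, M * R.ρ g = R.ρ g * M) : ∃ c : F, M = c • 1 := by
  obtain ⟨c, e⟩ := mem_range_scalar_of_commute_single (M := M) fun i j _ =>
    (h.all (fun N => M * N = N * M) (fun N C a b => by rw [mul_sub, sub_mul, a, b]) k _).symm
  exact ⟨c, by rw [← e, scalar_apply, smul_one_eq_diagonal]⟩

theorem Core.tg (h : R.Core) (σ : F →+* F) (k : ∀ g, σ (R.ρ g).trace = (R.ρ g).trace) (c : F) :
    σ c = c := by
  simpa using h.all (fun N => σ N.trace = N.trace) (fun N C a b => by simp [a, b]) k (single 0 0 c)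

theorem Core.orb (h : R.Core) (hv : v ≠ 0) (hw : w ≠ 0) : ∃ g, bf (R.ρ g *ᵥ v) w ≠ 0 := by
  by_contra! k
  obtain ⟨x, hx⟩ := exists_bf hw
  obtain ⟨B, hB, rfl⟩ := exB0 hv
  obtain ⟨C, -, rfl⟩ := exB0 (v := x) fun e => hx (e ▸ bf_zero_left w)
  have := h.all (fun M => bf (M *ᵥ B *ᵥ e0) w = 0) (fun M N a b => by
    rw [sub_mulVec, sub_eq_add_neg, ← neg_one_smul F, bf_add_left, bf_smul_left, a, b]; simp) k
    (C * adj B)
  rw [← mulVec_mulVec, hB.adj_mv] at this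
  exact hx this

theorem Core.ind [Finite G] (h : R.Core) (t : G) (ht : ∀ c : F, R.ρ t ≠ c • 1) (p : G → Prop)
    (h1 : p 1) (hm : ∀ g x, p x → p (g * t * g⁻¹ * x)) (g : G) : p g := by
  have : Subgroup.normalClosure {t} ≤ subOf (fun x => ∀ y, p y → p (x * y)) (by simp)
      fun a b c d y e => mul_assoc a b y ▸ c _ (d y e) := (Subgroup.closure_le _).2 fun x hx => by
    obtain ⟨_, rfl, k⟩ := Group.mem_conjugatesOfSet_iff.1 hx
    obtain ⟨g, rfl⟩ := isConj_iff.1 k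
    exact hm g
  rw [h.qs _ inferInstance t (Subgroup.subset_normalClosure (Set.mem_singleton t)) ht] at this
  simpa using this (Subgroup.mem_top g) 1 h1

theorem tv_conj (e : R.ρ x = tv v a) (g : G) : R.ρ (g * x * g⁻¹) = tv (R.ρ g *ᵥ v) a :=
  R.ρ_conj (e ▸ (R.sp g).mul_tv v a)

theorem Om.mv (h : R.Om v a) (g : G) : R.Om (R.ρ g *ᵥ v) a := h.elim fun _ k => ⟨_, tv_conj k g⟩

theorem om_mv (g : G) : R.Om (R.ρ g *ᵥ v) a ↔ R.Om v a :=
  ⟨fun h => R.mv_inv g v ▸ h.mv g⁻¹, fun h => h.mv g⟩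

theorem Om.act (h : R.Om v a) (k : R.Om w b) : R.Om (w + (a * bf w v) • v) b := by
  obtain ⟨g, h⟩ := h
  have := k.mv g
  rwa [h, tv_mv] at this

theorem om_cj (hB : Sp B) : (R.cj hB).Om v a ↔ R.Om (B *ᵥ v) a :=
  exists_congr fun _ => by rw [cj_eq, hB.mul_tv]; exact ⟨hB.cancel, fun e => e ▸ rfl⟩

theorem om_smul : R.Om (c • v) a ↔ R.Om v (c ^ 2 * a) := by simp only [Om, tv_smul]

variable (R) in
/-- The group of transvections with a given centre. -/
def A (v : Fin 4 → F) : AddSubgroup F where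
  carrier := {a | R.Om v a}
  zero_mem' := ⟨1, by rw [map_one, tv_zero]⟩
  add_mem' := fun ⟨g, a⟩ ⟨h, b⟩ => ⟨g * h, by rw [map_mul, a, b, tv_mul]⟩
  neg_mem' := fun ⟨g, a⟩ => ⟨g⁻¹, by rw [ρ_inv, a, adj_tv]⟩

theorem mem_A : a ∈ R.A v ↔ R.Om v a := Iff.rfl

theorem Om.neg (h : R.Om v a) : R.Om v (-a) := (R.A v).neg_mem h

theorem tv_e0 (a : F) : tv e0 a = emb (up (-a)) := by
  ext i j; fin_cases i <;> fin_cases j <;> simp [tv, emb, up, e0, vecMulVec_apply]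

theorem tv_e3 (a : F) : tv e3 a = emb (lo a) := by
  ext i j; fin_cases i <;> fin_cases j <;> simp [tv, emb, lo, e3, vecMulVec_apply]

theorem tv_ne (ha : a ≠ 0) (hv : v ≠ 0) (c : F) : tv v a ≠ c • 1 := fun e => by
  have k := tv_mv v a v
  rw [e, bf_self, mul_zero, zero_smul, add_zero, smul_mulVec, one_mulVec] at k
  obtain rfl : c = 1 := smul_left_injective F hv (k.trans (one_smul F v).symm)
  exact (tv_eq_one (e.trans (one_smul _ _))).elim ha hv

/-- Difference of two commuting transvections. -/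
def mm (p r s q c : F) : M4 F := !![1, c * p * s, -(c * p * r), 0; c * r * q, 1, 0, -(c * r * p);
  c * s * q, 0, 1, -(c * s * p); 0, c * q * s, -(c * q * r), 1]

theorem cm {p r s q p' q' : F} (hD : ∃ g, R.ρ g = emb (-1)) (h : R.Om ![p, r, s, q] a)
    (k : R.Om ![p', r, s, q'] a) : R.Om ![0, r, s, 0] (8 * a ^ 2 * (p' * q - p * q')) := by
  obtain ⟨d, hd⟩ := hD
  have m {p q} (h : R.Om ![p, r, s, q] a) : ∃ g, R.ρ g = mm p r s q (2 * a) := by
    obtain ⟨g', b⟩ := (h.mv d).neg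
    obtain ⟨g, e⟩ := h
    refine ⟨g * g', ?_⟩
    rw [map_mul, e, b, hd]
    ext i j; fin_cases i <;> fin_cases j <;>
      simp [tv, mm, emb, mul4, mulVec4, vecMulVec_apply] <;> ring
  obtain ⟨g, e⟩ := m h
  obtain ⟨g', e'⟩ := m k
  refine ⟨g * g' * (g' * g)⁻¹, (R.sp (g' * g)).cancel ?_⟩
  rw [← map_mul, inv_mul_cancel_right, map_mul, map_mul, e, e']
  ext i j; fin_cases i <;> fin_cases j <;> simp [tv, mm, mul4, vecMulVec_apply] <;> ring

theorem Core.cross [Finite G] (h : R.Core) (ha : a ≠ 0) (k : R.Om e0 a) :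
    ∃ p r s q, (∃ g, R.ρ g *ᵥ e0 = ![p, r, s, q]) ∧ (p ≠ 0 ∨ q ≠ 0) ∧ ![0, r, s, 0] ≠ 0 := by
  by_contra! n
  obtain ⟨t, ht⟩ := k
  let p (M : M4 F) := M 1 0 = 0 ∧ M 2 0 = 0 ∧ M 1 3 = 0 ∧ M 2 3 = 0
  have := h.all p (fun M N a b => by simp [p, a.1, a.2, b.1, b.2]) (h.ind t (ht ▸ tv_ne ha e0_ne)
    (fun g => p (R.ρ g)) (by simp [p]) fun g x hx => by
      rw [map_mul, tv_conj ht]
      generalize hv : R.ρ g *ᵥ e0 = v
      have := n (v 0) (v 1) (v 2) (v 3) ⟨g, hv.trans (ext4 rfl rfl rfl rfl)⟩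
      obtain ⟨a, b, c, d⟩ := hx
      by_cases e : v 0 ≠ 0 ∨ v 3 ≠ 0
      · have e1 : v 1 = 0 := congrFun (this e) 1
        have e2 : v 2 = 0 := congrFun (this e) 2
        simp [p, tv, mul4, vecMulVec_apply, *]
      · push Not at e
        simp [p, tv, mul4, vecMulVec_apply, *]) (of fun _ _ => 1)
  simpa using this.1

variable [Finite F]

theorem plane0 (h2 : (2 : F) ≠ 0) (ha : a ≠ 0) (hb : b ≠ 0) (hu : R.Om e0 a) (hw : R.Om e3 b) :
    Nat.card (R.A e0) = Nat.card (R.A e3) ∧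
      (((3 : F) = 0 ∧ Nat.card (R.A e0) = 3 ∧ (a * b) ^ 2 = -1) ∨
        ∃ K : Subfield F, (∀ x, x ∈ K ↔ R.Om e0 (x * a)) ∧ ∀ x, x ∈ K ↔ R.Om e3 (x / a)) := by
  have e (a : F) : (∃ g, R.ρ g = emb (up a)) ↔ R.Om e0 a :=
    ⟨fun k => by simpa using Om.neg (a := -a) (by simpa [Om, tv_e0]),
      fun k => by simpa [Om, tv_e0] using k.neg⟩
  obtain ⟨A, B, hA, hB, k⟩ := l2o h2 (fun M => ∃ g, R.ρ g = emb M)
    ⟨1, by rw [map_one, ← up_zero, ← neg_zero, ← tv_e0, tv_zero]⟩ (by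
      rintro M N ⟨g, a⟩ ⟨h, b⟩
      exact ⟨g * h, by rw [map_mul, a, b, emb_mul]⟩) (by
      rintro M ⟨g, a⟩
      have := (a ▸ R.sp g).col.2.2.1
      simp [emb] at this
      rw [det_fin_two]; grind) ha hb ((e a).2 hu) (tv_e3 b ▸ hw)
  obtain rfl : A = R.A e0 := AddSubgroup.ext fun x => (hA x).trans (e x)
  obtain rfl : B = R.A e3 := AddSubgroup.ext fun x => by rw [hB, ← tv_e3]; rfl
  exact k

omit [Finite F] in
theorem normal_plane (h : bf u w ≠ 0) : ∃ B, ∃ _ : Sp B, B *ᵥ e0 = u ∧ B *ᵥ (bf u w • e3) = w := by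
  obtain ⟨B, hB, e, e'⟩ := exB03 (u := u) (v := (bf u w)⁻¹ • w)
    (by rw [bf_smul_right, inv_mul_cancel₀ h])
  exact ⟨B, hB, e, by rw [mulVec_smul, e', smul_inv_smul₀ h]⟩

theorem card_A (h2 : (2 : F) ≠ 0) (ha : a ≠ 0) (hb : b ≠ 0) (hu : R.Om u a) (hw : R.Om w b)
    (h : bf u w ≠ 0) : Nat.card (R.A u) = Nat.card (R.A w) := by
  obtain ⟨B, hB, e, e'⟩ := normal_plane h
  rw [← e, ← om_cj hB] at hu
  rw [← e', ← om_cj hB, om_smul] at hw
  convert (plane0 h2 ha (by positivity) hu hw).1 using 1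
  · exact Nat.card_congr (Equiv.subtypeEquivRight fun x => by rw [mem_A, mem_A, om_cj, e])
  · exact Nat.card_congr ((Equiv.mulLeft₀ _ (pow_ne_zero 2 h)).subtypeEquiv fun x => by
      rw [mem_A, mem_A, Equiv.mulLeft₀_apply, ← om_smul, om_cj, e'])

variable [Finite G]

theorem Core.no9 (h : R.Core) (ha : a ≠ 0) (hu : R.Om e0 a) (hw : R.Om e3 b) (h3 : (3 : F) = 0)
    (hc : Nat.card (R.A e0) = 3) : (a * b) ^ 2 ≠ -1 := fun e => by
  have hD : ∃ g, R.ρ g = emb (-1) := by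
    obtain ⟨g, k⟩ := hu
    obtain ⟨g', k'⟩ := hw
    refine ⟨(g * g') ^ 5, ?_⟩
    simp only [pow_succ, pow_zero, one_mul, map_mul, k, k', tv_e0, tv_e3, emb_mul]
    congr 1
    ext i j; fin_cases i <;> fin_cases j <;> simp [up, lo] <;> grind
  obtain ⟨p, r, s, q, ⟨g₀, k₀⟩, n, z0⟩ := h.cross ha hu
  have k : R.Om ![p, r, s, q] a := k₀ ▸ hu.mv g₀
  have key {w c} (hw : R.Om w c) (w1 : w 1 = 0) (w2 : w 2 = 0) :
      R.Om ![0, r, s, 0] (8 * a ^ 2 * -(c * (p * w 3 - q * w 0) ^ 2)) := by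
    have := hw.act k
    rw [ext4 (u := _ + _) (v := ![p + c * (p * w 3 - q * w 0) * w 0, r, s,
      q + c * (p * w 3 - q * w 0) * w 3]) (by simp [bf, w1, w2]) (by simp [w1]) (by simp [w2])
      (by simp [bf, w1, w2])] at this
    convert cm hD k this using 1; ring
  have k1 := key hu rfl rfl
  have k2 := key hw rfl rfl
  have k3 := key (hu.act hw) (by simp [e0, e3]) (by simp [e0, e3])
  have k4 := key (hu.neg.act hw) (by simp [e0, e3]) (by simp [e0, e3])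
  have k5 := key (hw.act hu) (by simp [e0, e3]) (by simp [e0, e3])
  have k6 := key (hw.neg.act hu) (by simp [e0, e3]) (by simp [e0, e3])
  simp only [← mem_A] at k1 k2 k3 k4 k5 k6
  simp [e0, e3, bf] at k1 k2 k3 k4 k5 k6
  have h2 := h.two
  have b0 : b ≠ 0 := by grind
  have c3 {c} (hc' : c ∈ R.A ![0, r, s, 0]) (c0 : c ≠ 0) : Nat.card (R.A ![0, r, s, 0]) = 3 := by
    obtain ⟨g, hg⟩ := h.orb e0_ne z0
    rw [← card_A h2 ha c0 (hu.mv g) hc' hg, ← hc]
    exact Nat.card_congr (Equiv.subtypeEquivRight fun x => om_mv g)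
  rcases n with n | n
  · have := three_cases h2 (c3 k2 (by grind)) k2 (by grind) (add_mem (add_mem k5 k6) k1)
    grind
  · have := three_cases h2 (c3 k1 (by grind)) k1 (by grind) (add_mem (add_mem k3 k4) k2)
    grind

theorem Core.plane (h : R.Core) (ha : a ≠ 0) (hb : b ≠ 0) (hu : R.Om u a) (hw : R.Om w b)
    (e : bf u w ≠ 0) : ∃ K : Subfield F, (∀ x, x ∈ K ↔ R.Om u (x * a)) ∧ a * b * bf u w ^ 2 ∈ K := by
  obtain ⟨B, hB, e0, e'⟩ := normal_plane e
  generalize bf u w = c at *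
  subst e0 e'
  simp only [← om_cj hB, om_smul] at *
  obtain ⟨h3, k, l⟩ | ⟨K, k, l⟩ := (plane0 h.two ha (by positivity) hu hw).2
  · exact absurd l ((h.cj hB).no9 ha hu hw h3 k)
  · exact ⟨K, k, (l _).2 (by convert hw using 1; field_simp)⟩

theorem Core.field (h : R.Core) (ha : a ≠ 0) (h0 : v ≠ 0) (hv : R.Om v a) :
    ∃ K : Subfield F, (∀ x ∈ K, R.Om v (x * a)) ∧ ∀ g g', a * bf (R.ρ g *ᵥ v) (R.ρ g' *ᵥ v) ∈ K := by
  obtain ⟨g₀, k₀⟩ := h.orb h0 h0
  obtain ⟨K, hK, -⟩ := h.plane ha ha (hv.mv g₀) hv k₀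
  simp only [om_mv] at hK
  let S (u : Fin 4 → F) := ∃ g, u = R.ρ g *ᵥ v
  have Sm {u} (hu : S u) (g) : S (R.ρ g *ᵥ u) := hu.elim fun x e => ⟨g * x, by rw [e, mv_mul]⟩
  have So {u} (hu : S u) {x} (hx : x ∈ K) : R.Om u (x * a) :=
    hu.elim fun g e => e ▸ ((hK x).1 hx).mv g
  have St {u w} (hu : S u) (hw : S w) {x} (hx : x ∈ K) : S (w + (x * a * bf w u) • u) :=
    (So hu hx).elim fun g e => by rw [← tv_mv, ← e]; exact Sm hw g
  have sq {u w} (hu : S u) (hw : S w) : (a * bf u w) ^ 2 ∈ K := by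
    by_cases e : bf u w = 0
    · simp [e]
    have o {u} (hu : S u) : R.Om u a := one_mul a ▸ So hu K.one_mem
    obtain ⟨K', k, l⟩ := h.plane ha ha (o hu) (o hw) e
    obtain ⟨g, rfl⟩ := hu
    rw [mul_pow, pow_two a, hK, ← om_mv g, ← k]
    exact l
  have tri {u w z} (hu : S u) (hw : S w) (hz : S z) : a * bf u w * (a * bf w z) * (a * bf u z) ∈ K := by
    have := sub_mem (sub_mem (sq (St hw hu K.one_mem) hz) (sq hu hz)) (mul_mem (sq hu hw) (sq hw hz))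
    convert div_mem this (natCast_mem K 2) using 1
    rw [bf_add_left, bf_smul_left]
    have := h.two
    push_cast; field_simp; ring
  have Sv : S v := ⟨1, by simp⟩
  obtain ⟨t, ht⟩ := hv
  have E := h.ind t (ht ▸ tv_ne ha h0) (fun g => ∀ w, S w → a * bf (R.ρ g *ᵥ v) w * (a * bf w v) ∈ K)
    (fun w hw => by
      convert neg_mem (sq hw Sv) using 1
      rw [map_one, one_mulVec, bf_skew]; ring) fun g x k w hw => by
      have hu := Sm Sv x
      have hz := Sm Sv g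
      rw [mv_mul, tv_conj ht, tv_mv, bf_add_left, bf_smul_left]
      generalize R.ρ x *ᵥ v = u at *
      generalize R.ρ g *ᵥ v = z at *
      suffices a * bf u z * (a * bf z w) * (a * bf w v) ∈ K by
        convert add_mem (k w hw) this using 1; ring
      by_cases e : bf u w = 0
      · by_cases e' : bf z v = 0
        · convert neg_mem (k _ (St hz hw K.one_mem)) using 1
          rw [bf_add_left, bf_add_right, bf_smul_left, bf_smul_right, e, e', bf_skew z w]; ring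
        · convert div_mem (mul_mem (tri hz hw Sv) (k z hz)) (sq hz Sv) using 1
          field_simp
      · convert div_mem (mul_mem (tri hu hz hw) (k w hw)) (sq hu hw) using 1
        field_simp
  have key {w} (hw : S w) : a * bf v w ∈ K := by
    by_cases e : bf v w = 0
    · simp [e]
    obtain ⟨g, k⟩ := St Sv (St hw Sv (inv_mem (sq Sv hw))) K.one_mem
    obtain ⟨g', rfl⟩ := hw
    have := E (g'⁻¹ * g) _ (Sm Sv g'⁻¹)
    rw [mv_mul, (R.sp _).bf, ← k, ← (R.sp g').bf (R.ρ g'⁻¹ *ᵥ v) v, mv_inv', bf_add_left, bf_smul_left, bf_self,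
      bf_add_left, bf_smul_left, bf_self, bf_skew _ v] at this
    convert neg_mem this using 1
    field_simp; ring
  exact ⟨K, fun x => (hK x).1, fun g g' => by
    rw [← (R.sp g⁻¹).bf, mv_inv]; exact key (Sm (Sm Sv g') _)⟩

omit [Finite F] [Finite G] in
theorem Core.fixed (h : R.Core) (ha : a ≠ 0) (h0 : v ≠ 0) (σ : F →+* F)
    (k : ∀ g g', σ (a * bf (R.ρ g *ᵥ v) (R.ρ g' *ᵥ v)) = a * bf (R.ρ g *ᵥ v) (R.ρ g' *ᵥ v))
    (c : F) : σ c = c := by
  have ht : Submodule.span F (Set.range fun g => R.ρ g *ᵥ v) = ⊤ := eq_top_iff.2 fun x _ => by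
    by_cases x0 : x = 0
    · simp [x0]
    obtain ⟨B, hB, rfl⟩ := exB0 h0
    obtain ⟨C, -, rfl⟩ := exB0 x0
    have := h.all (fun M => M *ᵥ B *ᵥ e0 ∈ Submodule.span F (Set.range fun g => R.ρ g *ᵥ B *ᵥ e0))
      (fun M N a b => by rw [sub_mulVec]; exact sub_mem a b)
      (fun g => Submodule.subset_span ⟨g, rfl⟩) (C * adj B)
    rwa [← mulVec_mulVec, hB.adj_mv] at this
  have := Submodule.exists_fun_fin_finrank_span_eq F (Set.range fun g => R.ρ g *ᵥ v)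
  rw [ht, finrank_top, Module.finrank_fin_fun] at this
  obtain ⟨f, hf, -, li⟩ := this
  obtain ⟨P, hP⟩ : IsUnit (Matrix.of f)ᵀ := linearIndependent_cols_iff_isUnit.1 li
  have m (g : G) : (a • adj P.val * (R.ρ g * P.val)).map σ = a • adj P.val * (R.ρ g * P.val) := by
    have e (i j) : σ (a * bf (f i) (R.ρ g *ᵥ f j)) = a * bf (f i) (R.ρ g *ᵥ f j) := by
      obtain ⟨x, e⟩ := hf i
      obtain ⟨y, e'⟩ := hf j
      rw [← e, ← e', ← mv_mul, k]
    have l (j) : (a • adj P.val * (R.ρ g * P.val)) 0 j = -(a * bf (f 3) (R.ρ g *ᵥ f j)) ∧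
        (a • adj P.val * (R.ρ g * P.val)) 1 j = -(a * bf (f 2) (R.ρ g *ᵥ f j)) ∧
        (a • adj P.val * (R.ρ g * P.val)) 2 j = a * bf (f 1) (R.ρ g *ᵥ f j) ∧
        (a • adj P.val * (R.ρ g * P.val)) 3 j = a * bf (f 0) (R.ρ g *ᵥ f j) := by
      simp only [mul4, mulVec4, hP, bf]
      simp [adj]
      refine ⟨?_, ?_, ?_, ?_⟩ <;> ring
    ext i j
    obtain ⟨l0, l1, l2, l3⟩ := l j
    fin_cases i
    exacts [show σ _ = _ by rw [Fin.zero_eta, l0, map_neg, e], show σ _ = _ by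
      rw [Fin.mk_one, l1, map_neg, e], (congrArg σ l2).trans ((e ..).trans l2.symm),
      (congrArg σ l3).trans ((e ..).trans l3.symm)]
  refine h.tg σ (fun g => ?_) c
  have m1 := m 1
  have m2 := m g
  rw [map_one, one_mul] at m1
  have u : IsUnit (a • adj P.val * P.val) := (IsUnit.of_mul_eq_one (a⁻¹ • adj P⁻¹.val) (by
    simp [← adj_mul, smul_smul, ha])).mul P.isUnit
  rw [show R.ρ g * P.val = P.val * (P⁻¹.val * (R.ρ g * P.val)) by simp, ← mul_assoc,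
    Matrix.map_mul, m1, u.mul_right_inj] at m2
  have a : (P⁻¹.val * (R.ρ g * P.val)).trace = (R.ρ g).trace := by rw [trace_mul_comm]; simp
  rw [← a, AddMonoidHom.map_trace, m2]

omit [Finite F] [Finite G] in
theorem full_of (h : ∀ v a, R.Om v a) : R.Full := fun M hM => by
  let b : LinearMap.BilinForm F (Fin 4 → F) := LinearMap.mk₂ F bf bf_add_left bf_smul_left
    (fun a b c => bf_add_right b c a) fun c a b => bf_smul_right c a b
  have hb : b.Nondegenerate :=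
    ⟨fun v h => by_contra fun h0 => (exists_bf h0).elim fun x hx =>
      hx ((bf_skew x v).trans (neg_eq_zero.2 (h x))),
    fun v h => by_contra fun h0 => (exists_bf h0).elim fun x hx => hx (h x)⟩
  have hA : b.IsAlt := bf_self
  let H : Subgroup (SpG b) :=
    { carrier := {x | ∃ g, ∀ v, x.1 v = R.ρ g *ᵥ v}
      one_mem' := ⟨1, fun v => by simp⟩
      mul_mem' := by
        rintro x y ⟨g, a⟩ ⟨g', b⟩
        exact ⟨g * g', fun v => by rw [mv_mul, ← b, ← a]; rfl⟩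
      inv_mem' := by
        rintro x ⟨g, a⟩
        refine ⟨g⁻¹, fun v => x.1.injective ?_⟩
        rw [a (_ *ᵥ _), mv_inv']
        exact x.1.apply_symm_apply v }
  have : ⊤ ≤ H := closure_spTrans hb hA ▸ (Subgroup.closure_le _).2 (by
    rintro _ ⟨v, c, rfl⟩
    obtain ⟨g, k⟩ := h v c
    exact ⟨g, fun x => by rw [k, tv_mv, spTrans_apply]; rfl⟩)
  obtain ⟨g, k⟩ := this (Subgroup.mem_top ⟨LinearEquiv.ofLinear (toLin' M) (toLin' (adj M))
    (LinearMap.ext hM.mv_adj) (LinearMap.ext hM.adj_mv), mem_SpG.2 hM.bf⟩)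
  exact ⟨g, ext_mv fun i => (k _).symm⟩

omit [Finite F] [Finite G] in
theorem om_pl {p q p' q' : F} (hu : ∀ a, R.Om u a) (hw : ∀ a, R.Om w a) (e : bf u w ≠ 0)
    (e1 : bf z u = 0) (e2 : bf z w = 0) (k : ∀ a, R.Om (z + p • u + q • w) a) (n : p ≠ 0 ∨ q ≠ 0)
    (n' : p' ≠ 0 ∨ q' ≠ 0) (a : F) : R.Om (z + p' • u + q' • w) a := by
  have s1 {p q : F} (k : R.Om (z + p • u + q • w) a) (n : q ≠ 0) (p' : F) :
      R.Om (z + p' • u + q • w) a := by
    convert (hu ((p - p') / (q * bf u w))).act k using 1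
    rw [bf_add_left, bf_add_left, bf_smul_left, bf_smul_left, e1, bf_self, bf_skew w]
    match_scalars <;> field_simp <;> ring
  have s2 {p q : F} (k : R.Om (z + p • u + q • w) a) (n : p ≠ 0) (q' : F) :
      R.Om (z + p • u + q' • w) a := by
    convert (hw ((q' - q) / (p * bf u w))).act k using 1
    rw [bf_add_left, bf_add_left, bf_smul_left, bf_smul_left, e2, bf_self]
    match_scalars <;> field_simp <;> ring
  have s : R.Om (z + (1 : F) • u + (1 : F) • w) a := n.elim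
    (fun n => s1 (s2 (k a) n 1) one_ne_zero 1) fun n => s2 (s1 (k a) n 1) one_ne_zero 1
  exact n'.elim (fun n => s2 (s1 s one_ne_zero _) n _) fun n => s1 (s2 s one_ne_zero _) n _

omit [Finite F] in
theorem Core.not_all (h : R.Core) (h0 : ∀ a, R.Om e0 a) (h3 : ∀ a, R.Om e3 a) : False := by
  have hD : ∃ g, R.ρ g = emb (-1) := by
    obtain ⟨g, k⟩ := h0 (-1)
    obtain ⟨g', k'⟩ := h3 (-1)
    refine ⟨(g * g') ^ 3, ?_⟩
    simp only [pow_succ, pow_zero, one_mul, map_mul, k, k', tv_e0, tv_e3, emb_mul]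
    congr 1
    ext i j; fin_cases i <;> fin_cases j <;> simp [up, lo]
  have e (p r s q : F) : ![p, r, s, q] = ![0, r, s, 0] + p • e0 + q • e3 := by
    apply ext4 <;> simp [e0, e3]
  have e' (p r s q : F) : ![p, r, s, q] = ![p, 0, 0, q] + r • e1 + s • e2 := by
    apply ext4 <;> simp [e1, e2]
  have m1 {p r s q p' q' : F} (k : ∀ a, R.Om ![p, r, s, q] a) (n : p ≠ 0 ∨ q ≠ 0)
      (n' : p' ≠ 0 ∨ q' ≠ 0) (a : F) : R.Om ![p', r, s, q'] a := by
    rw [e] at k ⊢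
    exact om_pl h0 h3 (by simp [bf, e0, e3]) (by simp [bf, e0]) (by simp [bf, e3]) k n n' a
  have m0 {p r s q : F} (k : ∀ a, R.Om ![p, r, s, q] a) (a : F) : R.Om ![0, r, s, 0] a := by
    by_cases n : p ≠ 0 ∨ q ≠ 0
    · have : (8 : F) ≠ 0 := fun e => mul_ne_zero h.two (four_ne h.two) (by linear_combination e)
      convert cm hD (m1 k n (p' := 0) (.inr one_ne_zero) 1) (m1 k n (p' := a / 8) (.inr one_ne_zero) 1)
        using 1
      field_simp; ring
    · push Not at n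
      simpa [n] using k a
  obtain ⟨p, r, s, q, ⟨g, k⟩, n, z0⟩ := h.cross one_ne_zero (h0 1)
  have k0 (a) : R.Om ![p, r, s, q] a := k ▸ (h0 a).mv g
  obtain ⟨g', k'⟩ := h.orb e0_ne z0
  have k1 := m0 (p := (R.ρ g' *ᵥ e0) 0) (r := (R.ρ g' *ᵥ e0) 1) (s := (R.ρ g' *ᵥ e0) 2)
    (q := (R.ρ g' *ᵥ e0) 3) fun a => by convert (h0 a).mv g'; exact ext4 rfl rfl rfl rfl
  generalize R.ρ g' *ᵥ e0 = w at k' k1
  simp [bf] at k'
  have pl (x y : F) (n : x * s - y * r ≠ 0 ∨ w 1 * y - w 2 * x ≠ 0) (a : F) : R.Om ![0, x, y, 0] a := by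
    convert om_pl (z := 0) (p := 1) (q := 0) (p' := (x * s - y * r) / (w 1 * s - w 2 * r))
      (q' := (w 1 * y - w 2 * x) / (w 1 * s - w 2 * r)) k1 (m0 k0) (by simpa [bf]) (bf_zero_left _)
      (bf_zero_left _) (by simpa using k1) (.inl one_ne_zero) (by simpa [k'] using n) a using 1
    apply ext4 <;> simp <;> grind
  have h1 : ∀ a, R.Om e1 a := pl 1 0 (by grind)
  have h2 : ∀ a, R.Om e2 a := pl 0 1 (by grind)
  have m2 {p r s q r' s' : F} (k : ∀ a, R.Om ![p, r, s, q] a) (n : r ≠ 0 ∨ s ≠ 0)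
      (n' : r' ≠ 0 ∨ s' ≠ 0) (a : F) : R.Om ![p, r', s', q] a := by
    rw [e'] at k ⊢
    exact om_pl h1 h2 (by simp [bf, e1, e2]) (by simp [bf, e1]) (by simp [bf, e2]) k n n' a
  refine h.nf (full_of fun v a => ?_)
  rw [ext4 (u := v) (v := ![v 0, v 1, v 2, v 3]) rfl rfl rfl rfl]
  by_cases n1 : v 0 ≠ 0 ∨ v 3 ≠ 0 <;> by_cases n2 : v 1 ≠ 0 ∨ v 2 ≠ 0
  · exact m2 (m1 k0 n n1) (by grind) n2 a
  · push Not at n2
    rw [n2.1, n2.2]; exact m1 h0 (.inl one_ne_zero) n1 a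
  · push Not at n1
    rw [n1.1, n1.2]; exact m2 h1 (.inl one_ne_zero) n2 a
  · push Not at n1 n2
    rw [n1.1, n1.2, n2.1, n2.2]
    exact ⟨1, by rw [map_one]; ext i j; fin_cases i <;> fin_cases j <;> simp [tv]⟩

/-- No transvections. -/
theorem Core.nt (h : R.Core) (e : R.ρ g = tv v a) : a = 0 ∨ v = 0 := by
  by_contra! n
  obtain ⟨K, k, l⟩ := h.field n.1 n.2 ⟨g, e⟩
  obtain ⟨σ, hσ⟩ := exists_frob K
  have all (c : F) : R.Om v c := by
    simpa [n.1] using k (c / a) ((hσ _).1 (h.fixed n.1 n.2 σ (fun g g' => (hσ _).2 (l g g')) _))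
  obtain ⟨x, hx⟩ := h.orb n.2 n.2
  obtain ⟨B, hB, e0, e'⟩ := normal_plane hx
  refine (h.cj hB).not_all (fun c => (om_cj hB).2 (e0 ▸ (all c).mv x)) fun c => ?_
  have := all (c / bf (R.ρ x *ᵥ v) v ^ 2)
  rw [← e', ← om_cj hB, om_smul] at this
  convert this using 1
  rw [e']; field_simp

end Rep

end CF.MaxSub.O4
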