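/-
Subgroups of `Sp₄` without transvections have few quadratic unipotent elements.
-/
import Cfsg.Agent.MaxSub.O4B
import Cfsg.Agent.Geom.C5C

set_option autoImplicit false

namespace CF.MaxSub.O4

open Matrix
open CF.MaxSub.E4 (M4 M2 mulVec4 mul4 ext4 trace4 e0 e1 e3 mv_e0 mv_e1 mv_e3 e0_ne subOf up lo mid)

attribute [-simp] Matrix.mulVec_fin_two

universe u

theorem exists_root2 {F : Type u} [Field F] [Finite F] (t d : F) :
    ∃ (K : Type u) (_ : Field K) (_ : Finite K) (φ : F →+* K) (l m : K),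
      l + m = φ t ∧ l * m = φ d := by
  open Polynomial in
  let f : F[X] := C 1 * X ^ 2 + C (-t) * X + C d
  obtain ⟨l, e⟩ := (SplittingField.splits f).exists_eval_eq_zero (by
    rw [degree_map, degree_quadratic one_ne_zero]; decide)
  refine ⟨f.SplittingField, inferInstance, Module.finite_of_finite F, algebraMap _ _, l,
    algebraMap F _ t - l, by ring, ?_⟩
  simp [f] at e
  linear_combination -e

variable {F : Type*} [Field F] {M N B C : M4 F} {u v w : Fin 4 → F} {a b c d A A' : M2 F}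

theorem bl_map {K : Type*} [Field K] (φ : F →+* K) (a b c d : M2 F) :
    (bl a b c d).map φ = bl (a.map φ) (b.map φ) (c.map φ) (d.map φ) := by
  ext i j; fin_cases i <;> fin_cases j <;> rfl

/-- Vectors in blocks. -/
def vv (u w : Fin 2 → F) : Fin 4 → F := ![u 0, u 1, w 0, w 1]

theorem bl_mv (a b c d : M2 F) (u w : Fin 2 → F) :
    bl a b c d *ᵥ vv u w = vv (a *ᵥ u + b *ᵥ w) (c *ᵥ u + d *ᵥ w) := by
  apply ext4 <;> simp [bl, vv, mulVec, dotProduct, Fin.sum_univ_four] <;> ring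

theorem vv_inj {u w u' w' : Fin 2 → F} (h : vv u w = vv u' w') : u = u' ∧ w = w' := by
  constructor <;> ext i <;> fin_cases i
  exacts [congrFun h 0, congrFun h 1, congrFun h 2, congrFun h 3]

theorem vv_comb (x y : F) (u w : Fin 2 → F) : x • vv u 0 + y • vv 0 w = vv (x • u) (y • w) := by
  apply ext4 <;> simp [vv]

theorem sp_x (h : st A = A) : Sp (bl 1 A 0 1) := sp_bl.2 (by simp [h])

theorem eq_x (h : Sp M) (h0 : M *ᵥ e0 = e0) (h1 : M *ᵥ e1 = e1) : ∃ A, M = bl 1 A 0 1 := by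
  have a := fun i => (mv_e0 M i).symm.trans (congrFun h0 i)
  have b := fun i => (mv_e1 M i).symm.trans (congrFun h1 i)
  have := h.col
  simp only [a, b] at this
  simp [e0, e1] at this
  refine ⟨!![M 0 2, M 0 3; M 1 2, M 1 3], ?_⟩
  ext i j; fin_cases i <;> fin_cases j <;> simp [bl, a, b, e0, e1, this]

/-- Heisenberg elements. -/
def hz (p q z : F) : M4 F := !![1, -q, p, z; 0, 1, 0, p; 0, 0, 1, q; 0, 0, 0, 1]

namespace Rep

variable {G : Type*} [Group G] (R : Rep G F) {g h k : G}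

/-- Extension of scalars. -/
def map {K : Type*} [Field K] (φ : F →+* K) : Rep G K where
  ρ := φ.mapMatrix.toMonoidHom.comp R.ρ
  sp g := (R.sp g).map φ
  inj _ _ e := R.inj (Matrix.map_injective φ.injective e)

theorem map_ρ {K : Type*} [Field K] (φ : F →+* K) (g : G) : (R.map φ).ρ g = (R.ρ g).map φ := rfl

/-- No transvections. -/
def NT : Prop := ∀ g v a, R.ρ g = tv v a → a = 0 ∨ v = 0

/-- Upper unipotent elements. -/
def XA (A : M2 F) : Prop := ∃ g, R.ρ g = bl 1 A 0 1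

/-- Lower unipotent elements. -/
def YA (A : M2 F) : Prop := ∃ g, R.ρ g = bl 1 0 A 1

/-- The group of upper unipotent elements. -/
def XS : AddSubgroup (M2 F) where
  carrier := {A | R.XA A}
  zero_mem' := ⟨1, by rw [map_one, bl_one]⟩
  add_mem' := fun ⟨g, a⟩ ⟨h, b⟩ => ⟨g * h, by rw [map_mul, a, b, bl_mul]; simp [add_comm]⟩
  neg_mem' := fun ⟨g, a⟩ => ⟨g⁻¹, by
    have := (sp_bl.1 (a ▸ R.sp g)).2.1
    simp only [st_one, one_mul, mul_one] at this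
    rw [ρ_inv, a, adj_bl, ← this]; simp⟩

/-- The group of lower unipotent elements. -/
def YS : AddSubgroup (M2 F) where
  carrier := {A | R.YA A}
  zero_mem' := ⟨1, by rw [map_one, bl_one]⟩
  add_mem' := fun ⟨g, a⟩ ⟨h, b⟩ => ⟨g * h, by rw [map_mul, a, b, bl_mul]; simp⟩
  neg_mem' := fun ⟨g, a⟩ => ⟨g⁻¹, by
    have := (sp_bl.1 (a ▸ R.sp g)).2.2.1
    simp only [st_one, one_mul, mul_one] at this
    rw [ρ_inv, a, adj_bl, ← this]; simp⟩

variable {R}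

theorem NT.cj (h : R.NT) (hB : Sp B) : (R.cj hB).NT := fun g v a e => by
  rw [cj_eq, hB.mul_tv] at e
  exact (h g _ a (hB.cancel e)).imp_right fun k => by_contra fun n => hB.ne_zero n k

theorem st_XS (h : A ∈ R.XS) : st A = A := h.elim fun g a => by
  have := (sp_bl.1 (a ▸ R.sp g)).2.1
  simpa using this.symm

theorem st_YS (h : A ∈ R.YS) : st A = A := h.elim fun g a => by
  have := (sp_bl.1 (a ▸ R.sp g)).2.2.1
  simpa using this.symm

theorem NT.det (n : R.NT) (h : A ∈ R.XS) (e : A.det = 0) : A = 0 := by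
  have s : A 1 1 = A 0 0 := congrFun₂ (st_XS h) 0 0
  obtain ⟨g, k⟩ := h
  rw [det_fin_two, s] at e
  by_cases z : A 0 1 = 0
  · have : A 0 0 = 0 := by grind
    have := n g e1 (-A 1 0) (k.trans (by
      ext i j; fin_cases i <;> fin_cases j <;> simp [bl, tv, e1, vecMulVec_apply, *]))
    ext i j; fin_cases i <;> fin_cases j <;> simp_all [e1]
  · have := n g ![1, A 0 0 / A 0 1, 0, 0] (-A 0 1) (k.trans (by
      ext i j; fin_cases i <;> fin_cases j <;> simp [bl, tv, vecMulVec_apply, s] <;> grind))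
    simp [z] at this

theorem NT.hz {p q z p' q' z' : F} (n : R.NT) (h2 : (2 : F) ≠ 0) (e : R.ρ g = hz p q z)
    (e' : R.ρ h = hz p' q' z') : p * q' = q * p' := by
  have := n (g * h * (h * g)⁻¹) e0 (2 * (q * p' - p * q')) ((R.sp (h * g)).cancel (by
    rw [← map_mul, inv_mul_cancel_right, map_mul, map_mul, e, e']
    ext i j; fin_cases i <;> fin_cases j <;> simp [tv, O4.hz, e0, mul4, vecMulVec_apply] <;> ring))
  simp [e0_ne, h2] at this
  grind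

theorem XS_conj (e : R.ρ g = bl a b 0 d) (h : A ∈ R.XS) : a * A * st a ∈ R.XS := by
  obtain ⟨x, k⟩ := h
  have := (sp_bl.1 (e ▸ R.sp g)).2.2.2
  simp only [st_zero, zero_mul, sub_zero] at this
  exact ⟨g * x * g⁻¹, R.ρ_conj (by rw [e, k, bl_mul, bl_mul]; simp [mul_assoc, add_comm, this])⟩

theorem YS_conj' (e : R.ρ g = bl 0 b c d) (k : R.ρ h = bl 1 A 0 1) :
    R.ρ (g * h * g⁻¹) = bl 1 0 (-(c * A * st c)) 1 := by
  have := (sp_bl.1 (e ▸ R.sp g)).2.2.2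
  simp only [st_zero, zero_mul, zero_sub, neg_eq_iff_eq_neg] at this
  exact R.ρ_conj (by rw [e, k, bl_mul, bl_mul]; simp [mul_assoc, this])

theorem YS_conj (e : R.ρ g = bl 0 b c d) (h : A ∈ R.XS) : -(c * A * st c) ∈ R.YS :=
  h.elim fun _ k => ⟨_, YS_conj' e k⟩

theorem fix_e0 (e : R.ρ g *ᵥ e0 = e0) : R.ρ g 0 0 = 1 ∧ R.ρ g 1 0 = 0 ∧ R.ρ g 2 0 = 0 ∧
    R.ρ g 3 0 = 0 ∧ R.ρ g 3 1 = 0 ∧ R.ρ g 3 2 = 0 ∧ (mid (R.ρ g)).det = 1 := by
  have a := fun i => (mv_e0 _ i).symm.trans (congrFun e i)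
  have := (R.sp g).col
  simp only [a] at this
  simp [e0] at this
  simp [a, e0, mid, det_fin_two, this]
  linear_combination this.2.2.2.1 + R.ρ g 3 1 * this.2.1 - R.ρ g 0 1 * this.2.1 +
    R.ρ g 0 2 * this.1 - R.ρ g 3 2 * this.1

theorem q1 (h2 : (2 : F) ≠ 0) (n : R.NT) (hA : A ∈ R.XS) (a0 : A ≠ 0)
    (k0 : R.ρ k *ᵥ e0 = e0) (k2 : R.ρ k *ᵥ e2 = e2) (k1 : k ≠ 1) :
    (∃ t ≠ 0, mid (R.ρ k) = lo t) ∧ ∀ A ∈ R.XS, A 1 0 = 0 → A = 0 := by
  obtain ⟨s, t, z, hk⟩ : ∃ s t z, R.ρ k = !![1, -s, 0, z; 0, 1, 0, 0; 0, t, 1, s; 0, 0, 0, 1] := by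
    have a := fun i => (mv_e0 _ i).symm.trans (congrFun k0 i)
    have b := fun i => (mv_e2 _ i).symm.trans (congrFun k2 i)
    have := (R.sp k).col
    simp only [a, b] at this
    simp [e0, e2] at this
    obtain ⟨c1, c2, c3, c4, c5⟩ := this
    simp [c1, c2, c3, c5] at c4
    refine ⟨R.ρ k 2 3, R.ρ k 2 1, R.ρ k 0 3, ?_⟩
    ext i j; fin_cases i <;> fin_cases j <;> simp [a, b, e0, e2, *]
    linear_combination c4
  have ts : t = 0 → s ≠ 0 := by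
    rintro rfl rfl
    have := n k e0 (-z) (hk.trans (by
      ext i j; fin_cases i <;> fin_cases j <;> simp [tv, e0, vecMulVec_apply]))
    refine k1 (R.eq_one (hk.trans ?_))
    ext i j; fin_cases i <;> fin_cases j <;> simp_all [e0_ne]
  have y0 {A} (hA : A ∈ R.XS) (e : A 1 0 = 0) : A = 0 := by
    have s' : A 1 1 = A 0 0 := congrFun₂ (st_XS hA) 0 0
    refine n.det hA ?_
    obtain ⟨g, hg⟩ := hA
    replace hg : R.ρ g = O4.hz (A 0 0) 0 (A 0 1) := hg.trans (by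
      ext i j; fin_cases i <;> fin_cases j <;> simp [bl, O4.hz, e, s'])
    rw [det_fin_two, s', e]
    by_cases t0 : t = 0
    · have := n.hz (p' := 0) (q' := _) (z' := z) h2 hg (hk.trans (by rw [t0]; rfl))
      simp [ts t0] at this
      simp [this]
    · have := n.hz (h := k * g * k⁻¹) (p' := A 0 0) (q' := t * A 0 0) (z' := A 0 1 - 2 * s * A 0 0)
        h2 hg (R.ρ_conj (by
        rw [hk, hg]
        ext i j; fin_cases i <;> fin_cases j <;> simp [O4.hz, mul4] <;> ring))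
      simp [t0] at this
      simp [this]
  refine ⟨⟨t, ?_, by simp [hk, mid, lo]⟩, fun _ => y0⟩
  rintro rfl
  have s' : A 1 1 = A 0 0 := congrFun₂ (st_XS hA) 0 0
  replace hk : R.ρ k = O4.hz 0 s z := hk
  obtain ⟨g, hg⟩ := id hA
  have := n.hz (h := g * k * g⁻¹) (p' := A 1 0 * s) (q' := s) (z' := z + 2 * s * A 0 0) h2 hk
    (R.ρ_conj (by
      rw [hk, hg]
      ext i j; fin_cases i <;> fin_cases j <;> simp [O4.hz, bl, mul4, s'] <;> ring))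
  simp [ts rfl] at this
  exact a0 (y0 hA this)

variable [Finite F]

theorem q0 (h2 : (2 : F) ≠ 0) (n : R.NT) (hA : A ∈ R.XS) (hA' : A' ∈ R.XS) (a0 : A ≠ 0)
    (a1 : A' ≠ 0) (a2 : A' ≠ A) (a3 : A' ≠ -A) (k0 : R.ρ k *ᵥ e0 = e0) (k2 : R.ρ k *ᵥ e2 = e2) :
    k = 1 := by
  by_contra k1
  obtain ⟨⟨t, t0, hk⟩, y0⟩ := q1 h2 n hA a0 k0 k2 k1
  let P (M : M2 F) := ∃ g, R.ρ g *ᵥ e0 = e0 ∧ mid (R.ρ g) = M
  have Pm (M N) (a : P M) (b : P N) : P (M * N) := by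
    obtain ⟨g, a, rfl⟩ := a
    obtain ⟨h, b, rfl⟩ := b
    refine ⟨g * h, by rw [mv_mul, b, a], ?_⟩
    ext i j; fin_cases i <;> fin_cases j <;> simp [mid, mul4, fix_e0 a, fix_e0 b]
  have Px {A} (hA : A ∈ R.XS) : P (up (A 1 0)) := hA.elim fun g e =>
    ⟨g, by apply ext4 <;> simp [mv_e0, e, bl, e0], by simp [e, mid, bl, up]⟩
  have y1 : A 1 0 ≠ 0 := fun e => a0 (y0 _ hA e)
  obtain ⟨S, T, hS, hT, -, l⟩ := l2o h2 P ⟨1, by simp, by simp [mid, one_fin_two]⟩ Pm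
    (by rintro _ ⟨g, a, rfl⟩; exact (fix_e0 a).2.2.2.2.2.2) y1 t0 (Px hA) ⟨k, k0, hk⟩
  have b1 : A' 1 0 ≠ 0 := fun e => a1 (y0 _ hA' e)
  have b2 : A' 1 0 ≠ A 1 0 := fun e => a2 (sub_eq_zero.1 (y0 _ (sub_mem hA' hA) (by simp [e])))
  have b3 : A' 1 0 ≠ -A 1 0 := fun e =>
    a3 (eq_neg_of_add_eq_zero_left (y0 _ (add_mem hA' hA) (by simp [e])))
  obtain ⟨-, l, -⟩ | ⟨K, hK, hK'⟩ := l
  · have := three_cases h2 l ((hS _).2 (Px hA)) y1 ((hS _).2 (Px hA'))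
    tauto
  have tor {m : F} (hm : m ∈ K) (m0 : m ≠ 0) : ∃ σ, ∀ s z y, !![s, z; y, s] ∈ R.XS →
      !![m * (s + σ * y), z + 2 * σ * s + σ ^ 2 * y; m ^ 2 * y, m * (s + σ * y)] ∈ R.XS := by
    have w {m : F} (hm : m ∈ K) (m0 : m ≠ 0) : P !![0, m * A 1 0; -m⁻¹ / A 1 0, 0] := by
      convert Pm _ _ (Pm _ _ ((hS _).1 ((hK _).1 hm))
        ((hT _).1 ((hK' _).1 (neg_mem (inv_mem hm))))) ((hS _).1 ((hK _).1 hm)) using 1
      ext i j; fin_cases i <;> fin_cases j <;> simp [up, lo] <;> field_simp <;> simp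
    obtain ⟨g, a, b⟩ := Pm _ _ (w hm m0) (w (neg_mem K.one_mem) (by simp))
    have b1 := congrFun₂ b 0 0
    have b2 := congrFun₂ b 1 0
    simp [mid] at b1 b2
    replace b1 : R.ρ g 1 1 = m := by rw [b1]; field_simp
    refine ⟨R.ρ g 0 1, fun s z y hD => ?_⟩
    convert XS_conj (g := g) (a := !![1, R.ρ g 0 1; 0, m]) (b := !![R.ρ g 0 2, R.ρ g 0 3; R.ρ g 1 2,
      R.ρ g 1 3]) (d := !![R.ρ g 2 2, R.ρ g 2 3; R.ρ g 3 2, R.ρ g 3 3]) (by
      ext i j; fin_cases i <;> fin_cases j <;> simp [bl, fix_e0 a, b1, b2]) hD using 1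
    ext i j; fin_cases i <;> fin_cases j <;> simp [st] <;> ring
  obtain ⟨τ, hτ⟩ := tor (neg_mem K.one_mem) (by simp)
  have st' {s z y} (hD : !![s, z; y, s] ∈ R.XS) : s = -(τ * y) / 2 := by
    have := congrFun₂ (y0 _ (sub_mem (hτ _ _ _ hD) hD) (by simp)) 0 0
    simp at this
    field_simp; linear_combination -this
  obtain ⟨σ, hσ⟩ := tor (m := A' 1 0 / A 1 0) ((hK _).2 (by simpa [y1] using (hS _).2 (Px hA')))
    (by positivity)
  have m0 : A' 1 0 / A 1 0 ≠ 0 := by positivity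
  have m1 : (A' 1 0 / A 1 0) ^ 2 ≠ 1 := by
    rw [ne_eq, sq_eq_one_iff, div_eq_iff y1, div_eq_iff y1]; simp [b2, b3]
  generalize A' 1 0 / A 1 0 = m at *
  obtain ⟨s, z, y, rfl⟩ : ∃ s z y, A = !![s, z; y, s] := ⟨A 0 0, A 0 1, A 1 0, by
    ext i j; fin_cases i <;> fin_cases j; exacts [rfl, rfl, rfl, (congrFun₂ (st_XS hA) 0 0 :)]⟩
  obtain rfl := st' hA
  have c2 := st' (hσ _ _ _ hA)
  simp at y1
  obtain rfl : σ = (1 - m) * τ / 2 := by
    field_simp at c2 ⊢; linear_combination c2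
  have c3 := congrFun₂ (n.det (sub_mem (hσ _ _ _ hA) hA) (by
    simp [det_fin_two]; field_simp; ring)) 1 0
  simp at c3
  exact m1 (mul_right_cancel₀ y1 (by linear_combination c3))

variable (R) in
/-- Many upper unipotent elements. -/
def Big : Prop := ∃ A ∈ R.XS, ∃ A' ∈ R.XS, A ≠ 0 ∧ A' ≠ 0 ∧ A' ≠ A ∧ A' ≠ -A

theorem Big.dc (h : R.Big) (h2 : (2 : F) ≠ 0) (n : R.NT) (e : R.ρ g = bl a b c d) (k : c.det = 0) :
    c = 0 := by
  by_contra c0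
  obtain ⟨A, hA, A', hA', a0, a1, a2, a3⟩ := h
  obtain ⟨u, u0, hu⟩ := exists_mulVec_eq_zero_iff.2 k
  obtain ⟨w, hw⟩ : ∃ w, c *ᵥ w ≠ 0 := by
    by_contra! k; exact c0 (ext_of_mulVec_single fun i => by rw [k, zero_mulVec])
  obtain ⟨v, hv⟩ : ∃ v, bf (vv v 0) (R.ρ g *ᵥ vv w 0) = 1 := by
    rw [e, bl_mv, mulVec_zero, mulVec_zero, add_zero, add_zero]
    generalize c *ᵥ w = x at hw
    by_cases k : x 0 = 0
    · have : x 1 ≠ 0 := fun l => hw (by ext i; fin_cases i <;> assumption)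
      exact ⟨![(x 1)⁻¹, 0], by simp [bf, vv, this]⟩
    · exact ⟨![0, (x 0)⁻¹], by simp [bf, vv, k]⟩
  have gu : R.ρ g *ᵥ vv u 0 = vv (a *ᵥ u) 0 := by simp [e, bl_mv, hu]
  obtain ⟨B, hB, b0, b1, b2⟩ := exB012 (u := R.ρ g *ᵥ vv u 0) ((R.sp g).ne_zero fun e =>
    u0 (vv_inj (u' := 0) (w' := 0) (e.trans (by apply ext4 <;> rfl))).1)
    (by rw [gu]; simp [bf, vv]) (by rw [(R.sp g).bf]; simp [bf, vv]) hv
  have fx {x A} (k : R.ρ x = bl 1 A 0 1) (u) : R.ρ x *ᵥ vv u 0 = vv u 0 := by simp [k, bl_mv]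
  have nx {x A} (k : R.ρ x = bl 1 A 0 1) : ∃ D, (R.cj hB).ρ x = bl 1 D 0 1 :=
    eq_x ((R.cj hB).sp x) (hB.inj (by rw [cj_mv, b0, gu, fx k])) (hB.inj (by rw [cj_mv, b1, fx k]))
  have ne {x x' A A' D} (k : R.ρ x = bl 1 A 0 1) (k' : R.ρ x' = bl 1 A' 0 1)
      (l : (R.cj hB).ρ x = bl 1 D 0 1) (l' : (R.cj hB).ρ x' = bl 1 D 0 1) : A = A' := by
    rw [(R.cj hB).inj (l.trans l'.symm), k'] at k
    exact (bl_inj.1 k).2.1.symm
  obtain ⟨x, hx⟩ := hA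
  obtain ⟨x', hx'⟩ := hA'
  obtain ⟨D, hD⟩ := nx hx
  obtain ⟨D', hD'⟩ := nx hx'
  have o (R : Rep G F) : R.ρ 1 = bl 1 0 0 1 := by rw [map_one, bl_one]
  have i {R : Rep G F} {x A} (k : R.ρ x = bl 1 A 0 1) : R.ρ x⁻¹ = bl 1 (-A) 0 1 := by
    rw [ρ_inv, k, adj_bl, st_XS ⟨x, k⟩]; simp
  have := q0 (k := g * x * g⁻¹) h2 (n.cj hB) ⟨x, hD⟩ ⟨x', hD'⟩ (fun e => a0 (ne hx (o _) (e ▸ hD) (o _)))
    (fun e => a1 (ne hx' (o _) (e ▸ hD') (o _))) (fun e => a2 (ne hx' hx (e ▸ hD') hD))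
    (fun e => a3 (ne hx' (i hx) (e ▸ hD') (i hD)))
    (hB.inj (by rw [cj_mv, b0, mv_mul, mv_mul, mv_inv, fx hx]))
    (hB.inj (by rw [cj_mv, b2, mv_mul, mv_mul, mv_inv, fx hx]))
  rw [conj_eq_one_iff] at this
  exact a0 (bl_inj.1 (hx.symm.trans (this ▸ o R))).2.1

theorem hua0 (h2 : (2 : F) ≠ 0) (da : ∀ g a b c d, R.ρ g = bl a b c d → a.det = 0 → a = 0)
    (hA : A ∈ R.XS) (hB : A' ∈ R.YS) {v : Fin 2 → F} (v0 : v ≠ 0) {l : F} (l0 : l ≠ 0)
    (e : A *ᵥ A' *ᵥ v = l • v) : ((3 : F) = 0 ∧ l ^ 2 = -1) ∨ ∃ B ∈ R.YS, A * B = 1 := by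
  let P (M : M2 F) := M.det = 1 ∧ ∃ g, ∀ x y : F, R.ρ g *ᵥ vv (x • v) (y • A' *ᵥ v) =
    vv ((M 0 0 * x + M 0 1 * y) • v) ((M 1 0 * x + M 1 1 * y) • A' *ᵥ v)
  obtain ⟨x, hx⟩ := id hA
  obtain ⟨y, hy⟩ := id hB
  have px (s t : F) : R.ρ x *ᵥ vv (s • v) (t • A' *ᵥ v) = vv ((s + l * t) • v) (t • A' *ᵥ v) := by
    rw [hx, bl_mv, mulVec_smul A, e]; congr 1 <;> simp; module
  obtain ⟨S, T, hS, hT, -, k | ⟨K, -, hK⟩⟩ := l2o h2 P ⟨det_one, 1, by simp⟩ (by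
      rintro M N ⟨a, g, b⟩ ⟨c, h, d⟩
      refine ⟨by rw [det_mul, a, c, one_mul], g * h, fun x y => ?_⟩
      rw [mv_mul, d, b]; congr 2 <;> simp [mul_apply] <;> ring) (fun _ h => h.1) l0 one_ne_zero
    ⟨by simp [up], x, fun s t => by simp [px, up]⟩ ⟨by simp [lo], y, fun s t => by
      rw [hy, bl_mv, mulVec_smul A']; congr 1 <;> simp [lo, add_smul]⟩
  · exact .inl ⟨k.1, by simpa using k.2.2⟩
  obtain ⟨-, g, hg⟩ := (hT _).1 ((hK _).1 K.one_mem)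
  replace hg (s t : F) : R.ρ g *ᵥ vv (s • v) (t • A' *ᵥ v) = vv (s • v) ((l⁻¹ * s + t) • A' *ᵥ v) := by
    simpa [lo] using hg s t
  have z {g} (t : F) (k : R.ρ g *ᵥ vv ((1 : F) • v) ((0 : F) • A' *ᵥ v) = vv ((0 : F) • v) (t • A' *ᵥ v))
      {a b c d} (e : R.ρ g = bl a b c d) : a = 0 := da g a b c d e (exists_mulVec_eq_zero_iff.1
        ⟨v, v0, by rw [e, bl_mv] at k; simpa using (vv_inj k).1⟩)
  have px' (s t : F) : R.ρ x⁻¹ *ᵥ vv (s • v) (t • A' *ᵥ v) = vv ((s - l * t) • v) (t • A' *ᵥ v) :=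
    (R.sp x).inj (by rw [mv_inv', px]; simp)
  have pt (s t : F) : R.ρ (x⁻¹ * g) *ᵥ vv (s • v) (t • A' *ᵥ v) =
      vv (-(l * t) • v) ((l⁻¹ * s + t) • A' *ᵥ v) := by
    rw [mv_mul, hg, px']; congr 2; field_simp; ring
  generalize x⁻¹ * g = t at pt
  obtain ⟨a, b, c, d, k⟩ := exists_bl (R.ρ t)
  obtain rfl := z l⁻¹ (by rw [pt]; simp) k
  have m := YS_conj k hA
  have := z (g := x * (t * x * t⁻¹)) (-l⁻¹) (by
    have : R.ρ t⁻¹ *ᵥ vv ((1 : F) • v) ((0 : F) • A' *ᵥ v) = vv ((1 : F) • v) (-l⁻¹ • A' *ᵥ v) :=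
      (R.sp t).inj (by rw [mv_inv', pt]; simp [l0])
    rw [mv_mul, mv_mul, mv_mul, this, px, pt, px]; simp [l0]) (by
    rw [map_mul, hx, YS_conj' k hx, bl_mul])
  exact .inr ⟨_, neg_mem m, by rw [← sub_eq_zero, ← neg_eq_zero, ← this]; simp [sub_eq_add_neg]⟩

theorem hua (h2 : (2 : F) ≠ 0) (da : ∀ g a b c d, R.ρ g = bl a b c d → a.det = 0 → a = 0)
    (hA : A ∈ R.XS) (a0 : A.det ≠ 0) (hB : A' ∈ R.YS) (b0 : A'.det ≠ 0) :
    ((3 : F) = 0 ∧ ((A * A').trace = 0 ∧ (A * A').det = 1 ∨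
      (A * A').trace ^ 2 = -4 ∧ (A * A').det = -1)) ∨ ∃ B ∈ R.YS, A * B = 1 := by
  refine or_iff_not_imp_right.2 fun n => ?_
  obtain ⟨K, _, _, φ, l, m, e, e'⟩ := exists_root2 (A * A').trace (A * A').det
  have i := φ.injective
  have i' := Matrix.map_injective (m := Fin 2) (n := Fin 2) i
  have key {l m : K} (e : l + m = φ (A * A').trace) (e' : l * m = φ (A * A').det) :
      (3 : K) = 0 ∧ l ^ 2 = -1 := by
    obtain ⟨v, v0, k⟩ := exists_mulVec_eq_zero_iff.2 (show ((A * A').map φ - l • 1).det = 0 by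
      rw [det_fin_two] at e' ⊢
      rw [trace_fin_two] at e
      simp only [map_add, map_sub, map_mul] at e e'
      generalize A * A' = M at e e'
      simp
      linear_combination -e' + l * e)
    refine (hua0 (R := R.map φ) (A := A.map φ) (A' := A'.map φ) (by
      rw [← map_ofNat φ]; exact (map_ne_zero φ).2 h2) (fun g a b c d e k => ?_)
      (hA.imp fun g e => by simp [map_ρ, e, bl_map]) (hB.imp fun g e => by simp [map_ρ, e, bl_map])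
      v0 (left_ne_zero_of_mul (e' ▸ (map_ne_zero φ).2 (by simp [*]))) (by
        rw [mulVec_mulVec, ← Matrix.map_mul, ← sub_eq_zero, ← k, sub_mulVec, smul_mulVec,
          one_mulVec])).resolve_right ?_
    · obtain ⟨a', b', c', d', e'⟩ := exists_bl (R.ρ g)
      rw [map_ρ, e', bl_map, bl_inj] at e
      obtain rfl := da g _ _ _ _ e' (i (by rw [RingHom.map_det, map_zero, ← k, ← e.1]; rfl))
      simp [← e.1]
    · rintro ⟨B, ⟨g, e⟩, k⟩
      obtain ⟨a', b', c', d', e'⟩ := exists_bl (R.ρ g)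
      rw [map_ρ, e', bl_map, bl_inj] at e
      obtain ⟨e1, e2, rfl, e4⟩ := e
      refine n ⟨c', ⟨g, e'.trans (bl_inj.2 ⟨i' ?_, i' ?_, rfl, i' ?_⟩)⟩, i' ?_⟩ <;> simp [*]
  obtain ⟨k, k1⟩ := key e e'
  obtain ⟨-, k2⟩ := key (l := m) (add_comm l m ▸ e) (mul_comm l m ▸ e')
  refine ⟨i (by simpa [map_ofNat]), ?_⟩
  obtain rfl | rfl : m = -l ∨ m = l := by grind
  · exact .inl ⟨i (by simp [← e]), i (by rw [← e', map_one]; linear_combination -k1)⟩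
  · exact .inr ⟨i (by simp [← e, map_ofNat]; linear_combination 4 * k1),
      i (by rw [← e', map_neg, map_one]; linear_combination k1)⟩

end Rep

end CF.MaxSub.O4
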