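/-
Subgroups of `Sp₄` without transvections have few quadratic unipotent elements (conclusion).
-/
import Cfsg.Agent.MaxSub.O4C

set_option autoImplicit false

namespace CF.MaxSub.O4

open Matrix
open CF.MaxSub.E4 (M4 M2 mulVec4 mul4 ext4 trace4 e0 e1 e3)

attribute [-simp] Matrix.mulVec_fin_two

variable {F : Type*} [Field F] [Finite F] {M N B C : M4 F} {a b c d A A' : M2 F}

theorem jordan (h2 : (2 : F) ≠ 0) (S : AddSubgroup (M2 F)) (h1 : 1 ∈ S) (hs : ∀ k ∈ S, k * k ∈ S)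
    (hn : ∀ k ∈ S, k.det = 0 → k = 0) (hi : ∀ c : F, c • (1 : M2 F) ∈ S → c⁻¹ • (1 : M2 F) ∈ S)
    (ha : a ∈ S) (hb : b ∈ S) : a * b = b * a := by
  have J {a b} (ha : a ∈ S) (hb : b ∈ S) : a * b + b * a ∈ S := by
    convert sub_mem (sub_mem (hs _ (add_mem ha hb)) (hs _ ha)) (hs _ hb) using 1; noncomm_ring
  obtain ⟨K, hK⟩ := CF.MH.exists_subfield_of_inv (S.comap ((smulAddHom F (M2 F)).flip 1))
    (by simpa) hi
  replace hK (c : F) : c ∈ K ↔ c • (1 : M2 F) ∈ S := hK c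
  have sm {c a} (hc : c ∈ K) (ha : a ∈ S) : c • a ∈ S := by
    obtain ⟨n, hn⟩ := CF.MH.exists_half h2
    convert nsmul_mem (J ((hK c).1 hc) ha) n using 1
    rw [smul_mul_assoc, mul_smul_comm, one_mul, mul_one, ← two_smul F, ← Nat.cast_smul_eq_nsmul F,
      smul_smul, hn, one_smul]
  have dt {p q r : F} (h : !![p, q; r, -p] ∈ S) : p ^ 2 + q * r ∈ K := (hK _).2 (by
    convert hs _ h using 1
    ext i j; fin_cases i <;> fin_cases j <;> simp <;> ring)
  have main {a b} (ha : a ∈ S) (hb : b ∈ S) (e : (a 0 0 - a 1 1) ^ 2 + 4 * (a 0 1 * a 1 0) ≠ 0) :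
      a * b = b * a := by
    obtain ⟨p, q, r, k, l, m⟩ : ∃ p q r, !![p, q; r, -p] ∈ S ∧
        p * (a 0 0 - a 1 1) + q * a 1 0 + r * a 0 1 = 0 ∧ (p = 0 → q = 0 → r = 0 → a * b = b * a) := by
      obtain ⟨d, this, hd⟩ : ∃ d ∈ S, _ = d :=
        ⟨_, sub_mem (J (hs _ ha) hb) (sub_mem (J ha (J ha hb)) (J (hs _ ha) hb)), rfl⟩
      have e1 (i j) := congrFun₂ hd i j
      refine ⟨d 0 0, d 0 1, d 1 0, ?_, ?_, fun h0 h1 h2 => ?_⟩
      · convert this using 1
        ext i j; fin_cases i <;> fin_cases j <;> simp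
        simp [← e1, mul_apply]; ring
      · simp [← e1, mul_apply]; ring
      · simp [← e1, mul_apply] at h0 h1 h2
        ext i j; fin_cases i <;> fin_cases j <;> simp [mul_apply] <;> apply mul_left_cancel₀ e
        · linear_combination a 0 1 * h2 - a 1 0 * h1
        · linear_combination (a 0 0 - a 1 1) * h1 - 2 * a 0 1 * h0
        · linear_combination 2 * a 1 0 * h0 - (a 0 0 - a 1 1) * h2
        · linear_combination a 1 0 * h1 - a 0 1 * h2
    by_contra n
    have d0 : p ^ 2 + q * r ≠ 0 := fun e => by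
      have := hn _ k (by simp [det_fin_two]; linear_combination -e)
      exact n (m (congrFun₂ this 0 0) (congrFun₂ this 0 1) (congrFun₂ this 1 0))
    have k' : !![a 0 0 - a 1 1, 2 * a 0 1; 2 * a 1 0, -(a 0 0 - a 1 1)] ∈ S := by
      convert sm (inv_mem (mul_mem (ofNat_mem K 2) (dt k)))
        (sub_mem (J (hs _ k) ha) (sub_mem (J k (J k ha)) (J (hs _ k) ha))) using 1
      rw [eq_inv_smul_iff₀ (by positivity)]
      ext i j; fin_cases i <;> fin_cases j <;>
        simp only [Matrix.sub_apply, Matrix.add_apply, mul_apply, Fin.sum_univ_two] <;> simp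
      · linear_combination 2 * p * l
      · linear_combination 2 * q * l
      · linear_combination 2 * r * l
      · linear_combination -2 * p * l
    obtain ⟨x, hx, y, hy, z, hz, n, e'⟩ := CF.Geom.exists_ternary K K.one_mem (neg_mem (dt k))
      (neg_mem (dt k')) K.zero_mem K.zero_mem K.zero_mem
    have := hn _ (add_mem (add_mem (sm hx h1) (sm hy k)) (sm hz k')) (by
      simp [det_fin_two]; linear_combination e' - 2 * y * z * l)
    have c0 := congrFun₂ this 0 0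
    have c1 := congrFun₂ this 0 1
    have c2 := congrFun₂ this 1 0
    have c3 := congrFun₂ this 1 1
    simp at c0 c1 c2 c3
    refine n ⟨mul_left_cancel₀ h2 (by linear_combination c0 + c3),
      mul_left_cancel₀ (mul_ne_zero h2 d0) ?_, mul_left_cancel₀ (mul_ne_zero h2 e) ?_⟩
    · linear_combination p * (c0 - c3) + r * c1 + q * c2 - 2 * z * l
    · linear_combination (a 0 0 - a 1 1) * (c0 - c3) + 2 * a 1 0 * c1 + 2 * a 0 1 * c2 - 2 * y * l
  by_contra n
  have e1 := mt (main ha hb) n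
  have e2 := mt (main hb ha) (Ne.symm n)
  have e3 := mt (main (add_mem ha hb) hb) fun e => n (by simpa [add_mul, mul_add] using e)
  simp only [not_not, Matrix.add_apply] at e1 e2 e3
  have e4 : (a 0 0 - a 1 1) * (b 0 0 - b 1 1) + 2 * (a 0 1 * b 1 0 + a 1 0 * b 0 1) = 0 :=
    mul_left_cancel₀ h2 (by linear_combination e3 - e1 - e2)
  have e5 : a 0 1 * b 1 0 - a 1 0 * b 0 1 = 0 := pow_eq_zero_iff two_ne_zero |>.1
    (mul_left_cancel₀ (four_ne h2) (by
      linear_combination (2 * (a 0 1 * b 1 0 + a 1 0 * b 0 1) - (a 0 0 - a 1 1) * (b 0 0 - b 1 1)) * e4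
        + (b 0 0 - b 1 1) ^ 2 * e1 - 4 * (a 0 1 * a 1 0) * e2))
  refine n ?_
  ext i j; fin_cases i <;> fin_cases j <;> simp [mul_apply]
  · linear_combination e5
  · rw [← sub_eq_zero, ← pow_eq_zero_iff two_ne_zero]
    linear_combination b 0 1 ^ 2 * e1 + a 0 1 ^ 2 * e2 - 2 * a 0 1 * b 0 1 * e4
  · rw [← sub_eq_zero, ← pow_eq_zero_iff two_ne_zero]
    linear_combination b 1 0 ^ 2 * e1 + a 1 0 ^ 2 * e2 - 2 * a 1 0 * b 1 0 * e4
  · linear_combination -e5

omit [Finite F] in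
theorem st_anti (h2 : (2 : F) ≠ 0) (h : st a = -a) (k : M2 F) : k * a * st k = k.det • a := by
  have e0 := congrFun₂ h 0 0
  have e1 := congrFun₂ h 0 1
  have e2 := congrFun₂ h 1 0
  simp [st] at e0 e1 e2
  replace e1 : a 0 1 = 0 := mul_left_cancel₀ h2 (by linear_combination e1)
  replace e2 : a 1 0 = 0 := mul_left_cancel₀ h2 (by linear_combination e2)
  ext i j; fin_cases i <;> fin_cases j <;> simp only [mul_apply, Fin.sum_univ_two] <;>
    simp [st, det_fin_two, *] <;> ring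

omit [Finite F] in
theorem st_sub (a b : M2 F) : st (a - b) = st a - st b := by
  ext i j; fin_cases i <;> fin_cases j <;> simp [st]

omit [Finite F] in
theorem st_inv (h : st a = a) (k : IsUnit a.det) : st a⁻¹ = a⁻¹ :=
  (inv_eq_left_inv (by rw [← h, ← st_mul, h, mul_nonsing_inv _ k, st_one])).symm

namespace Rep

variable {G : Type*} [Group G] {R : Rep G F} {g h k : G}

omit [Finite F] in
theorem XS_conj' (e : R.ρ g = bl a b 0 d) (k : R.ρ h = bl 1 A 0 1) :
    R.ρ (g * h * g⁻¹) = bl 1 (a * A * st a) 0 1 := by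
  have := (sp_bl.1 (e ▸ R.sp g)).2.2.2
  simp only [st_zero, zero_mul, sub_zero] at this
  exact R.ρ_conj (by rw [e, k, bl_mul, bl_mul]; simp [mul_assoc, add_comm, this])

theorem Big.om (hb : R.Big) (h2 : (2 : F) ≠ 0) (n : R.NT) (e : R.ρ g = bl 0 b c d) (hA : A ∈ R.XS)
    (a0 : A ≠ 0) : ∃ g, R.ρ g = bl 0 A (-A⁻¹) 0 := by
  have c0 : IsUnit c.det := by
    have := congrArg det (sp_bl.1 (e ▸ R.sp g)).1
    rw [mul_zero, zero_sub, ← neg_mul, det_mul, det_one] at this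
    exact .of_mul_eq_one_right _ this
  have da (x a b' c' d') (k : R.ρ x = bl a b' c' d') (l : a.det = 0) : a = 0 := by
    have := hb.dc (g := g⁻¹ * x) h2 n (by rw [map_mul, ρ_inv, e, k, adj_bl, bl_mul])
      (by simp [l, det_neg])
    simpa [((isUnit_iff_isUnit_det _).2 ((det_st c).symm ▸ c0)).mul_right_eq_zero] using this
  suffices ∃ B ∈ R.YS, A * B = 1 by
    obtain ⟨B, hB, l⟩ := this
    obtain ⟨x, hx⟩ := hA
    obtain ⟨y, hy⟩ := neg_mem hB
    exact ⟨x * y * x, by simp [hx, hy, bl_mul, l, inv_eq_right_inv l, mul_eq_one_comm.1 l]⟩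
  by_contra l
  have key {D} (hD : D ∈ R.XS) (d0 : D ≠ 0) := (hua h2 da hA (mt (n.det hA) a0) (YS_conj e hD) (by
    simp [c0.ne_zero, mt (n.det hD) d0, det_neg])).resolve_right l
  obtain ⟨D, hD, D', hD', d0, d1, d2, d3⟩ := hb
  have k1 := key hD d0
  have k2 := key hD' d1
  have k3 := key (add_mem hD' hD) (mt eq_neg_of_add_eq_zero_left d3)
  have k4 := key (sub_mem hD' hD) (sub_ne_zero.2 d2)
  simp only [mul_add, add_mul, mul_sub, sub_mul, neg_add, neg_sub', mul_neg] at k1 k2 k3 k4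
  generalize A * (c * D * st c) = X, A * (c * D' * st c) = Y at *
  have : (-Y + -X).det + (-Y - -X).det = 2 * (-X).det + 2 * (-Y).det := by simp [det_fin_two]; ring
  simp only [trace_add, trace_sub] at k3 k4
  generalize (-X).det = x, (-Y).det = y, (-X).trace = s, (-Y).trace = t, (-Y + -X).det = u,
    (-Y - -X).det = v at *
  grind

theorem Big.tor (hb : R.Big) (h2 : (2 : F) ≠ 0) (n : R.NT) (e : R.ρ g = bl 0 b c d) (hA : A ∈ R.XS)
    (a0 : A ≠ 0) (hA' : A' ∈ R.XS) (a1 : A' ≠ 0) : ∃ g, R.ρ g = bl (A * A'⁻¹) 0 0 (A⁻¹ * A') := by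
  obtain ⟨x, hx⟩ := hb.om h2 n e hA a0
  obtain ⟨y, hy⟩ := hb.om h2 n e hA' a1
  have u : IsUnit A'.det := Ne.isUnit (mt (n.det hA') a1)
  exact ⟨x * y⁻¹, by simp [ρ_inv, hx, hy, adj_bl, bl_mul, st_XS hA', st_inv (st_XS hA') u]⟩

omit [Finite F] in
theorem XS_cj (h : st c = c) : (R.cj (sp_x h)).XS = R.XS := AddSubgroup.ext fun A =>
  exists_congr fun g => by
    rw [cj_eq, show bl 1 c 0 1 * bl 1 A 0 1 = bl 1 A 0 1 * bl 1 c 0 1 by simp [bl_mul, add_comm]]
    exact ⟨(sp_x h).cancel, fun e => e ▸ rfl⟩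

theorem Big.opp (hb : R.Big) (h2 : (2 : F) ≠ 0) (n : R.NT) (e : R.ρ g = bl a b c d) (c0 : c ≠ 0) :
    ∃ C, ∃ h : st C = C, ∃ b c d, (R.cj (sp_x h)).ρ g = bl 0 b c d := by
  have u : IsUnit c.det := Ne.isUnit (mt (hb.dc h2 n e) c0)
  have : st (a * c⁻¹) = a * c⁻¹ := ((isUnit_iff_isUnit_det c).2 u).mul_right_cancel
    (((isUnit_iff_isUnit_det _).2 ((det_st c).symm ▸ u)).mul_left_cancel (by
      rw [← mul_assoc, ← st_mul, nonsing_inv_mul_cancel_right _ _ u, (sp_bl.1 (e ▸ R.sp g)).2.2.1]))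
  exact ⟨_, this, _, _, _, by
    rw [cj_ρ, e, adj_bl, bl_mul, bl_mul, this]; congr 1; simp [nonsing_inv_mul_cancel_right _ _ u]⟩

omit [Finite F] in
theorem Big.cj (hb : R.Big) (h : st c = c) : (R.cj (sp_x h)).Big := by rwa [Big, XS_cj h]

theorem Big.exa (hb : R.Big) (h2 : (2 : F) ≠ 0) (n : R.NT) (e : R.ρ g = bl 0 b c d) :
    ∃ a : M2 F, (∀ c : F, a ≠ c • 1) ∧ ∀ D ∈ R.XS, a * D = D * st a := by
  have u {A} (hA : A ∈ R.XS) (a0 : A ≠ 0) : IsUnit A.det := Ne.isUnit (mt (n.det hA) a0)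
  have op {A B C} (hA : A ∈ R.XS) (hB : B ∈ R.XS) (b0 : B ≠ 0) (hC : C ∈ R.XS) :
      A * B⁻¹ * C * (B⁻¹ * A) ∈ R.XS := by
    by_cases a0 : A = 0
    · simp [a0]
    obtain ⟨x, k⟩ := hb.tor h2 n e hA a0 hB b0
    simpa [st_mul, st_XS hA, st_inv (st_XS hB) (u hB b0)] using XS_conj k hC
  obtain ⟨A, hA, -, -, a0, -⟩ := hb
  have uA := u hA a0
  have uA' := (isUnit_iff_isUnit_det _).2 uA
  obtain ⟨_⟩ := uA'.nonempty_invertible
  have J {x y} (hx : x * A ∈ R.XS) (hy : y * A ∈ R.XS) : x * y = y * x := by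
    refine jordan h2 (R.XS.comap (AddMonoidHom.mulRight A)) (by simpa)
      (fun k (hk : k * A ∈ _) => by simpa [mul_assoc] using op hk hA a0 hA)
      (fun k (hk : k * A ∈ _) l => uA'.mul_left_eq_zero.1 (n.det hk (by simp [l]))) (fun c hc => ?_)
      hx hy
    by_cases c0 : c = 0
    · simp [c0]
    have : (c • A)⁻¹ = c⁻¹ • A⁻¹ := inv_eq_right_inv (by simp [smul_smul, c0])
    have hc' : c • A ∈ R.XS := by simpa using hc
    simpa [this, mul_assoc, smul_smul, c0] using op hA hc' (by simp [*]) hc'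
  obtain ⟨E, e1, e2, e3⟩ : ∃ E, st E = E ∧ (∀ c : F, E ≠ c • A) ∧ ∀ D ∈ R.XS,
      E * A⁻¹ * (D * A⁻¹) = D * A⁻¹ * (E * A⁻¹) := by
    by_cases k : ∃ E ∈ R.XS, ∀ c : F, E ≠ c • A
    · obtain ⟨E, k, l⟩ := k
      exact ⟨E, st_XS k, l, fun D hD => J (by simpa) (by simpa)⟩
    push Not at k
    refine ⟨!![0, 1; 0, 0], by simp [st], fun c l => ?_, fun D hD => ?_⟩
    · have := congrArg det l
      simp [uA.ne_zero] at this
      simpa [this] using congrFun₂ l 0 1
    · obtain ⟨c, rfl⟩ := k D hD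
      simp
  refine ⟨E * A⁻¹, fun c l => e2 c (by simpa using congrArg (· * A) l), fun D hD => ?_⟩
  simpa [st_mul, e1, st_inv (st_XS hA) uA, mul_assoc] using congrArg (· * A) (e3 D hD)

variable [Finite G]

theorem Big.false0 (hb : R.Big) (h : R.Core) (e : R.ρ g = bl 0 b c d) : False := by
  have h2 := h.two
  have n : R.NT := fun _ _ _ => h.nt
  have u {A} (hA : A ∈ R.XS) (a0 : A ≠ 0) : IsUnit A.det := Ne.isUnit (mt (n.det hA) a0)
  obtain ⟨a, ns, ha⟩ := hb.exa h2 n e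
  obtain ⟨A, hA, A', hA', a0, a1, a2, a3⟩ := id hb
  have uA := u hA a0
  obtain ⟨_⟩ := ((isUnit_iff_isUnit_det _).2 uA).nonempty_invertible
  obtain ⟨D, hD, D', hD', d0, d1, dd⟩ : ∃ D ∈ R.XS, ∃ D' ∈ R.XS, D ≠ 0 ∧ D' ≠ 0 ∧ D.det ≠ D'.det := by
    by_contra! k
    have k1 := k _ hA' _ hA a1 a0
    have k2 := k _ (add_mem hA' hA) _ hA (mt eq_neg_of_add_eq_zero_left a3) a0
    have k3 := k _ (sub_mem hA' hA) _ hA (sub_ne_zero.2 a2) a0
    have : (A' + A).det + (A' - A).det = 2 * A'.det + 2 * A.det := by simp [det_fin_two]; ring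
    exact mul_ne_zero h2 uA.ne_zero (by linear_combination k2 + k3 - this - 2 * k1)
  have cx {D} (k : a * D = D * st a) : bl a 0 0 (st a) * bl 1 D 0 1 = bl 1 D 0 1 * bl a 0 0 (st a) := by
    simp [bl_mul, k]
  obtain ⟨t, ht⟩ := id hA
  obtain ⟨c, hc⟩ := h.cen (M := bl a 0 0 (st a)) (h.ind t (fun c l => a0 (by
      have := fun i j => congrFun₂ (ht.symm.trans l) i j
      ext i j; fin_cases i <;> fin_cases j
      exacts [by simpa [bl] using this 0 2, by simpa [bl] using this 0 3, by simpa [bl] using this 1 2,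
        by simpa [bl] using this 1 3])) _ (by simp) fun g x hx => by
    suffices bl a 0 0 (st a) * R.ρ (g * t * g⁻¹) = R.ρ (g * t * g⁻¹) * bl a 0 0 (st a) by
      rw [map_mul _ _ x, ← mul_assoc, this, mul_assoc, hx, ← mul_assoc]
    obtain ⟨p, q, r, s, k⟩ := exists_bl (R.ρ g)
    by_cases r0 : r = 0
    · subst r0
      rw [XS_conj' k ht]; exact cx (ha _ (XS_conj k hA))
    obtain ⟨C, hC, q, r, s, k⟩ := hb.opp h2 n k r0
    have hb' := hb.cj hC
    have n' := n.cj (sp_x hC)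
    have c3 : a * C = C * st a := by
      obtain ⟨y, hy⟩ := hb.tor h2 n e hD d0 hD' d1
      obtain ⟨y', hy'⟩ := hb'.tor h2 n' k ((XS_cj hC).ge hD) d0 ((XS_cj hC).ge hD') d1
      have dk : (D * D'⁻¹).det ≠ 1 := fun l => dd (by
        rw [← nonsing_inv_mul_cancel_right D' D (u hD' d1), det_mul, l, one_mul])
      have ak : a * (D * D'⁻¹) = D * D'⁻¹ * a := by
        rw [← mul_assoc, ha _ hD, ← nonsing_inv_mul_cancel_left D' (st a) (u hD' d1), ← ha _ hD']
        simp only [mul_assoc, mul_nonsing_inv _ (u hD' d1), mul_one]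
      have s := (sp_bl.1 (hy ▸ R.sp y)).2.2.2
      generalize D * D'⁻¹ = k, D⁻¹ * D' = k' at *
      rw [cj_eq] at hy'
      simp only [st_zero, zero_mul, sub_zero] at s
      have := ha (C - k * C * st k) ⟨y' * y⁻¹, (R.sp y).cancel ((sp_x hC).cancel (by
        rw [← map_mul, inv_mul_cancel_right, hy', hy]
        simp [bl_mul, sub_mul, mul_assoc, s]))⟩
      have l := st_anti h2 (a := a * C - C * st a) (by simp [st_sub, st_mul, hC]) k
      have sk : st k * st a = st a * st k := by rw [← st_mul, ← st_mul, ak]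
      have : (1 - k.det) • (a * C - C * st a) = 0 := by
        rw [sub_smul, ← l, one_smul, sub_eq_zero, mul_sub k, sub_mul, ← mul_assoc, ← ak,
          mul_assoc k (C * _), mul_assoc C, ← sk, sub_eq_sub_iff_sub_eq_sub]
        simpa [mul_sub, sub_mul, mul_assoc] using this
      simpa [sub_eq_zero, dk.symm] using this
    obtain ⟨y, hy⟩ := hb'.om h2 n' k ((XS_cj hC).ge hA) a0
    have ht' : (R.cj (sp_x hC)).ρ t = bl 1 A 0 1 := by
      rw [cj_eq, ht]; simp [bl_mul, add_comm]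
    have l := YS_conj' k ht'
    generalize -(r * A * st r) = B at l
    have := ha (-(A * B * A)) ((XS_cj hC).le ⟨_, (R.cj (sp_x hC)).ρ_conj (g := y) (by
      rw [l, hy]; simp [bl_mul])⟩)
    replace : st a * B = B * a := ((isUnit_iff_isUnit_det _).2 uA).mul_left_cancel
      (((isUnit_iff_isUnit_det _).2 uA).mul_right_cancel (by
        rw [← mul_assoc, ← ha _ hA, mul_assoc A, mul_assoc B, ha A hA]
        simpa [mul_assoc, ← mul_assoc a A, ha A hA] using this))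
    rw [cj_eq] at l
    refine (sp_x hC).cancel ?_
    rw [mul_assoc, l, ← mul_assoc, cx c3, mul_assoc (R.ρ _), cx c3, ← mul_assoc, l, mul_assoc,
      mul_assoc]
    simp [bl_mul, this])
  exact ns c (by
    have := fun i j => congrFun₂ hc i j
    ext i j; fin_cases i <;> fin_cases j
    exacts [by simpa [bl] using this 0 0, by simpa [bl] using this 0 1, by simpa [bl] using this 1 0,
      by simpa [bl] using this 1 1])

theorem Core.big (h : R.Core) : ¬ R.Big := fun hb => by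
  obtain ⟨g, k⟩ := h.orb (v := e0) (w := e0) CF.MaxSub.E4.e0_ne CF.MaxSub.E4.e0_ne
  obtain ⟨p, q, r, s, e⟩ := exists_bl (R.ρ g)
  obtain ⟨C, hC, q, r, s, k⟩ := hb.opp h.two (fun _ _ _ => h.nt) e (by
    rintro rfl; simp [e, bf, bl, e0, mulVec4] at k)
  exact (hb.cj hC).false0 (h.cj _) k

/-- Few quadratic unipotent elements. -/
theorem Core.nq (h : R.Core) (e : R.ρ g = 1 + N) (e' : R.ρ k = 1 + M) (h1 : N * N = 0)
    (h2 : M * M = 0) (h3 : N * M = 0) (h4 : M * N = 0) : N = 0 ∨ M = 0 ∨ M = N ∨ M = -N := by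
  by_contra! n
  have a {g N} (e : R.ρ g = 1 + N) (h1 : N * N = 0) : adj N = -N := by
    have := (R.sp g).eq_adj (N := 1 - N) (by rw [e]; noncomm_ring [h1])
    rw [e, adj_add, adj_one, sub_eq_add_neg, add_right_inj] at this
    exact this.symm
  obtain ⟨B, hB, A, hA⟩ := exists_nf (ε := -1) h1 (by simp [a e h1])
  have c {g N} (e : R.ρ g = 1 + N) : (R.cj hB).ρ g = 1 + adj B * N * B := by
    rw [cj_ρ, e, mul_add, add_mul, mul_one, hB]
  have m (N M) : adj B * (N * M) * B = adj B * N * B * (adj B * M * B) := by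
    rw [mul_assoc (adj B * N), ← mul_assoc B, ← mul_assoc B, hB.mul_adj]; simp [mul_assoc]
  have i {N M} (e : adj B * N * B = adj B * M * B) : N = M := hB.adj.cancel' (hB.cancel e)
  have x {g A} (e : (R.cj hB).ρ g = 1 + bl 0 A 0 0) : A ∈ (R.cj hB).XS :=
    ⟨g, by simp [e, bl_one, bl_add]⟩
  have a0 : A ≠ 0 := fun k => n.1 (i (by simp [hA, k, ← bl_zero]))
  have u := (isUnit_iff_isUnit_det _).2
    (Ne.isUnit (mt (NT.det (fun _ _ _ => (h.cj hB).nt) (x (hA ▸ c e))) a0))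
  obtain ⟨p, q, r, s, k⟩ := exists_bl (adj B * M * B)
  have k3 := m N M
  have k4 := m M N
  rw [h3, hA, k, bl_mul, mul_zero, zero_mul, bl_zero, eq_comm, bl_inj] at k3
  rw [h4, hA, k, bl_mul, mul_zero, zero_mul, bl_zero, eq_comm, bl_inj] at k4
  simp [u.mul_left_eq_zero, u.mul_right_eq_zero] at k3 k4
  obtain ⟨rfl, rfl⟩ := k3
  obtain ⟨rfl, -⟩ := k4
  refine (h.cj hB).big ⟨A, x (hA ▸ c e), q, x (k ▸ c e'), a0, ?_, ?_, ?_⟩ <;> rintro rfl
  · exact n.2.1 (i (by simp [k, ← bl_zero]))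
  · exact n.2.2.1 (i (k.trans hA.symm))
  · refine n.2.2.2 (i ?_)
    rw [mul_neg, neg_mul, k, hA, eq_neg_iff_add_eq_zero, bl_add]; simp [bl_zero]

end Rep

end CF.MaxSub.O4
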