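/-
Small facts used to read off the lists of maximal subgroups of the orthogonal groups.
-/
import Cfsg.Agent.MaxSub.AschO

set_option autoImplicit false

namespace CF.MaxSub

open Matrix Cfsg Cfsg.Geo

variable {ι : Type} [Fintype ι] [DecidableEq ι] {F : Type*} [Field F]

theorem isND_of_qf {Q : QuadraticForm F (ι → F)} (h : (QuadraticMap.polarBilin Q).Nondegenerate) :
    IsNondegenerateQuadraticForm Q :=
  ⟨fun c v => by rw [Q.map_smul, sq, smul_eq_mul], ⟨Q.polar_add_left, Q.polar_smul_left,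
    Q.polar_add_right, Q.polar_smul_right⟩, fun v hv =>
      ⟨by_contra fun h' => hv (h.2 v (by simpa using h')),
        by_contra fun h' => hv (h.1 v (by simpa using h'))⟩⟩

theorem exists_isQ_odd [Fintype F] (hq : Odd (Fintype.card F)) (m : ℕ) :
    ∃ φ : FD (Unit ⊕ (Fin m ⊕ Fin m)) F, φ.IsQ (quadFormOdd m F) :=
  let ⟨φ, _, h⟩ := exists_isQ_of_nd
    (isND_of_qf (Geom.qOdd_nondegenerate (Geom.two_ne_zero_of_odd_card hq) m))
  ⟨φ, h⟩

theorem card_odd_eq (m : ℕ) : Fintype.card (Unit ⊕ (Fin m ⊕ Fin m)) = 2 * m + 1 := by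
  simp; omega

theorem rescale_odd {m : ℕ} {φ : FD (Unit ⊕ (Fin m ⊕ Fin m)) F} (h : φ.IsQ (quadFormOdd m F))
    {F₀ : Subfield F} {ζ : F} (h0 : ζ ≠ 0) {P : GL _ F}
    (h2 : IsQuadFormRationalStructure (fun v => ζ * quadFormOdd m F v) F₀ P) :
    ∃ P', IsQuadFormRationalStructure (quadFormOdd m F) F₀ P' ∧
      subfieldSubgroup F₀ P' = subfieldSubgroup F₀ P :=
  h.rescale (card_odd_eq m ▸ odd_two_mul_add_one m) (fun _ hu => add_mem (pow_mem (hu _) _)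
    (sum_mem fun _ _ => mul_mem (hu _) (hu _))) h0 h2

namespace FD.IsQ

variable [Fintype F] {φ : FD ι F} {Q : (ι → F) → F} {t k : ℕ} {D : Fin t → Submodule F (ι → F)}

theorem pl_even (h : φ.IsQ Q) (hD : IsOrthogonalMDecomposition Q k D) (hk : Even k) :
    IsPlusTypeOn Q ⊤ ↔ Even t ∨ ∀ i, IsPlusTypeOn Q (D i) :=
  h.pl_iff_even (h.ortho.1 hD).1 hk fun i j => h.pl_iff_of_isometric (hD.2 i j)

theorem not_pl_all (h : φ.IsQ Q) (hD : IsOrthogonalMDecomposition Q k D) (hk : Even k)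
    (hp : ¬ IsPlusTypeOn Q ⊤) (i : Fin t) : ¬ IsPlusTypeOn Q (D i) := fun hi =>
  hp ((h.pl_even hD hk).2 (Or.inr fun j => (h.pl_iff_of_isometric (hD.2 i j)).1 hi))

theorem pl_odd (h : φ.IsQ Q) (hD : IsOrthogonalMDecomposition Q k D) (hq : Odd (Fintype.card F))
    (ht : Even t) {m : ℕ} (hm : Fintype.card ι = 2 * m) :
    IsPlusTypeOn Q ⊤ ↔ Even m ∨ Fintype.card F % 4 = 1 := by
  rw [h.pl_iff_odd (Geom.two_ne_zero_of_odd_card hq) (h.ortho.1 hD).1 hD.2 ht hm]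
  have h1 : Fintype.card F % 4 = 1 ∨ Fintype.card F % 4 = 3 := by obtain ⟨_, _⟩ := hq; omega
  rcases h1 with h1 | h1
  · simp [Nat.pow_mod, h1]
  · obtain ⟨j, rfl | rfl⟩ := m.even_or_odd' <;> simp [h1, pow_succ, pow_mul, Nat.pow_mod, Nat.mul_mod]

theorem pl_pair (h : φ.IsQ Q) {D : Fin 2 → Submodule F (ι → F)}
    (hD : IsNondegenerateMDecomposition φ.f k D) (hi : ¬ AreIsometricFor Q (D 0) (D 1)) (hk : Odd k)
    (hq : Odd (Fintype.card F)) : IsPlusTypeOn Q ⊤ ↔ Fintype.card F % 4 = 3 := by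
  have h2 := h.not_pl_iff_pair (Geom.two_ne_zero_of_odd_card hq) hD hi
  have h1 : Fintype.card F % 4 = 1 ∨ Fintype.card F % 4 = 3 := by obtain ⟨_, _⟩ := hq; omega
  obtain ⟨j, rfl⟩ := hk
  rcases h1 with h1 | h1 <;> simpa [h1, pow_succ, pow_mul, Nat.pow_mod, Nat.mul_mod] using h2

end FD.IsQ

end CF.MaxSub
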