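/-
Abstract Pauli groups: the associated symplectic space over the field with two elements.
-/
import Cfsg.Agent.Geom.FrG

set_option autoImplicit false
set_option linter.unusedSectionVars false

namespace CF.MaxSub

open Module Subgroup

variable {G : Type*} [Group G]

open scoped _root_.Classical in
/-- The commutation sign. -/
noncomputable def bt (a b : G) : ZMod 2 := if a * b = b * a then 0 else 1

open scoped _root_.Classical in
/-- The square sign. -/
noncomputable def qd (a : G) : ZMod 2 := if a * a = 1 then 0 else 1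

theorem bt_eq_zero {a b : G} : bt a b = 0 ↔ a * b = b * a := by
  unfold bt; split_ifs with h <;> simp [h]

theorem qd_eq_zero {a : G} : qd a = 0 ↔ a * a = 1 := by
  unfold qd; split_ifs with h <;> simp [h]

theorem bt_ext {a b c d : G} (h : a * b = b * a ↔ c * d = d * c) : bt a b = bt c d := by
  classical
  unfold bt; exact if_congr h rfl rfl

theorem bt_comm (a b : G) : bt a b = bt b a := bt_ext eq_comm

theorem bt_self (a : G) : bt a a = 0 := bt_eq_zero.2 rfl

theorem bt_conj (g a b : G) : bt (g * a * g⁻¹) (g * b * g⁻¹) = bt a b :=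
  bt_ext (by simp only [conj_mul, mul_left_inj, mul_right_inj])

theorem qd_conj (g a : G) : qd (g * a * g⁻¹) = qd a := by
  classical
  unfold qd; exact if_congr (by simp only [conj_mul, conj_eq_one_iff]) rfl rfl

theorem bt_of_center {c : G} (hc : c ∈ center G) (a : G) : bt c a = 0 :=
  bt_eq_zero.2 (mem_center_iff.1 hc a).symm

theorem bt_center_mul {c : G} (hc : c ∈ center G) (a b : G) : bt (c * a) b = bt a b :=
  bt_ext (by rw [mul_assoc, ← mul_assoc b, mem_center_iff.1 hc b, mul_assoc]; simp)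

theorem z2 (a : ZMod 2) : a = 0 ∨ a = 1 := by revert a; decide

theorem z2_ne {a : ZMod 2} : a ≠ 0 ↔ a = 1 := by revert a; decide

theorem z2_add_self (a : ZMod 2) : a + a = 0 := by revert a; decide

theorem notMem_center_of_bt {a b : G} (h : bt a b = 1) : a ∉ center G := fun hc => by
  rw [bt_of_center hc] at h; exact zero_ne_one h

theorem conj_mem_center_iff {g a : G} : g * a * g⁻¹ ∈ center G ↔ a ∈ center G :=
  ⟨fun h => by simpa [mul_assoc] using (normal_of_characteristic (center G)).conj_mem _ h g⁻¹,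
    fun h => (normal_of_characteristic (center G)).conj_mem _ h g⟩

/-- The normaliser. -/
abbrev Nm (P : Subgroup G) : Subgroup G := normalizer (P : Set G)

theorem Nm_conj {P : Subgroup G} {a x : G} (ha : a ∈ Nm P) (hx : x ∈ P) : a * x * a⁻¹ ∈ P :=
  (mem_normalizer_iff.1 ha x).1 hx

/-- Commuting up to the sign `z`. -/
def PM (z a b : G) : Prop := a * b = b * a ∨ a * b = z * (b * a)

/-- A Pauli group with its gates. -/
structure PG (P : Subgroup G) (z : G) (γ : G → G) : Prop where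
  mem : z ∈ P
  zz : z * z = 1
  ne : z ≠ 1
  cen : z ∈ center G
  uniq : ∀ c ∈ center G, c * c = 1 → c = 1 ∨ c = z
  sq : ∀ x ∈ P, x * x = 1 ∨ x * x = z
  schur : ∀ g, (∀ x ∈ P, g * x = x * g) → g ∈ center G
  g1 : ∀ y a, y * y = z → a * y = y * a → γ y * a = a * γ y
  g2 : ∀ y a, y * y = z → a * y = z * (y * a) → γ y * a = y * a * γ y
  g3 : ∀ y a, y * y = z → a * γ y * a⁻¹ = γ (a * y * a⁻¹)
  g4 : ∃ c ∈ center G, ∀ y, y * y = z → γ y * γ y = c * y

namespace PG

variable {P : Subgroup G} {z : G} {γ : G → G} (h : PG P z γ)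
include h

theorem zr (a : G) : a * z = z * a := mem_center_iff.1 h.cen a

theorem zl (a b : G) : a * (z * b) = z * (a * b) := by rw [← mul_assoc, h.zr, mul_assoc]

theorem zzl (a : G) : z * (z * a) = a := by rw [← mul_assoc, h.zz, one_mul]

theorem zinv : z⁻¹ = z := inv_eq_of_mul_eq_one_right h.zz

theorem conj_z (a : G) : a * z * a⁻¹ = z := by rw [h.zr, mul_inv_cancel_right]

theorem bt_one {a b : G} (e : a * b = z * (b * a)) : bt a b = 1 :=
  z2_ne.1 fun e' => h.ne (by rw [bt_eq_zero.1 e'] at e; exact mul_eq_right.1 e.symm)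

theorem anti {a b : G} (p : PM z a b) (e : bt a b = 1) : a * b = z * (b * a) :=
  p.resolve_left fun e' => by rw [bt_eq_zero.2 e'] at e; exact zero_ne_one e

theorem pm_symm {a b : G} (p : PM z a b) : PM z b a :=
  p.imp Eq.symm fun e => by rw [e, h.zzl]

theorem pm_mul {a b c : G} (p : PM z a c) (q : PM z b c) :
    PM z (a * b) c ∧ bt (a * b) c = bt a c + bt b c := by
  rcases p with p | p <;> rcases q with q | q
  · have e : a * b * c = c * (a * b) := by rw [mul_assoc, q, ← mul_assoc, p, mul_assoc]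
    exact ⟨.inl e, by rw [bt_eq_zero.2 e, bt_eq_zero.2 p, bt_eq_zero.2 q, add_zero]⟩
  · have e : a * b * c = z * (c * (a * b)) := by
      rw [mul_assoc, q, h.zl, ← mul_assoc a, p, mul_assoc]
    exact ⟨.inr e, by rw [h.bt_one e, bt_eq_zero.2 p, h.bt_one q, zero_add]⟩
  · have e : a * b * c = z * (c * (a * b)) := by
      rw [mul_assoc, q, ← mul_assoc, p, mul_assoc, mul_assoc]
    exact ⟨.inr e, by rw [h.bt_one e, bt_eq_zero.2 q, h.bt_one p, add_zero]⟩
  · have e : a * b * c = c * (a * b) := by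
      rw [mul_assoc, q, h.zl, ← mul_assoc a, p, mul_assoc, h.zzl, mul_assoc]
    exact ⟨.inl e, by rw [bt_eq_zero.2 e, h.bt_one p, h.bt_one q]; rfl⟩

theorem sq_cen {x : G} (hx : x ∈ P) : x * x ∈ center G :=
  (h.sq x hx).elim (fun e => e ▸ one_mem _) fun e => e ▸ h.cen

theorem sq_sq {x : G} (hx : x ∈ P) : x * x * (x * x) = 1 :=
  (h.sq x hx).elim (fun e => by simp [e]) fun e => by rw [e, h.zz]

/-- An element conjugating `b` to a central multiple with the same square. -/
theorem pm_of_center {a b : G} (hc : a * b * a⁻¹ * b⁻¹ ∈ center G) (hb : b * b ∈ center G) :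
    PM z a b := by
  obtain ⟨c, e⟩ : ∃ c, c = a * b * a⁻¹ * b⁻¹ := ⟨_, rfl⟩
  rw [← e] at hc
  have e1 : a * b * a⁻¹ = c * b := by rw [e]; group
  have e2 : c * c = 1 := by
    have := congrArg (fun t => t * t) e1
    simp only [conj_mul] at this
    rw [mem_center_iff.1 hb a, mul_inv_cancel_right, mul_assoc, ← mul_assoc b,
      mem_center_iff.1 hc b, mul_assoc, ← mul_assoc] at this
    exact mul_eq_right.1 this.symm
  rcases h.uniq c hc e2 with rfl | rfl
  · left; rw [← mul_inv_eq_iff_eq_mul, e1, one_mul]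
  · right; rw [← mul_assoc, ← e1]; group

theorem pm {x y : G} (hx : x ∈ P) (hy : y ∈ P) : PM z x y := by
  refine h.pm_of_center ?_ (h.sq_cen hy)
  have e : x * y * x⁻¹ * y⁻¹ = x * y * (x * y) * (y⁻¹ * ((x * x)⁻¹ * y⁻¹)) := by group
  rw [e, ← mul_assoc y⁻¹, mem_center_iff.1 (inv_mem (h.sq_cen hx)), mul_assoc (x * x)⁻¹,
    ← mul_inv_rev]
  exact mul_mem (h.sq_cen (mul_mem hx hy)) (mul_mem (inv_mem (h.sq_cen hx)) (inv_mem (h.sq_cen hy)))

theorem bt_mul {a b c : G} (ha : a ∈ P) (hb : b ∈ P) (hc : c ∈ P) :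
    bt (a * b) c = bt a c + bt b c := (h.pm_mul (h.pm ha hc) (h.pm hb hc)).2

theorem bt_mul' {a b c : G} (ha : a ∈ P) (hb : b ∈ P) (hc : c ∈ P) :
    bt c (a * b) = bt c a + bt c b := by rw [bt_comm, h.bt_mul ha hb hc, bt_comm a, bt_comm b]

theorem qd_one {a : G} (e : a * a = z) : qd a = 1 :=
  z2_ne.1 fun e' => h.ne (e ▸ qd_eq_zero.1 e')

theorem sq_z {a : G} (ha : a ∈ P) (e : qd a = 1) : a * a = z :=
  (h.sq a ha).resolve_left fun e' => by rw [qd_eq_zero.2 e'] at e; exact zero_ne_one e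

theorem sq_eq {a b : G} (ha : a ∈ P) (hb : b ∈ P) (e : qd a = qd b) : a * a = b * b := by
  rcases z2 (qd b) with e' | e'
  · rw [qd_eq_zero.1 e', qd_eq_zero.1 (e.trans e')]
  · rw [h.sq_z hb e', h.sq_z ha (e.trans e')]

theorem qd_mul {a b : G} (ha : a ∈ P) (hb : b ∈ P) : qd (a * b) = qd a + qd b + bt a b := by
  have e1 : b * a = a * b → a * b * (a * b) = a * a * (b * b) := fun e => by
    rw [mul_assoc, ← mul_assoc b, e]; group
  have e2 : b * a = z * (a * b) → a * b * (a * b) = z * (a * a * (b * b)) := fun e => by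
    rw [mul_assoc, ← mul_assoc b, e, mul_assoc, h.zl]; group
  rcases h.pm hb ha with p | p <;> rcases h.sq a ha with q | q <;> rcases h.sq b hb with r | r <;>
    first
    | (have := e1 p; rw [bt_eq_zero.2 p.symm])
    | (have := e2 p; rw [bt_comm, h.bt_one p])
  all_goals
    rw [q, r] at this
    simp only [mul_one, one_mul, h.zz] at this
    first | rw [qd_eq_zero.2 this] | rw [h.qd_one this]
    first | rw [qd_eq_zero.2 q] | rw [h.qd_one q]
    first | rw [qd_eq_zero.2 r] | rw [h.qd_one r]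
    rfl

theorem exists_partner {x : G} (hn : x ∉ center G) : ∃ y ∈ P, bt x y = 1 := by
  by_contra! hc
  exact hn (h.schur x fun y hy => bt_eq_zero.1 (not_not.1 (z2_ne.not.2 (hc y hy))))

theorem mem_center_sub {x : P} : x ∈ center P ↔ (x : G) ∈ center G :=
  ⟨fun hx => h.schur x fun y hy => (congrArg Subtype.val (mem_center_iff.1 hx ⟨y, hy⟩)).symm,
    fun hx => mem_center_iff.2 fun y => Subtype.ext (mem_center_iff.1 hx y)⟩

theorem comm_cen {x y : G} (p : PM z x y) : x * y * x⁻¹ * y⁻¹ ∈ center G := by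
  rcases p with p | p <;> rw [p]
  · simp
  · rw [show z * (y * x) * x⁻¹ * y⁻¹ = z by group]; exact h.cen

/-- The quotient by the centre is abelian. -/
@[reducible] def cg : CommGroup (P ⧸ center P) :=
  { QuotientGroup.Quotient.group (center P) with
    mul_comm := fun a b => by
      induction a using QuotientGroup.induction_on with | H a =>
      induction b using QuotientGroup.induction_on with | H b =>
      rw [← QuotientGroup.mk_mul, ← QuotientGroup.mk_mul, QuotientGroup.eq, h.mem_center_sub]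
      simpa [mul_assoc] using h.comm_cen (h.pm (inv_mem b.2) (inv_mem a.2)) }

/-- The symplectic space. -/
def W (_ : PG P z γ) : Type _ := Additive (P ⧸ center P)

noncomputable instance instACG : AddCommGroup h.W := @Additive.addCommGroup _ h.cg

instance instFinW [Finite G] : Finite h.W := inferInstanceAs (Finite (P ⧸ center P))

/-- The class of an element of `P`. -/
def mkW (x : P) : h.W := Additive.ofMul (QuotientGroup.mk x)

open scoped _root_.Classical in
/-- The class of an element. -/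
noncomputable def cl (x : G) : h.W := if hx : x ∈ P then h.mkW ⟨x, hx⟩ else 0

/-- A representative. -/
noncomputable def out (w : h.W) : G := ((Additive.toMul (α := P ⧸ center P) w).out : P)

theorem out_mem (w : h.W) : h.out w ∈ P := Subtype.property _

@[simp] theorem cl_out (w : h.W) : h.cl (h.out w) = w := by
  rw [cl, dif_pos (h.out_mem w)]
  exact congrArg Additive.ofMul (QuotientGroup.out_eq' _)

theorem cl_mul {x y : G} (hx : x ∈ P) (hy : y ∈ P) : h.cl (x * y) = h.cl x + h.cl y := by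
  rw [cl, cl, cl, dif_pos hx, dif_pos hy, dif_pos (mul_mem hx hy)]; rfl

theorem cl_eq_zero {x : G} (hx : x ∈ P) : h.cl x = 0 ↔ x ∈ center G := by
  rw [cl, dif_pos hx]
  exact (QuotientGroup.eq_one_iff (⟨x, hx⟩ : P)).trans h.mem_center_sub

theorem add_self (w : h.W) : w + w = 0 := by
  rw [← h.cl_out w, ← h.cl_mul (h.out_mem w) (h.out_mem w),
    h.cl_eq_zero (mul_mem (h.out_mem w) (h.out_mem w))]
  exact h.sq_cen (h.out_mem w)

noncomputable instance instModW : Module (ZMod 2) h.W :=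
  AddCommGroup.zmodModule fun w => by rw [two_nsmul, h.add_self]

theorem neg_eq (w : h.W) : -w = w := neg_eq_of_add_eq_zero_left (h.add_self w)

theorem add_eq_zero {u w : h.W} : u + w = 0 ↔ u = w := by
  rw [add_eq_zero_iff_eq_neg, h.neg_eq]

theorem cl_inv {x : G} (hx : x ∈ P) : h.cl x⁻¹ = h.cl x := by
  rw [← h.add_eq_zero, ← h.cl_mul (inv_mem hx) hx, inv_mul_cancel, h.cl_eq_zero (one_mem _)]
  exact one_mem _

theorem cl_eq {x y : G} (hx : x ∈ P) (hy : y ∈ P) : h.cl x = h.cl y ↔ x * y⁻¹ ∈ center G := by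
  rw [← h.cl_eq_zero (mul_mem hx (inv_mem hy)), h.cl_mul hx (inv_mem hy), h.cl_inv hy, h.add_eq_zero]

theorem bt_congr {x x' : G} (hx : x ∈ P) (hx' : x' ∈ P) (e : h.cl x = h.cl x') (y : G) :
    bt x y = bt x' y := by
  rw [← bt_center_mul ((h.cl_eq hx hx').1 e) x', inv_mul_cancel_right]

theorem bt_out_add (u v : h.W) {y : G} (p : ∀ x ∈ P, PM z x y) :
    bt (h.out (u + v)) y = bt (h.out u) y + bt (h.out v) y := by
  rw [← (h.pm_mul (p _ (h.out_mem u)) (p _ (h.out_mem v))).2]
  exact h.bt_congr (h.out_mem _) (mul_mem (h.out_mem u) (h.out_mem v))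
    (by simp [h.cl_mul (h.out_mem u) (h.out_mem v)]) y

/-- The functional given by commutation with `y`. -/
noncomputable def chi {y : G} (p : ∀ x ∈ P, PM z x y) : Dual (ZMod 2) h.W :=
  (AddMonoidHom.mk' (fun u => bt (h.out u) y) fun u v => h.bt_out_add u v p).toZModLinearMap 2

theorem chi_cl {y : G} (p : ∀ x ∈ P, PM z x y) {x : G} (hx : x ∈ P) : h.chi p (h.cl x) = bt x y :=
  h.bt_congr (h.out_mem _) hx (h.cl_out _) y

/-- The symplectic form. -/
noncomputable def β : LinearMap.BilinForm (ZMod 2) h.W :=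
  (AddMonoidHom.mk' (fun u => h.chi (y := h.out u) fun _ hx => h.pm hx (h.out_mem u)) fun u v =>
    LinearMap.ext fun w => by
      rw [← h.cl_out w, LinearMap.add_apply, h.chi_cl _ (h.out_mem w), h.chi_cl _ (h.out_mem w),
        h.chi_cl _ (h.out_mem w), bt_comm, h.bt_out_add u v fun _ hx => h.pm hx (h.out_mem w),
        bt_comm, bt_comm (h.out v)]).toZModLinearMap 2

theorem β_cl {x y : G} (hx : x ∈ P) (hy : y ∈ P) : h.β (h.cl x) (h.cl y) = bt x y :=
  (h.chi_cl (fun _ hx => h.pm hx (h.out_mem _)) hy).trans ((bt_comm _ _).trans (h.bt_congr (h.out_mem _) hx (h.cl_out _) y))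

theorem β_out (u v : h.W) : h.β u v = bt (h.out u) (h.out v) := by
  rw [← h.β_cl (h.out_mem u) (h.out_mem v), h.cl_out, h.cl_out]

theorem β_comm (u v : h.W) : h.β u v = h.β v u := by rw [h.β_out, h.β_out, bt_comm]

theorem β_self (u : h.W) : h.β u u = 0 := by rw [h.β_out, bt_self]

theorem β_refl : h.β.IsRefl := fun u v e => by rwa [h.β_comm]

theorem β_sep {u : h.W} (e : ∀ v, h.β u v = 0) : u = 0 := by
  rw [← h.cl_out u, h.cl_eq_zero (h.out_mem u)]
  by_contra hn
  obtain ⟨y, hy, e'⟩ := h.exists_partner hn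
  rw [← h.β_cl (h.out_mem u) hy, h.cl_out, e] at e'
  exact zero_ne_one e'

theorem β_nd : h.β.Nondegenerate :=
  ⟨fun _ e => h.β_sep e, fun _ e => h.β_sep fun v => by rw [h.β_comm, e]⟩

theorem cl_conj_congr {a x x' : G} (ha : a ∈ Nm P) (hx : x ∈ P) (hx' : x' ∈ P)
    (e : h.cl x = h.cl x') : h.cl (a * x * a⁻¹) = h.cl (a * x' * a⁻¹) := by
  rw [h.cl_eq (Nm_conj ha hx) (Nm_conj ha hx'),
    show a * x * a⁻¹ * (a * x' * a⁻¹)⁻¹ = a * (x * x'⁻¹) * a⁻¹ by group, conj_mem_center_iff]
  exact (h.cl_eq hx hx').1 e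

/-- The linear map induced by an element of the normaliser. -/
noncomputable def rho0 (a : Nm P) : End (ZMod 2) h.W :=
  (AddMonoidHom.mk' (fun u => h.cl (a * h.out u * (a : G)⁻¹)) fun u v => by
    rw [← h.cl_mul (Nm_conj a.2 (h.out_mem u)) (Nm_conj a.2 (h.out_mem v)), conj_mul]
    exact h.cl_conj_congr a.2 (h.out_mem _) (mul_mem (h.out_mem u) (h.out_mem v))
      (by simp [h.cl_mul (h.out_mem u) (h.out_mem v)])).toZModLinearMap 2

theorem rho0_cl (a : Nm P) {x : G} (hx : x ∈ P) : h.rho0 a (h.cl x) = h.cl (a * x * (a : G)⁻¹) :=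
  h.cl_conj_congr a.2 (h.out_mem _) hx (h.cl_out _)

/-- The action of the normaliser. -/
noncomputable def ρ : Nm P →* End (ZMod 2) h.W where
  toFun := h.rho0
  map_one' := LinearMap.ext fun w => by
    rw [← h.cl_out w, h.rho0_cl _ (h.out_mem w)]; simp
  map_mul' a b := LinearMap.ext fun w => by
    rw [← h.cl_out w, End.mul_apply, h.rho0_cl _ (h.out_mem w), h.rho0_cl _ (h.out_mem w),
      h.rho0_cl _ (Nm_conj b.2 (h.out_mem w))]
    simp [mul_assoc]

theorem ρ_cl {a : G} (ha : a ∈ Nm P) {x : G} (hx : x ∈ P) :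
    h.ρ ⟨a, ha⟩ (h.cl x) = h.cl (a * x * a⁻¹) := h.rho0_cl _ hx

theorem ρ_β (a : Nm P) (u v : h.W) : h.β (h.ρ a u) (h.ρ a v) = h.β u v := by
  rw [← h.cl_out u, ← h.cl_out v, h.ρ_cl a.2 (h.out_mem u), h.ρ_cl a.2 (h.out_mem v),
    h.β_cl (Nm_conj a.2 (h.out_mem u)) (Nm_conj a.2 (h.out_mem v)), bt_conj,
    h.β_cl (h.out_mem u) (h.out_mem v)]

theorem ρ_fix {a : G} (ha : a ∈ Nm P) {x : G} (hx : x ∈ P) :
    h.ρ ⟨a, ha⟩ (h.cl x) = h.cl x ↔ PM z a x := by
  rw [h.ρ_cl ha hx, h.cl_eq (Nm_conj ha hx) hx]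
  exact ⟨fun e => h.pm_of_center e (h.sq_cen hx), h.comm_cen⟩

theorem ρ_inv_apply (a : Nm P) (w : h.W) : h.ρ a⁻¹ (h.ρ a w) = w := by
  rw [← End.mul_apply, ← map_mul, inv_mul_cancel, map_one, End.one_apply]

theorem ρ_of_pm {a : G} (ha : a ∈ Nm P) (p : ∀ x ∈ P, PM z a x) : h.ρ ⟨a, ha⟩ = 1 :=
  LinearMap.ext fun w => by
    rw [← h.cl_out w]; exact (h.ρ_fix ha (h.out_mem w)).2 (p _ (h.out_mem w))

theorem ρ_of_center {a : G} (ha : a ∈ Nm P) (hc : a ∈ center G) : h.ρ ⟨a, ha⟩ = 1 :=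
  h.ρ_of_pm ha fun x _ => .inl (mem_center_iff.1 hc x).symm

variable [Finite G]

/-- An element commuting with `P` up to signs lies in `P` up to the centre. -/
theorem exists_of_pm {a : G} (p : ∀ x ∈ P, PM z a x) : ∃ x ∈ P, a * x⁻¹ ∈ center G := by
  obtain ⟨w, hw⟩ := (h.β.toDual h.β_nd).surjective (h.chi (y := a) fun x hx => h.pm_symm (p x hx))
  refine ⟨h.out w, h.out_mem w, h.schur _ fun x hx => bt_eq_zero.1 ?_⟩
  have := congrArg (· (h.cl x)) hw
  simp only [LinearMap.BilinForm.toDual_def, h.chi_cl _ hx] at this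
  rw [(h.pm_mul (p x hx) (h.pm (inv_mem (h.out_mem w)) hx)).2, bt_comm a, ← this,
    ← h.β_cl (inv_mem (h.out_mem w)) hx, h.cl_inv (h.out_mem w), h.cl_out, z2_add_self]

theorem exists_sep {U : Submodule (ZMod 2) h.W} {u : h.W} (hu : u ∉ U) :
    ∃ w, (∀ v ∈ U, h.β w v = 0) ∧ h.β w u = 1 := by
  obtain ⟨φ, h1, h2⟩ := Geom.exists_dual_one hu
  obtain ⟨w, rfl⟩ := (h.β.toDual h.β_nd).surjective φ
  exact ⟨w, h2, h1⟩

theorem finrank_orth (U : Submodule (ZMod 2) h.W) :
    finrank (ZMod 2) (h.β.orthogonal U) + finrank (ZMod 2) U = finrank (ZMod 2) h.W := by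
  rw [LinearMap.BilinForm.finrank_orthogonal h.β_nd]
  have := U.finrank_le
  omega

theorem exists_orth {U U' : Submodule (ZMod 2) h.W}
    (e : finrank (ZMod 2) U + finrank (ZMod 2) U' < finrank (ZMod 2) h.W) :
    ∃ w, (∀ v ∈ U, h.β v w = 0) ∧ w ∉ U' := by
  by_contra! hc
  have := Submodule.finrank_mono (show h.β.orthogonal U ≤ U' from fun w hw => hc w hw)
  have := h.finrank_orth U
  omega

/-- The fixed space of an involution is large and contains its perp. -/
theorem fix_invol (a : Nm P) (e : h.ρ a * h.ρ a = 1) :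
    finrank (ZMod 2) h.W ≤ 2 * finrank (ZMod 2) (LinearMap.ker (h.ρ a - 1)) ∧
      ∀ v, (∀ u, h.ρ a u = u → h.β u v = 0) → h.ρ a v = v := by
  have e1 : ∀ w, h.ρ a (h.ρ a w - w) = h.ρ a w - w := fun w => by
    rw [map_sub, ← End.mul_apply, e, End.one_apply, ← h.neg_eq (w - _), neg_sub]
  refine ⟨?_, fun v hv => ?_⟩
  · have h1 := LinearMap.finrank_range_add_finrank_ker (h.ρ a - 1)
    have h2 := Submodule.finrank_mono (show LinearMap.range (h.ρ a - 1) ≤ LinearMap.ker (h.ρ a - 1)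
      by rintro _ ⟨w, rfl⟩; simpa [sub_eq_zero] using e1 w)
    omega
  · refine sub_eq_zero.1 (h.β_sep fun w => ?_)
    have := hv _ (e1 w)
    rw [map_sub, LinearMap.sub_apply, ← h.ρ_β a (h.ρ a w), ← End.mul_apply, e, End.one_apply] at this
    rw [map_sub, LinearMap.sub_apply, h.β_comm, h.β_comm v, this]

theorem gam_mem {y : G} (hy : y ∈ P) (e : y * y = z) : γ y ∈ Nm P :=
  mem_normalizer_fintype fun a ha => by
    rcases h.pm ha hy with p | p
    · rwa [h.g1 y a e p, mul_inv_cancel_right]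
    · rw [h.g2 y a e p, mul_inv_cancel_right]; exact mul_mem hy ha

end PG

end CF.MaxSub
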