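/-
Abstract Pauli groups: fusion by gates.
-/
import Cfsg.Agent.MaxSub.C6A

set_option autoImplicit false
set_option linter.unusedSectionVars false

namespace CF.MaxSub

open Module Subgroup

variable {G : Type*} [Group G] {P H : Subgroup G} {z : G} {γ : G → G}

/-- The square of an element can be prescribed. -/
def Rich (P : Subgroup G) : Prop := ∀ u₁ ∈ P, ∀ u₂ ∈ P, ∀ w₀ ∈ P, ∀ c : ZMod 2,
  ∃ w ∈ P, qd w = c ∧ bt w u₁ = bt w₀ u₁ ∧ bt w u₂ = bt w₀ u₂

/-- The centraliser of `a` in `H` normalises `P`. -/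
def Lcl (P H : Subgroup G) (a : G) : Prop := ∀ c ∈ H, c * a = a * c → c ∈ Nm P

theorem finrank_span_list_le' {F V : Type*} [Field F] [AddCommGroup V] [Module F V] (l : List V) :
    finrank F (Submodule.span F {x | x ∈ l}) ≤ l.length := by
  classical
  have := finrank_span_finset_le_card (R := F) l.toFinset
  rw [Set.finrank, List.coe_toFinset] at this
  exact this.trans (List.toFinset_card_le l)

theorem mem_span_list {F V : Type*} [Field F] [AddCommGroup V] [Module F V] {l : List V} {v : V}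
    (h : v ∈ l) : v ∈ Submodule.span F {x | x ∈ l} := Submodule.subset_span h

theorem mem_span_z2 {V : Type*} [AddCommGroup V] [Module (ZMod 2) V] {u v : V} :
    v ∈ Submodule.span (ZMod 2) {u} ↔ v = 0 ∨ v = u := by
  rw [Submodule.mem_span_singleton]
  constructor
  · rintro ⟨c, rfl⟩; rcases z2 c with rfl | rfl <;> simp
  · rintro (rfl | rfl); exacts [⟨0, by simp⟩, ⟨1, by simp⟩]

namespace PG

variable (h : PG P z γ)
include h

theorem rich_of_center {j : G} (hj : j ∈ P) (hc : j ∈ center G) (e : j * j = z) : Rich P :=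
  fun u₁ _ u₂ _ w hw c => by
    by_cases e' : qd w = c
    · exact ⟨w, hw, e', rfl, rfl⟩
    · refine ⟨j * w, mul_mem hj hw, ?_, bt_center_mul hc _ _, bt_center_mul hc _ _⟩
      rw [h.qd_mul hj hw, h.qd_one e, bt_of_center hc]
      revert e'; generalize qd w = a; revert a c; decide

variable [Finite G]

theorem exists_qd {U : Submodule (ZMod 2) h.W}
    (hU : 2 * finrank (ZMod 2) U < finrank (ZMod 2) h.W) {w₀ : G} (hw : w₀ ∈ P) (c : ZMod 2) :
    ∃ w ∈ P, qd w = c ∧ ∀ x ∈ P, h.cl x ∈ U → bt w x = bt w₀ x := by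
  by_contra! hc
  have k0 : qd w₀ ≠ c := fun e => by obtain ⟨x, -, -, e⟩ := hc w₀ hw e; exact e rfl
  have k1 : ∀ e ∈ P, h.cl e ∈ h.β.orthogonal U → qd e = bt w₀ e := fun e he hU => by
    have : qd (w₀ * e) ≠ c := fun e' => by
      obtain ⟨x, hx, h1, h2⟩ := hc _ (mul_mem hw he) e'
      rw [h.bt_mul hw he hx, bt_comm e, ← h.β_cl hx he, hU _ h1, add_zero] at h2
      exact h2 rfl
    rw [h.qd_mul hw he] at this
    exact (by decide : ∀ a b c d : ZMod 2, a ≠ c → a + b + d ≠ c → b = d) _ _ _ _ k0 this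
  have k2 : h.β.orthogonal U ≤ h.β.orthogonal (h.β.orthogonal U) := fun u hu v hv => by
    have e1 := k1 _ (h.out_mem u) (by simpa using hu)
    have e2 := k1 _ (h.out_mem v) (by simpa using hv)
    have e3 := k1 _ (mul_mem (h.out_mem v) (h.out_mem u)) (by
      simpa [h.cl_mul (h.out_mem v) (h.out_mem u)] using add_mem hv hu)
    rw [h.qd_mul (h.out_mem v) (h.out_mem u), h.bt_mul' (h.out_mem v) (h.out_mem u) hw, e1, e2,
      add_eq_left, ← h.β_out] at e3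
    exact e3
  have := Submodule.finrank_mono k2
  have := h.finrank_orth U
  have := h.finrank_orth (h.β.orthogonal U)
  omega

theorem exists_qd' (l : List G) (hl : ∀ x ∈ l, x ∈ P) (hU : 2 * l.length < finrank (ZMod 2) h.W)
    {w₀ : G} (hw : w₀ ∈ P) (c : ZMod 2) : ∃ w ∈ P, qd w = c ∧ ∀ x ∈ l, bt w x = bt w₀ x := by
  obtain ⟨w, h1, h2, h3⟩ := h.exists_qd (U := Submodule.span _ {x | x ∈ l.map h.cl})
    (by have := finrank_span_list_le' (F := ZMod 2) (l.map h.cl); simp at this ⊢; omega) hw c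
  exact ⟨w, h1, h2, fun x hx => h3 x (hl x hx) (mem_span_list (List.mem_map_of_mem hx))⟩

theorem rich_of_five (h5 : 5 ≤ finrank (ZMod 2) h.W) : Rich P := fun u₁ h1 u₂ h2 w hw c => by
  obtain ⟨w, h3, h4, h5⟩ := h.exists_qd' [u₁, u₂] (by simp [h1, h2]) h5 hw c
  exact ⟨w, h3, h4, h5 _ (by simp), h5 _ (by simp)⟩

/-- Separation from one element. -/
theorem sep1 {x u : G} (hx : x ∈ P) (hu : u ∈ P) (h0 : u ∉ center G) (h1 : h.cl u ≠ h.cl x) :
    ∃ w ∈ P, bt w x = 0 ∧ bt w u = 1 := by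
  obtain ⟨w, e1, e2⟩ := h.exists_sep (U := Submodule.span _ {h.cl x}) (u := h.cl u) (by
    simp [mem_span_z2, h1, h.cl_eq_zero hu, h0])
  exact ⟨h.out w, h.out_mem w, by
    rw [← h.β_cl (h.out_mem w) hx, h.cl_out, e1 _ (Submodule.mem_span_singleton_self _)], by
    rw [← h.β_cl (h.out_mem w) hu, h.cl_out, e2]⟩

/-- Separation from two elements. -/
theorem sep2 {x y u : G} (hx : x ∈ P) (hy : y ∈ P) (hu : u ∈ P) (h0 : u ∉ center G)
    (h1 : h.cl u ≠ h.cl x) (h2 : h.cl u ≠ h.cl y) (h3 : h.cl u ≠ h.cl x + h.cl y) :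
    ∃ w ∈ P, bt w x = 0 ∧ bt w y = 0 ∧ bt w u = 1 := by
  obtain ⟨w, e1, e2⟩ := h.exists_sep (U := Submodule.span _ {h.cl x, h.cl y}) (u := h.cl u) (by
    rw [Submodule.mem_span_pair]
    rintro ⟨a, b, e⟩
    rcases z2 a with rfl | rfl <;> rcases z2 b with rfl | rfl <;> simp at e
    exacts [h0 ((h.cl_eq_zero hu).1 e.symm), h2 e.symm, h1 e.symm, h3 e.symm])
  refine ⟨h.out w, h.out_mem w, ?_, ?_, ?_⟩
  · rw [← h.β_cl (h.out_mem w) hx, h.cl_out, e1 _ (Submodule.subset_span (by simp))]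
  · rw [← h.β_cl (h.out_mem w) hy, h.cl_out, e1 _ (Submodule.subset_span (by simp))]
  · rw [← h.β_cl (h.out_mem w) hu, h.cl_out, e2]

/-- A new element commuting with given ones. -/
theorem exists_comm (l : List G) (hl : ∀ x ∈ l, x ∈ P) {x : G}
    (hd : l.length + 1 < finrank (ZMod 2) h.W) :
    ∃ e ∈ P, (∀ u ∈ l, bt u e = 0) ∧ e ∉ center G ∧ h.cl e ≠ h.cl x := by
  obtain ⟨w, e1, e2⟩ := h.exists_orth (U := Submodule.span _ {x | x ∈ l.map h.cl})
    (U' := Submodule.span _ {h.cl x}) (by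
      have := finrank_span_list_le' (F := ZMod 2) (l.map h.cl)
      have := finrank_span_le_card (R := ZMod 2) ({h.cl x} : Set h.W)
      simp at *; omega)
  rw [mem_span_z2, not_or] at e2
  refine ⟨h.out w, h.out_mem w, fun u hu => ?_, ?_, by simpa using e2.2⟩
  · rw [← h.β_cl (hl u hu) (h.out_mem w), h.cl_out, e1 _ (mem_span_list (List.mem_map_of_mem hu))]
  · rw [← h.cl_eq_zero (h.out_mem w), h.cl_out]; exact e2.1

end PG

/-- A group containing a Pauli group and its gates. -/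
structure HC (P H : Subgroup G) (z : G) (γ : G → G) : Prop extends PG P z γ where
  le : P ≤ H
  gate : ∀ y ∈ P, ∀ y' ∈ P, y * y = z → y' * y' = z → y ∉ center G → y' ∉ center G →
    γ y * (γ y')⁻¹ ∈ H

/-- Fusion by an element centralising `y`. -/
def Fu (P H : Subgroup G) (y a b : G) : Prop :=
  ∃ n ∈ H, n ∈ Nm P ∧ n * y = y * n ∧ n * a * n⁻¹ = b

theorem Fu.trans {y a b c : G} (h : Fu P H y a b) (h' : Fu P H y b c) : Fu P H y a c := by
  obtain ⟨n, h1, h2, h3, rfl⟩ := h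
  obtain ⟨m, h4, h5, h6, rfl⟩ := h'
  exact ⟨m * n, mul_mem h4 h1, mul_mem h5 h2, by rw [mul_assoc, h3, ← mul_assoc, h6, mul_assoc],
    by group⟩

theorem comm_inv {a b : G} (e : a * b = b * a) : a⁻¹ * b = b * a⁻¹ :=
  (show Commute a b from e).inv_left

theorem comm_mul {a b c : G} (e : a * c = c * a) (e' : b * c = c * b) : a * b * c = c * (a * b) :=
  (show Commute a c from e).mul_left e'

namespace HC

variable (h : HC P H z γ) [Finite G]
include h

theorem tr1 {y a b v : G} (ha : a ∈ P) (hb : b ∈ P) (hv : v ∈ P) (ay : a * y = y * a)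
    (by' : b * y = y * b) (vy : v * y = y * v) (ab : bt a b = 1) (q : qd a = qd b) (vv : v * v = z)
    (v0 : v ∉ center G) (av : bt a v = 0) : Fu P H y a b := by
  have hu := mul_mem hb ha
  have uu : b * a * (b * a) = z := h.sq_z hu (by
    rw [h.qd_mul hb ha, q, z2_add_self, bt_comm, ab, zero_add])
  have ua : bt (b * a) a = 1 := by rw [h.bt_mul hb ha ha, bt_self, bt_comm, ab, add_zero]
  have f1 : Fu P H y a (b * (a * a)) := by
    refine ⟨_, h.gate _ hu v hv uu vv (notMem_center_of_bt ua) v0,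
      mul_mem (h.gam_mem hu uu) (inv_mem (h.gam_mem hv vv)),
      comm_mul (h.g1 _ _ uu (comm_mul by' ay).symm) (comm_inv (h.g1 _ _ vv vy.symm)), ?_⟩
    rw [mul_assoc (γ _), comm_inv (h.g1 _ _ vv (bt_eq_zero.1 av)), ← mul_assoc,
      h.g2 _ _ uu (h.anti (h.pm ha hu) ((bt_comm _ _).trans ua))]
    group
  rcases h.sq a ha with e | e
  · simpa [e] using f1
  · refine f1.trans ⟨a, h.le ha, P.le_normalizer ha, ay, ?_⟩
    rw [e, ← mul_assoc, h.anti (h.pm ha hb) ab, h.zr, h.zzl, mul_inv_cancel_right]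

theorem tr2 {y a b p p' : G} (ha : a ∈ P) (hb : b ∈ P) (hp : p ∈ P) (hp' : p' ∈ P)
    (ay : a * y = y * a) (by' : b * y = y * b) (py : p * y = y * p) (py' : p' * y = y * p')
    (pa : bt p a = 1) (pb : bt p' b = 1) (q : qd a = qd b)
    (hq : ∀ w₀ ∈ P, w₀ * y = y * w₀ →
      ∃ w ∈ P, w * y = y * w ∧ qd w = qd a ∧ bt w a = bt w₀ a ∧ bt w b = bt w₀ b)
    (hv : ∀ t ∈ P, t * y = y * t → t ∉ center G →
      ∃ v ∈ P, v * y = y * v ∧ v * v = z ∧ v ∉ center G ∧ bt t v = 0) : Fu P H y a b := by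
  obtain ⟨v, v1, v2, v3, v4, v5⟩ := hv a ha ay (notMem_center_of_bt (bt_comm p a ▸ pa))
  rcases z2 (bt a b) with e | e
  swap
  · exact h.tr1 ha hb v1 ay by' v2 e q v3 v4 v5
  obtain ⟨w₀, h1, h2, h3, h4⟩ : ∃ w₀ ∈ P, w₀ * y = y * w₀ ∧ bt w₀ a = 1 ∧ bt w₀ b = 1 := by
    rcases z2 (bt p b) with e1 | e1
    swap
    · exact ⟨p, hp, py, pa, e1⟩
    rcases z2 (bt p' a) with e2 | e2
    swap
    · exact ⟨p', hp', py', e2, pb⟩
    exact ⟨p * p', mul_mem hp hp', comm_mul py py', by simp [h.bt_mul hp hp' ha, pa, e2],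
      by simp [h.bt_mul hp hp' hb, pb, e1]⟩
  obtain ⟨w, w1, w2, w3, w4, w5⟩ := hq w₀ h1 h2
  obtain ⟨u, u1, u2, u3, u4, u5⟩ := hv w w1 w2 (notMem_center_of_bt (w4.trans h3))
  exact (h.tr1 ha w1 v1 ay w2 v2 (by rw [bt_comm, w4, h3]) w3.symm v3 v4 v5).trans
    (h.tr1 w1 hb u1 w2 by' u2 (w5.trans h4) (w3.trans q) u3 u4 u5)

/-- Fusion inside `P`. -/
theorem fusion (hR : Rich P) {a b : G} (ha : a ∈ P) (hb : b ∈ P) (a0 : a ∉ center G)
    (b0 : b ∉ center G) (q : qd a = qd b) : ∃ n ∈ H, n ∈ Nm P ∧ n * a * n⁻¹ = b := by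
  obtain ⟨p, hp, pa⟩ := h.exists_partner a0
  obtain ⟨p', hp', pb⟩ := h.exists_partner b0
  obtain ⟨n, h1, h2, -, h3⟩ := h.tr2 (y := 1) ha hb hp hp' (by simp) (by simp) (by simp) (by simp)
    (bt_comm a p ▸ pa) (bt_comm b p' ▸ pb) q (fun w hw _ => by
      obtain ⟨w, h1, h2⟩ := hR a ha b hb w hw (qd a)
      exact ⟨w, h1, by simp, h2⟩) fun t ht _ t0 => by
      obtain ⟨t', ht', e⟩ := h.exists_partner t0
      obtain ⟨v, h1, h2, h3, h4⟩ := hR t ht t' ht' t ht 1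
      exact ⟨v, h1, by simp, h.sq_z h1 h2, notMem_center_of_bt (h4.trans e), by
        rw [bt_comm, h3, bt_self]⟩
  exact ⟨n, h1, h2, h3⟩

theorem mem_of_conj (hR : Rich P) {g x : G} (hg : g ∈ H) (hx : x ∈ P) (x0 : x ∉ center G)
    (hl : Lcl P H x) (e : g * x * g⁻¹ ∈ P) : g ∈ Nm P := by
  obtain ⟨n, h1, h2, h3⟩ := h.fusion hR hx e x0 (by rwa [conj_mem_center_iff]) (qd_conj g x).symm
  have := hl (n⁻¹ * g) (mul_mem (inv_mem h1) hg) (by
    rw [show n⁻¹ * g * x = n⁻¹ * (g * x * g⁻¹) * g by group, ← h3]; group)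
  simpa using mul_mem h2 this

theorem mem_of_pm {c x : G} (hc : c ∈ H) (x0 : x ∉ center G) (hx : x ∈ P) (hl : Lcl P H x)
    (e : PM z c x) : c ∈ Nm P := by
  rcases e with e | e
  · exact hl c hc e
  · obtain ⟨p, hp, e'⟩ := h.exists_partner x0
    have := hl (c * p) (mul_mem hc (h.le hp)) (bt_eq_zero.1 (by
      rw [(h.pm_mul (.inr e) (h.pm hp hx)).2, h.bt_one e, bt_comm, e']; rfl))
    simpa using mul_mem this (inv_mem (le_normalizer hp))

/-- From the normaliser of a hyperplane to the normaliser of `P`. -/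
theorem locY (h3 : 3 ≤ finrank (ZMod 2) h.W)
    (hE : ∀ y ∈ P, y * y = z → y ∉ center G → ∀ c ∈ H, c * y = y * c → ∀ e ∈ P, e * y = y * e →
      c * e * c⁻¹ ∈ P) {y : G} (hy : y ∈ P) (yy : y * y = z) (y0 : y ∉ center G) : Lcl P H y := by
  intro c hc cy
  obtain ⟨e, he, e1, e2, e3⟩ := h.exists_comm [y] (by simpa using hy) (x := y) h3
  obtain ⟨p, hp, p1, p2⟩ := h.sep1 hy he e2 e3
  have fix : ∀ w ∈ P, w * y = y * w → ∀ c, ∃ w' ∈ P, w' * y = y * w' ∧ qd w' = c ∧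
      ∀ a ∈ P, a * y = y * a → bt w' a = bt w a := fun w hw wy c => by
    by_cases e : qd w = c
    · exact ⟨w, hw, wy, e, fun _ _ _ => rfl⟩
    · refine ⟨w * y, mul_mem hw hy, comm_mul wy rfl, ?_, fun a ha ay => by
        rw [h.bt_mul hw hy ha, bt_eq_zero.2 ay.symm, add_zero]⟩
      rw [h.qd_mul hw hy, h.qd_one yy, bt_eq_zero.2 wy]
      revert e; generalize qd w = a; revert a c; decide
  obtain ⟨y₂, h1, h2, h4, h5⟩ := fix e he (bt_eq_zero.1 (e1 y (by simp))).symm 1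
  have py := bt_eq_zero.1 p1
  have p3 : bt p y₂ = 1 := by rw [bt_comm, h5 p hp py, bt_comm, p2]
  have cc : ∀ a, a * y = y * a → c * a * c⁻¹ * y = y * (c * a * c⁻¹) := fun a e =>
    comm_mul (comm_mul cy e) (comm_inv cy)
  obtain ⟨n, n1, n2, n3, n4⟩ := h.tr2 (y := y) h1 (hE y hy yy y0 c hc cy _ h1 h2) hp
    (hE y hy yy y0 c hc cy _ hp py) h2 (cc _ h2) py (cc _ py) p3 (by rw [bt_conj, p3])
    (qd_conj _ _).symm (fun w hw wy => by
      obtain ⟨w', a1, a2, a3, a4⟩ := fix w hw wy (qd y₂)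
      exact ⟨w', a1, a2, a3, a4 _ h1 h2, a4 _ (hE y hy yy y0 c hc cy _ h1 h2) (cc _ h2)⟩)
    fun t ht ty _ => ⟨y, hy, rfl, yy, y0, bt_eq_zero.2 ty⟩
  have c1 := mul_mem (inv_mem n1) hc
  have c2 := comm_mul (comm_inv n3) cy
  have c3 : n⁻¹ * c * y₂ = y₂ * (n⁻¹ * c) := by
    rw [show n⁻¹ * c * y₂ = n⁻¹ * (c * y₂ * c⁻¹) * c by group, ← n4]; group
  have k1 := hE y hy yy y0 _ c1 c2
  have k2 := hE y₂ h1 (h.sq_z h1 h4) (notMem_center_of_bt (bt_comm p y₂ ▸ p3)) _ c1 c3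
  have : n⁻¹ * c ∈ Nm P := mem_normalizer_fintype fun x hx => by
    rcases z2 (bt x y₂) with e | e
    · exact k2 x hx (bt_eq_zero.1 e)
    · have := mul_mem (k1 p hp py) (k2 (p⁻¹ * x) (mul_mem (inv_mem hp) hx) (bt_eq_zero.1 (by
        rw [h.bt_mul (inv_mem hp) hx h1, h.bt_congr (inv_mem hp) hp (h.cl_inv hp), p3, e]; rfl)))
      rwa [conj_mul, mul_inv_cancel_left] at this
  simpa using mul_mem n2 this

end HC

end CF.MaxSub
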