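/-
Abstract Pauli groups: from local to global normalisers.
-/
import Cfsg.Agent.MaxSub.C6B

set_option autoImplicit false
set_option linter.unusedSectionVars false

namespace CF.MaxSub

open Module Subgroup

variable {G : Type*} [Group G] {P P' H : Subgroup G} {z : G} {γ : G → G}

/-- The conjugate subgroup. -/
def cjG (g : G) (P : Subgroup G) : Subgroup G := P.comap (MulAut.conj g⁻¹).toMonoidHom

theorem mem_cjG {g x : G} : x ∈ cjG g P ↔ g⁻¹ * x * g⁻¹⁻¹ ∈ P := Iff.rfl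

theorem conj_mem_cjG {g x : G} : g * x * g⁻¹ ∈ cjG g P ↔ x ∈ P := by
  rw [mem_cjG, show g⁻¹ * (g * x * g⁻¹) * g⁻¹⁻¹ = x by group]

theorem conj_mem_Nm_cjG {g a : G} (ha : a ∈ Nm P) : g * a * g⁻¹ ∈ Nm (cjG g P) :=
  mem_normalizer_iff.2 fun x => by
    rw [mem_cjG, mem_cjG, mem_normalizer_iff.1 ha]
    congr! 1; group

/-- All centralisers of non-central elements normalise `P`. -/
structure GC (P H : Subgroup G) (z : G) (γ : G → G) : Prop extends HC P H z γ where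
  loc : ∀ x ∈ P, x ∉ center G → Lcl P H x
  hZ : ∀ c ∈ H, c ∈ center G → c * c * (c * c) = 1 → c ∈ P

theorem PG.conj (h : PG P z γ) (g : G) : PG (cjG g P) z γ :=
  ⟨by rw [mem_cjG, h.conj_z]; exact h.mem, h.zz, h.ne, h.cen, h.uniq, fun x hx => by
    rcases h.sq _ (mem_cjG.1 hx) with e | e <;> rw [conj_mul] at e
    · exact .inl (conj_eq_one_iff.1 e)
    · exact .inr (by rw [← h.conj_z g, ← e]; group), fun a ha => by
    rw [← conj_mem_center_iff (g := g⁻¹)]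
    refine h.schur _ fun x hx => ?_
    have := congrArg (fun t => g⁻¹ * t * g) (ha _ (conj_mem_cjG.2 hx))
    simpa [mul_assoc] using this, h.g1, h.g2, h.g3, h.g4⟩

theorem GC.conj (h : GC P H z γ) {g : G} (hg : g ∈ H) : GC (cjG g P) H z γ := by
  have k : ∀ x, g⁻¹ * x * g⁻¹⁻¹ ∈ H ↔ x ∈ H := fun x => by
    rw [mul_mem_cancel_right (by simpa using hg), mul_mem_cancel_left (inv_mem hg)]
  refine ⟨⟨h.toPG.conj g, fun x hx => (k x).1 (h.le hx), fun y hy y' hy' e e' y0 y0' => (k _).1 ?_⟩,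
    fun x hx x0 c hc e => ?_, fun c hc c0 e => ?_⟩
  · have := h.gate _ (mem_cjG.1 hy) _ (mem_cjG.1 hy') (by rw [conj_mul, e, h.conj_z])
      (by rw [conj_mul, e', h.conj_z])
      (by rwa [conj_mem_center_iff]) (by rwa [conj_mem_center_iff])
    rw [← h.g3 _ _ e, ← h.g3 _ _ e'] at this
    convert this using 1; group
  · have := conj_mem_Nm_cjG (g := g) (h.loc _ (mem_cjG.1 hx) (by rwa [conj_mem_center_iff]) _
      ((k c).2 hc) (by rw [conj_mul, conj_mul, e]))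
    convert this using 1; group
  · rw [mem_cjG, mem_center_iff.1 c0, mul_inv_cancel_right]; exact h.hZ c hc c0 e

theorem PG.finrank_conj (h : PG P z γ) [Finite G] (g : G) :
    finrank (ZMod 2) h.W ≤ finrank (ZMod 2) (h.conj g).W := by
  have m : ∀ w, g * h.out w * g⁻¹ ∈ cjG g P := fun w => conj_mem_cjG.2 (h.out_mem w)
  refine LinearMap.finrank_le_finrank_of_injective (f := (AddMonoidHom.mk'
    (fun w => (h.conj g).cl (g * h.out w * g⁻¹)) fun u v => ?_).toZModLinearMap 2)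
    ((injective_iff_map_eq_zero _).2 fun w hw => ?_)
  · rw [← (h.conj g).cl_mul (m u) (m v), (h.conj g).cl_eq (m _) (mul_mem (m u) (m v)), conj_mul,
      show ∀ a b, g * a * g⁻¹ * (g * b * g⁻¹)⁻¹ = g * (a * b⁻¹) * g⁻¹ from fun a b => by group,
      conj_mem_center_iff, ← h.cl_eq (h.out_mem _) (mul_mem (h.out_mem u) (h.out_mem v))]
    simp [h.cl_mul (h.out_mem u) (h.out_mem v)]
  · rwa [← h.cl_out w, h.cl_eq_zero (h.out_mem w), ← conj_mem_center_iff (g := g),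
      ← (h.conj g).cl_eq_zero (m w)]

theorem PG.gam_coset (h : PG P z γ) {y u : G} (hy : y ∈ P) (e : y * y = z) (p : PM z u y) :
    γ y * u * (γ y)⁻¹ * u⁻¹ ∈ P ∧ (γ y)⁻¹ * u * γ y * u⁻¹ ∈ P := by
  rcases p with p | p
  · rw [h.g1 _ _ e p, comm_inv (h.g1 _ _ e p)]; simp
  · have := h.g2 y (y⁻¹ * u) e (by rw [mul_assoc, p, h.zl]; simp)
    rw [h.g2 _ _ e p, mul_inv_cancel_left] at *
    rw [mul_assoc (γ y)⁻¹, ← this]
    simpa using hy

theorem PG.fix_comm (h : PG P z γ) [Finite G] {b t t' : Nm P} (e : h.ρ b * h.ρ b = 1)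
    (ht : ∀ u, h.ρ b u = u → h.ρ t u = u) (ht' : ∀ u, h.ρ b u = u → h.ρ t' u = u) (w : h.W) :
    h.ρ t (h.ρ t' w) = h.ρ t w + h.ρ t' w - w := by
  have := ht _ ((h.fix_invol b e).2 (h.ρ t' w - w) fun u hu => by
    rw [map_sub, ← h.ρ_β t' u w, ht' u hu, sub_self])
  rw [map_sub, sub_eq_iff_eq_add] at this
  rw [this]; abel

theorem PG.ρ_sq (h : PG P z γ) {a : G} (ha : a ∈ Nm P) (e : a * a ∈ center G) :
    h.ρ ⟨a, ha⟩ * h.ρ ⟨a, ha⟩ = 1 := by
  rw [← map_mul]; exact h.ρ_of_center _ e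

theorem PG.qd_congr (h : PG P z γ) (hO : ∀ c ∈ P, c ∈ center G → c * c = 1) {x y : G} (hx : x ∈ P) (hy : y ∈ P)
    (e : h.cl x = h.cl y) : qd x = qd y := by
  have m := mul_mem hx (inv_mem hy)
  have hc := (h.cl_eq hx hy).1 e
  rw [← inv_mul_cancel_right x y, h.qd_mul m hy, qd_eq_zero.2 (hO _ m hc), bt_of_center hc]; simp

namespace GC

variable (h : GC P H z γ) [Finite G]
include h

theorem mem_of_triv {a : G} (ha : a ∈ H) (p : ∀ x ∈ P, PM z a x) (e : a * a * (a * a) = 1) :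
    a ∈ P := by
  obtain ⟨x, hx, hc⟩ := h.exists_of_pm p
  have := h.hZ _ (mul_mem ha (inv_mem (h.le hx))) hc (by
    generalize e' : a * x⁻¹ = c at hc
    obtain rfl : a = c * x := by rw [← e']; group
    have k : c * x * (c * x) = c * c * (x * x) := by
      rw [mul_assoc, ← mul_assoc x, mem_center_iff.1 hc x]; group
    rwa [k, mul_assoc, ← mul_assoc (x * x), mem_center_iff.1 (mul_mem hc hc) (x * x),
      mul_assoc (c * c) (x * x), h.sq_sq hx, mul_one] at e)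
  simpa using mul_mem this hx

theorem pm_of_ti (TI : ∀ x ∈ P, x ∈ P' → x ∈ center G) {a b : G} (ha : a ∈ P') (ha' : a ∈ Nm P)
    (hb : b ∈ P) (hb' : b ∈ Nm P') : PM z a b :=
  h.pm_of_center (TI _ (mul_mem (Nm_conj ha' hb) (inv_mem hb)) (by
    simpa [mul_assoc] using mul_mem ha (Nm_conj hb' (inv_mem ha)))) (h.sq_cen hb)

theorem mem_of_pm' {c x : G} (hc : c ∈ H) (x0 : x ∉ center G) (hx : x ∈ P) (e : PM z c x) :
    c ∈ Nm P := h.mem_of_pm hc x0 hx (h.loc x hx x0) e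

/-- The trivial intersection argument, linear type. -/
theorem ti_L (h' : GC P' H z γ) (TI : ∀ x ∈ P, x ∈ P' → x ∈ center G) {j : G} (hj : j ∈ P)
    (jc : j ∈ center G) (jj : j * j = z) (h5 : 5 ≤ finrank (ZMod 2) h.W) {a : G} (ha : a ∈ P')
    (a0 : a ∉ center G) (ha' : a ∈ Nm P) : False := by
  have d := (h.fix_invol ⟨a, ha'⟩ (h.ρ_sq ha' (h'.sq_cen ha))).1
  obtain ⟨K, hK⟩ : ∃ K, K = LinearMap.ker (h.ρ ⟨a, ha'⟩ - 1) := ⟨_, rfl⟩
  rw [← hK] at d
  have k0 : ∀ w : K, PM z (h.out w) a := fun w => h.pm_symm ((h.ρ_fix ha' (h.out_mem w)).1 (by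
    simpa [hK, sub_eq_zero] using w.2))
  let χ : Dual (ZMod 2) K := (AddMonoidHom.mk' (fun w : K => bt (h.out w) a) fun u v => by
    rw [← (h.pm_mul (k0 u) (k0 v)).2]
    exact h.bt_congr (h.out_mem _) (mul_mem (h.out_mem _) (h.out_mem _))
      (by simp [h.cl_mul (h.out_mem _) (h.out_mem _)]) a).toZModLinearMap 2
  have d2 : 2 ≤ finrank (ZMod 2) (LinearMap.ker χ) := by
    have := χ.finrank_range_add_finrank_ker
    have := (Submodule.finrank_le (LinearMap.range χ)).trans_eq (finrank_self _)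
    omega
  have k1 : ∀ u : LinearMap.ker χ, u ≠ 0 → ∃ b ∈ P, b * b = z ∧ h.cl b = u ∧ b ∉ center G ∧
      b * a = a * b := fun u u0 => by
    obtain ⟨b, hb, e1, e2⟩ : ∃ b ∈ P, b * b = z ∧ h.cl b = u := by
      rcases h.sq _ (h.out_mem u) with e | e
      · refine ⟨j * h.out u, mul_mem hj (h.out_mem _), h.sq_z (mul_mem hj (h.out_mem _)) ?_, ?_⟩
        · rw [h.qd_mul hj (h.out_mem _), h.qd_one jj, qd_eq_zero.2 e, bt_of_center jc]; rfl
        · simp [h.cl_mul hj (h.out_mem _), (h.cl_eq_zero hj).2 jc]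
      · exact ⟨_, h.out_mem _, e, h.cl_out _⟩
    refine ⟨b, hb, e1, e2, fun hc => u0 (Subtype.ext (Subtype.ext ?_)), bt_eq_zero.1 ?_⟩
    · rw [← e2, (h.cl_eq_zero hb).2 hc]; rfl
    · rw [h.bt_congr hb (h.out_mem u) (by simp [e2])]; exact u.2
  obtain ⟨u, hu⟩ := Geom.exists_notMem_span_singleton d2 0
  obtain ⟨u', hu'⟩ := Geom.exists_notMem_span_singleton d2 u
  rw [mem_span_z2, not_or] at hu hu'
  obtain ⟨b, hb, bb, e1, b0, ba⟩ := k1 u hu.1
  obtain ⟨b', hb', bb', e1', b0', ba'⟩ := k1 u' hu'.1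
  have n1 := h'.loc a ha a0 b (h.le hb) ba
  have n2 := h'.loc a ha a0 b' (h.le hb') ba'
  have n3 := h'.loc a ha a0 _ (h.gate b hb b' hb' bb bb' b0 b0')
    (comm_mul (h.g1 _ _ bb ba.symm) (comm_inv (h.g1 _ _ bb' ba'.symm)))
  have r := h'.ρ_sq n1 (h.sq_cen hb)
  have f : ∀ w, h'.ρ ⟨b, n1⟩ w = w → h'.ρ ⟨_, n3⟩ w = w := fun w hw => by
    have m := h'.out_mem w
    rw [← h'.cl_out w] at hw ⊢
    have p1 := (h'.ρ_fix n1 m).1 hw
    have p2 := h.pm_of_ti TI m (h.mem_of_pm' (h'.le m) b0 hb (h.pm_symm p1)) hb' n2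
    have p3 := (h.gam_coset hb' bb' p2).2
    have p4 := (h.gam_coset hb bb (u := (γ b')⁻¹ * h'.out w * γ b') (by
      simpa using (h.pm_mul (h.pm p3 hb) (h.pm_symm p1)).1)).1
    refine (h'.ρ_fix n3 m).2 (h.pm_of_center (TI _ ?_ (mul_mem (Nm_conj n3 m) (inv_mem m)))
      (h'.sq_cen m))
    convert mul_mem p4 p3 using 1; group
  have key : h'.ρ ⟨b * b'⁻¹, mul_mem n1 (inv_mem n2)⟩ = 1 := by
    rcases h.pm hb hb' with p | p
    · obtain ⟨c, hc, e⟩ := h.g4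
      have e2 : γ b * (γ b')⁻¹ * (γ b * (γ b')⁻¹) = b * b'⁻¹ := by
        rw [mul_assoc, ← mul_assoc (γ b')⁻¹, comm_inv (h.g1 _ _ bb (h.g1 _ _ bb' p)).symm,
          show ∀ x y : G, x * (x * y⁻¹ * y⁻¹) = x * x * (y * y)⁻¹ from fun x y => by group, e _ bb,
          e _ bb', ← mem_center_iff.1 hc b, ← mem_center_iff.1 hc b']
        group
      refine LinearMap.ext fun w => ?_
      have := h'.fix_comm r f f w
      rw [← End.mul_apply, ← map_mul, h'.add_self, zero_sub, h'.neg_eq] at this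
      rw [End.one_apply]
      convert this using 3
      exact Subtype.ext e2.symm
    · have e2 : γ b * (γ b')⁻¹ * b = b * b'⁻¹ * (b * (γ b * (γ b')⁻¹)) := by
        have e3 := h.g2 b' (b'⁻¹ * b) bb' (by rw [mul_assoc, p, h.zl]; simp)
        have e4 := h.g2 b (b'⁻¹ * b) bb (by
          rw [← mul_assoc b, ← mul_assoc z, ← mul_assoc z, mul_left_inj, eq_comm,
            mul_inv_eq_iff_eq_mul, mul_assoc, p, h.zl]; simp)
        rw [mul_inv_cancel_left] at e3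
        rw [show γ b * (γ b')⁻¹ * b = γ b * ((γ b')⁻¹ * (b * γ b')) * (γ b')⁻¹ by group, ← e3,
          inv_mul_cancel_left, e4]
        group
      have e3 : h'.ρ (⟨_, n3⟩ * ⟨b, n1⟩) = h'.ρ (⟨b, n1⟩ * ⟨_, n3⟩) := LinearMap.ext fun w => by
        rw [map_mul, map_mul, End.mul_apply, End.mul_apply, h'.fix_comm r f (fun _ e => e),
          h'.fix_comm r (fun _ e => e) f, add_comm]
      have e4 : (⟨b * b'⁻¹, mul_mem n1 (inv_mem n2)⟩ : Nm P') =
          ⟨_, n3⟩ * ⟨b, n1⟩ * (⟨b, n1⟩ * ⟨_, n3⟩)⁻¹ := Subtype.ext (eq_mul_inv_of_mul_eq e2.symm)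
      rw [e4, map_mul, e3, ← map_mul, mul_inv_cancel, map_one]
  have m := mul_mem hb (inv_mem hb')
  have := TI _ m (h'.mem_of_triv (h.le m) (fun x hx => (h'.ρ_fix _ hx).1 (by rw [key]; rfl))
    (h.sq_sq m))
  rw [← h.cl_eq hb hb', e1, e1'] at this
  exact hu'.2 (Subtype.ext (Subtype.ext this.symm))

/-- The trivial intersection argument, orthogonal type. -/
theorem ti_O (h' : GC P' H z γ) (TI : ∀ x ∈ P, x ∈ P' → x ∈ center G)
    (hO : ∀ c ∈ P, c ∈ center G → c * c = 1) (h3 : 3 ≤ finrank (ZMod 2) h.W)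
    (hd : finrank (ZMod 2) h.W ≤ finrank (ZMod 2) h'.W) {a : G} (ha : a ∈ P')
    (a0 : a ∉ center G) (ha' : a ∈ Nm P) : False := by
  obtain ⟨d, -⟩ := h.fix_invol ⟨a, ha'⟩ (h.ρ_sq ha' (h'.sq_cen ha))
  obtain ⟨K, hK⟩ : ∃ K, K = LinearMap.ker (h.ρ ⟨a, ha'⟩ - 1) := ⟨_, rfl⟩
  rw [← hK] at d
  have k0 : ∀ x ∈ P, h.cl x ∈ K ↔ PM z a x := fun x hx => by
    simp [hK, sub_eq_zero, h.ρ_fix ha' hx]
  have k1 : ∀ x ∈ P, h.cl x ∈ K → x ∈ Nm P' := fun x hx e =>
    h'.mem_of_pm' (h.le hx) a0 ha (h.pm_symm ((k0 x hx).1 e))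
  obtain ⟨u, hu⟩ := Geom.exists_notMem_span_singleton (F := ZMod 2) (U := K) (by omega) 0
  have hb := h.out_mem u
  have b0 : h.out u ∉ center G := fun e => hu (by
    rw [← h.cl_eq_zero hb, h.cl_out] at e; simp [Subtype.ext_iff, e])
  have n1 := k1 _ hb (by simp)
  generalize h.out u = b at hb b0 n1
  obtain ⟨d', -⟩ := h'.fix_invol ⟨b, n1⟩ (h'.ρ_sq n1 (h.sq_cen hb))
  obtain ⟨K', hK'⟩ : ∃ K, K = LinearMap.ker (h'.ρ ⟨b, n1⟩ - 1) := ⟨_, rfl⟩
  rw [← hK'] at d'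
  have k2 : ∀ w : K', h'.out w ∈ Nm P := fun w => h.mem_of_pm' (h'.le (h'.out_mem _)) b0 hb
    (h.pm_symm ((h'.ρ_fix n1 (h'.out_mem _)).1 (by simpa [hK', sub_eq_zero] using w.2)))
  have d3 := h.finrank_orth K
  have key : ∀ v, v ∉ K → 2 ≤ finrank (ZMod 2) (h.β.orthogonal K) ∧ ∀ κ ∈ h.β.orthogonal K,
      qd (h.out κ) = h.β v κ := fun v hv => by
    let Φ : K' → h.β.orthogonal K := fun w => ⟨h.ρ ⟨_, k2 w⟩ v - v, fun u hu => by
      have := (h.ρ_fix (k2 w) (h.out_mem u)).2 (h.pm_of_ti TI (h'.out_mem w) (k2 w) (h.out_mem u)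
        (k1 _ (h.out_mem u) (by simpa using hu)))
      rw [h.cl_out] at this
      rw [map_sub, ← h.ρ_β ⟨_, k2 w⟩ u v, this, sub_self]⟩
    have i : Function.Injective Φ := fun w w' e => by
      have e1 : h.ρ (⟨_, k2 w'⟩⁻¹ * ⟨_, k2 w⟩) v = v := by
        rw [map_mul, End.mul_apply, sub_left_inj.1 (congrArg Subtype.val e), h.ρ_inv_apply]
      have m := mul_mem (inv_mem (h'.out_mem w')) (h'.out_mem w)
      by_contra ne
      have t0 : (h'.out w')⁻¹ * h'.out w ∉ center G := fun e => ne (Subtype.ext (by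
        rw [← h'.cl_eq_zero m, h'.cl_mul (inv_mem (h'.out_mem _)) (h'.out_mem _),
          h'.cl_inv (h'.out_mem _), h'.add_eq_zero] at e
        simpa using e.symm))
      rw [← h.cl_out v] at e1 hv
      exact hv ((k0 _ (h.out_mem v)).2 (h.pm_of_ti TI ha ha' (h.out_mem v) (h'.mem_of_pm'
        (h.le (h.out_mem v)) t0 m (h.pm_symm ((h.ρ_fix _ (h.out_mem v)).1 e1)))))
    have c1 := Nat.card_le_card_of_injective Φ i
    rw [natCard_eq_pow_finrank (K := ZMod 2), natCard_eq_pow_finrank (K := ZMod 2)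
      (V := h.β.orthogonal K), Nat.card_zmod, Nat.pow_le_pow_iff_right one_lt_two] at c1
    refine ⟨by omega, fun κ hκ => ?_⟩
    obtain ⟨w, e⟩ := (i.bijective_of_nat_card_le (by
      rw [natCard_eq_pow_finrank (K := ZMod 2), natCard_eq_pow_finrank (K := ZMod 2) (V := K')]
      exact Nat.pow_le_pow_right Nat.card_pos (by omega))).2 ⟨κ, hκ⟩
    have e1 : h.ρ ⟨_, k2 w⟩ v = v + κ := by
      rw [← sub_eq_iff_eq_add']; exact congrArg Subtype.val e
    have := h.qd_congr hO (Nm_conj (k2 w) (h.out_mem v)) (mul_mem (h.out_mem v) (h.out_mem κ)) (by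
      rw [← h.ρ_cl (k2 w) (h.out_mem v), h.cl_mul (h.out_mem v) (h.out_mem κ)]; simp [e1])
    rw [qd_conj, h.qd_mul (h.out_mem v) (h.out_mem κ), ← h.β_out, add_assoc, left_eq_add] at this
    revert this; generalize qd (h.out κ) = s; generalize h.β v κ = t; revert s t; decide
  obtain ⟨v, hv⟩ : ∃ v, v ∉ K := by
    by_contra! hc
    exact a0 (TI a (h.mem_of_triv (h'.le ha) (fun x hx => (k0 x hx).1 (hc _)) (h'.sq_sq ha)) ha)
  obtain ⟨v', hv'⟩ : ∃ v', v' ∉ K ⊔ Submodule.span (ZMod 2) {v} := by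
    by_contra! hc
    have e1 := Submodule.finrank_add_le_finrank_add_finrank K (Submodule.span (ZMod 2) {v})
    have e2 := finrank_span_le_card (R := ZMod 2) ({v} : Set h.W)
    rw [Submodule.eq_top_iff'.2 hc, finrank_top] at e1
    have := (key v hv).1
    simp at e2; omega
  have : v' - v ∈ K := by
    rw [← LinearMap.BilinForm.orthogonal_orthogonal h.β_nd h.β_refl K]
    intro κ hκ
    rw [h.β_comm, map_sub, LinearMap.sub_apply, ← (key v hv).2 κ hκ,
      ← (key v' fun e => hv' (Submodule.mem_sup_left e)).2 κ hκ, sub_self]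
  exact hv' (by
    simpa using Submodule.add_mem_sup this (Submodule.mem_span_singleton_self (R := ZMod 2) v))

end GC

end CF.MaxSub
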