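/-
Abstract Pauli groups: the global theorems.
-/
import Cfsg.Agent.MaxSub.C6C

set_option autoImplicit false
set_option linter.unusedSectionVars false

namespace CF.MaxSub

open Module Subgroup Geom

section Two

variable {W : Type*} [AddCommGroup W] [Module (ZMod 2) W]

theorem z2_add_self' (w : W) : w + w = 0 := by
  rw [← two_smul (ZMod 2), show (2 : ZMod 2) = 0 from rfl, zero_smul]

theorem exists_quad_z2 [Finite W] (β : LinearMap.BilinForm (ZMod 2) W) (ha : ∀ u, β u u = 0)
    (hs : ∀ u v, β u v = β v u) :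
    ∃ q : W → ZMod 2, q 0 = 0 ∧ ∀ u v, q (u + v) = q u + q v + β u v := by
  let b := finBasis (ZMod 2) W
  let B : LinearMap.BilinForm (ZMod 2) W :=
    b.constr (ZMod 2) fun i => b.constr (ZMod 2) fun j => if i < j then β (b i) (b j) else 0
  have e : B + B.flip = β := b.ext fun i => b.ext fun j => by
    simp only [B, LinearMap.add_apply, LinearMap.BilinForm.flip_apply, Basis.constr_basis]
    rcases lt_trichotomy i j with e | rfl | e
    · simp [e, e.not_gt]
    · simp [ha]
    · simp [e, e.not_gt, hs (b i)]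
  exact ⟨fun v => B v v, by simp, fun u v => by
    simp only [← e, map_add, LinearMap.add_apply, LinearMap.BilinForm.flip_apply]; abel⟩

/-- No sharply transitive sets in symplectic groups over the field with two elements. -/
theorem no_sharp [Finite W] {β : LinearMap.BilinForm (ZMod 2) W} (ha : ∀ u, β u u = 0)
    (hs : ∀ u v, β u v = β v u) (hn : ∀ u, (∀ v, β u v = 0) → u = 0) {a b : W} (a0 : a ≠ 0)
    (b0 : b ≠ 0) (ab : b ≠ a) (e : β a b = 0) {S : Type*} (r : S → End (ZMod 2) W)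
    (hr : ∀ s u v, β (r s u) (r s v) = β u v) (h : ∀ u v, u ≠ 0 → v ≠ 0 → ∃! s, r s u = v) :
    False := by
  classical
  obtain ⟨q, q0, hq⟩ := exists_quad_z2 β ha hs
  have := Fintype.ofFinite W
  have r0 : ∀ s u, u ≠ 0 → r s u ≠ 0 := fun s u u0 e => u0 (hn u fun v => by rw [← hr s, e]; simp)
  have : Finite S := Finite.of_injective (fun s => r s a) fun s t e =>
    (h a _ a0 (r0 s a a0)).unique rfl e.symm
  have := Fintype.ofFinite S
  have key : ∀ u, u ≠ 0 → ∀ f : W → ZMod 2, ∑ s, f (r s u) + f 0 = ∑ w, f w := fun u u0 f => by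
    rw [← Finset.sum_erase_add _ _ (Finset.mem_univ (0 : W))]
    congr 1
    exact Finset.sum_bij (fun s _ => r s u) (fun s _ => by simp [r0 s u u0])
      (fun s _ t _ e => (h u _ u0 (r0 s u u0)).unique rfl e.symm)
      (fun v hv => by simpa using (h u v u0 (by simpa using hv)).exists) fun _ _ => rfl
  have ab' : a + b ≠ 0 := fun e => ab (by rw [← add_left_inj a, z2_add_self', add_comm, e])
  have s1 : ∑ _w : W, (1 : ZMod 2) = 0 := Finset.sum_ninvolution (· + a) (fun _ => rfl)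
    (fun w _ => by simpa using a0) (by simp) fun w => by rw [add_assoc, z2_add_self', add_zero]
  obtain ⟨c, c1, c2, c3⟩ : ∃ c : ZMod 2 → ZMod 2 → W, (∀ s t, c s t ≠ 0) ∧
      (∀ s t, β (c s t) a = 0 ∧ β (c s t) b = 0) ∧
      ∀ w, q (c (β w a) (β w b)) + β w (c (β w a) (β w b)) = 0 := by
    refine ⟨fun s t => if s = q a then a else if t = q b then b else a + b, fun s t => ?_,
      fun s t => ?_, fun w => ?_⟩ <;> beta_reduce <;> split_ifs with h1 h2
    · exact a0
    · exact b0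
    · exact ab'
    · exact ⟨ha a, e⟩
    · exact ⟨(hs b a).trans e, ha b⟩
    · simp [ha, e, hs b a]
    · rw [h1, z2_add_self]
    · rw [h2, z2_add_self]
    · rw [hq, e, map_add]
      exact (by decide : ∀ a b c d : ZMod 2, ¬ c = a → ¬ d = b → a + b + 0 + (c + d) = 0)
        _ _ _ _ h1 h2
  have s2 : ∑ w, q w = 0 := Finset.sum_ninvolution (fun w => w + c (β w a) (β w b))
    (fun w => by rw [hq, add_assoc (q w), c3, add_zero, z2_add_self])
    (fun w _ => by simpa using c1 _ _) (fun _ => Finset.mem_univ _) fun w => by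
      simp only [map_add, LinearMap.add_apply, c2, add_zero]
      rw [add_assoc, z2_add_self', add_zero]
  obtain ⟨v, hv⟩ : ∃ v, β a v = 1 := by
    by_contra! hc; exact a0 (hn a fun v => not_not.1 (z2_ne.not.2 (hc v)))
  have v0 : v ≠ 0 := by rintro rfl; simp at hv
  have av : a + v ≠ 0 := fun e' => by
    rw [show v = a by rw [← add_right_inj a, e', z2_add_self'], ha] at hv; exact zero_ne_one hv
  have k1 := key a a0 q
  have k2 := key v v0 q
  have k3 := key _ av q
  have k4 := key a a0 fun _ => 1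
  simp only [map_add, hq, hr, hv, Finset.sum_add_distrib] at k3
  rw [s2, q0, add_zero] at k1 k2 k3
  rw [k1, k2, zero_add, zero_add] at k3
  rw [k3, s1] at k4
  exact zero_ne_one k4.symm

theorem eq_bot_of_four {Γ : Type*} [Group Γ] {D : Subgroup Γ} [Finite D] {e₁ e₂ : Γ}
    (s1 : e₁ * e₁ = 1) (s2 : e₂ * e₂ = 1) (n1 : ∀ d ∈ D, e₁ * d * e₁⁻¹ ∈ D)
    (n2 : ∀ d ∈ D, e₂ * d * e₂⁻¹ ∈ D) (f1 : ∀ d ∈ D, e₁ * d = d * e₁ → d = 1)
    (f2 : ∀ d ∈ D, e₂ * d = d * e₂ → d = 1) (f3 : ∀ d ∈ D, e₁ * e₂ * d = d * (e₁ * e₂) → d = 1) :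
    ∀ d ∈ D, d = 1 := by
  have key : ∀ e : Γ, e * e = 1 → (∀ d ∈ D, e * d * e⁻¹ ∈ D) → (∀ d ∈ D, e * d = d * e → d = 1) →
      ∀ d ∈ D, e * d = d⁻¹ * e := fun e s n f d hd => by
    let φ : D →* D := MonoidHom.mk' (fun d => ⟨e * d * e⁻¹, n d d.2⟩) fun a b =>
      Subtype.ext (by simp [mul_assoc])
    have := MonoidHom.FixedPointFree.coe_eq_inv_of_involutive (φ := φ)
      (fun g hg => Subtype.ext (f g g.2 (mul_inv_eq_iff_eq_mul.1 (congrArg Subtype.val hg))))
      fun g => Subtype.ext (show e * (e * g * e⁻¹) * e⁻¹ = g by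
        rw [show e * (e * g * e⁻¹) * e⁻¹ = e * e * g * (e * e)⁻¹ by group, s]; group)
    exact mul_inv_eq_iff_eq_mul.1 (congrArg Subtype.val (congrFun this ⟨d, hd⟩))
  exact fun d hd => f3 d hd (by
    rw [mul_assoc, key e₂ s2 n2 f2 d hd, ← mul_assoc, key e₁ s1 n1 f1 _ (inv_mem hd), inv_inv,
      mul_assoc])

/-- An Eichler transformation. -/
def IsEi (β : LinearMap.BilinForm (ZMod 2) W) (s y : W) (e : (End (ZMod 2) W)ˣ) : Prop :=
  ∀ w, e.1 w = w + β w s • y + (β w y + β w s) • s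

theorem quad_four [Finite W] {β : LinearMap.BilinForm (ZMod 2) W} {q : W → ZMod 2}
    (ha : ∀ u, β u u = 0) (hs : ∀ u v, β u v = β v u) (hq : ∀ u v, q (u + v) = q u + q v + β u v)
    {D : Subgroup (End (ZMod 2) W)ˣ} (h1 : ∀ d ∈ D, ∀ w, q (d.1 w) = q w)
    (h2 : ∀ d ∈ D, ∀ y, q y = 1 → d.1 y = y → d = 1) {s t y₁ y₂ : W} (st : β t s = 1) (qs : q s = 0)
    (q1 : q y₁ = 1) (q2 : q y₂ = 1) (b1 : β y₁ s = 0) (b2 : β y₂ s = 0) (b3 : β y₁ y₂ = 1)
    {e₁ e₂ : (End (ZMod 2) W)ˣ} (i1 : IsEi β s y₁ e₁) (i2 : IsEi β s y₂ e₂)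
    (n1 : ∀ d ∈ D, e₁ * d * e₁⁻¹ ∈ D) (n2 : ∀ d ∈ D, e₂ * d * e₂⁻¹ ∈ D) : ∀ d ∈ D, d = 1 := by
  have h3 : ∀ d ∈ D, ∀ u v, β (d.1 u) (d.1 v) = β u v := fun d hd u v => by
    have := h1 d hd (u + v)
    rwa [map_add, hq, hq, h1 d hd, h1 d hd, add_right_inj] at this
  have q3 : ∀ y, β y s = 0 → q (y + s) = q y := fun y e => by rw [hq, qs, e]; simp
  have mul : ∀ {y y' e e'}, β y s = 0 → β y' s = 0 → β y' y = 1 → IsEi β s y e → IsEi β s y' e' →
      IsEi β s (y + y') (e * e') := fun {y y' e e'} a a' b i i' w => by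
    rw [Units.val_mul, End.mul_apply, i, i']
    simp only [map_add, map_smul, LinearMap.add_apply, LinearMap.smul_apply, a, a', b, ha, hs s y,
      smul_eq_mul, mul_zero, add_zero, mul_one, add_assoc (β w y), z2_add_self]
    module
  have sq : ∀ {y e}, β y s = 0 → IsEi β s y e → e * e = 1 := fun {y e} a i => by
    refine Units.ext (LinearMap.ext fun w => ?_)
    rw [Units.val_mul, End.mul_apply, i, i]
    simp only [map_add, map_smul, LinearMap.add_apply, LinearMap.smul_apply, a, ha, hs s y,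
      smul_eq_mul, mul_zero, add_zero, Units.val_one, End.one_apply]
    rw [add_assoc, add_assoc w, add_assoc w, z2_add_self', add_zero]
  have cen : ∀ {y y' e}, q y = 1 → β y s = 0 → β y' s = 0 → β y' y = 1 → IsEi β s y e → ∀ d ∈ D,
      e * d = d * e → d ≠ 1 → d.1 y = y + s := fun {y y' e} qy a a' b i d hd c d1 => by
    have c' : ∀ w, β w s • d.1 y + (β w y + β w s) • d.1 s =
        β (d.1 w) s • y + (β (d.1 w) y + β (d.1 w) s) • s := fun w => by
      have := congrArg (fun t : (End (ZMod 2) W)ˣ => t.1 w) c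
      simp only [Units.val_mul, End.mul_apply, i w, i (d.1 w), map_add, map_smul, add_assoc,
        add_right_inj] at this
      exact this.symm
    have e1 : d.1 s = s := by
      have e := c' y'
      have e' := h1 d hd s
      have e'' := h3 d hd t s
      simp only [a', b, zero_smul, add_zero, zero_add, one_smul] at e
      rcases z2 (β (d.1 y') s) with k | k <;> rcases z2 (β (d.1 y') y) with k' | k' <;>
        rw [k, k'] at e <;> simp only [z2_add_self, zero_smul, one_smul, add_zero, zero_add] at e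
      · simp [e, st] at e''
      · exact e
      · rw [e, q3 y a, qy, qs] at e'; exact absurd e' one_ne_zero
      · rw [e, qy, qs] at e'; exact absurd e' one_ne_zero
    have e := c' t
    rw [show β (d.1 t) s = 1 by rw [← st, ← h3 d hd t s, e1], e1, st, one_smul, one_smul] at e
    have := h2 d hd y qy
    rcases z2 (β t y + 1) with k | k <;> rcases z2 (β (d.1 t) y + 1) with k' | k' <;>
      rw [k, k'] at e <;> simp at e
    · exact absurd (this e) d1
    · exact e
    · rw [← add_left_inj s, e, add_assoc, z2_add_self', add_zero]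
    · exact absurd (this e) d1
  have fpf : ∀ {y y' e e'}, q y = 1 → q y' = 1 → β y s = 0 → β y' s = 0 → β y' y = 1 →
      IsEi β s y e → IsEi β s y' e' → (∀ d ∈ D, e' * d * e'⁻¹ ∈ D) → ∀ d ∈ D, e * d = d * e →
      d = 1 := fun {y y' e e'} qy qy' a a' b i i' n d hd c => by
    by_contra d1
    have ee : e * e' = e' * e := Units.ext (LinearMap.ext fun w => by
      rw [mul a a' b i i', mul a' a (hs y' y ▸ b) i' i, add_comm y])
    have k1 := cen qy a a' b i d hd c d1
    have k2 := cen qy a a' b i _ (n d hd) (comm_mul (comm_mul ee.symm c.symm)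
      (comm_inv ee.symm)).symm (by rwa [Ne, conj_eq_one_iff])
    have k3 := h2 _ (mul_mem (inv_mem hd) (n d hd)) y qy (by
      rw [Units.val_mul, End.mul_apply, k2, ← k1, ← End.mul_apply, Units.inv_mul, End.one_apply])
    have k4 := cen qy' a' a (hs y' y ▸ b) i' d hd
      (mul_inv_eq_iff_eq_mul.1 (inv_mul_eq_one.1 k3).symm) d1
    exact d1 (h2 d hd (y + y') (by rw [hq, qy, qy', hs, b]; rfl) (by
      rw [map_add, k1, k4, add_add_add_comm, z2_add_self', add_zero]))
  have : Finite (End (ZMod 2) W) := Finite.of_injective _ DFunLike.coe_injective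
  exact eq_bot_of_four (sq b1 i1) (sq b2 i2) n1 n2 (fpf q1 q2 b1 b2 (hs y₁ y₂ ▸ b3) i1 i2 n2)
    (fpf q2 q1 b2 b1 b3 i2 i1 n1) (fpf (by rw [hq, q1, q2, b3]; rfl) q1 (by simp [b1, b2]) b1
      (by simp [ha, b3]) (mul b1 b2 (hs y₁ y₂ ▸ b3) i1 i2) i1 n1)

end Two

end CF.MaxSub
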