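/-
Abstract Pauli groups: the global theorems.
-/
import Cfsg.Agent.MaxSub.C6D

set_option autoImplicit false
set_option linter.unusedSectionVars false

namespace CF.MaxSub

open Module Subgroup Geom

variable {G : Type*} [Group G] [Finite G] {P H : Subgroup G} {z : G} {γ : G → G}

theorem dih_quot {K N : Subgroup G} (hZ : center G ≤ N) {T : Set G}
    (hT : ∀ t ∈ T, t ∈ K ∧ t ∈ N ∧ t * t ∈ center G)
    (hc : ∀ g ∈ K, g ∈ N → ∀ t ∈ T, ∃ t' ∈ T, g * t * g⁻¹ * t'⁻¹ ∈ center G)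
    (ha : ∀ g ∈ K, ∀ t ∈ T, g * t * g⁻¹ ∈ N → g ∈ N)
    (hb : ∀ t₁ ∈ T, ∀ t₂ ∈ T, t₁ * t₂ ∉ center G → ∃ t ∈ T, t₁ * t₂ * t⁻¹ ∈ center G)
    {g t₀ : G} (hg : g ∈ K) (hg' : g ∉ N) (h0 : t₀ ∈ T) :
    ∃ (S : Set (G ⧸ center G)) (r : S → G), (∀ s, r s ∈ K ∧ r s ∈ N) ∧
      ∀ t ∈ T, ∀ t' ∈ T, ∃! s, r s * t * (r s)⁻¹ * t'⁻¹ ∈ center G := by
  let π := QuotientGroup.mk' (center G)
  have k0 : ∀ {a b}, π a = π b ↔ a * b⁻¹ ∈ center G := fun {a b} => by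
    rw [← mul_inv_eq_one, ← map_inv, ← map_mul]; exact QuotientGroup.eq_one_iff _
  have k1 : ∀ a, π a ∈ N.map π ↔ a ∈ N := fun a => ⟨by
    rintro ⟨b, hb, e⟩; simpa using mul_mem (hZ (k0.1 e.symm)) hb, mem_map_of_mem _⟩
  have A : ∀ g ∈ K.map π, ∀ t ∈ π '' T, g * t * g⁻¹ ∈ N.map π → g ∈ N.map π := by
    rintro _ ⟨g, hg, rfl⟩ _ ⟨t, ht, rfl⟩ e
    rw [← map_inv, ← map_mul, ← map_mul, k1] at e
    exact (k1 g).2 (ha g hg t ht e)
  have d : Dih (K.map π) (N.map π) (π '' T) := by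
    refine ⟨?_, ?_, ?_, ?_, A, ?_⟩
    · rintro _ ⟨t, ht, rfl⟩; exact mem_map_of_mem _ (hT t ht).1
    · rintro _ ⟨t, ht, rfl⟩; exact mem_map_of_mem _ (hT t ht).2.1
    · rintro _ ⟨t, ht, rfl⟩; rw [← map_mul]; exact (QuotientGroup.eq_one_iff _).2 (hT t ht).2.2
    · rintro _ ⟨g, hg, rfl⟩ hg' _ ⟨t, ht, rfl⟩
      obtain ⟨t', h1, h2⟩ := hc g hg ((k1 g).1 hg') t ht
      exact ⟨t', h1, by rw [← map_inv, ← map_mul, ← map_mul]; exact (k0.2 h2).symm⟩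
    · rintro g hg _ ⟨t₁, h1, rfl⟩ _ ⟨t₂, h2, rfl⟩ _ ⟨t₃, h3, rfl⟩ _ ⟨t₄, h4, rfl⟩ e - e'
      obtain ⟨t, ht, h5⟩ := hb t₁ h1 t₂ h2 fun hc =>
        e (by rw [← map_mul]; exact (QuotientGroup.eq_one_iff _).2 hc)
      refine A g hg _ ⟨t, ht, rfl⟩ ?_
      rw [← k0.2 h5, map_mul, e', ← map_mul, k1]
      exact mul_mem (hT _ h3).2.1 (hT _ h4).2.1
  obtain ⟨S, -, s1, s2⟩ := d.exists_regular (mem_map_of_mem _ hg) (by rwa [k1]) ⟨t₀, h0, rfl⟩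
  choose r r1 r2 using fun s : S => (s1 s s.2).1
  refine ⟨S, r, fun s => ⟨r1 s, (k1 _).1 (r2 s ▸ (s1 s s.2).2.1)⟩, fun t ht t' ht' => ?_⟩
  obtain ⟨s, ⟨h1, h2⟩, h3⟩ := s2 _ ⟨t, ht, rfl⟩ _ ⟨t', ht', rfl⟩
  have key : ∀ y : S, r y * t * (r y)⁻¹ * t'⁻¹ ∈ center G ↔ y.1 * π t * y.1⁻¹ = π t' := fun y => by
    rw [← k0, map_mul, map_mul, map_inv, r2]
  exact ⟨⟨s, h1⟩, (key _).2 h2, fun y hy => Subtype.ext (h3 y ⟨y.2, (key y).1 hy⟩)⟩

theorem PG.exists_notMem_center (h : PG P z γ) (hd : 1 ≤ finrank (ZMod 2) h.W) :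
    ∃ x ∈ P, x ∉ center G := by
  have := finrank_pos_iff.1 hd
  obtain ⟨w, hw⟩ := exists_ne (0 : h.W)
  exact ⟨h.out w, h.out_mem w, by rwa [← h.cl_eq_zero (h.out_mem w), h.cl_out]⟩

theorem PG.regular (h : PG P z γ) (le : P ≤ H) (hd : 1 ≤ finrank (ZMod 2) h.W)
    (ha : ∀ g ∈ H, ∀ x ∈ P, x ∉ center G → g * x * g⁻¹ ∈ Nm P → g ∈ Nm P) {g : G} (hg : g ∈ H)
    (hg' : g ∉ Nm P) : ∃ (S : Set (G ⧸ center G)) (r : S → Nm P),
      ∀ u v, u ≠ 0 → v ≠ 0 → ∃! s, h.ρ (r s) u = v := by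
  obtain ⟨x, hx, x0⟩ := h.exists_notMem_center hd
  obtain ⟨S, r, h1, h2⟩ := dih_quot (K := H) (N := Nm P) (T := {x | x ∈ P ∧ x ∉ center G})
    (center_le_normalizer _) (fun t ht => ⟨le ht.1, le_normalizer ht.1, h.sq_cen ht.1⟩)
    (fun g _ hg t ht => ⟨_, ⟨Nm_conj hg ht.1, by rw [conj_mem_center_iff]; exact ht.2⟩, by simp⟩)
    (fun g hg t ht => ha g hg t ht.1 ht.2)
    (fun t₁ h1 t₂ h2 e => ⟨_, ⟨mul_mem h1.1 h2.1, e⟩, by simp⟩) hg hg' ⟨hx, x0⟩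
  refine ⟨S, fun s => ⟨r s, (h1 s).2⟩, fun u v u0 v0 => ?_⟩
  have m : ∀ w, w ≠ 0 → h.out w ∈ P ∧ h.out w ∉ center G := fun w hw =>
    ⟨h.out_mem w, by rwa [← h.cl_eq_zero (h.out_mem w), h.cl_out]⟩
  refine (existsUnique_congr fun s => ?_).1 (h2 _ (m u u0) _ (m v v0))
  rw [← h.cl_eq (Nm_conj (h1 s).2 (h.out_mem u)) (h.out_mem v), ← h.ρ_cl (h1 s).2 (h.out_mem u),
    h.cl_out, h.cl_out]

namespace GC

variable (h : GC P H z γ)
include h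

theorem ti_of (hR : Rich P) {g : G} (hg : g ∈ H) (hg' : g ∉ Nm P) :
    ∀ x ∈ P, x ∈ cjG g P → x ∈ center G := fun x hx hx' => by_contra fun x0 =>
  hg' (inv_mem_iff.1 (h.mem_of_conj hR (inv_mem hg) hx x0 (h.loc x hx x0) hx'))

/-- The global theorem, linear type. -/
theorem le_L {j : G} (hj : j ∈ P) (jc : j ∈ center G) (jj : j * j = z)
    (h5 : 5 ≤ finrank (ZMod 2) h.W) : H ≤ Nm P := fun g hg => by_contra fun hg' => by
  obtain ⟨S, r, hr⟩ := h.regular h.le (by omega) (fun g hg x hx x0 e => by_contra fun hn =>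
    h.ti_L (h.conj hg) (h.ti_of (h.rich_of_five h5) hg hn) hj jc jj h5 (conj_mem_cjG.2 hx)
      (by rwa [conj_mem_center_iff]) e) hg hg'
  obtain ⟨x, hx, x0⟩ := h.exists_notMem_center (by omega)
  obtain ⟨e, he, e1, e2, e3⟩ := h.exists_comm [x] (by simpa using hx) (x := x) (by simp; omega)
  exact no_sharp h.β_self h.β_comm (fun _ => h.β_sep) (a := h.cl x) (b := h.cl e)
    (by rwa [Ne, h.cl_eq_zero hx]) (by rwa [Ne, h.cl_eq_zero he]) e3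
    (by rw [h.β_cl hx he, e1 x (by simp)]) (fun s => h.ρ (r s)) (fun s => h.ρ_β _) hr

/-- The global theorem, orthogonal type. -/
theorem le_O (hO : ∀ c ∈ P, c ∈ center G → c * c = 1) (h5 : 5 ≤ finrank (ZMod 2) h.W) :
    H ≤ Nm P := fun g hg => by_contra fun hg' => by
  have hR := h.rich_of_five h5
  obtain ⟨S, r, hr⟩ := h.regular h.le (by omega) (fun g hg x hx x0 e => by_contra fun hn =>
    h.ti_O (h.conj hg) (h.ti_of hR hg hn) hO (by omega) (h.finrank_conj g) (conj_mem_cjG.2 hx)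
      (by rwa [conj_mem_center_iff]) e) hg hg'
  obtain ⟨x, hx, x0⟩ := h.exists_notMem_center (by omega)
  obtain ⟨p, hp, e⟩ := h.exists_partner x0
  obtain ⟨u, u1, u2, u3, -⟩ := hR p hp p hp x hx 0
  obtain ⟨v, v1, v2, v3, -⟩ := hR p hp p hp x hx 1
  obtain ⟨s, hs, -⟩ := hr (h.cl u) (h.cl v)
    (by rw [Ne, h.cl_eq_zero u1]; exact notMem_center_of_bt (u3.trans e))
    (by rw [Ne, h.cl_eq_zero v1]; exact notMem_center_of_bt (v3.trans e))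
  rw [h.ρ_cl (r s).2 u1] at hs
  have := h.qd_congr hO (Nm_conj (r s).2 u1) v1 hs
  rw [qd_conj, u2, v2] at this
  exact zero_ne_one this

end GC

namespace PG

variable (h : PG P z γ)
include h

theorem ρ_gam {y : G} (hy : y ∈ P) (e : y * y = z) (w : h.W) :
    h.ρ ⟨γ y, h.gam_mem hy e⟩ w = w + h.β w (h.cl y) • h.cl y := by
  have m := h.out_mem w
  rw [← h.cl_out w, h.ρ_cl _ m, h.β_cl m hy]
  rcases h.pm m hy with p | p
  · rw [h.g1 _ _ e p, bt_eq_zero.2 p]; simp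
  · rw [h.g2 _ _ e p, h.bt_one p, mul_inv_cancel_right, h.cl_mul hy m, add_comm, one_smul]

theorem ρ_gate {y y' : G} (hy : y ∈ P) (e : y * y = z) (hy' : y' ∈ P) (e' : y' * y' = z)
    (hn : γ y * (γ y')⁻¹ ∈ Nm P) (w : h.W) : h.ρ ⟨_, hn⟩ w = w + h.β w (h.cl y') • h.cl y' +
      (h.β w (h.cl y) + h.β w (h.cl y') * bt y' y) • h.cl y := by
  have : h.ρ ⟨_, h.gam_mem hy' e'⟩⁻¹ w = w + h.β w (h.cl y') • h.cl y' := by
    conv_lhs => rw [show w = h.ρ ⟨_, h.gam_mem hy' e'⟩ (w + h.β w (h.cl y') • h.cl y') by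
      simp [h.ρ_gam hy' e', h.β_self, add_assoc, h.add_self], h.ρ_inv_apply]
  rw [show (⟨_, hn⟩ : Nm P) = ⟨_, h.gam_mem hy e⟩ * ⟨_, h.gam_mem hy' e'⟩⁻¹ from rfl, map_mul,
    End.mul_apply, this, h.ρ_gam hy e]
  simp [h.β_cl hy' hy]

/-- A gate determines its elements. -/
theorem gate_inj (hO : ∀ c ∈ P, c ∈ center G → c * c = 1) {a a' b b' : G} (ha : a ∈ P)
    (ha' : a' ∈ P) (hb : b ∈ P) (hb' : b' ∈ P) (aa : a * a = z) (aa' : a' * a' = z)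
    (bb : b * b = z) (bb' : b' * b' = z) (e : bt b b' = 0) (ne : h.cl a ≠ h.cl a')
    (hm : γ a * (γ a')⁻¹ * (γ b * (γ b')⁻¹)⁻¹ ∈ P) : h.cl a = h.cl b ∨ h.cl a = h.cl b' := by
  have a0 : a ∉ center G := fun e => h.ne (aa ▸ hO a ha e)
  obtain ⟨w, hw, w1, w2⟩ := h.sep1 ha' ha a0 ne
  have n1 := mul_mem (h.gam_mem ha aa) (inv_mem (h.gam_mem ha' aa'))
  have n2 := mul_mem (h.gam_mem hb bb) (inv_mem (h.gam_mem hb' bb'))
  have e1 : h.ρ ⟨_, n1⟩ = h.ρ ⟨_, n2⟩ := by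
    rw [← one_mul (h.ρ ⟨_, n2⟩), ← h.ρ_of_pm (le_normalizer hm) fun x hx => h.pm hm hx, ← map_mul]
    congr 1; exact Subtype.ext (inv_mul_cancel_right _ _).symm
  have e2 := congrArg (· (h.cl w)) e1
  simp only [h.ρ_gate ha aa ha' aa', h.ρ_gate hb bb hb' bb', h.β_cl hw ha, h.β_cl hw ha', w1, w2,
    bt_comm b', e, zero_smul, add_zero, zero_mul, mul_zero, one_smul, add_assoc,
    add_right_inj] at e2
  rcases z2 (h.β (h.cl w) (h.cl b')) with k | k <;> rcases z2 (h.β (h.cl w) (h.cl b)) with k' | k' <;>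
    simp only [k, k', zero_smul, one_smul, add_zero, zero_add] at e2
  · exact absurd ((h.cl_eq_zero ha).1 e2) a0
  · exact .inl e2
  · exact .inr e2
  · have := h.qd_congr hO ha (mul_mem hb' hb) (by rw [e2, h.cl_mul hb' hb])
    rw [h.qd_mul hb' hb, h.qd_one aa, h.qd_one bb, h.qd_one bb', bt_comm, e] at this
    exact absurd this (by decide)

/-- A group whose centralisers of non-singular elements lie in `P`. -/
theorem o3core {K : Subgroup G} (le : P ≤ K) (hO : ∀ c ∈ P, c ∈ center G → c * c = 1)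
    (h1 : ∀ k ∈ K, ∀ y ∈ P, y * y = z → k * y = y * k → k ∈ P) {s y₁ y₂ : G} (hs : s ∈ P)
    (m1 : y₁ ∈ P) (m2 : y₂ ∈ P) (ss : s * s = 1) (s0 : s ∉ center G) (q1 : y₁ * y₁ = z)
    (q2 : y₂ * y₂ = z) (b1 : bt y₁ s = 0) (b2 : bt y₂ s = 0) (b3 : bt y₁ y₂ = 1)
    (n1 : γ y₁ * (γ (y₁ * s))⁻¹ ∈ Nm K) (n2 : γ y₂ * (γ (y₂ * s))⁻¹ ∈ Nm K) : K ≤ P := by
  have h2 : ∀ k ∈ K, ∀ y ∈ P, y * y = z → PM z k y → k ∈ P := fun k hk y hy yy e => by
    rcases e with e | e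
    · exact h1 k hk y hy yy e
    · obtain ⟨p, hp, e'⟩ := h.exists_partner (x := y) fun e => h.ne (yy ▸ hO y hy e)
      have := h1 (k * p) (mul_mem hk (le hp)) y hy yy (bt_eq_zero.1 (by
        rw [(h.pm_mul (.inr e) (h.pm hp hy)).2, h.bt_one e, bt_comm, e']; rfl))
      simpa using mul_mem this (inv_mem hp)
  have sq : ∀ y ∈ P, y * y = z → bt y s = 0 → y * s * (y * s) = z := fun y hy yy b =>
    h.sq_z (mul_mem hy hs) (by rw [h.qd_mul hy hs, h.qd_one yy, qd_eq_zero.2 ss, b]; rfl)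
  have qc : ∀ x ∈ P, qd (h.out (h.cl x)) = qd x := fun x hx =>
    h.qd_congr hO (h.out_mem _) hx (h.cl_out _)
  have h3 : ∀ k ∈ K, k ∈ Nm P → k ∈ P := fun k hk hk' => by
    obtain ⟨t, ht, e⟩ := h.exists_partner s0
    have ei : ∀ y (hy : y ∈ P) (yy : y * y = z) (b : bt y s = 0), IsEi h.β (h.cl s) (h.cl y)
        (h.ρ.toHomUnits ⟨_, mul_mem (h.gam_mem hy yy)
          (inv_mem (h.gam_mem (mul_mem hy hs) (sq y hy yy b)))⟩) := fun y hy yy b w => by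
      rw [MonoidHom.coe_toHomUnits, h.ρ_gate hy yy (mul_mem hy hs) (sq y hy yy b), h.bt_mul hy hs hy,
        bt_self, bt_comm s, b, h.cl_mul hy hs, map_add]
      have := h.add_self (h.β w (h.cl y) • h.cl y)
      linear_combination (norm := module) this
    have nn : ∀ e : Nm P, e.1 ∈ Nm K → ∀ d ∈ (K.subgroupOf (Nm P)).map h.ρ.toHomUnits,
        h.ρ.toHomUnits e * d * (h.ρ.toHomUnits e)⁻¹ ∈ (K.subgroupOf (Nm P)).map h.ρ.toHomUnits := by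
      rintro e he _ ⟨d, hd, rfl⟩
      exact ⟨e * d * e⁻¹, Nm_conj (P := K) (x := d.1) he hd, by simp⟩
    have := quad_four (q := fun w => qd (h.out w)) h.β_self h.β_comm (fun u v => by
        rw [h.β_out, ← h.qd_mul (h.out_mem u) (h.out_mem v)]
        exact h.qd_congr hO (h.out_mem _) (mul_mem (h.out_mem u) (h.out_mem v))
          (by simp [h.cl_mul (h.out_mem u) (h.out_mem v)]))
      (D := (K.subgroupOf (Nm P)).map h.ρ.toHomUnits) (by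
        rintro _ ⟨d, hd, rfl⟩ w
        rw [MonoidHom.coe_toHomUnits, ← h.cl_out w, h.ρ_cl d.2 (h.out_mem w),
          qc _ (Nm_conj d.2 (h.out_mem w)), qd_conj, h.cl_out]) (by
        rintro _ ⟨d, hd, rfl⟩ y qy e
        rw [MonoidHom.coe_toHomUnits, ← h.cl_out y] at e
        have := h2 d hd _ (h.out_mem y) (h.sq_z (h.out_mem y) qy) ((h.ρ_fix d.2 (h.out_mem y)).1 e)
        exact Units.ext (h.ρ_of_pm d.2 fun x hx => h.pm this hx))
      (s := h.cl s) (t := h.cl t) (by rw [h.β_cl ht hs, bt_comm, e])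
      ((qc s hs).trans (qd_eq_zero.2 ss)) ((qc _ m1).trans (h.qd_one q1))
      ((qc _ m2).trans (h.qd_one q2)) ((h.β_cl m1 hs).trans b1) ((h.β_cl m2 hs).trans b2)
      ((h.β_cl m1 m2).trans b3) (ei _ m1 q1 b1) (ei _ m2 q2 b2) (nn _ n1) (nn _ n2) _
      ⟨⟨k, hk'⟩, hk, rfl⟩
    refine h2 k hk _ m1 q1 ((h.ρ_fix hk' m1).1 ?_)
    rw [← MonoidHom.coe_toHomUnits, this]; rfl
  have h4 : ∀ g ∈ K, ∀ y ∈ P, y * y = z → g * y * g⁻¹ ∈ P → ∀ x ∈ P, bt x y = 0 →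
      g * x * g⁻¹ ∈ P := fun g hg y hy yy e x hx b =>
    h1 _ (mul_mem (mul_mem hg (le hx)) (inv_mem hg)) _ e (by rw [conj_mul, yy, h.conj_z])
      (by rw [conj_mul, conj_mul, bt_eq_zero.1 b])
  have q3 : y₁ * y₂ * (y₁ * y₂) = z := h.sq_z (mul_mem m1 m2) (by
    rw [h.qd_mul m1 m2, h.qd_one q1, h.qd_one q2, b3]; rfl)
  have hT : ∀ t, t = y₁ ∨ t = y₂ ∨ t = y₁ * y₂ → t ∈ P ∧ t * t = z ∧ bt t s = 0 := by
    rintro _ (rfl | rfl | rfl)
    exacts [⟨m1, q1, b1⟩, ⟨m2, q2, b2⟩, ⟨mul_mem m1 m2, q3, by simp [h.bt_mul m1 m2 hs, b1, b2]⟩]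
  intro g hg
  by_contra hn
  obtain ⟨S, r, r1, r2⟩ := dih_quot (K := K) (N := Nm P) (T := {t | t = y₁ ∨ t = y₂ ∨ t = y₁ * y₂})
    (center_le_normalizer _) (fun t ht => ⟨le (hT t ht).1, le_normalizer (hT t ht).1,
      h.sq_cen (hT t ht).1⟩)
    (fun g hg hg' t ht => ⟨t, ht, h.comm_cen (h.pm (h3 g hg hg') (hT t ht).1)⟩)
    (fun g hg t ht e => by
      obtain ⟨t1, t2, t3⟩ := hT t ht
      have e1 := h3 _ (mul_mem (mul_mem hg (le t1)) (inv_mem hg)) e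
      have m := mul_mem t1 hs
      have k1 := h4 g hg t t1 t2 e1
      have k2 := h4 g hg _ m (sq t t1 t2 t3) (k1 _ m (by simp [h.bt_mul t1 hs t1, bt_self, bt_comm s, t3]))
      obtain ⟨p, hp, p1, p2⟩ := h.sep1 t1 hs s0 fun e => by
        have := h.qd_congr hO hs t1 e
        rw [qd_eq_zero.2 ss, h.qd_one t2] at this
        exact zero_ne_one this
      refine mem_normalizer_fintype fun x hx => ?_
      rcases z2 (bt x (t * s)) with e | e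
      · exact k2 x hx e
      · have := mul_mem (k1 p hp p1) (k2 (p⁻¹ * x) (mul_mem (inv_mem hp) hx) (by
          rw [h.bt_mul (inv_mem hp) hx m, h.bt_congr (inv_mem hp) hp (h.cl_inv hp),
            h.bt_mul' t1 hs hp, p1, p2, e]; rfl))
        rwa [conj_mul, mul_inv_cancel_left] at this)
    (fun t₁ h1 t₂ h2 e => by
      have m := mul_mem (hT _ h1).1 (hT _ h2).1
      rw [← h.cl_eq_zero m] at e
      have : ∃ t, (t = y₁ ∨ t = y₂ ∨ t = y₁ * y₂) ∧ h.cl (t₁ * t₂) = h.cl t := by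
        rw [h.cl_mul (hT _ h1).1 (hT _ h2).1] at e ⊢
        have e3 := h.cl_mul m1 m2
        have a1 := h.add_self (h.cl y₁)
        have a2 := h.add_self (h.cl y₂)
        rcases h1 with rfl | rfl | rfl <;> rcases h2 with rfl | rfl | rfl
        any_goals exact absurd (h.add_self _) e
        all_goals simp only [exists_eq_or_imp, exists_eq_left, e3]
        all_goals first
          | (left; linear_combination (norm := abel1) a2)
          | (right; left; linear_combination (norm := abel1) a1)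
          | (right; right; abel1)
          | simp
      obtain ⟨t, ht, e⟩ := this
      exact ⟨t, ht, (h.cl_eq m (hT t ht).1).1 e⟩)
    hg (fun e => hn (h3 g hg e)) (.inl rfl)
  obtain ⟨a, ha, -⟩ := r2 y₁ (.inl rfl) y₂ (.inr (.inl rfl))
  have m := h3 _ (r1 a).1 (r1 a).2
  rw [← h.cl_eq (Nm_conj (r1 a).2 m1) m2, ← h.ρ_cl (r1 a).2 m1, (h.ρ_fix _ m1).2 (h.pm m m1)] at ha
  rw [h.bt_congr m1 m2 ha, bt_self] at b3
  exact zero_ne_one b3

end PG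

end CF.MaxSub
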