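/-
Reflection groups in dimension five containing the rotations of an orthonormal frame.
-/
import Cfsg.Agent.Geom.FrO5

set_option autoImplicit false
set_option linter.unusedSectionVars false

namespace CF.MaxSub

open Module QuadraticMap Geom

variable {F : Type*} [Field F] {ι : Type} [Fintype ι] [DecidableEq ι]
  {X : Subgroup ((ι → F) ≃ₗ[F] (ι → F))}

/-- Groups containing the coordinate reflections and the `3`-cycles. -/
structure RY (X : Subgroup ((ι → F) ≃ₗ[F] (ι → F))) : Prop where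
  le : X ≤ OG (sqF ι F)
  r : ∀ i, (oRefl (sqF ι F) (ee F i)).1 ∈ X
  c : ∀ i j k, i ≠ j → i ≠ k → j ≠ k → ∃ g ∈ X, IsCyc g i j k
  n5 : Fintype.card ι = 5
  two : (2 : F) ≠ 0

namespace RY

theorem nd (h : RY X) : (polarBilin (sqF ι F)).Nondegenerate := sqF_nondegenerate h.two

theorem fresh (h : RY X) (a b c d : ι) : ∃ l, l ≠ a ∧ l ≠ b ∧ l ≠ c ∧ l ≠ d := by
  simpa using exists_notMem_list [a, b, c, d] (by simp [h.n5])

theorem univ5 (h : RY X) {a b c d e : ι} (n : [a, b, c, d, e].Nodup) :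
    (Finset.univ : Finset ι) = [a, b, c, d, e].toFinset :=
  (Finset.eq_univ_of_card _ (by rw [List.toFinset_card_of_nodup n, h.n5]; rfl)).symm

theorem dot5 (h : RY X) {a b c d e : ι} (n : [a, b, c, d, e].Nodup) (v w : ι → F) :
    v ⬝ᵥ w = v a * w a + v b * w b + v c * w c + v d * w d + v e * w e := by
  rw [dotProduct, h.univ5 n, List.sum_toFinset _ n]; simp [add_assoc]

theorem cases5 (h : RY X) {a b c d e : ι} (n : [a, b, c, d, e].Nodup) (l : ι) :
    l = a ∨ l = b ∨ l = c ∨ l = d ∨ l = e := by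
  simpa using Finset.ext_iff.1 (h.univ5 n) l

theorem four_nz (h : RY X) (v : ι → F) : (∃ a b, a ≠ b ∧ v a = 0 ∧ v b = 0) ∨
    ∃ a b c d e, [a, b, c, d, e].Nodup ∧ v a ≠ 0 ∧ v b ≠ 0 ∧ v c ≠ 0 ∧ v d ≠ 0 := by
  obtain ⟨e, he⟩ : ∃ e, v e = 0 ∨ ∀ l, v l ≠ 0 := by
    by_cases hc : ∀ l, v l ≠ 0
    · obtain ⟨a⟩ : Nonempty ι := Fintype.card_pos_iff.1 (by simp [h.n5])
      exact ⟨a, .inr hc⟩
    · push Not at hc; exact hc.imp fun _ => .inl
  obtain ⟨a, a1, -⟩ := h.fresh e e e e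
  obtain ⟨b, b1, b2, -⟩ := h.fresh e a e e
  obtain ⟨c, c1, c2, c3, -⟩ := h.fresh e a b e
  obtain ⟨d, d1, d2, d3, d4⟩ := h.fresh e a b c
  by_contra! hc
  have k : ∀ l, l ≠ e → v l ≠ 0 := fun l hl => he.elim (fun he e' => hc.1 l e hl e' he) (· l)
  exact k d d1 (hc.2 a b c d e (by simp; grind) (k a a1) (k b b1) (k c c1))

theorem xi_ee (h : RY X) (i : ι) : Xi X (ee F i) := ⟨by simp, h.r i⟩

theorem map (h : RY X) {v : ι → F} (hv : Xi X v) {g : (ι → F) ≃ₗ[F] (ι → F)} (hg : g ∈ X) :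
    Xi X (g v) :=
  ⟨(dot_map h.two (h.le hg) v v).trans hv.one, by
    rw [← conj_oRefl' (h.le hg)]; exact mul_mem (mul_mem hg hv.mem) (inv_mem hg)⟩

theorem refl (h : RY X) {v w : ι → F} (hv : Xi X v) (hw : Xi X w) :
    Xi X (w - (2 * (v ⬝ᵥ w)) • v) := oRefl_unit hv.one w ▸ h.map hw hv.mem

theorem flip (h : RY X) {v : ι → F} (hv : Xi X v) (i : ι) : Xi X (v - (2 * v i) • ee F i) :=
  oRefl_ee i v ▸ h.map hv (h.r i)

theorem FL2 (h : RY X) {v : ι → F} (hv : Xi X v) {i j : ι} (ij : i ≠ j)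
    (e : 4 * (v i ^ 2 + v j ^ 2) = 3) : Xi X ((2 : F) • (v - v i • ee F i - v j • ee F j)) := by
  have := h.refl hv (h.flip (h.flip hv i) j)
  simp only [Pi.sub_apply, Pi.smul_apply, ee_ne i ij.symm, dotProduct_sub, dotProduct_smul,
    dotProduct_single, hv.one, smul_eq_mul] at this
  convert this using 1
  match_scalars
  · linear_combination -e
  · ring
  · ring

theorem FL3 (h : RY X) {v : ι → F} (hv : Xi X v) {i j k : ι} (ij : i ≠ j) (ik : i ≠ k) (jk : j ≠ k)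
    (e : 4 * (v i ^ 2 + v j ^ 2 + v k ^ 2) = 3) :
    Xi X ((2 : F) • (v - v i • ee F i - v j • ee F j - v k • ee F k)) := by
  have := h.refl hv (h.flip (h.flip (h.flip hv i) j) k)
  simp only [Pi.sub_apply, Pi.smul_apply, ee_ne i ij.symm, ee_ne i ik.symm, ee_ne j jk.symm,
    dotProduct_sub, dotProduct_smul, dotProduct_single, hv.one, smul_eq_mul] at this
  convert this using 1
  match_scalars
  · linear_combination -e
  · ring
  · ring
  · ring

theorem shift (h : RY X) {v : ι → F} (hv : Xi X v) {i j k : ι} (ij : i ≠ j) (ik : i ≠ k)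
    (jk : j ≠ k) (h2 : v j = 0) (h3 : v k = 0) : Xi X (v - v i • ee F i + v i • ee F j) := by
  obtain ⟨g, hg, e⟩ := h.c i j k ij ik jk
  exact e.move h2 h3 ▸ h.map hv hg

theorem shift_refl (h : RY X) {v : ι → F} (hv : Xi X v) {i j k : ι} (ij : i ≠ j) (ik : i ≠ k)
    (jk : j ≠ k) (h2 : v j = 0) (h3 : v k = 0) :
    Xi X ((2 * v i ^ 2 - 1) • v - v i • ee F i + v i • ee F j) := by
  have := h.refl hv (h.shift hv ij ik jk h2 h3)
  simp only [dotProduct_add, dotProduct_sub, dotProduct_smul, dotProduct_single, hv.one, h2,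
    smul_eq_mul] at this
  convert this using 1
  module

variable [Finite F]

theorem four (h : RY X) {A : Submodule F (ι → F)} (hA : Good (polarBilin (sqF ι F)) (sqF ι F) X A)
    {a b c d : ι} (ab : a ≠ b) (ac : a ≠ c) (bc : b ≠ c) (ad : d ≠ a) (bd : d ≠ b) (cd : d ≠ c)
    (ha : ee F a ∈ A) (hb : ee F b ∈ A) (hc : ee F c ∈ A) (hd : ee F d ∈ A) :
    OmG (sqF ι F) ≤ X := by
  have o := orth3_ee (F := F) ab ac bc
  have hU : Submodule.span F {ee F a, ee F b, ee F c} ≤ A := Submodule.span_le.2 (by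
    rintro _ (rfl | rfl | rfl); exacts [ha, hb, hc])
  obtain ⟨Y, h1, hY⟩ := exists_maxGood h.nd (o.disjoint h.two) (o.finrank_span h.two).ge hU hA
  have key : ∀ l, ee F l ∈ Y := fun l => by
    by_cases e : l = a ∨ l = b ∨ l = c ∨ l = d
    · rcases e with rfl | rfl | rfl | rfl
      exacts [h1 ha, h1 hb, h1 hc, h1 hd]
    simp only [not_or] at e
    obtain ⟨g, hg, e1⟩ := h.c c d l cd.symm (Ne.symm e.2.2.1) (Ne.symm e.2.2.2)
    have o' := orth3_ee (F := F) ab ad.symm bd.symm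
    have e2 : g (ee F d) = ee F l := by
      rw [e1]; simp [ee_ne d cd.symm, ee_ne d e.2.2.2]
    refine hY.le h.nd (o'.disjoint h.two) (o'.finrank_span h.two).ge (Submodule.span_le.2 ?_)
      (Submodule.span_le.2 ?_) (hY.1.map (h.le hg) hg) ⟨_, h1 hd, e2⟩
    · rintro _ (rfl | rfl | rfl); exacts [h1 ha, h1 hb, h1 hd]
    rintro _ (rfl | rfl | rfl)
    · exact ⟨_, h1 ha, e1.fix (ee_ne _ ac.symm) (ee_ne _ ad) (ee_ne _ e.1)⟩
    · exact ⟨_, h1 hb, e1.fix (ee_ne _ bc.symm) (ee_ne _ bd) (ee_ne _ e.2.1)⟩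
    · exact ⟨_, h1 hc, e1.ee cd.symm (Ne.symm e.2.2.1)⟩
  have : Y = ⊤ := eq_top_iff.2 fun x _ => by
    rw [pi_eq_sum_univ' x]
    exact sum_mem fun l _ => Y.smul_mem _ (key l)
  exact (polarG_omega' h.nd (by simp [h.n5])).le_of_good_top
    (this ▸ hY.1)

theorem three (h : RY X) (h5 : 5 < Nat.card F) (h3 : (3 : F) ≠ 0) {f f' n : ι → F}
    (o : Orth3 (sqF ι F) f f' n) (hf : Xi X f)
    (hG : Good (polarBilin (sqF ι F)) (sqF ι F) X (Submodule.span F {f, f', n})) {i j k : ι}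
    (ij : i ≠ j) (ik : i ≠ k) (jk : j ≠ k) (hi : f i ≠ 0) (hj : f' j ≠ 0) (hk : n k ≠ 0) :
    OmG (sqF ι F) ≤ X := by
  obtain ⟨Y, h1, hY⟩ := exists_maxGood h.nd (o.disjoint h.two) (o.finrank_span h.two).ge le_rfl hG
  have key : ∀ l, ∀ x ∈ Submodule.span F {f, f', n}, x l ≠ 0 → ee F l ∈ Y := fun l x hx e =>
    hY.grow h.nd h.two h5 h.le (o.disjoint h.two) (o.finrank_span h.two) h1 (mem_span3_1 (F := F) _ _ _) o.qa
      hf.mem ((sqF_ee l).trans hf.q.symm) (h.r l) fun e' => e (by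
        simpa [polar_sqF, h.two] using mem_perp.1 e' x hx)
  have a1 := key i _ (mem_span3_1 (F := F) _ _ _) hi
  have a2 := key j _ (mem_span3_2 (F := F) _ _ _) hj
  have a3 := key k _ (mem_span3_3 (F := F) _ _ _) hk
  have o1 := orth3_ee (F := F) ij ik jk
  have hU : Submodule.span F {ee F i, ee F j, ee F k} ≤ Y := Submodule.span_le.2 (by
    rintro _ (rfl | rfl | rfl); exacts [a1, a2, a3])
  obtain ⟨l, l1, l2, l3, -⟩ := h.fresh i j k i
  obtain ⟨m, m1, m2, m3, m4⟩ := h.fresh i j k l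
  obtain ⟨g, hg, e1⟩ := h.c k l m l3.symm m3.symm m4.symm
  have o2 := orth3_ee (F := F) ij l1.symm l2.symm
  have g1 := (hY.1.map (h.le hg) hg).anti (U := Submodule.span F {ee F i, ee F j, ee F l})
    (Submodule.span_le.2 (by
      rintro _ (rfl | rfl | rfl)
      · exact ⟨_, a1, e1.fix (ee_ne _ ik.symm) (ee_ne _ l1) (ee_ne _ m1)⟩
      · exact ⟨_, a2, e1.fix (ee_ne _ jk.symm) (ee_ne _ l2) (ee_ne _ m2)⟩
      · exact ⟨_, a3, e1.ee l3.symm m3.symm⟩))
  obtain ⟨α, β, e⟩ := exists_binary_eq (one_ne_zero (α := F)) one_ne_zero (-3)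
  have q : sqF ι F (α • ee F i + β • ee F j + (2 : F) • ee F l) = sqF ι F (ee F i) := by
    simp [sqF_apply, ee_ne i ij.symm, ee_ne j ij, ee_ne i l1, ee_ne j l2, ee_ne l l1.symm,
      ee_ne l l2.symm]
    linear_combination e
  have r := mul_mem (h.r i) (g1.RR h.nd (o2.disjoint h.two) (Or.inl (ne_zero_ne_one_of_two h.two))
    (o2.finrank_span h.two).ge (mem_span3_1 (F := F) _ _ _) (add_mem (add_mem (Submodule.smul_mem _ α
      (mem_span3_1 (F := F) _ _ _)) (Submodule.smul_mem _ β (mem_span3_2 (F := F) _ _ _))) (Submodule.smul_mem _ 2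
      (mem_span3_3 (F := F) _ _ _))) o2.qa q)
  rw [← mul_assoc, oRefl_sq, one_mul] at r
  have a4 := hY.grow h.nd h.two h5 h.le (o1.disjoint h.two) (o1.finrank_span h.two) hU
    (mem_span3_1 (F := F) _ _ _) o1.qa (h.r i) q r fun e' => by
      have e2 := mem_perp.1 e' _ (mem_span3_1 (F := F) _ _ _)
      have e3 := mem_perp.1 e' _ (mem_span3_2 (F := F) _ _ _)
      rw [polarBilin_apply_apply, polar_sqF] at e2 e3
      simp [h.two, ee_ne i ij.symm, ee_ne j ij, ee_ne i l1, ee_ne j l2] at e2 e3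
      exact h3 (by rw [e2, e3] at e; linear_combination e)
  have a5 := sub_mem a4 (add_mem (Y.smul_mem α a1) (Y.smul_mem β a2))
  rw [add_sub_cancel_left, Y.smul_mem_iff h.two] at a5
  exact h.four hY.1 ij ik jk l1 l2 l3 a1 a2 a3 a5

theorem SD (h : RY X) (hp : (Nat.card F).Prime) {v : ι → F} (hv : Xi X v) {a b j k : ι}
    (ab : b ≠ a) (jk : j ≠ k) (ha : v a ^ 2 = 1) (hb : v b ≠ 0) (hj : v j = 0) (hk : v k = 0) :
    OmG (sqF ι F) ≤ X := by
  have a0 : v a ≠ 0 := fun e => by simp [e] at ha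
  have ja : j ≠ a := by rintro rfl; exact a0 hj
  have ka : k ≠ a := by rintro rfl; exact a0 hk
  have jb : j ≠ b := by rintro rfl; exact hb hj
  have kb : k ≠ b := by rintro rfl; exact hb hk
  obtain ⟨z, hz⟩ : ∃ z, z = v - v a • ee F a := ⟨_, rfl⟩
  have za : z a = 0 := by simp [hz]
  have zj : z j = 0 := by simp [hz, hj, ee_ne a ja]
  have zk : z k = 0 := by simp [hz, hk, ee_ne a ka]
  have zb : z b ≠ 0 := by simpa [hz, ee_ne a ab] using hb
  have qz : sqF ι F z = 0 := by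
    simp [hz, sqF_apply, hv.one]; linear_combination -ha
  have q1 : sqF ι F (v a • ee F a) = 1 := by rw [quad_smul, ha, sqF_ee, mul_one]
  have e1 : EM (sqF ι F) X z (ee F a) := by
    have := EM.of_refl (M := X) qz (v := v a • ee F a) (by simp [polar_sqF, za]) (by simp [q1]) (by
      rw [hz, add_sub_cancel, oRefl_smul a0]; exact mul_mem hv.mem (h.r a))
    rw [q1] at this
    simpa [smul_smul, a0] using (this.smul_right (by simp)).smul_prime hp (-(v a)⁻¹)
  have e2 : ∀ {j k : ι}, j ≠ a → k ≠ a → j ≠ k → z j = 0 → z k = 0 → EM (sqF ι F) X z (ee F j) :=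
    fun {j k} ja ka jk zj zk => by
      obtain ⟨g, hg, e⟩ := h.c a j k ja.symm ka.symm jk
      simpa [e.fix za zj zk, e.ee ja.symm ka.symm] using e1.map (h.le hg) hg
  let A := Submodule.span F {ee F a, ee F j, ee F k} ⊔ Submodule.span F {z, ee F b}
  have m1 : z ∈ A := Submodule.mem_sup_right (Submodule.subset_span (by simp))
  have m2 : ee F b ∈ A := Submodule.mem_sup_right (Submodule.subset_span (by simp))
  have m3 : ee F a ∈ A := Submodule.mem_sup_left (mem_span3_1 (F := F) _ _ _)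
  have m4 : ee F j ∈ A := Submodule.mem_sup_left (mem_span3_2 (F := F) _ _ _)
  have m5 : ee F k ∈ A := Submodule.mem_sup_left (mem_span3_3 (F := F) _ _ _)
  have r1 : Rad (polarBilin (sqF ι F)) (sqF ι F) z A ≤ X :=
    (Rad_le_iff_eichler h.nd (fun e => zb (by simp [e])) qz m1).2 fun w hw e => by
      obtain ⟨y, hy, y', hy', rfl⟩ := Submodule.mem_sup.1 hw
      obtain ⟨α, β, γ, rfl⟩ := Submodule.mem_span_triple.1 hy
      obtain ⟨δ, ε, rfl⟩ := Submodule.mem_span_pair.1 hy'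
      have : ε = 0 := by simpa [polar_sqF, za, zj, zk, zb, h.two, ← sqF_apply, qz] using e
      subst this
      simp only [zero_smul, add_zero] at e ⊢
      exact ((((e1.smul_prime hp α).add ((e2 ja ka jk zj zk).smul_prime hp β)).add
        ((e2 ka ja jk.symm zk zj).smul_prime hp γ)).add (EM.self qz δ)).2.2
  have r2 := Rad_conj_le (oRefl (sqF ι F) (ee F b)).2 (h.r b) r1
  rw [mem_subStab.1 ((isWittPair_quad _ h.nd).Supp_le_subStab (Or.inl le_rfl)
    (oRefl_mem_Supp m2)), oRefl_ee] at r2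
  exact h.four ((isWittPair_quad _ h.nd).good_of_pair m1 (sub_mem m1 (A.smul_mem _ m2))
    (by simp [qz]) (by rw [← oRefl_ee]; exact ((oRefl _ _).2.2 z).trans (by simp [qz]))
    (by simp [polar_sqF, ← sqF_apply, qz, h.two, zb]) r1 r2) ja.symm ka.symm jk ab jb.symm kb.symm
    m3 m4 m5 m2

end RY

end CF.MaxSub
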