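/-
Overgroups of the full monomial group in a five-dimensional orthogonal group over a prime field.
-/
import Cfsg.Agent.MaxSub.C6F

set_option autoImplicit false
set_option linter.unusedSectionVars false

namespace CF.MaxSub

open Module QuadraticMap Geom

variable {F : Type*} [Field F] {ι : Type} [Fintype ι] [DecidableEq ι]
  {X : Subgroup ((ι → F) ≃ₗ[F] (ι → F))}

namespace RY

variable [Finite F]

/-- The large prime case, assuming that `X` does not contain `Ω`. -/
structure Big (X : Subgroup ((ι → F) ≃ₗ[F] (ι → F))) : Prop extends RY X where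
  p : (Nat.card F).Prime
  c5 : 5 < Nat.card F
  h3 : (3 : F) ≠ 0
  h5 : (5 : F) ≠ 0
  no : ¬ OmG (sqF ι F) ≤ X

namespace Big

variable {v : ι → F} {i j k : ι}

theorem S2 (h : Big X) (hv : Xi X v) (ij : i ≠ j) (hi : v i ≠ 0) (hj : v j ≠ 0)
    (hs : ∀ l, l ≠ i → l ≠ j → v l = 0) : 4 * v i ^ 2 = 2 := by
  have key : ∀ {i j : ι}, i ≠ j → v i ≠ 0 → v j ≠ 0 → (∀ l, l ≠ i → l ≠ j → v l = 0) →
      Lam (4 * v i ^ 2) := fun {i j} ij hi hj hs => by
    obtain ⟨k, k1, k2, -⟩ := h.fresh i j i i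
    obtain ⟨g, hg, e⟩ := h.c i j k ij k1.symm k2.symm
    have e1 := (dot_two ij hs).symm.trans hv.one
    have e2 : g v = v i • ee F j + v j • ee F k := by
      rw [e v, hs k k1 k2]; nth_rw 1 [eq_two_ee ij hs]; module
    have hw := e2 ▸ h.map hv hg
    have o : Orth3 (sqF ι F) (ee F i) (v i • ee F j + v j • ee F k)
        (v j ^ 2 • (v j • ee F j - v i • ee F k)) := by
      refine ⟨by simp [sqF_ee], by simp [hw.q], ?_, ?_, ?_, ?_⟩
      · rw [quad_smul, sqF_apply]
        simp [ee_ne j k2, ee_ne k k2.symm, hj]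
        rw [← pow_two, ← pow_two, add_comm, e1]; exact one_ne_zero
      · simp [polar_sqF, ee_ne i ij.symm, ee_ne i k1]
      · simp [polar_sqF, ee_ne i ij.symm, ee_ne i k1]
      · rw [polar_sqF]; simp [ee_ne j k2, ee_ne k k2.symm]; ring_nf; simp
    refine ((good_or_lam h.nd h.two h.p o (hw.q.trans (sqF_ee i).symm) (hv.q.trans (sqF_ee i).symm)
      (α := v i) (α' := v i * v j) ?_ hi (mul_ne_zero hi hj) (h.r i) hw.mem hv.mem).resolve_left
      fun hG => h.no (h.three h.c5 h.h3 o (h.xi_ee i) hG ij k1.symm k2.symm (by simp)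
        (by simpa [ee_ne k k2.symm] using hi) (by simp [ee_ne j k2, hi, hj]))).1
    nth_rw 1 [eq_two_ee ij hs]
    linear_combination (norm := module) (-(v j * e1)) • ee F j
  have e1 := (dot_two ij hs).symm.trans hv.one
  have l1 := key ij hi hj hs
  have l2 := key ij.symm hj hi fun l a b => hs l b a
  have two := h.two
  rcases l1 with a | a | a
  · exact absurd (by convert l2 using 1; linear_combination a - 4 * e1) (not_lam_three two)
  · exact a
  rcases l2 with b | b | b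
  · exact absurd (Or.inr (Or.inr (by
      linear_combination a + (4 * v i ^ 2) * (b - 4 * e1)))) (not_lam_three two)
  · linear_combination 4 * e1 - b
  · exact mul_left_cancel₀ two (by
      linear_combination a - b + (4 * (4 * v j ^ 2 - 4 * v i ^ 2 + 1)) * e1)

theorem ND (h : Big X) (hv : Xi X v) (ij : i ≠ j) (hi : v i ≠ 0) (hj : v j ≠ 0)
    (e : v i ^ 2 + v j ^ 2 ≠ 1) :
    Lam (4 * v i ^ 2) ∧ Lam (4 * v j ^ 2) ∧ Lam (4 * v i ^ 2 * (4 * v j ^ 2)) := by
  obtain ⟨k, k1, k2, hk⟩ := exists_third_supp ij (hv.one ▸ e.symm)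
  have o : Orth3 (sqF ι F) (ee F i) (ee F j) (v - v i • ee F i - v j • ee F j) := by
    refine ⟨by simp [sqF_ee], by simp [sqF_ee], fun e' => e ?_, ?_, ?_, ?_⟩
    · simp [sqF_apply, ee_ne j ij, ee_ne i ij.symm, hv.one] at e'
      linear_combination -e'
    all_goals rw [polar_sqF]; simp [ee_ne i ij.symm, ee_ne j ij]
  exact (good_or_lam h.nd h.two h.p o ((sqF_ee j).trans (sqF_ee i).symm)
    (hv.q.trans (sqF_ee i).symm) (by module) hi hj (h.r i) (h.r j) hv.mem).resolve_left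
    fun hG => h.no (h.three h.c5 h.h3 o (h.xi_ee i) hG ij k1.symm k2.symm (by simp) (by simp)
      (by simpa [ee_ne i k1, ee_ne j k2] using hk))

theorem DG (h : Big X) (hv : Xi X v) (ij : i ≠ j) (ki : k ≠ i) (kj : k ≠ j) (hi : v i ≠ 0)
    (hj : v j ≠ 0) (hk : v k ≠ 0) : v i ^ 2 + v j ^ 2 ≠ 1 := fun e => by
  obtain ⟨u, hu⟩ : ∃ u, u = v i • ee F i + v j • ee F j := ⟨_, rfl⟩
  obtain ⟨z, hz⟩ : ∃ z, z = v - u := ⟨_, rfl⟩
  have ui : u i = v i := by simp [hu, ee_ne j ij]
  have uj : u j = v j := by simp [hu, ee_ne i ij.symm]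
  have uu : u ⬝ᵥ u = 1 := by nth_rw 2 [hu]; simp [ui, uj]; linear_combination e
  have vu : v ⬝ᵥ u = 1 := by simp [hu]; linear_combination e
  have zu : z ⬝ᵥ u = 0 := by simp [hz, uu, vu]
  have zz : z ⬝ᵥ z = 0 := by simp [hz, uu, vu, hv.one, dotProduct_comm u v]
  have step : ∀ {s t : F}, Xi X (u + s • z) → Xi X (u + t • z) → Xi X (u + (2 * s - t) • z) :=
    fun {s t} h1 h2 => by
      have := (h.refl h1 h2).neg
      simp only [dotProduct_add, add_dotProduct, dotProduct_smul, smul_dotProduct, uu, zu, zz,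
        dotProduct_comm u z, smul_zero, add_zero] at this
      convert this using 1; module
  have b1 : Xi X (u + (1 : F) • z) := by simpa [hz] using hv
  have b0 : Xi X (u + (-1 : F) • z) := by
    have := (h.flip (h.flip hv i) j).neg
    simp only [Pi.sub_apply, Pi.smul_apply, ee_ne i ij.symm] at this
    convert this using 1; rw [hz, hu]; module
  have all : ∀ n : ℕ, Xi X (u + (2 * n - 1 : F) • z) ∧ Xi X (u + (2 * n + 1 : F) • z) := fun n => by
    induction n with
    | zero => simpa using And.intro b0 b1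
    | succ n ih =>
      refine ⟨by convert ih.2 using 3; push_cast; ring, ?_⟩
      convert step ih.2 ih.1 using 3; push_cast; ring
  have all' : ∀ c : F, Xi X (u + c • z) := fun c => by
    obtain ⟨n, hn⟩ := exists_natCast h.p ((c - 1) / 2)
    convert (all n).2 using 3; rw [hn]; field_simp [h.two]; ring
  have xi : 4 * v i ^ 2 = 2 := ui ▸ h.S2 (by simpa using all' 0) ij (ui ▸ hi) (uj ▸ hj)
    fun l a b => by simp [hu, ee_ne i a, ee_ne j b]
  have zi : z i = 0 := by simp [hz, ui]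
  have zk : z k = v k := by simp [hz, hu, ee_ne i ki, ee_ne j kj]
  have uk : u k = 0 := by simp [hu, ee_ne i ki, ee_ne j kj]
  have key : ∀ c : F, c ≠ 0 → 4 * (c * v k) ^ 2 = 1 ∨ 4 * (c * v k) ^ 2 = 2 := fun c c0 => by
    by_cases e' : v i ^ 2 + (c * v k) ^ 2 = 1
    · exact Or.inr (by linear_combination 4 * e' - xi)
    have := h.ND (all' c) ki.symm (by simpa [zi, ui] using hi) (by simp [uk, zk, c0, hk])
      (by simpa [zi, ui, uk, zk] using e')
    simp only [Pi.add_apply, Pi.smul_apply, zi, ui, uk, zk, smul_eq_mul, mul_zero, add_zero,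
      zero_add] at this
    rcases lam_pair h.two h.h3 h.h5 this.1 this.2.1 this.2.2 with a | a | a
    · exact absurd (by linear_combination a - xi) (one_ne_zero (α := F))
    · exact Or.inl a
    · exact Or.inl (by linear_combination a.2 - xi)
  have k2 : (4 : F) * v k ^ 2 ≠ 0 := mul_ne_zero (by
    convert mul_ne_zero h.two h.two using 1; ring) (pow_ne_zero _ hk)
  have h8 : (8 : F) ≠ 0 := by convert mul_ne_zero h.two (mul_ne_zero h.two h.two) using 1; ring
  rcases key 1 one_ne_zero with a | a <;> rcases key 2 h.two with b | b <;>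
    rcases key 3 h.h3 with c | c
  all_goals first
    | exact mul_ne_zero h.h3 k2 (by linear_combination b - a)
    | exact mul_ne_zero h8 k2 (by linear_combination c - a)
    | exact mul_ne_zero h.h5 k2 (by linear_combination c - b)

theorem pair (h : Big X) (hv : Xi X v) (ij : i ≠ j) (ki : k ≠ i) (kj : k ≠ j) (hi : v i ≠ 0)
    (hj : v j ≠ 0) (hk : v k ≠ 0) : Lam (4 * v j ^ 2) ∧ (4 * v i ^ 2 = 1 ∨ 4 * v j ^ 2 = 1 ∨
      (4 * v i ^ 2 * (4 * v j ^ 2) = 1 ∧ 4 * v i ^ 2 + 4 * v j ^ 2 = 3)) :=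
  have := h.ND hv ij hi hj (h.DG hv ij ki kj hi hj hk)
  ⟨this.2.1, lam_pair h.two h.h3 h.h5 this.1 this.2.1 this.2.2⟩

theorem ne_zero_of (hi : 4 * v i ^ 2 = 1) : v i ≠ 0 := fun e => by simp [e] at hi

theorem three_supp (h : Big X) (hv : Xi X v) (hi : 4 * v i ^ 2 = 1) :
    ∃ l m, l ≠ i ∧ m ≠ i ∧ m ≠ l ∧ v l ≠ 0 ∧ v m ≠ 0 := by
  obtain ⟨l, li, hl⟩ := exists_other (v := v) (i := i) fun e =>
    h.h3 (by linear_combination hi + 4 * e - 4 * hv.one)
  by_contra! hc
  exact one_ne_zero (α := F) (by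
    linear_combination hi - h.S2 hv li.symm (ne_zero_of hi) hl fun m a b => hc l m li a b hl)

theorem K (h : Big X) (hv : Xi X v) (hi : 4 * v i ^ 2 = 1) (jk : j ≠ k) (hj : v j = 0)
    (hk : v k = 0) : False := by
  have i0 := ne_zero_of hi
  have ij : i ≠ j := by rintro rfl; exact i0 hj
  have ik : i ≠ k := by rintro rfl; exact i0 hk
  obtain ⟨l, m, li, mi, ml, hl, hm⟩ := h.three_supp hv hi
  have lj : l ≠ j := by rintro rfl; exact hl hj
  have L := (h.pair hv li.symm mi ml i0 hl hm).1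
  have c0 : 2 * v i ^ 2 - 1 ≠ 0 := fun e => one_ne_zero (α := F) (by
    linear_combination hi - 2 * e)
  have c1 : (2 * v i ^ 2 - 1) * v i - v i ≠ 0 := fun e => mul_ne_zero h.h3 i0 (by
    linear_combination (v i) * hi - 2 * e)
  have := (h.pair (h.shift_refl hv ij ik jk hj hk) li.symm ij.symm lj.symm
    (by simpa [ee_ne j ij] using c1) (by simp [ee_ne i li, ee_ne j lj, c0, hl])
    (by simpa [ee_ne i ij.symm, hj] using i0)).2
  simp only [Pi.add_apply, Pi.sub_apply, Pi.smul_apply, ee_ne j ij, ee_ne i li, ee_ne j lj,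
    ee_self, smul_eq_mul, mul_zero, mul_one, add_zero, sub_zero] at this
  have e1 : 4 * (4 * ((2 * v i ^ 2 - 1) * v i - v i) ^ 2) = 9 := by
    linear_combination (16 * v i ^ 4 - 28 * v i ^ 2 + 9) * hi
  have e2 : 4 * (4 * ((2 * v i ^ 2 - 1) * v l) ^ 2) = 4 * v l ^ 2 := by
    linear_combination (4 * v l ^ 2 * (4 * v i ^ 2 - 3)) * hi
  rcases this with a | a | a
  · exact h.h5 (by linear_combination 4 * a - e1)
  · exact not_lam_four h.two h.h3 h.h5 (by convert L using 1; linear_combination e2 - 4 * a)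
  · exact not_lam_three h.two (by convert L using 1; linear_combination e1 + e2 - 4 * a.2)

theorem one (h : Big X) (hv : Xi X v) (ij : i ≠ j) (ik : i ≠ k) (jk : j ≠ k) (hi : v i ≠ 0)
    (hj : v j ≠ 0) (hk : v k ≠ 0) : 4 * v i ^ 2 = 1 ∨ 4 * v j ^ 2 = 1 ∨ 4 * v k ^ 2 = 1 := by
  by_contra! hc
  have a := ((h.pair hv ij ik.symm jk.symm hi hj hk).2.resolve_left hc.1).resolve_left hc.2.1
  have b := ((h.pair hv ik ij.symm jk hi hk hj).2.resolve_left hc.1).resolve_left hc.2.2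
  have c := ((h.pair hv jk ij ik hj hk hi).2.resolve_left hc.2.1).resolve_left hc.2.2
  have e1 : 2 * (4 * v i ^ 2) = 3 := by linear_combination a.2 + b.2 - c.2
  have e2 : 2 * (4 * v j ^ 2) = 3 := by linear_combination a.2 - b.2 + c.2
  exact h.h5 (by linear_combination 4 * a.1 - (2 * (4 * v j ^ 2)) * e1 - 3 * e2)

theorem K3 (h : Big X) (hv : Xi X v) (ij : i ≠ j) (ik : i ≠ k) (jk : j ≠ k) (hi : v i ≠ 0)
    (hj : v j ≠ 0) (hk : v k ≠ 0) {a b : ι} (ab : a ≠ b) (ha : v a = 0) (hb : v b = 0) : False := by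
  rcases h.one hv ij ik jk hi hj hk with e | e | e <;> exact h.K hv e ab ha hb

theorem F4 (h : Big X) (hv : Xi X v) {c d z : ι} (n : [i, j, c, d, z].Nodup)
    (hi : 4 * v i ^ 2 = 1) (hj : 4 * v j ^ 2 = 1) (hc : 4 * v c ^ 2 = 1) (hd : 4 * v d ^ 2 = 1)
    (hz : v z = 0) : False := by
  have n' := n
  simp only [List.nodup_cons, List.mem_cons, not_or, List.not_mem_nil] at n'
  obtain ⟨⟨ij, ic, id, iz, -⟩, ⟨jc, jd, jz, -⟩, ⟨cd, cz, -⟩, ⟨dz, -⟩, -⟩ := n'
  obtain ⟨g, hg, e⟩ := h.c i j z ij iz jz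
  have hw := h.refl hv (h.map hv hg)
  have e1 : 2 * (v ⬝ᵥ g v) = 1 + 2 * v i * v j := mul_left_cancel₀ h.two (by
    simp only [e v, dotProduct_add, dotProduct_smul, dotProduct_single, hv.one, hz, smul_eq_mul]
    linear_combination -hi - hj)
  rw [e1] at hw
  obtain ⟨w, ew⟩ : ∃ w, w = g v - (1 + 2 * v i * v j) • v := ⟨_, rfl⟩
  rw [← ew] at hw
  have k : ∀ c, c ≠ i → c ≠ j → c ≠ z → 4 * v c ^ 2 = 1 → 4 * (4 * w c ^ 2) = 1 :=
    fun c c1 c2 c3 hc => by
      simp only [ew, e v, Pi.sub_apply, Pi.add_apply, Pi.smul_apply, ee_ne i c1, ee_ne j c2,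
        ee_ne z c3, smul_eq_mul]
      linear_combination (16 * v j ^ 2 * v c ^ 2) * hi + (4 * v c ^ 2) * hj + hc
  have k1 := k c (Ne.symm ic) (Ne.symm jc) cz hc
  have k2 := k d (Ne.symm id) (Ne.symm jd) dz hd
  have k3 : w z = v j := by simp [ew, e v, ee_ne i (Ne.symm iz), ee_ne j (Ne.symm jz), hz]
  rcases (h.pair hw cd (Ne.symm cz) (Ne.symm dz) (fun e => by simp [e] at k1)
    (fun e => by simp [e] at k2) (k3 ▸ ne_zero_of hj)).2 with a | a | a
  · exact h.h3 (by linear_combination k1 - 4 * a)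
  · exact h.h3 (by linear_combination k2 - 4 * a)
  · exact mul_ne_zero h.two h.h5 (by linear_combination k1 + k2 - 4 * a.2)

theorem N4 (h : Big X) (hv : Xi X v) {a b c d e : ι} (n : [a, b, c, d, e].Nodup)
    (ha : 4 * v a ^ 2 = 1) (hb : 4 * v b ^ 2 = 1) (hc : v c ≠ 0) (hd : v d ≠ 0) : False := by
  have key : ∀ {c d : ι}, [a, b, c, d, e].Nodup → 4 * v c ^ 2 = 1 → v d ≠ 0 → False :=
    fun {c d} n hc hd => by
      have s := (h.dot5 n v v).symm.trans hv.one
      by_cases he : v e = 0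
      · exact h.F4 hv n ha hb hc (by rw [he] at s; linear_combination 4 * s - ha - hb - hc) he
      rcases (h.pair hv (i := d) (j := e) (k := a) (by simp at n; grind) (by simp at n; grind)
        (by simp at n; grind) hd he (ne_zero_of ha)).2 with t | t | t
      · exact he (pow_eq_zero_iff two_ne_zero |>.1 (mul_left_cancel₀ (mul_ne_zero h.two h.two)
          (by linear_combination 4 * s - ha - hb - hc - t)))
      · exact hd (pow_eq_zero_iff two_ne_zero |>.1 (mul_left_cancel₀ (mul_ne_zero h.two h.two)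
          (by linear_combination 4 * s - ha - hb - hc - t)))
      · exact h.two (by linear_combination 4 * s - ha - hb - hc - t.2)
  have s := (h.dot5 n v v).symm.trans hv.one
  rcases (h.pair hv (i := c) (j := d) (k := a) (by simp at n; grind) (by simp at n; grind)
    (by simp at n; grind) hc hd (ne_zero_of ha)).2 with t | t | t
  · exact key n t hd
  · exact key (by simp at n ⊢; grind) t hc
  have e1 : 4 * v e ^ 2 = -1 := by linear_combination 4 * s - ha - hb - t.2
  rcases h.one hv (i := c) (j := d) (k := e) (by simp at n; grind) (by simp at n; grind)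
    (by simp at n; grind) hc hd (fun e => by simp [e] at e1) with u | u | u
  · exact key n u hd
  · exact key (by simp at n ⊢; grind) u hc
  · exact h.two (by linear_combination e1 - u)

theorem NO3 (h : Big X) (hv : Xi X v) (ij : i ≠ j) (ik : i ≠ k) (jk : j ≠ k) (hi : v i ≠ 0)
    (hj : v j ≠ 0) (hk : v k ≠ 0) : False := by
  rcases h.four_nz v with ⟨a, b, ab, ha, hb⟩ | ⟨a, b, c, d, e, n, ha, hb, hc, hd⟩
  · exact h.K3 hv ij ik jk hi hj hk ab ha hb
  have key : ∀ {a b c d : ι}, [a, b, c, d, e].Nodup → 4 * v a ^ 2 = 1 → v b ≠ 0 → v c ≠ 0 →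
      v d ≠ 0 → False := fun {a b c d} n ha hb hc hd => by
    rcases h.one hv (i := b) (j := c) (k := d) (by simp at n; grind) (by simp at n; grind)
      (by simp at n; grind) hb hc hd with u | u | u
    · exact h.N4 hv n ha u hc hd
    · exact h.N4 hv (e := e) (by simp at n ⊢; grind) ha u hb hd
    · exact h.N4 hv (e := e) (by simp at n ⊢; grind) ha u hb hc
  rcases h.one hv (i := a) (j := b) (k := c) (by simp at n; grind) (by simp at n; grind)
    (by simp at n; grind) ha hb hc with u | u | u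
  · exact key n u hb hc hd
  · exact key (by simp at n ⊢; grind) u ha hc hd
  · exact key (by simp at n ⊢; grind) u ha hb hd

theorem fin (h : Big X) {m : (ι → F) ≃ₗ[F] (ι → F)} (hm : m ∈ X) (ij : i ≠ j)
    (hi : m (ee F k) i ≠ 0) (hj : m (ee F k) j ≠ 0) : False := by
  have hv := h.map (h.xi_ee k) hm
  obtain ⟨v, ev⟩ : ∃ v, v = m (ee F k) := ⟨_, rfl⟩
  rw [← ev] at hv hi hj
  have hs : ∀ l, l ≠ i → l ≠ j → v l = 0 := fun l a b => by
    by_contra hl; exact h.NO3 hv ij a.symm b.symm hi hj hl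
  have e1 := h.S2 hv ij hi hj hs
  obtain ⟨c, c1, c2, -⟩ := h.fresh i j i i
  obtain ⟨d, d1, d2, d3, -⟩ := h.fresh i j c i
  have hw := h.map (h.shift hv c1.symm d1.symm d3.symm (hs c c1 c2) (hs d d1 d2)) (inv_mem hm)
  have e2 := dot_map h.two (h.le hm) (m⁻¹ (v - v i • ee F i + v i • ee F c)) (ee F k)
  rw [← ev, ← LinearEquiv.mul_apply, mul_inv_cancel] at e2
  simp only [LinearEquiv.coe_one, id_eq, add_dotProduct, sub_dotProduct, smul_dotProduct,
    single_dotProduct, dotProduct_single, hv.one, hs c c1 c2, smul_eq_mul] at e2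
  obtain ⟨w, ew⟩ : ∃ w, w = m⁻¹ (v - v i • ee F i + v i • ee F c) := ⟨_, rfl⟩
  rw [← ew] at hw e2
  have e3 : 2 * (2 * w k) = 2 * 1 := by linear_combination -4 * e2 - e1
  have e4 : 4 * w k ^ 2 = 1 := by
    linear_combination (2 * w k + 1) * mul_left_cancel₀ h.two e3
  obtain ⟨l, n, li, ni, nl, hl, hn⟩ := h.three_supp hw e4
  exact h.NO3 hw li.symm ni.symm nl.symm (ne_zero_of e4) hl hn

end Big

theorem p3 (h : RY X) (h3 : Nat.card F = 3) {v : ι → F} (hv : Xi X v) {i j : ι} (ij : i ≠ j)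
    (hi : v i ≠ 0) (hj : v j ≠ 0) : OmG (sqF ι F) ≤ X := by
  have := Fintype.ofFinite F
  have hp : (Nat.card F).Prime := h3 ▸ Nat.prime_three
  have sq : ∀ a : F, a ≠ 0 → a ^ 2 = 1 := fun a ha => by
    simpa [← Nat.card_eq_fintype_card, h3] using FiniteField.pow_card_sub_one_eq_one a ha
  have c3 : (3 : F) = 0 := cast_natCard F h3
  rcases h.four_nz v with ⟨a, b, ab, ha, hb⟩ | ⟨a, b, c, d, e, n, ha, hb, hc, hd⟩
  · exact h.SD hp hv ij.symm ab (sq _ hi) hj ha hb
  have n' := n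
  simp only [List.nodup_cons, List.mem_cons, not_or, List.not_mem_nil] at n'
  obtain ⟨⟨ab, ac, ad, ae, -⟩, ⟨bc, bd, be, -⟩, ⟨cd, ce, -⟩, ⟨de, -⟩, -⟩ := n'
  have ext5 : ∀ {x y : ι → F}, x a = y a → x b = y b → x c = y c → x d = y d → x e = y e → x = y :=
    fun {x y} h1 h2 h3 h4 h5 => funext fun l => by
      rcases h.cases5 n l with rfl | rfl | rfl | rfl | rfl <;> assumption
  have fl : ∀ {w : ι → F}, Xi X w → ∀ l (s : F), s ^ 2 = w l ^ 2 → Xi X (Function.update w l s) :=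
    fun {w} hw l s e => by
      rcases sq_eq_sq_iff_eq_or_eq_neg.1 e with rfl | rfl
      · simpa using hw
      · convert h.flip hw l using 1
        funext m
        by_cases ml : m = l
        · simp [ml]; ring
        · simp [ml, ee_ne l ml]
  let V : F → F → F → F → F → ι → F := fun x₁ x₂ x₃ x₄ x₅ =>
    x₁ • ee F a + x₂ • ee F b + x₃ • ee F c + x₄ • ee F d + x₅ • ee F e
  have V1 : ∀ x₁ x₂ x₃ x₄ x₅, V x₁ x₂ x₃ x₄ x₅ a = x₁ ∧ V x₁ x₂ x₃ x₄ x₅ b = x₂ ∧
      V x₁ x₂ x₃ x₄ x₅ c = x₃ ∧ V x₁ x₂ x₃ x₄ x₅ d = x₄ ∧ V x₁ x₂ x₃ x₄ x₅ e = x₅ := by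
    simp [V, Pi.single_apply, ab, ac, ad, ae, bc, bd, be, cd, ce, de, Ne.symm ab, Ne.symm ac,
      Ne.symm ad, Ne.symm ae, Ne.symm bc, Ne.symm bd, Ne.symm be, Ne.symm cd, Ne.symm ce, Ne.symm de]
  have Vd : ∀ x₁ x₂ x₃ x₄ x₅ y, V x₁ x₂ x₃ x₄ x₅ ⬝ᵥ y =
      x₁ * y a + x₂ * y b + x₃ * y c + x₄ * y d + x₅ * y e := by simp [V]
  have he : v e = 0 := pow_eq_zero_iff two_ne_zero |>.1 (by
    linear_combination (h.dot5 n v v).symm.trans hv.one - sq _ ha - sq _ hb - sq _ hc - sq _ hd - c3)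
  have x0 : Xi X (V 1 1 1 1 0) := by
    convert fl (fl (fl (fl hv a 1 (by simp [sq _ ha])) b 1 (by simp [sq _ hb, Ne.symm ab])) c 1
      (by simp [sq _ hc, Ne.symm ac, Ne.symm bc])) d 1
      (by simp [sq _ hd, Ne.symm ad, Ne.symm bd, Ne.symm cd]) using 1
    refine ext5 ?_ ?_ ?_ ?_ ?_ <;> simp [V1, ab, ac, ad, bc, bd, cd, he, Ne.symm ae, Ne.symm be,
      Ne.symm ce, Ne.symm de]
  have cy : ∀ l m, l ≠ m → l ≠ e → m ≠ e → V 1 1 1 1 0 l = 1 → V 1 1 1 1 0 m = 1 →
      Xi X (V 1 1 1 1 0 - ee F l + ee F e) := fun l m lm le me h1 h2 => by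
    obtain ⟨g, hg, e1⟩ := h.c e l m le.symm me.symm lm
    convert h.map x0 hg using 1
    rw [e1, h1, h2, (V1 ..).2.2.2.2]; module
  have x1 : Xi X (V 0 1 1 1 1) := by
    convert cy a b ab ae be (V1 ..).1 (V1 ..).2.1 using 1; simp only [V]; module
  have x2 : Xi X (V 1 1 (-1) 0 1) := by
    have := h.flip (cy d b (Ne.symm bd) de be (V1 ..).2.2.2.1 (V1 ..).2.1) c
    simp only [Pi.add_apply, Pi.sub_apply, V1, ee_ne d cd, ee_ne e ce] at this
    convert this using 1; simp only [V]; module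
  have x3 : Xi X (V 1 1 (-1) 0 1 + V 0 1 1 1 0) := by
    have := h.flip (cy c b (Ne.symm bc) ce be (V1 ..).2.2.1 (V1 ..).2.1) b
    simp only [Pi.add_apply, Pi.sub_apply, V1, ee_ne c bc, ee_ne e be] at this
    convert this using 1; simp only [V]
    linear_combination (norm := module) c3 • ee F b
  obtain ⟨z, hz⟩ : ∃ z, z = V 0 1 1 1 0 := ⟨_, rfl⟩
  have qz : sqF ι F z = 0 := by rw [sqF_apply, hz, Vd]; simp [V1]; linear_combination c3
  have em : ∀ w, Xi X w → Xi X (w + z) → z ⬝ᵥ w = 0 → ∀ t : F, EM (sqF ι F) X z (t • w) :=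
    fun w h1 h2 e t => by
      have := EM.of_refl (M := X) qz (v := w) (by simp [polar_sqF, e]) (by simp [h1.q])
        (mul_mem h2.mem h1.mem)
      rw [h1.q] at this
      simpa [smul_smul] using (this.smul_right (by simp)).smul_prime hp (-t)
  have e1 := em _ (h.xi_ee a) (by convert x0 using 1; simp only [hz, V]; module) (by simp [hz, V1])
  have e2 := em _ (h.xi_ee e) (by convert x1 using 1; simp only [hz, V]; module) (by simp [hz, V1])
  have e3 := em _ x2 (hz ▸ x3) (by rw [hz, Vd]; simp [V1])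
  have zb : z b = 1 := by simp [hz, V1]
  have r1 : Rad (polarBilin (sqF ι F)) (sqF ι F) z ⊤ ≤ X :=
    (Rad_le_iff_eichler h.nd (fun e => by simp [e] at zb) qz Submodule.mem_top).2 fun w _ t => by
      have t' : w b + w c + w d = 0 := by simpa [polar_sqF, hz, Vd, h.two] using t
      have := (((e1 (w a - w b + w d)).add (e2 (w e - w b + w d))).add (e3 (w b - w d))).add
        (EM.self qz (w d))
      have e4 : w = (w a - w b + w d) • ee F a + (w e - w b + w d) • ee F e +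
          (w b - w d) • V 1 1 (-1) 0 1 + w d • z := by
        refine ext5 ?_ ?_ ?_ ?_ ?_ <;> simp [hz, V1, ee_ne e ae, ee_ne a (Ne.symm ab), ee_ne e be,
          ee_ne a (Ne.symm ac), ee_ne e ce, ee_ne a (Ne.symm ad), ee_ne e de, ee_ne a (Ne.symm ae)]
        linear_combination t' - w d * c3
      rw [← e4] at this
      exact this.2.2
  have r2 := Rad_conj_le (oRefl (sqF ι F) (ee F b)).2 (h.r b) r1
  rw [Submodule.map_top, LinearEquiv.range, oRefl_ee] at r2
  exact (polarG_omega' h.nd (by simp [h.n5])).le_of_pair (by simp [qz])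
    (by rw [← oRefl_ee]; exact ((oRefl _ _).2.2 z).trans (by simp [qz]))
    (by simp [polar_sqF, ← sqF_apply, qz, h.two, zb]) r1 r2

theorem p5 (h : RY X) (h5 : Nat.card F = 5) {v : ι → F} (hv : Xi X v) {i j : ι} (ij : i ≠ j)
    (hi : v i ≠ 0) (hj : v j ≠ 0) : OmG (sqF ι F) ≤ X := by
  have := Fintype.ofFinite F
  have hp : (Nat.card F).Prime := h5 ▸ Nat.prime_five
  have sq : ∀ a : F, a ≠ 0 → a ^ 2 = 1 ∨ a ^ 2 = -1 := fun a ha => sq_eq_one_iff.1 (by
    rw [← pow_mul]
    simpa [← Nat.card_eq_fintype_card, h5] using FiniteField.pow_card_sub_one_eq_one a ha)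
  have c5 : (5 : F) = 0 := cast_natCard F h5
  have key : ∀ {w : ι → F}, Xi X w → ∀ {a b j k : ι}, a ≠ b → j ≠ k → w a ≠ 0 → w b ≠ 0 →
      w j = 0 → w k = 0 → OmG (sqF ι F) ≤ X := fun {w} hw {a b j k} ab jk ha hb hj hk => by
    rcases sq _ ha with ea | ea
    · exact h.SD hp hw ab.symm jk ea hb hj hk
    rcases sq _ hb with eb | eb
    · exact h.SD hp hw ab jk eb ha hj hk
    obtain ⟨c, ca, cb, hc⟩ := exists_third_supp (v := w) ab fun e => h.two (by
      linear_combination hw.one - e - ea - eb + c5)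
    rcases sq _ hc with ec | ec
    · exact h.SD hp hw ca.symm jk ec ha hj hk
    have aj : a ≠ j := by rintro rfl; exact ha hj
    have ak : a ≠ k := by rintro rfl; exact ha hk
    have bj : b ≠ j := by rintro rfl; exact hb hj
    have cj : c ≠ j := by rintro rfl; exact hc hj
    have hu := h.shift_refl hw aj ak jk hj hk
    obtain ⟨u, eu⟩ : ∃ u, u = (2 * w a ^ 2 - 1) • w - w a • ee F a + w a • ee F j := ⟨_, rfl⟩
    rw [← eu] at hu
    have ua : u a = w a := by simp [eu, ee_ne j aj]; linear_combination (w a) * (2 * ea - c5)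
    have uj : u j = w a := by simp [eu, ee_ne a aj.symm, hj]
    have ub : u b = 2 * w b := by
      simp [eu, ee_ne a ab.symm, ee_ne j bj, hb]; linear_combination (2 * ea - c5)
    have uc : u c = 2 * w c := by
      simp [eu, ee_ne a ca, ee_ne j cj, hc]; linear_combination (2 * ea - c5)
    refine h.SD hp (h.FL2 hu cb.symm (by
      rw [ub, uc]; linear_combination 16 * (eb + ec) - 7 * c5)) aj.symm cb ?_ ?_ ?_ ?_
    · simp [-sq_eq_one_iff, ee_ne b ab, ee_ne c ca.symm, ua]; linear_combination 4 * ea - c5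
    · simp [ee_ne b bj.symm, ee_ne c cj.symm, uj, ha, h.two]
    · simp [ee_ne b cb]
    · simp [ee_ne c cb.symm]
  have key2 : ∀ {w : ι → F}, Xi X w → ∀ {a b c d : ι}, a ≠ b → a ≠ c → a ≠ d → b ≠ c → b ≠ d →
      c ≠ d → w a ^ 2 = 1 → w b ^ 2 = 1 → w c ≠ 0 → w d ≠ 0 → OmG (sqF ι F) ≤ X :=
    fun {w} hw {a b c d} ab ac ad bc bd cd ha hb hc hd => by
    refine key (h.FL2 hw ab (by linear_combination 4 * (ha + hb) + c5)) cd ab ?_ ?_ ?_ ?_
    · simp [ee_ne a (Ne.symm ac), ee_ne b (Ne.symm bc), hc, h.two]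
    · simp [ee_ne a (Ne.symm ad), ee_ne b (Ne.symm bd), hd, h.two]
    · simp [ee_ne b ab]
    · simp [ee_ne a (Ne.symm ab)]
  rcases h.four_nz v with ⟨a, b, ab, ha, hb⟩ | ⟨a, b, c, d, e, n, ha, hb, hc, hd⟩
  · exact key hv ij ab hi hj ha hb
  have s := (h.dot5 n v v).symm.trans hv.one
  have k3 : ∀ {x y z t : F}, x ^ 2 = -1 → y ^ 2 = -1 → z ^ 2 = -1 → t ^ 2 = 1 →
      x ^ 2 + y ^ 2 + z ^ 2 + t ^ 2 + v e ^ 2 ≠ 1 := fun {x y z t} h1 h2 h3 h4 s => by
    by_cases e0 : v e = 0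
    · exact h.two (by rw [e0] at s; linear_combination s - h1 - h2 - h3 - h4 + c5)
    rcases sq _ e0 with u | u
    · exact h.two (by linear_combination -s + h1 + h2 + h3 + h4 + u)
    · exact one_ne_zero (α := F) (by linear_combination s - h1 - h2 - h3 - h4 - u + c5)
  simp only [List.nodup_cons, List.mem_cons, not_or, List.not_mem_nil] at n
  obtain ⟨⟨ab, ac, ad, ae, -⟩, ⟨bc, bd, be, -⟩, ⟨cd, ce, -⟩, ⟨de, -⟩, -⟩ := n
  have ba := Ne.symm ab
  have ca := Ne.symm ac
  have da := Ne.symm ad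
  have cb := Ne.symm bc
  have db := Ne.symm bd
  have dc := Ne.symm cd
  rcases sq _ ha with a1 | a1
  · rcases sq _ hb with b1 | b1
    · exact key2 hv ab ac ad bc bd cd a1 b1 hc hd
    rcases sq _ hc with c1 | c1
    · exact key2 hv ac ab ad cb cd bd a1 c1 hb hd
    rcases sq _ hd with d1 | d1
    · exact key2 hv ad ab ac db dc bc a1 d1 hb hc
    exact absurd (by linear_combination s) (k3 b1 c1 d1 a1)
  rcases sq _ hb with b1 | b1
  · rcases sq _ hc with c1 | c1
    · exact key2 hv bc ba bd ca cd ad b1 c1 ha hd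
    rcases sq _ hd with d1 | d1
    · exact key2 hv bd ba bc da dc ac b1 d1 ha hc
    exact absurd (by linear_combination s) (k3 a1 c1 d1 b1)
  rcases sq _ hc with c1 | c1
  · rcases sq _ hd with d1 | d1
    · exact key2 hv cd ca cb da db ab c1 d1 ha hb
    exact absurd (by linear_combination s) (k3 a1 b1 d1 c1)
  rcases sq _ hd with d1 | d1
  · exact absurd (by linear_combination s) (k3 a1 b1 c1 d1)
  have he : v e = 0 := pow_eq_zero_iff two_ne_zero |>.1 (by
    linear_combination s - a1 - b1 - c1 - d1 + c5)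
  obtain ⟨g, hg, e1⟩ := h.c a b e ab ae be
  have hw := h.refl hv (h.map hv hg)
  have e2 : 2 * (v ⬝ᵥ g v) = 1 + 2 * v a * v b := by
    simp only [e1 v, dotProduct_add, dotProduct_smul, dotProduct_single, hv.one, he, smul_eq_mul]
    linear_combination -2 * a1 - 2 * b1 + c5
  rw [e2] at hw
  obtain ⟨w, ew⟩ : ∃ w, w = g v - (1 + 2 * v a * v b) • v := ⟨_, rfl⟩
  rw [← ew] at hw
  have k : ∀ c, c ≠ a → c ≠ b → c ≠ e → v c ^ 2 = -1 → w c ^ 2 = 1 := fun c c1 c2 c3 hc => by
    simp only [ew, e1 v, Pi.sub_apply, Pi.add_apply, Pi.smul_apply, ee_ne a c1, ee_ne b c2,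
      ee_ne e c3, smul_eq_mul]
    linear_combination (4 * v b ^ 2 * v c ^ 2) * a1 - (4 * v c ^ 2) * b1 + 4 * hc - c5
  refine key2 hw cd ce ca de da (Ne.symm ae)
    (k c (Ne.symm ac) (Ne.symm bc) ce c1) (k d (Ne.symm ad) (Ne.symm bd) de d1) ?_ ?_
  · simpa [ew, e1 v, ee_ne a (Ne.symm ae), ee_ne b (Ne.symm be), he] using hb
  · simp only [ew, e1 v, Pi.sub_apply, Pi.add_apply, Pi.smul_apply, ee_ne b ab, ee_ne e ae,
      ee_self, smul_eq_mul, he]
    intro t
    have : (1 + 2 * v a * v b) * v a = 0 := by linear_combination -t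
    have := (mul_eq_zero.1 this).resolve_right ha
    exact h.two (by linear_combination -(2 * v a * v b - 1) * this + 4 * v b ^ 2 * a1 - 4 * b1 + c5)

/-- An overgroup of the monomial group containing a non-monomial element contains `Ω`. -/
theorem le_of_supp (h : RY X) (hp : (Nat.card F).Prime) {m : (ι → F) ≃ₗ[F] (ι → F)} (hm : m ∈ X)
    {i j k : ι} (ij : i ≠ j) (hi : m (ee F k) i ≠ 0) (hj : m (ee F k) j ≠ 0) :
    OmG (sqF ι F) ≤ X := by
  by_cases h3 : Nat.card F = 3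
  · exact h.p3 h3 (h.map (h.xi_ee k) hm) ij hi hj
  by_cases h5 : Nat.card F = 5
  · exact h.p5 h5 (h.map (h.xi_ee k) hm) ij hi hj
  have := Fintype.ofFinite F
  have hc : CharP F (Nat.card F) := charP_of_card_eq_prime (hp := ⟨hp⟩) Nat.card_eq_fintype_card.symm
  have key : ∀ r : ℕ, r.Prime → Nat.card F ≠ r → (r : F) ≠ 0 := fun r hr e e' =>
    e ((Nat.prime_dvd_prime_iff_eq hp hr).1 ((CharP.cast_eq_zero_iff F _ r).1 e'))
  have h2 : Nat.card F ≠ 2 := fun e => h.two (cast_natCard F e)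
  by_contra hn
  refine Big.fin ⟨h, hp, ?_, key 3 Nat.prime_three h3, key 5 Nat.prime_five h5, hn⟩ hm ij hi hj
  have := hp.two_le
  by_contra! hle
  exact absurd ((show Nat.card F = 4 by omega) ▸ hp) (by norm_num)

end RY

end CF.MaxSub
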