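/-
Maximality of the stabiliser of an orthonormal frame in dimension six.
-/
import Cfsg.Agent.MaxSub.C6G

set_option autoImplicit false
set_option linter.unusedSectionVars false

namespace CF.MaxSub

open Module QuadraticMap Geom

variable {F : Type*} [Field F] {ι : Type} [Fintype ι] [DecidableEq ι]
  {M : Subgroup ((ι → F) ≃ₗ[F] (ι → F))}

theorem cyc_mon {g : (ι → F) ≃ₗ[F] (ι → F)} {i j k : ι} (e : IsCyc g i j k) (ij : i ≠ j)
    (ik : i ≠ k) (jk : j ≠ k) : g ∈ MonG ι F := mem_MonG_of fun l => by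
  by_cases li : l = i
  · exact ⟨j, fun m hm => by rw [li, e.ee ij ik, ee_ne j hm]⟩
  by_cases lj : l = j
  · exact ⟨k, fun m hm => by simp [lj, e (ee F j), ee_ne j ij, ee_ne j jk.symm, ee_ne k hm]⟩
  by_cases lk : l = k
  · exact ⟨i, fun m hm => by simp [lk, e (ee F k), ee_ne k ik, ee_ne k jk, ee_ne i hm]⟩
  exact ⟨l, fun m hm => by
    rw [e.fix (ee_ne l (Ne.symm li)) (ee_ne l (Ne.symm lj)) (ee_ne l (Ne.symm lk)), ee_ne l hm]⟩

variable [Finite F]

/-- A proper overgroup of the even monomial group in dimension six. -/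
structure F6 (M : Subgroup ((ι → F) ≃ₗ[F] (ι → F))) : Prop where
  p : (Nat.card F).Prime
  two : (2 : F) ≠ 0
  n6 : Fintype.card ι = 6
  t : ∀ i j, tt F i j ∈ M
  c : ∀ i j k, i ≠ j → i ≠ k → j ≠ k → ∃ g ∈ M, IsCyc g i j k
  hi : M ≤ OG (sqF ι F)
  no : ¬ OmG (sqF ι F) ≤ M

namespace F6

theorem nd (h : F6 M) : (polarBilin (sqF ι F)).Nondegenerate := sqF_nondegenerate h.two

theorem fresh (h : F6 M) (a b c d e : ι) : ∃ l, l ≠ a ∧ l ≠ b ∧ l ≠ c ∧ l ≠ d ∧ l ≠ e := by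
  simpa using exists_notMem_list [a, b, c, d, e] (by simp [h.n6])

theorem univ6 (h : F6 M) {a b c d e f : ι} (n : [a, b, c, d, e, f].Nodup) :
    (Finset.univ : Finset ι) = [a, b, c, d, e, f].toFinset :=
  (Finset.eq_univ_of_card _ (by rw [List.toFinset_card_of_nodup n, h.n6]; rfl)).symm

theorem dot6 (h : F6 M) {a b c d e f : ι} (n : [a, b, c, d, e, f].Nodup) (v w : ι → F) :
    v ⬝ᵥ w = v a * w a + v b * w b + v c * w c + v d * w d + v e * w e + v f * w f := by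
  rw [dotProduct, h.univ6 n, List.sum_toFinset _ n]; simp [add_assoc]

theorem cases6 (h : F6 M) {a b c d e f : ι} (n : [a, b, c, d, e, f].Nodup) (l : ι) :
    l = a ∨ l = b ∨ l = c ∨ l = d ∨ l = e ∨ l = f := by
  simpa using Finset.ext_iff.1 (h.univ6 n) l

theorem rx (h : F6 M) (o : ι) : RY (Qt (res F o) M) := by
  refine ⟨?_, fun i => ⟨_, h.t i.1 o, fun v => ?_⟩, fun i j k ij ik jk => ?_, ?_,
    h.two⟩
  · rintro x ⟨g, hg, e⟩
    refine mem_OG.2 fun y => ?_
    obtain ⟨v, v0, rfl⟩ := exists_res o y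
    rw [← e, sqF_apply, sqF_apply, dot_res, dot_res, dot_map h.two (h.hi hg),
      (fix_line h.two (h.hi hg) (fix_line_Qt e)).2 v v0, v0]
  · simp [tt_apply i.2, oRefl_ee, res_ee, res_ee_self, res_apply]
  · obtain ⟨g, hg, e⟩ := h.c _ _ _ (Subtype.coe_ne_coe.2 ij) (Subtype.coe_ne_coe.2 ik)
      (Subtype.coe_ne_coe.2 jk)
    obtain ⟨x, hx⟩ := exists_induced (g := g) (o := o) fun l hl => by
      rw [e.fix (ee_ne o i.2) (ee_ne o j.2) (ee_ne o k.2), ee_ne o hl]
    refine ⟨x, ⟨g, hg, hx⟩, fun y => ?_⟩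
    obtain ⟨v, -, rfl⟩ := exists_res o y
    simp [← hx, e v, res_ee, res_apply]
  · simp [h.n6]

theorem not_le (h : F6 M) (o : ι) : ¬ OmG (sqF {j // j ≠ o} F) ≤ Qt (res F o) M := fun hle => by
  have hG : Good (polarBilin (sqF ι F)) (sqF ι F) M (LinearMap.ker (pr F o)) :=
    fun u hu qu hp => (Rad_le_iff_eichler h.nd (by rintro rfl; exact hp (zero_mem _))
      (by simpa using qu) hu).2 fun w hw e => by
    have u0 : u o = 0 := hu
    have w0 : w o = 0 := hw
    have qu' : sqF ι F u = 0 := by simpa using qu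
    have q1 : sqF _ F (res F o u) = 0 := by rw [sqF_apply, dot_res, ← sqF_apply, qu', u0]; simp
    have q2 : polar (sqF _ F) (res F o u) (res F o w) = 0 := by
      rw [polar_sqF, dot_res, u0, zero_mul, sub_zero, ← polar_sqF, e]
    obtain ⟨g, hg, e1⟩ := hle (mem_OmG.2 (eichlerSub_le_commutator (h.rx o).nd
      (Or.inl (ne_zero_ne_one_of_two h.two)) (eichler_mem q1 q2)))
    obtain ⟨e2, e3⟩ := fix_line h.two (h.hi hg) (fix_line_Qt e1)
    have e4 : ∀ v, v o = 0 → (eichler qu' e).1 v o = 0 := fun v hv => by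
      simp [eichler_apply, u0, w0, hv]
    have e5 : ∀ v, v o = 0 → g v = (eichler qu' e).1 v := fun v hv => funext fun l => by
      by_cases hl : l = o
      · rw [hl, e3 v hv, e4 v hv]
      · simpa [res_apply, eichler_apply, polar_sqF, sqF_apply, dot_res, u0, w0] using
          congrFun (e1 v) ⟨l, hl⟩
    have e6 : (eichler qu' e).1 (ee F o) = ee F o := by simp [eichler_apply, polar_sqF, u0, w0]
    refine mem_of_sq_mem (odd_ringChar h.two) (eichler_pow_char qu' e) ?_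
    convert mul_mem hg hg using 1
    refine LinearEquiv.ext fun v => ?_
    have e7 : (v - v o • ee F o) o = 0 := by simp
    rw [← sub_add_cancel v (v o • ee F o)]
    simp only [LinearEquiv.mul_apply, map_add, map_smul, e2, e6]
    rw [e5 _ e7, e5 _ (e4 _ e7)]
  obtain ⟨a, a1, -⟩ := h.fresh o o o o o
  obtain ⟨b, b1, b2, -⟩ := h.fresh o a o o o
  obtain ⟨c, c1, c2, c3, -⟩ := h.fresh o a b o o
  obtain ⟨l, l1, l2, l3, l4, -⟩ := h.fresh o a b c o
  obtain ⟨m, m1, m2, m3, m4, m5⟩ := h.fresh o a b c l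
  have o3 := orth3_ee (F := F) b2.symm c2.symm c3.symm
  have hU : Submodule.span F {ee F a, ee F b, ee F c} ≤ LinearMap.ker (pr F o) :=
    Submodule.span_le.2 (by
      rintro _ (rfl | rfl | rfl); exacts [ee_ne a a1.symm, ee_ne b b1.symm, ee_ne c c1.symm])
  obtain ⟨Y, h1, hY⟩ := exists_maxGood h.nd (o3.disjoint h.two) (o3.finrank_span h.two).ge hU hG
  obtain ⟨g, hg, e⟩ := h.c _ _ _ l1 m5.symm m1.symm
  have h3 : ee F o ∈ Y := hY.le h.nd (o3.disjoint h.two) (o3.finrank_span h.two).ge (hU.trans h1)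
    (Submodule.span_le.2 (by
      rintro _ (rfl | rfl | rfl)
      · exact ⟨_, ee_ne a a1.symm, e.fix (ee_ne _ l2) (ee_ne _ a1.symm) (ee_ne _ m2)⟩
      · exact ⟨_, ee_ne b b1.symm, e.fix (ee_ne _ l3) (ee_ne _ b1.symm) (ee_ne _ m3)⟩
      · exact ⟨_, ee_ne c c1.symm, e.fix (ee_ne _ l4) (ee_ne _ c1.symm) (ee_ne _ m4)⟩))
    (hG.map (h.hi hg) hg) ⟨_, ee_ne l l1.symm, e.ee l1 m5.symm⟩
  have : Y = ⊤ := eq_top_iff.2 fun v _ => by
    rw [← sub_add_cancel v (v o • ee F o)]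
    exact add_mem (h1 (by simp)) (Y.smul_mem _ h3)
  exact h.no ((polarG_omega' h.nd (by simp [h.n6])).le_of_good_top
    (this ▸ hY.1))

theorem A (h : F6 M) {g : (ι → F) ≃ₗ[F] (ι → F)} (hg : g ∈ M) {i j : ι}
    (e : ∀ l, l ≠ j → g (ee F i) l = 0) : g ∈ MonG ι F := by
  have key : ∀ {g : (ι → F) ≃ₗ[F] (ι → F)}, g ∈ M → (∀ l, l ≠ i → g (ee F i) l = 0) →
      g ∈ MonG ι F := fun {g} hg e => by
    obtain ⟨x, hx⟩ := exists_induced e
    refine mem_MonG_of fun k => ?_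
    by_cases ki : k = i
    · exact ⟨i, ki ▸ e⟩
    have e1 := (fix_line h.two (h.hi hg) e).2 _ (ee_ne k (Ne.symm ki))
    by_contra! hc
    obtain ⟨a, a1, a2⟩ := hc i
    obtain ⟨b, b1, b2⟩ := hc a
    have b3 : b ≠ i := by rintro rfl; exact b2 e1
    refine h.not_le i ((h.rx i).le_of_supp h.p ⟨g, hg, hx⟩ (i := ⟨a, a1⟩) (j := ⟨b, b3⟩)
      (k := ⟨k, ki⟩) (fun e => b1 (congrArg Subtype.val e).symm) ?_ ?_)
    all_goals rwa [← res_ee, ← hx]
  by_cases ij : j = i
  · exact key hg (ij ▸ e)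
  obtain ⟨k, k1, k2, -⟩ := h.fresh i j i i i
  obtain ⟨c, hc, e1⟩ := h.c _ _ _ ij k2.symm k1.symm
  refine (Subgroup.mul_mem_cancel_left _ (cyc_mon e1 ij k2.symm k1.symm)).1 (key (mul_mem hc hg) fun l hl => ?_)
  rw [LinearEquiv.mul_apply, eq_smul_ee e, map_smul, e1.ee ij k2.symm]
  simp [ee_ne i hl]

theorem K (h : F6 M) {g x : (ι → F) ≃ₗ[F] (ι → F)} (hg : g ∈ M)
    (hx : x ∈ M) {a : ι} (e : x (g (ee F a)) = g (ee F a)) (b : ι) :
    x (g (ee F b)) = g (ee F b) ∨ x (g (ee F b)) = -g (ee F b) ∨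
      g (ee F b) ⬝ᵥ x (g (ee F b)) = 0 := by
  have h1 := mul_mem (mul_mem (inv_mem hg) hx) hg
  obtain ⟨π, ν, -, h2, -⟩ := exists_of_mem_MonG (h.A h1 (i := a) (j := a) fun l hl => by
    simp [e, inv_apply_apply, ee_ne a hl])
  have h3 : x (g (ee F b)) = ν b • g (ee F (π b)) := by
    rw [← map_smul, ← h2]; simp [apply_inv_apply]
  by_cases hb : π b = b
  · have h4 := dot_map h.two (h.hi h1) (ee F b) (ee F b)
    rw [h2] at h4
    rw [hb] at h3
    simp only [smul_dotProduct, dotProduct_smul, single_dotProduct, ee_self, smul_eq_mul,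
      mul_one, mul_self_eq_one_iff] at h4
    rcases h4 with e | e <;> simp [h3, e]
  · simp [h3, dot_map h.two (h.hi hg), ee_ne _ hb]

variable {g : (ι → F) ≃ₗ[F] (ι → F)} {a b c d j k l m y z : ι}

theorem one (h : F6 M) (hg : g ∈ M) (b : ι) : g (ee F b) ⬝ᵥ g (ee F b) = 1 := by
  simp [dot_map h.two (h.hi hg)]

theorem T (h : F6 M) (hg : g ∈ M) (jk : j ≠ k) (hj : g (ee F a) j = 0) (hk : g (ee F a) k = 0)
    (b : ι) : (g (ee F b) j = 0 ∧ g (ee F b) k = 0) ∨
      (∀ m, m ≠ j → m ≠ k → g (ee F b) m = 0) ∨ 2 * (g (ee F b) j ^ 2 + g (ee F b) k ^ 2) = 1 := by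
  have z : ∀ {x : F}, x = -x → x = 0 := fun {x} e =>
    mul_left_cancel₀ h.two (by linear_combination e)
  rcases h.K hg (h.t j k) (a := a) (by simp [tt_apply jk, hj, hk]) b with e | e | e
  · exact Or.inl ⟨z (by rw [← tt_left jk, e]), z (by rw [← tt_right jk, e])⟩
  · exact Or.inr (Or.inl fun m h1 h2 => z (by rw [← Pi.neg_apply, ← e, tt_ne jk h1 h2]))
  · simp only [tt_apply jk, dotProduct_sub, dotProduct_smul, h.one hg, dotProduct_single,
      smul_eq_mul] at e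
    exact Or.inr (Or.inr (by linear_combination -e))

theorem P1 (h : F6 M) (hg : g ∈ M) (hn : g ∉ MonG ι F) (jk : j ≠ k) (jl : j ≠ l) (kl : k ≠ l)
    (hj : g (ee F a) j = 0) (hk : g (ee F a) k = 0) (hl : g (ee F a) l = 0)
    (h0 : g (ee F b) j ≠ 0) : g (ee F b) l ≠ 0 := fun e => by
  obtain ⟨c, hc, ec⟩ := h.c _ _ _ jk jl kl
  have t1 : 2 * g (ee F b) j ^ 2 = 1 := by
    rcases h.T hg jl hj hl b with t | t | t
    · exact absurd t.1 h0
    · exact absurd (h.A hg (i := b) (j := j) fun m hm => by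
        by_cases ml : m = l
        exacts [ml ▸ e, t m hm ml]) hn
    · linear_combination t - 2 * g (ee F b) l * e
  rcases h.K hg hc (ec.fix hj hk hl) b with t | t | t
  · have := congrFun t j
    simp [ec (g (ee F b)), ee_ne k jk, ee_ne l jl, e, h0.symm] at this
  · have := congrFun t j
    simp [ec (g (ee F b)), ee_ne k jk, ee_ne l jl, e, h0] at this
  · simp only [ec (g (ee F b)), dotProduct_add, dotProduct_smul, h.one hg, dotProduct_single,
      smul_eq_mul, e] at t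
    rcases h.T hg kl hk hl b with s | s | s
    · rw [s.1] at t; exact one_ne_zero (α := F) (by linear_combination 2 * t + t1)
    · exact h0 (s j jk jl)
    · rw [e] at s
      have k0 : g (ee F b) k ≠ 0 := fun e => by simp [e] at s
      exact mul_ne_zero h.two (mul_ne_zero h0 k0) (by linear_combination 2 * t + t1 + s)

theorem P (h : F6 M) (hg : g ∈ M) (hn : g ∉ MonG ι F) (jk : j ≠ k) (jl : j ≠ l) (kl : k ≠ l)
    (hj : g (ee F a) j = 0) (hk : g (ee F a) k = 0) (hl : g (ee F a) l = 0)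
    (h0 : g (ee F b) j ≠ 0) : 4 * g (ee F b) j ^ 2 = 1 := by
  have l0 := h.P1 hg hn jk jl kl hj hk hl h0
  have k0 := h.P1 hg hn jl jk kl.symm hj hl hk h0
  have t1 := ((h.T hg jk hj hk b).resolve_left fun t => h0 t.1).resolve_left
    fun t => l0 (t l jl.symm kl.symm)
  have t2 := ((h.T hg jl hj hl b).resolve_left fun t => h0 t.1).resolve_left
    fun t => k0 (t k jk.symm kl)
  have t3 := ((h.T hg kl hk hl b).resolve_left fun t => k0 t.1).resolve_left
    fun t => h0 (t j jk jl)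
  linear_combination t1 + t2 - t3

end F6

end CF.MaxSub
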