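/-
Maximality of the stabiliser of an orthonormal frame in dimension six, part two.
-/
import Cfsg.Agent.MaxSub.C6H

set_option autoImplicit false
set_option linter.unusedSectionVars false

namespace CF.MaxSub

open Module QuadraticMap Geom

variable {F : Type*} [Field F] {ι : Type} [Fintype ι] [DecidableEq ι]
  {M : Subgroup ((ι → F) ≃ₗ[F] (ι → F))} [Finite F]

theorem mon_col {g : (ι → F) ≃ₗ[F] (ι → F)} (hg : g ∈ MonG ι F) {a j k : ι} (jk : j ≠ k)
    (hj : g (ee F a) j ≠ 0) : g (ee F a) k = 0 := by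
  obtain ⟨π, ν, -, h2, -⟩ := exists_of_mem_MonG hg
  rw [h2] at hj ⊢
  obtain rfl : j = π a := by_contra fun e => hj (by simp [ee_ne _ e])
  simp [ee_ne _ jk.symm]

namespace F6

variable {g : (ι → F) ≃ₗ[F] (ι → F)} {a b c d i j k l m s t y z : ι}

theorem neg_eq (h : F6 M) {x : F} (e : x = -x) : x = 0 :=
  mul_left_cancel₀ h.two (by linear_combination e)

theorem orth (h : F6 M) (hg : g ∈ M) (ab : a ≠ b) : g (ee F a) ⬝ᵥ g (ee F b) = 0 := by
  rw [dot_map h.two (h.hi hg), single_dotProduct, one_mul, ee_ne b ab]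

theorem exists_dbl (h : F6 M) (n : [s, t, j, k].Nodup) : ∃ x ∈ M, ∀ w, x w = w +
    (w t - w s) • ee F s + (w s - w t) • ee F t + (w k - w j) • ee F j + (w j - w k) • ee F k := by
  simp only [List.nodup_cons, List.mem_cons, not_or, List.not_mem_nil] at n
  obtain ⟨⟨st, sj, sk, -⟩, ⟨tj, tk, -⟩, ⟨jk, -⟩, -⟩ := n
  obtain ⟨c₁, h1, e1⟩ := h.c s t j st sj tj
  obtain ⟨c₂, h2, e2⟩ := h.c t j k tj tk jk
  refine ⟨c₁ * c₂, mul_mem h1 h2, fun w => ?_⟩
  rw [LinearEquiv.mul_apply, e1, e2]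
  simp only [Pi.add_apply, Pi.smul_apply, ee_self, ee_ne t st, ee_ne j sj, ee_ne k sk, ee_ne j tj,
    ee_ne k tk, ee_ne k jk, ee_ne t (Ne.symm tj), smul_eq_mul]
  module

theorem Z4' (h : F6 M) (hg : g ∈ M) (hn : g ∉ MonG ι F) (n : [s, t, j, k, l, m].Nodup)
    (hj : g (ee F a) j = 0) (hk : g (ee F a) k = 0) (hl : g (ee F a) l = 0)
    (hm : g (ee F a) m = 0) (h0 : g (ee F b) j ≠ 0) (e : g (ee F b) j = g (ee F b) k) : False := by
  have n' := n
  simp only [List.nodup_cons, List.mem_cons, not_or, List.not_mem_nil] at n'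
  obtain ⟨⟨st, sj, sk, sl, sm, -⟩, ⟨tj, tk, tl, tm, -⟩, ⟨jk, jl, jm, -⟩, ⟨kl, km, -⟩, ⟨lm, -⟩, -⟩ := n'
  have ab : a ≠ b := by rintro rfl; exact h0 hj
  have a1 := h.P hg hn jk jl kl hj hk hl h0
  have a3 := h.P hg hn (Ne.symm jl) (Ne.symm kl) jk hl hj hk (h.P1 hg hn jk jl kl hj hk hl h0)
  have a4 := h.P hg hn (Ne.symm jm) (Ne.symm km) jk hm hj hk (h.P1 hg hn jk jm km hj hk hm h0)
  have o1 := (h.dot6 n _ _).symm.trans (h.one hg a)
  have o2 := (h.dot6 n _ _).symm.trans (h.one hg b)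
  have o3 := (h.dot6 n _ _).symm.trans (h.orth hg ab)
  have nz : ∀ {s t : ι}, [s, t, j, k, l, m].Nodup → g (ee F a) s ≠ 0 := fun {s t} n e =>
    hn (h.A hg (i := a) (j := t) fun x hx => by
      rcases h.cases6 n x with rfl | rfl | rfl | rfl | rfl | rfl <;> first | assumption | exact absurd rfl hx)
  have s0 := nz n
  have t0 := nz (s := t) (t := s) (by simp at n ⊢; grind)
  have K := fun x hx e => h.K hg (x := x) hx (a := b) e a
  have r := fun x => conj_tt_apply h.two (h.hi hg) ab x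
  have rm := mul_mem (mul_mem hg (h.t a b)) (inv_mem hg)
  generalize g * tt F a b * g⁻¹ = R at r rm
  generalize g (ee F a) = u at *
  generalize g (ee F b) = w at *
  rw [hj, hk, hl, hm] at o1 o3
  have h4 := mul_ne_zero h.two h.two
  have e1 : w s ^ 2 + w t ^ 2 = 0 := mul_left_cancel₀ h4 (by
    rw [← e] at o2; linear_combination 4 * o2 - 2 * a1 - a3 - a4)
  have ws : w s = 0 := pow_eq_zero_iff two_ne_zero |>.1 (by
    linear_combination (u t ^ 2) * e1 - w s ^ 2 * o1 + (u s * w s - u t * w t) * o3)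
  have wt : w t = 0 := by simpa [ws] using e1
  obtain ⟨x, hx, ex⟩ := h.exists_dbl (s := s) (t := t) (j := j) (k := k) (by simp; grind)
  have e2 : 2 * u s ^ 2 = 1 := by
    rcases K x hx (by simp [ex, ws, wt, e]) with q | q | q
    · have := congrFun q s
      simp [ex, ee_ne t st, ee_ne j sj, ee_ne k sk, sub_eq_zero] at this
      rw [this] at o1; linear_combination o1
    · have := congrFun q s
      simp [ex, ee_ne t st, ee_ne j sj, ee_ne k sk] at this
      rw [this] at o1; linear_combination o1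
    · simp only [ex, hj, hk, dotProduct_add, dotProduct_smul, dotProduct_single, smul_eq_mul,
        h.dot6 n u u, hl, hm] at q
      exact absurd (by linear_combination q) (mul_ne_zero h.two (mul_ne_zero s0 t0))
  have := mon_col (h.A rm (i := s) (j := t) fun x hx => by
    rw [r]
    rcases h.cases6 n x with rfl | rfl | rfl | rfl | rfl | rfl
    · simp [ws]; linear_combination -e2
    · exact absurd rfl hx
    all_goals simp [ws, hj, hk, hl, hm, Pi.single_apply, *]) (a := j) (Ne.symm jk)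
    (by simp [r, hj, ee_ne j (Ne.symm jk), ← e, h0, h.two])
  simp [r, hj] at this
  exact one_ne_zero (α := F) (by linear_combination 2 * this + a1)

theorem Z4 (h : F6 M) (hg : g ∈ M) (n : [j, k, l, m].Nodup) (hj : g (ee F a) j = 0)
    (hk : g (ee F a) k = 0) (hl : g (ee F a) l = 0) (hm : g (ee F a) m = 0) : g ∈ MonG ι F := by
  by_contra hn
  obtain ⟨s, hs⟩ := h.fresh j k l m j
  obtain ⟨t, ht⟩ := h.fresh j k l m s
  obtain ⟨b, h0⟩ := exists_col g j
  simp only [List.nodup_cons, List.mem_cons, not_or, List.not_mem_nil] at n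
  obtain ⟨⟨jk, jl, jm, -⟩, ⟨kl, km, -⟩, ⟨lm, -⟩, -⟩ := n
  have k0 := h.P1 hg hn jl jk (Ne.symm kl) hj hl hk h0
  have a1 := h.P hg hn jk jl kl hj hk hl h0
  have a2 := h.P hg hn (Ne.symm jk) kl jl hk hj hl k0
  have a3 := h.P hg hn (Ne.symm jl) (Ne.symm kl) jk hl hj hk (h.P1 hg hn jk jl kl hj hk hl h0)
  have key : ∀ {x y : F}, 4 * x ^ 2 = 1 → 4 * y ^ 2 = 1 → x = y ∨ x = -y := fun e e' =>
    sq_eq_sq_iff_eq_or_eq_neg.1 (mul_left_cancel₀ (mul_ne_zero h.two h.two)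
      (by linear_combination e - e'))
  rcases key a1 a2 with e | e
  · exact h.Z4' (s := s) (t := t) hg hn (by simp; grind) hj hk hl hm h0 e
  rcases key a1 a3 with e' | e'
  · exact h.Z4' (s := s) (t := t) hg hn (by simp; grind) hj hl hk hm h0 e'
  · exact h.Z4' (s := s) (t := t) hg hn (by simp; grind) hk hl hj hm k0 (by
      linear_combination e - e')

theorem Z3 (h : F6 M) (hg : g ∈ M) (jk : j ≠ k) (jl : j ≠ l) (kl : k ≠ l) (hj : g (ee F a) j = 0)
    (hk : g (ee F a) k = 0) (hl : g (ee F a) l = 0) : g ∈ MonG ι F := by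
  classical
  by_contra hn
  have hi : g⁻¹ ∉ MonG ι F := fun e => hn (inv_mem_iff.1 e)
  have ic := inv_col h.two (h.hi hg)
  obtain ⟨a', a1, a2⟩ : ∃ a', a' ≠ a ∧ g (ee F a') j = 0 := by
    by_contra! hh
    have := h.one (inv_mem hg) j
    obtain ⟨b, hb⟩ := h.fresh a a a a a
    obtain ⟨c, hc⟩ := h.fresh a b a a a
    obtain ⟨d, hd⟩ := h.fresh a b c a a
    obtain ⟨e, he⟩ := h.fresh a b c d a
    obtain ⟨f, hf⟩ := h.fresh a b c d e
    have k := fun b hb => h.P hg hn jk jl kl hj hk hl (hh b hb)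
    rw [h.dot6 (a := a) (b := b) (c := c) (d := d) (e := e) (f := f) (by simp; grind)] at this
    simp only [ic, hj] at this
    exact one_ne_zero (α := F) (by
      linear_combination 4 * this - k b hb.1 - k c hc.1 - k d hd.1 - k e he.1 - k f hf.1)
  have a3 : g (ee F a') k = 0 := by_contra fun e =>
    h.P1 hg hn kl (Ne.symm jk) (Ne.symm jl) hk hl hj e a2
  have a4 : g (ee F a') l = 0 := by_contra fun e =>
    h.P1 hg hn (Ne.symm kl) (Ne.symm jl) (Ne.symm jk) hl hk hj e a2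
  have key : ∀ m, m ≠ j → m ≠ k → m ≠ l → 2 * (g (ee F a) m ^ 2 + g (ee F a') m ^ 2) = 1 :=
    fun m m1 m2 m3 => by
      rcases h.T (inv_mem hg) a1.symm (a := j) (by rw [ic, hj]) (by rw [ic, a2]) m with t | t | t
      · exact absurd (h.Z4 hg (by simp; grind) hj hk hl (ic m a ▸ t.1)) hn
      · obtain ⟨b, hb⟩ := h.fresh a a' a a a
        obtain ⟨c, hc⟩ := h.fresh a a' b a a
        obtain ⟨d, hd⟩ := h.fresh a a' b c a
        obtain ⟨e, he⟩ := h.fresh a a' b c d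
        exact absurd (h.Z4 (inv_mem hg) (by simp; grind) (t b hb.1 hb.2.1) (t c hc.1 hc.2.1)
          (t d hd.1 hd.2.1) (t e he.1 he.2.1)) hi
      · rwa [ic, ic] at t
  obtain ⟨b, hb⟩ := h.fresh j k l j j
  obtain ⟨c, hc⟩ := h.fresh j k l b j
  obtain ⟨d, hd⟩ := h.fresh j k l b c
  have n : [j, k, l, b, c, d].Nodup := by simp; grind
  have o1 := (h.dot6 n _ _).symm.trans (h.one hg a)
  have o2 := (h.dot6 n _ _).symm.trans (h.one hg a')
  rw [hj, hk, hl] at o1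
  rw [a2, a3, a4] at o2
  exact one_ne_zero (α := F) (by
    linear_combination key b hb.1 hb.2.1 hb.2.2.1 + key c hc.1 hc.2.1 hc.2.2.1 +
      key d hd.1 hd.2.1 hd.2.2.1 - 2 * o1 - 2 * o2)

theorem Z2c (h : F6 M) (hg : g ∈ M) (n : [a, b, c, d, y, z].Nodup)
    (w1 : g (ee F k) a = 0) (w2 : g (ee F k) b = 0) (w3 : g (ee F k) d = -g (ee F k) c)
    (w4 : g (ee F k) y = g (ee F k) c) (e1 : g (ee F i) a = g (ee F i) b)
    (e2 : g (ee F i) c = g (ee F i) d) (c0 : g (ee F i) c ≠ 0) (y0 : g (ee F i) y = 0)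
    (z0 : g (ee F i) z = 0) : 3 * g (ee F i) c ^ 2 = 1 := by
  have o := (h.dot6 n _ _).symm.trans (h.one hg i)
  have n' := n
  simp only [List.nodup_cons, List.mem_cons, not_or, List.not_mem_nil] at n'
  obtain ⟨⟨ab, ac, ad, ay, az, -⟩, ⟨bc, bd, by', bz, -⟩, ⟨cd, cy, cz, -⟩, ⟨dy, dz, -⟩, ⟨yz, -⟩, -⟩ := n'
  obtain ⟨x, hx, ex⟩ := h.c c d y cd cy dy
  have K := h.K (mul_mem (h.t d z) hg) hx (a := k) (by
    rw [ex]
    simp [LinearEquiv.mul_apply, tt_ne dz cd cz, tt_ne dz (Ne.symm dy) yz, tt_left dz, w3, w4]) i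
  rw [LinearEquiv.mul_apply] at K
  have q := h.dot6 n
  generalize g (ee F i) = u at *
  have u1 := tt_ne dz cd cz u
  have u2 := tt_ne dz (Ne.symm dy) yz u
  have u3 := tt_left dz u
  have u4 := tt_ne dz ad az u
  have u5 := tt_ne dz bd bz u
  have u6 := tt_right dz u
  generalize tt F d z u = v at *
  rcases K with K | K | K
  · have := congrFun K c
    simp [ex v, ee_ne d cd, ee_ne y cy, u1, u2, y0, c0.symm] at this
  · have := congrFun K c
    simp [ex v, ee_ne d cd, ee_ne y cy, u1, u2, y0, c0] at this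
  · simp only [ex v, dotProduct_add, dotProduct_smul, dotProduct_single, q v v, smul_eq_mul, u1, u2,
      u3, u4, u5, u6, y0, z0, ← e2] at K
    rw [y0, z0, ← e2] at o
    linear_combination o - K

theorem Z2b (h : F6 M) (hg : g ∈ M) (hn : g ∉ MonG ι F) (n : [a, b, c, d, y, z].Nodup)
    (w1 : g (ee F k) a = 0) (w2 : g (ee F k) b = 0) (w3 : g (ee F k) d = -g (ee F k) c)
    (w4 : 2 * (g (ee F k) y ^ 2 + g (ee F k) z ^ 2) = 1)
    (hu : ∀ m, m = i ∨ m = j → g (ee F m) a = g (ee F m) b ∧ g (ee F m) c = g (ee F m) d ∧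
      g (ee F m) c ≠ 0 ∧ g (ee F m) y = 0 ∧ g (ee F m) z = 0)
    (N : 2 * (g (ee F i) c ^ 2 + g (ee F j) c ^ 2) = 1) : False := by
  have o := (h.dot6 n _ _).symm.trans (h.one hg k)
  have h4 := mul_ne_zero h.two h.two
  rw [w1, w2, w3] at o
  have t : 4 * g (ee F k) c ^ 2 = 1 := by linear_combination 2 * o - w4
  obtain ⟨x, hx, ex⟩ := h.exists_dbl (s := a) (t := b) (j := y) (k := z) (by simp at n ⊢; grind)
  obtain ⟨i1, i2, i3, i4, i5⟩ := hu i (.inl rfl)
  obtain ⟨j1, j2, j3, j4, j5⟩ := hu j (.inr rfl)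
  have n' := n
  simp only [List.nodup_cons, List.mem_cons, not_or, List.not_mem_nil] at n'
  obtain ⟨⟨ab, ac, ad, ay, az, -⟩, ⟨bc, bd, by', bz, -⟩, ⟨cd, cy, cz, -⟩, ⟨dy, dz, -⟩, ⟨yz, -⟩, -⟩ := n'
  have e : g (ee F k) y ^ 2 = g (ee F k) z ^ 2 := by
    rcases h.K hg hx (a := i) (by simp [ex, i1, i4, i5]) k with q | q | q
    · have := congrFun q y
      simp [ex, ee_ne a (Ne.symm ay), ee_ne b (Ne.symm by'), ee_ne z yz] at this
      rw [this]
    · have := congrFun q c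
      simp only [ex, Pi.add_apply, Pi.smul_apply, ee_ne a (Ne.symm ac), ee_ne b (Ne.symm bc),
        ee_ne y cy, ee_ne z cz, smul_zero, add_zero, Pi.neg_apply] at this
      simp [h.neg_eq this] at t
    · simp only [ex, dotProduct_add, dotProduct_smul, dotProduct_single, smul_eq_mul, h.one hg,
        w1, w2] at q
      have : (g (ee F k) y + g (ee F k) z) ^ 2 = 0 := by linear_combination q + w4
      rw [eq_neg_of_add_eq_zero_left (pow_eq_zero_iff two_ne_zero |>.1 this)]; ring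
  rcases sq_eq_sq_iff_eq_or_eq_neg.1 (show g (ee F k) y ^ 2 = g (ee F k) c ^ 2 from
    mul_left_cancel₀ h4 (by linear_combination w4 + 2 * e - t)) with q | q
  · exact one_ne_zero (α := F) (by
      linear_combination 3 * N - 2 * h.Z2c hg n w1 w2 w3 q i1 i2 i3 i4 i5 -
        2 * h.Z2c hg n w1 w2 w3 q j1 j2 j3 j4 j5)
  · have n2 : [a, b, d, c, y, z].Nodup := by simp; grind
    have w3' : g (ee F k) c = -g (ee F k) d := by simp [w3]
    rw [i2, j2] at N
    exact one_ne_zero (α := F) (by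
      linear_combination 3 * N - 2 * h.Z2c hg n2 w1 w2 w3' (q.trans w3.symm) i1 i2.symm (i2 ▸ i3) i4 i5 -
        2 * h.Z2c hg n2 w1 w2 w3' (q.trans w3.symm) j1 j2.symm (j2 ▸ j3) j4 j5)

theorem Z2a (h : F6 M) (hg : g ∈ M) (hn : g ∉ MonG ι F) (n : [a, b, c, d, y, z].Nodup) (ij : i ≠ j)
    (hu : ∀ m, m = i ∨ m = j → g (ee F m) a = g (ee F m) b ∧ g (ee F m) c = g (ee F m) d ∧
      g (ee F m) a ≠ 0 ∧ g (ee F m) c ≠ 0 ∧ g (ee F m) y = 0 ∧ g (ee F m) z = 0)
    (N1 : 2 * (g (ee F i) a ^ 2 + g (ee F j) a ^ 2) = 1)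
    (N2 : 2 * (g (ee F i) c ^ 2 + g (ee F j) c ^ 2) = 1)
    (N3 : g (ee F i) a * g (ee F i) c + g (ee F j) a * g (ee F j) c = 0) : False := by
  have hi : g⁻¹ ∉ MonG ι F := fun e => hn (inv_mem_iff.1 e)
  have ic := inv_col h.two (h.hi hg)
  obtain ⟨k, k1, k2, -⟩ := h.fresh i j i i i
  obtain ⟨i1, i2, i3, i4, i5, i6⟩ := hu i (.inl rfl)
  obtain ⟨j1, j2, j3, j4, j5, j6⟩ := hu j (.inr rfl)
  have y0 : g (ee F k) y ≠ 0 := fun e => hi (h.Z3 (inv_mem hg) ij k1.symm k2.symm (a := y)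
    (by rw [ic, i5]) (by rw [ic, j5]) (by rw [ic, e]))
  have z0 : g (ee F k) z ≠ 0 := fun e => hi (h.Z3 (inv_mem hg) ij k1.symm k2.symm (a := z)
    (by rw [ic, i6]) (by rw [ic, j6]) (by rw [ic, e]))
  have n' := n
  simp only [List.nodup_cons, List.mem_cons, not_or, List.not_mem_nil] at n'
  obtain ⟨⟨ab, ac, ad, ay, az, -⟩, ⟨bc, bd, by', bz, -⟩, ⟨cd, cy, cz, -⟩, ⟨dy, dz, -⟩, ⟨yz, -⟩, -⟩ := n'
  have w4 := ((h.T hg yz i5 i6 k).resolve_left fun t => y0 t.1).resolve_left fun t =>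
    hn (h.Z3 hg ab ac bc (t a ay az) (t b by' bz) (t c cy cz))
  have o1 := (h.dot6 n _ _).symm.trans (h.orth hg k1.symm)
  have o2 := (h.dot6 n _ _).symm.trans (h.orth hg k2.symm)
  rw [← i1, ← i2, i5, i6] at o1
  rw [← j1, ← j2, j5, j6] at o2
  have s1 : g (ee F k) b = -g (ee F k) a := by
    linear_combination 2 * g (ee F i) a * o1 + 2 * g (ee F j) a * o2 -
      (g (ee F k) a + g (ee F k) b) * N1 - 2 * (g (ee F k) c + g (ee F k) d) * N3
  have s2 : g (ee F k) d = -g (ee F k) c := by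
    linear_combination 2 * g (ee F i) c * o1 + 2 * g (ee F j) c * o2 -
      (g (ee F k) c + g (ee F k) d) * N2 - 2 * (g (ee F k) a + g (ee F k) b) * N3
  by_cases a0 : g (ee F k) a = 0
  · exact h.Z2b hg hn n a0 (by simp [s1, a0]) s2 w4 (fun m hm => by have := hu m hm; tauto) N2
  by_cases c0 : g (ee F k) c = 0
  · exact h.Z2b (a := c) (b := d) (c := a) (d := b) hg hn (by simp; grind) c0 (by simp [s2, c0]) s1
      w4 (fun m hm => by have := hu m hm; tauto) N1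
  obtain ⟨x, hx, ex⟩ := h.exists_dbl (s := a) (t := b) (j := y) (k := z) (by simp; grind)
  have key : ∀ x ∈ M, x (g (ee F i)) = g (ee F i) → x (g (ee F k)) a = g (ee F k) b →
      x (g (ee F k)) c = g (ee F k) c → g (ee F k) ⬝ᵥ x (g (ee F k)) = 0 := fun x hx e e1 e2 => by
    rcases h.K hg hx e k with q | q | q
    · exact absurd (h.neg_eq (by rw [← s1, ← e1, q])) a0
    · exact absurd (h.neg_eq (by rw [← Pi.neg_apply, ← q, e2])) c0
    · exact q
  have q1 := key x hx (by simp [ex, i1, i5, i6])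
    (by simp [ex, ee_ne b ab, ee_ne y ay, ee_ne z az])
    (by simp [ex, ee_ne a (Ne.symm ac), ee_ne b (Ne.symm bc), ee_ne y cy, ee_ne z cz])
  have q2 := key _ (mul_mem hx (h.t y z)) (by simp [ex, tt_apply yz, i1, i5, i6])
    (by simp [ex, tt_apply yz, ee_ne b ab, ee_ne y ay, ee_ne z az, ee_ne y by', ee_ne z bz])
    (by simp [ex, tt_apply yz, ee_ne a (Ne.symm ac), ee_ne b (Ne.symm bc), ee_ne y cy, ee_ne z cz])
  simp only [LinearEquiv.mul_apply, ex, tt_left yz, tt_right yz, tt_ne yz ay az, tt_ne yz by' bz] at q2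
  simp only [ex, tt_apply yz, dotProduct_add, dotProduct_sub, dotProduct_smul, dotProduct_single,
    smul_eq_mul] at q1 q2
  exact mul_ne_zero (mul_ne_zero h.two h.two) (mul_ne_zero y0 z0) (by linear_combination q1 - q2)

theorem Z2 (h : F6 M) (hg : g ∈ M) (ij : i ≠ j) (e : g * tt F i j * g⁻¹ ∈ MonG ι F) :
    g ∈ MonG ι F := by
  by_contra hn
  have r := fun x => conj_tt_apply h.two (h.hi hg) ij x
  have fx : ∀ l, (g * tt F i j * g⁻¹) (ee F l) = ee F l → g (ee F i) l = 0 ∧ g (ee F j) l = 0 :=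
    fun l e => by
      have e1 := congrArg (g (ee F i) ⬝ᵥ ·) e
      have e2 := congrArg (g (ee F j) ⬝ᵥ ·) e
      simp only [r] at e1 e2
      simp [h.one hg, h.orth hg ij, h.orth hg ij.symm, h.two] at e1 e2
      exact ⟨e1, e2⟩
  have key := mon_rank_two' e (p := g (ee F i)) (q := g (ee F j)) fun x =>
    ⟨-(2 * (g (ee F i) ⬝ᵥ x)), -(2 * (g (ee F j) ⬝ᵥ x)), by rw [r]; module⟩
  obtain ⟨y, -, hy⟩ := key [] (by simp [h.n6])
  obtain ⟨z, zy, hz⟩ := key [y] (by simp [h.n6])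
  replace zy : z ≠ y := by simpa using zy
  obtain ⟨y1, y2⟩ := fx y hy
  obtain ⟨z1, z2⟩ := fx z hz
  have nz : ∀ l, l ≠ y → l ≠ z → g (ee F i) l ≠ 0 ∧ g (ee F j) l ≠ 0 := fun l l1 l2 =>
    ⟨fun e => hn (h.Z3 hg zy.symm l1.symm l2.symm y1 z1 e),
      fun e => hn (h.Z3 hg zy.symm l1.symm l2.symm y2 z2 e)⟩
  let N : ι → ι → F := fun a b => g (ee F i) a * g (ee F i) b + g (ee F j) a * g (ee F j) b
  have N1 : ∀ a b, (g * tt F i j * g⁻¹) (ee F a) b = ee F a b - 2 * N a b := fun a b => by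
    simp [r, N]; ring
  have N2 : ∀ a b c, b ≠ a → c ≠ a → b ≠ c → N a b ≠ 0 → N a c = 0 := fun a b c ba ca bc e' => by
    have := mon_col e bc (a := a) (by simp [N1, ee_ne a ba, e', h.two])
    simpa [N1, ee_ne a ca, h.two] using this
  have N3 : ∀ a b, b ≠ a → N a b ≠ 0 → 2 * N a a = 1 := fun a b ba e' => by
    have := mon_col e ba (a := a) (by simp [N1, ee_ne a ba, e', h.two])
    rw [N1, ee_self] at this; linear_combination -this
  have N4 : ∀ a, a ≠ y → a ≠ z → N a a ≠ 0 := fun a a1 a2 e' => (nz a a1 a2).1 (fx a (funext fun b => by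
    by_cases ba : b = a
    · simp [N1, ba, e']
    · rw [mon_col e (Ne.symm ba) (by simp [N1, e']), ee_ne a ba])).1
  have N5 : ∀ a c d, a ≠ y → a ≠ z → c ≠ y → c ≠ z → d ≠ y → d ≠ z → N a c = 0 → N a d = 0 →
      N c d ≠ 0 := fun a c d a1 a2 c1 c2 d1 d2 e1 e2 e3 =>
    mul_ne_zero (N4 c c1 c2) (mul_ne_zero (nz a a1 a2).1 (nz d d1 d2).2) (by
      simp only [N] at *
      linear_combination (g (ee F i) a * g (ee F j) c) * e3 + g (ee F i) c * g (ee F j) d * e1 -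
        g (ee F i) c * g (ee F j) c * e2)
  have Nc : ∀ a b, N a b = N b a := fun a b => by simp only [N]; ring
  have par : ∀ a b c, c ≠ y → c ≠ z → N c a = 0 → N c b = 0 → 2 * N a a = 1 → 2 * N b b = 1 →
      ∃ ε : F, (ε = 1 ∨ ε = -1) ∧ ∀ m, m = i ∨ m = j → g (ee F m) a = ε * g (ee F m) b :=
    fun a b c c1 c2 e1 e2 e3 e4 => by
      have D : g (ee F i) a * g (ee F j) b - g (ee F j) a * g (ee F i) b = 0 :=
        mul_left_cancel₀ (nz c c1 c2).1 (by
          simp only [N] at *; linear_combination g (ee F j) b * e1 - g (ee F j) a * e2)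
      refine ⟨2 * N a b, sq_eq_one_iff.1 ?_, ?_⟩
      · simp only [N] at *
        linear_combination (2 * (g (ee F i) b * g (ee F i) b + g (ee F j) b * g (ee F j) b)) * e3 +
          e4 - 4 * (g (ee F i) a * g (ee F j) b - g (ee F j) a * g (ee F i) b) * D
      · simp only [N] at *
        rintro m (rfl | rfl)
        · linear_combination -g (ee F m) a * e4 + 2 * g (ee F j) b * D
        · linear_combination -g (ee F m) a * e4 - 2 * g (ee F i) b * D
  obtain ⟨a, b, c, d, n, e1, e2⟩ : ∃ a b c d, [a, b, c, d, y, z].Nodup ∧ N a c = 0 ∧ N a d = 0 := by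
    obtain ⟨a, ha⟩ := h.fresh y z y y y
    obtain ⟨b, hb⟩ := h.fresh y z a y y
    obtain ⟨c, hc⟩ := h.fresh y z a b y
    obtain ⟨d, hd⟩ := h.fresh y z a b c
    by_cases e1 : N a b = 0
    · by_cases e2 : N a c = 0
      · exact ⟨a, d, b, c, by simp; grind, e1, e2⟩
      · exact ⟨a, c, b, d, by simp; grind, e1, N2 a c d (by grind) (by grind) (by grind) e2⟩
    · exact ⟨a, b, c, d, by simp; grind, N2 a b c (by grind) (by grind) (by grind) e1,
        N2 a b d (by grind) (by grind) (by grind) e1⟩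
  have n' := n
  simp only [List.nodup_cons, List.mem_cons, not_or, List.not_mem_nil] at n'
  obtain ⟨⟨ab, ac, ad, ay, az, -⟩, ⟨bc, bd, by', bz, -⟩, ⟨cd, cy, cz, -⟩, ⟨dy, dz, -⟩, ⟨yz, -⟩, -⟩ := n'
  have e3 := N5 a c d ay az cy cz dy dz e1 e2
  have e4 := N2 c d b (Ne.symm cd) bc (Ne.symm bd) e3
  have e5 := N5 c a b cy cz ay az by' bz (Nc a c ▸ e1) e4
  have e6 := N3 a b (Ne.symm ab) e5
  have e7 := N3 c d (Ne.symm cd) e3
  obtain ⟨ε, h1, h2⟩ := par a b c cy cz (Nc a c ▸ e1) e4 e6 (N3 b a ab (Nc a b ▸ e5))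
  obtain ⟨ε', h3, h4⟩ := par c d a ay az e1 e2 e7 (N3 d c cd (Nc c d ▸ e3))
  obtain ⟨f, f1, f2, f3⟩ : ∃ f ∈ M, f ∈ MonG ι F ∧ ∀ v, v y = 0 → v z = 0 → f v a = v a ∧
      f v b = ε * v b ∧ f v c = v c ∧ f v d = ε' * v d ∧ f v y = 0 ∧ f v z = 0 := by
    rcases h1 with rfl | rfl <;> rcases h3 with rfl | rfl
    · exact ⟨1, one_mem _, one_mem _, fun v h1 h2 => by simp [h1, h2]⟩
    · exact ⟨_, h.t d y, (tt_mem h.two d y).2, fun v h1 h2 => by
        simp [tt_apply dy, Pi.single_apply, *]; ring⟩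
    · exact ⟨_, h.t b y, (tt_mem h.two b y).2, fun v h1 h2 => by
        simp [tt_apply by', Pi.single_apply, Ne.symm bc, Ne.symm bd, *]; ring⟩
    · exact ⟨_, h.t b d, (tt_mem h.two b d).2, fun v h1 h2 => by
        simp [tt_apply bd, Pi.single_apply, Ne.symm bc, Ne.symm bd, *]; ring_nf; simp⟩
  have fi := f3 _ y1 z1
  have fj := f3 _ y2 z2
  refine h.Z2a (mul_mem f1 hg) (by rwa [Subgroup.mul_mem_cancel_left _ f2]) n ij ?_ ?_ ?_ ?_ <;>
    simp only [LinearEquiv.mul_apply]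
  · rintro _ (rfl | rfl)
    · simp [fi, ← h2 _ (.inl rfl), ← h4 _ (.inl rfl), nz a ay az, nz c cy cz]
    · simp [fj, ← h2 _ (.inr rfl), ← h4 _ (.inr rfl), nz a ay az, nz c cy cz]
  · simp only [fi, fj]; linear_combination e6
  · simp only [fi, fj]; linear_combination e7
  · simp only [fi, fj]; linear_combination e1

theorem dih (h : F6 M) : Dih M (MonG ι F) {t | ∃ i j, i ≠ j ∧ t = tt F i j} := by
  have A : ∀ g ∈ M, ∀ i j, i ≠ j → g * tt F i j * g⁻¹ ∈ MonG ι F → g ∈ MonG ι F :=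
    fun g hg i j ij => h.Z2 hg ij
  have sq : ∀ i j : ι, i ≠ j → tt F i j * tt F i j = 1 := fun i j ij => by
    nth_rw 2 [tt_comm ij]
    rw [tt, tt, mul_assoc, ← mul_assoc (oRefl _ (ee F j)).1, oRefl_sq, one_mul, oRefl_sq]
  refine ⟨?_, ?_, ?_, ?_, ?_, ?_⟩
  · rintro _ ⟨i, j, -, rfl⟩; exact h.t i j
  · rintro _ ⟨i, j, -, rfl⟩; exact (tt_mem h.two i j).2
  · rintro _ ⟨i, j, ij, rfl⟩; exact sq i j ij
  · rintro g hg hg' _ ⟨i, j, ij, rfl⟩
    obtain ⟨π, ν, h0, h1, -⟩ := exists_of_mem_MonG hg'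
    exact ⟨_, _, π.injective.ne ij, conj_tt_mon (h.hi hg) h0 h1 i j⟩
  · rintro g hg _ ⟨i, j, ij, rfl⟩; exact A g hg i j ij
  · rintro g hg _ ⟨a, b, ab, rfl⟩ _ ⟨c, d, cd, rfl⟩ _ ⟨a', b', ab', rfl⟩ _ ⟨c', d', cd', rfl⟩ h1 - e
    have m : g * (tt F a b * tt F c d) * g⁻¹ ∈ MonG ι F :=
      e ▸ mul_mem (tt_mem h.two _ _).2 (tt_mem h.two _ _).2
    have key : ∀ {a b d : ι}, a ≠ b → a ≠ d → tt F a b * tt F a d ≠ 1 →
        g * (tt F a b * tt F a d) * g⁻¹ ∈ MonG ι F → g ∈ MonG ι F := fun {a b d} ab ad h1 m => by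
      refine A g hg b d (by rintro rfl; exact h1 (sq _ _ ab)) ?_
      rwa [tt_comm ab, tt, tt, mul_assoc (oRefl _ (ee F b)).1, ← mul_assoc (oRefl _ (ee F a)).1,
        oRefl_sq, one_mul] at m
    by_cases ac : a = c
    · subst ac; exact key ab cd h1 m
    by_cases ad : a = d
    · subst ad; rw [tt_comm cd] at h1 m; exact key ab ac h1 m
    by_cases bc : b = c
    · subst bc; rw [tt_comm ab] at h1 m; exact key ab.symm cd h1 m
    by_cases bd : b = d
    · subst bd; rw [tt_comm ab, tt_comm cd] at h1 m; exact key ab.symm bc h1 m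
    obtain ⟨y, hy⟩ := h.fresh a b c d a
    obtain ⟨z, hz⟩ := h.fresh a b c d y
    have yz : y ≠ z := Ne.symm hz.2.2.2.2
    refine A g hg y z yz (mem_MonG_of fun l => ?_)
    obtain ⟨π, ν, -, h2, -⟩ := exists_of_mem_MonG m
    have e1 : ∀ x, tt F y z x = -(tt F a b * tt F c d) x := fun x => funext fun l => by
      rw [Pi.neg_apply, LinearEquiv.mul_apply]
      rcases h.cases6 (a := a) (b := b) (c := c) (d := d) (e := y) (f := z) (by simp; grind) l with
        rfl | rfl | rfl | rfl | rfl | rfl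
      · rw [tt_ne yz (by grind) (by grind), tt_left ab, tt_ne cd ac ad, neg_neg]
      · rw [tt_ne yz (by grind) (by grind), tt_right ab, tt_ne cd bc bd, neg_neg]
      · rw [tt_ne yz (by grind) (by grind), tt_ne ab (by grind) (by grind), tt_left cd, neg_neg]
      · rw [tt_ne yz (by grind) (by grind), tt_ne ab (by grind) (by grind), tt_right cd, neg_neg]
      · rw [tt_left yz, tt_ne ab (by grind) (by grind), tt_ne cd (by grind) (by grind)]
      · rw [tt_right yz, tt_ne ab (by grind) (by grind), tt_ne cd (by grind) (by grind)]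
    refine ⟨π l, fun k hk => ?_⟩
    have := congrFun (h2 l) k
    simp only [LinearEquiv.mul_apply (g * _), LinearEquiv.mul_apply g] at this ⊢
    rw [e1, map_neg, Pi.neg_apply, this]
    simp [ee_ne _ hk]

/-- The frame theorem in dimension six. -/
theorem le_MonG (h : F6 M) : M ≤ MonG ι F := fun g hg => by
  classical
  by_contra hn
  have : Finite ((ι → F) ≃ₗ[F] (ι → F)) := Finite.of_injective _ DFunLike.coe_injective
  obtain ⟨a, b, ab⟩ := Fintype.exists_pair_of_one_lt_card (α := ι) (by simp [h.n6])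
  obtain ⟨S, h1, h2, h3⟩ := h.dih.exists_regular hg hn ⟨a, b, ab, rfl⟩
  choose π ν n0 n1 n2 using fun s : S => exists_of_mem_MonG (h2 s s.2).2.1
  obtain ⟨o, -⟩ := pairs_count π (x := ⟨1, h1⟩) (fun i k i' k' ik ik' => by
    obtain ⟨s, ⟨s1, s2⟩, s3⟩ := h3 _ ⟨i, k, ik, rfl⟩ _ ⟨i', k', ik', rfl⟩
    have key : ∀ y : S, y.1 * tt F i k * y.1⁻¹ = tt F i' k' ↔ _ := fun y => by
      rw [conj_tt_mon (h.hi (h2 y y.2).1) (n0 y) (n1 y), tt_inj h.two ((π y).injective.ne ik) ik']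
    exact ⟨⟨s, s1⟩, (key _).1 s2, fun y hy => Subtype.ext (s3 y ⟨y.2, (key y).2 hy⟩)⟩)
    (Equiv.ext fun i => by_contra fun e => by
      simpa [ee_ne (π ⟨1, h1⟩ i) (j := i) (Ne.symm e)] using congrFun (n1 ⟨1, h1⟩ i) i)
    (by simp [h.n6])
  rw [h.n6] at o
  exact absurd o (by decide)

end F6

end CF.MaxSub
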