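/-
Abstract Pauli groups: restriction to centralisers.
-/
import Cfsg.Agent.MaxSub.C6E

set_option autoImplicit false
set_option linter.unusedSectionVars false

namespace CF.MaxSub

open Module Subgroup Geom

variable {G G' : Type*} [Group G] [Finite G] [Group G'] [Finite G'] {P H : Subgroup G} {z : G}
  {γ : G → G} {z' : G'} {γ' : G' → G'}

/-- The centraliser of an element. -/
abbrev Cz (t : G) : Subgroup G := centralizer {t}

omit [Finite G] in
theorem mem_Cz {t a : G} : a ∈ Cz t ↔ a * t = t * a := mem_centralizer_singleton_iff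

/-- The image of the centraliser of `t` in a subgroup. -/
abbrev rI {t : G} (r : Cz t →* G') (K : Subgroup G) : Subgroup G' := (K.subgroupOf (Cz t)).map r

theorem mem_rI {t : G} {r : Cz t →* G'} {K : Subgroup G} {a : G} (ha : a ∈ K) (h : a ∈ Cz t) :
    r ⟨a, h⟩ ∈ rI r K := ⟨⟨a, h⟩, ha, rfl⟩

theorem exists_of_rI {t : G} {r : Cz t →* G'} {K : Subgroup G} {a : G'} (ha : a ∈ rI r K) :
    ∃ x ∈ K, ∃ hx : x ∈ Cz t, r ⟨x, hx⟩ = a := by
  obtain ⟨⟨x, h1⟩, h2, rfl⟩ := ha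
  exact ⟨x, h2, h1, rfl⟩

theorem PG.mem_of_triv' (h : PG P z γ) (hZ : ∀ c ∈ center G, c * c * (c * c) = 1 → c ∈ P) {a : G}
    (p : ∀ x ∈ P, PM z a x) (e : a * a * (a * a) = 1) : a ∈ P := by
  obtain ⟨x, hx, hc⟩ := h.exists_of_pm p
  have := hZ _ hc (by
    generalize e' : a * x⁻¹ = c at hc
    obtain rfl : a = c * x := by rw [← e']; group
    have k : c * x * (c * x) = c * c * (x * x) := by
      rw [mul_assoc, ← mul_assoc x, mem_center_iff.1 hc x]; group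
    rwa [k, mul_assoc, ← mul_assoc (x * x), mem_center_iff.1 (mul_mem hc hc) (x * x),
      mul_assoc (c * c) (x * x), h.sq_sq hx, mul_one] at e)
  simpa using mul_mem this hx

theorem PG.exists_qd_cl (h : PG P z γ) {j : G} (hj : j ∈ P) (jc : j ∈ center G) (jj : j * j = z)
    {a : G} (ha : a ∈ P) (c : ZMod 2) : ∃ b ∈ P, qd b = c ∧ h.cl b = h.cl a := by
  by_cases e : qd a = c
  · exact ⟨a, ha, e, rfl⟩
  · refine ⟨j * a, mul_mem hj ha, ?_, by simp [h.cl_mul hj ha, (h.cl_eq_zero hj).2 jc]⟩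
    rw [h.qd_mul hj ha, h.qd_one jj, bt_of_center jc]
    revert e; generalize qd a = a; revert a c; decide

theorem HC.norm_of_normal (h : HC P H z γ) (hd : 1 ≤ finrank (ZMod 2) h.W)
    (hZ : ∀ c ∈ center G, c * c * (c * c) = 1 → c ∈ P) (hN : H ≤ Nm P) {j : G} (hj : j ∈ P)
    (jc : j ∈ center G) (jj : j * j = z) {g : G} (hg : g ∈ Nm H) : g ∈ Nm P := by
  have k : ∀ x ∈ cjG g P, x ∈ Nm P := fun x hx => hN (by
    simpa [mul_assoc] using Nm_conj hg (h.le hx))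
  have h' := h.toPG.conj g
  let φ : cjG g P →* End (ZMod 2) h.W := h.ρ.comp (inclusion k)
  let _ : MulAction (cjG g P) h.W :=
    { smul := fun g a => φ g a
      one_smul := fun a => LinearMap.congr_fun (map_one φ) _
      mul_smul := fun g k a => LinearMap.congr_fun (map_mul φ g k) _ }
  have hP : IsPGroup 2 (cjG g P) := fun x => ⟨2, Subtype.ext (by
    simpa [pow_succ, mul_assoc] using h'.sq_sq x.2)⟩
  obtain ⟨b, b1, b2⟩ := hP.exists_fixed_point_of_prime_dvd_card_of_fixed_point h.W (by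
    rw [natCard_eq_pow_finrank (K := ZMod 2), Nat.card_zmod]; exact dvd_pow_self _ (by omega))
    (a := 0) fun g => map_zero (φ g)
  refine mem_normalizer_fintype fun x hx => ?_
  have m := conj_mem_cjG (g := g).2 hx
  generalize g * x * g⁻¹ = q at m
  refine h.mem_of_triv' hZ (fun x hx => ?_) (h'.sq_sq m)
  by_cases x0 : x ∈ center G
  · exact .inl (mem_center_iff.1 x0 q)
  obtain ⟨a, ha, a1, a2⟩ := h.exists_qd_cl hj jc jj (h.out_mem b) (qd x)
  rw [h.cl_out] at a2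
  obtain ⟨n, n1, n2, rfl⟩ := h.fusion (h.rich_of_center hj jc jj) ha hx
    (fun e => b2 (by rw [← a2, (h.cl_eq_zero ha).2 e])) x0 a1
  have m2 : n⁻¹ * q * n⁻¹⁻¹ ∈ cjG g P := Nm_conj (by
    simpa [mul_assoc] using conj_mem_Nm_cjG (g := g)
      (hN (Nm_conj (inv_mem hg) (inv_mem n1)))) m
  have := (h.ρ_fix (k _ m2) ha).1 (a2 ▸ b1 ⟨_, m2⟩)
  rcases this with e | e
  · left; rw [show q * (n * a * n⁻¹) = n * (n⁻¹ * q * n⁻¹⁻¹ * a) * n⁻¹ by group, e]; group
  · right; rw [show q * (n * a * n⁻¹) = n * (n⁻¹ * q * n⁻¹⁻¹ * a) * n⁻¹ by group, e, h.zl]; group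

namespace PG

variable (h : PG P z γ) {t : G} {r : Cz t →* G'} (h' : PG (rI r P) z' γ')
  (hz : r ⟨z, mem_Cz.2 (h.zr t).symm⟩ = z')
include h h' hz

theorem bt_res {a b : G} (ha : a ∈ P) (hb : b ∈ P) (ha' : a ∈ Cz t) (hb' : b ∈ Cz t) :
    bt (r ⟨a, ha'⟩) (r ⟨b, hb'⟩) = bt a b := by
  rcases h.pm ha hb with e | e
  · rw [bt_eq_zero.2 e, bt_eq_zero, ← map_mul, ← map_mul]; congr 1; exact Subtype.ext e
  · rw [h.bt_one e, h'.bt_one]
    rw [← hz, ← map_mul, ← map_mul, ← map_mul]; congr 1; exact Subtype.ext e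

theorem sq_res {a : G} (ha : a ∈ P) (ha' : a ∈ Cz t) : qd (r ⟨a, ha'⟩) = qd a := by
  rcases h.sq a ha with e | e
  · rw [qd_eq_zero.2 e, qd_eq_zero, ← map_mul, ← map_one r]; congr 1; exact Subtype.ext e
  · rw [h.qd_one e, h'.qd_one]
    rw [← hz, ← map_mul]; congr 1; exact Subtype.ext e

theorem res_center (ht : t ∈ P) {a : G} (ha : a ∈ P) (ha' : a ∈ Cz t) :
    r ⟨a, ha'⟩ ∈ center G' ↔ a ∈ center G ∨ h.cl a = h.cl t := by
  constructor
  · intro e
    by_contra! hc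
    obtain ⟨w, hw, w1, w2⟩ := h.sep1 ht ha hc.1 hc.2
    rw [← h.bt_res h' hz hw ha (mem_Cz.2 (bt_eq_zero.1 w1)) ha', bt_comm, bt_of_center e] at w2
    exact zero_ne_one w2
  · intro e
    refine h'.schur _ fun x h0 => ?_
    obtain ⟨x, hx, hx', rfl⟩ := exists_of_rI h0
    rw [← bt_eq_zero, h.bt_res h' hz ha hx ha' hx']
    rcases e with e | e
    · exact bt_of_center e x
    · rw [h.bt_congr ha ht e, bt_comm, bt_eq_zero]; exact mem_Cz.1 hx'

theorem finrank_res (ht : t ∈ P) (t0 : t ∉ center G) :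
    finrank (ZMod 2) h'.W + 2 = finrank (ZMod 2) h.W := by
  let U := h.β.orthogonal (Submodule.span _ {h.cl t})
  have m : ∀ w : U, h.out w ∈ Cz t := fun w => mem_Cz.2 (bt_eq_zero.1 (by
    rw [bt_comm, ← h.β_cl ht (h.out_mem _), h.cl_out]
    exact w.2 _ (Submodule.mem_span_singleton_self _)))
  have k : ∀ a (ha : a ∈ P) (ha' : a ∈ Cz t) b (hb : b ∈ P) (hb' : b ∈ Cz t), h.cl a = h.cl b →
      h'.cl (r ⟨a, ha'⟩) = h'.cl (r ⟨b, hb'⟩) := fun a ha ha' b hb hb' e => by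
    rw [h'.cl_eq (mem_rI ha ha') (mem_rI hb hb'), ← map_inv, ← map_mul]
    exact (h.res_center h' hz ht (mul_mem ha (inv_mem hb)) _).2 (.inl ((h.cl_eq ha hb).1 e))
  let f : U →ₗ[ZMod 2] h'.W := (AddMonoidHom.mk' (fun w : U => h'.cl (r ⟨_, m w⟩)) fun u v => by
    rw [← h'.cl_mul (mem_rI (h.out_mem _) _) (mem_rI (h.out_mem _) _), ← map_mul]
    exact k _ (h.out_mem _) _ _ (mul_mem (h.out_mem _) (h.out_mem _)) _
      (by simp [h.cl_mul (h.out_mem _) (h.out_mem _)])).toZModLinearMap 2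
  have c0 : h.cl t ≠ 0 := by rwa [Ne, h.cl_eq_zero ht]
  have mt : h.cl t ∈ U := fun v hv => by
    rcases mem_span_z2.1 hv with rfl | rfl
    exacts [LinearMap.BilinForm.isOrtho_zero_left _, h.β_self _]
  have e1 : LinearMap.range f = ⊤ := eq_top_iff.2 fun w _ => by
    obtain ⟨⟨x, hx'⟩, hx, e⟩ := h'.out_mem w
    refine ⟨⟨h.cl x, fun v hv => ?_⟩, ?_⟩
    · rcases mem_span_z2.1 hv with rfl | rfl
      · exact LinearMap.BilinForm.isOrtho_zero_left _
      · exact (h.β_cl ht hx).trans (bt_eq_zero.2 (mem_Cz.1 hx').symm)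
    · rw [← h'.cl_out w, ← e]
      exact k _ (h.out_mem _) _ _ hx _ (h.cl_out _)
  have e2 : LinearMap.ker f = Submodule.span _ {⟨h.cl t, mt⟩} := Submodule.ext fun w => by
    rw [mem_span_z2, Subtype.ext_iff, Subtype.ext_iff]
    refine (h'.cl_eq_zero (mem_rI (h.out_mem _) (m w))).trans ?_
    rw [h.res_center h' hz ht (h.out_mem _), ← h.cl_eq_zero (h.out_mem _), h.cl_out]; rfl
  have e3 := f.finrank_range_add_finrank_ker
  rw [e1, e2, finrank_top, finrank_span_singleton (by simpa [Subtype.ext_iff] using c0)] at e3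
  have e4 := h.finrank_orth (Submodule.span _ {h.cl t})
  rw [finrank_span_singleton c0] at e4
  simp only [U] at e3
  omega

end PG

theorem HC.res (h : HC P H z γ) {t : G} {r : Cz t →* G'} (h' : PG (rI r P) z' γ')
    (hz : r ⟨z, mem_Cz.2 (h.zr t).symm⟩ = z') (ht : t ∈ P)
    (hγ : ∀ y (hy : y ∈ Cz t) (hy' : γ y ∈ Cz t), y * y = z → r ⟨_, hy'⟩ = γ' (r ⟨y, hy⟩)) :
    HC (rI r P) (rI r H) z' γ' := by
  refine ⟨h', map_mono fun x hx => h.le hx, fun y hy y' hy' e e' y0 y0' => ?_⟩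
  obtain ⟨y, y2, y1, rfl⟩ := exists_of_rI hy
  obtain ⟨y', y2', y1', rfl⟩ := exists_of_rI hy'
  have s := h.sq_z y2 ((h.sq_res h' hz y2 y1).symm.trans (h'.qd_one e))
  have s' := h.sq_z y2' ((h.sq_res h' hz y2' y1').symm.trans (h'.qd_one e'))
  have c := mem_Cz.2 (h.g1 _ _ s (mem_Cz.1 y1).symm)
  have c' := mem_Cz.2 (h.g1 _ _ s' (mem_Cz.1 y1').symm)
  rw [← hγ _ _ c s, ← hγ _ _ c' s', ← map_inv, ← map_mul]
  exact mem_rI (h.gate _ y2 _ y2' s s' (fun e => y0 ((h.res_center h' hz ht y2 _).2 (.inl e)))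
    fun e => y0' ((h.res_center h' hz ht y2' _).2 (.inl e))) _

end CF.MaxSub
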