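/-
Pauli groups of linear maps.
-/
import Cfsg.Agent.MaxSub.C6J

set_option autoImplicit false
set_option linter.unusedSectionVars false

namespace CF.MaxSub

open Module Subgroup

section Abs

variable {G : Type*} [Group G] [Finite G] {P : Subgroup G} {z : G} {γ : G → G}

/-- A symplectic basis in dimension four. -/
structure SB (P : Subgroup G) (a a' b b' : G) : Prop where
  ma : a ∈ P
  ma' : a' ∈ P
  mb : b ∈ P
  mb' : b' ∈ P
  aa : bt a a' = 1
  bb : bt b b' = 1
  ab : bt a b = 0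
  ab' : bt a b' = 0
  a'b : bt a' b = 0
  a'b' : bt a' b' = 0

theorem PG.gen (h : PG P z γ) (h4 : finrank (ZMod 2) h.W = 4) {a a' b b' : G} (s : SB P a a' b b')
    {K : Subgroup G} (hc : ∀ c ∈ P, c ∈ center G → c ∈ K) (m1 : a ∈ K) (m2 : a' ∈ K) (m3 : b ∈ K)
    (m4 : b' ∈ K) : P ≤ K := by
  let U : Submodule (ZMod 2) h.W :=
    { carrier := {w | ∃ k ∈ K, k ∈ P ∧ h.cl k = w}
      add_mem' := by
        rintro _ _ ⟨k, h1, h2, rfl⟩ ⟨l, h3, h4, rfl⟩
        exact ⟨k * l, mul_mem h1 h3, mul_mem h2 h4, h.cl_mul h2 h4⟩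
      zero_mem' := ⟨1, one_mem _, one_mem _, (h.cl_eq_zero (one_mem _)).2 (one_mem _)⟩
      smul_mem' := fun c w hw => by
        rcases z2 c with rfl | rfl
        · exact ⟨1, one_mem _, one_mem _, by
            rw [zero_smul]; exact (h.cl_eq_zero (one_mem _)).2 (one_mem _)⟩
        · rwa [one_smul] }
  have li : LinearIndependent (ZMod 2) ![h.cl a, h.cl a', h.cl b, h.cl b'] :=
    Fintype.linearIndependent_iff.2 fun g e i => by
      have e1 := congrArg (h.β · (h.cl a)) e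
      have e2 := congrArg (h.β · (h.cl a')) e
      have e3 := congrArg (h.β · (h.cl b)) e
      have e4 := congrArg (h.β · (h.cl b')) e
      simp [Fin.sum_univ_four, h.β_cl, s.ma, s.ma', s.mb, s.mb', bt_self, s.aa, s.bb, s.ab, s.ab',
        s.a'b, s.a'b', bt_comm a' a, bt_comm b' b, bt_comm b a, bt_comm b' a, bt_comm b a',
        bt_comm b' a'] at e1 e2 e3 e4
      fin_cases i <;> assumption
  have hU : ⊤ ≤ U := by
    rw [← li.span_eq_top_of_card_eq_finrank (by simp [h4]), Submodule.span_le]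
    rintro _ ⟨i, rfl⟩
    fin_cases i
    exacts [⟨a, m1, s.ma, rfl⟩, ⟨a', m2, s.ma', rfl⟩, ⟨b, m3, s.mb, rfl⟩, ⟨b', m4, s.mb', rfl⟩]
  intro x hx
  obtain ⟨k, h1, h2, e⟩ := hU (Submodule.mem_top (x := h.cl x))
  simpa using mul_mem (hc _ (mul_mem hx (inv_mem h2)) ((h.cl_eq hx h2).1 e.symm)) h1

theorem PG.exists_SB (h : PG P z γ) (h3 : 3 < finrank (ZMod 2) h.W) :
    ∃ a a' b b', SB P a a' b b' ∧ a * a = 1 ∧ a' * a' = 1 := by
  obtain ⟨u, hu, u0⟩ := h.exists_notMem_center (by omega)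
  obtain ⟨w, hw, e⟩ := h.exists_partner u0
  obtain ⟨a, ha, q, e1⟩ := h.exists_qd' [u] (by simpa) (by simp; omega) hw 0
  have a0 : a ∉ center G := notMem_center_of_bt ((e1 u (by simp)).trans (bt_comm u w ▸ e))
  obtain ⟨w', hw', e'⟩ := h.exists_partner a0
  obtain ⟨a', ha', q', e2⟩ := h.exists_qd' [a] (by simpa) (by simp; omega) hw' 0
  have aa : bt a a' = 1 := by rw [bt_comm, e2 a (by simp), bt_comm, e']
  obtain ⟨b, hb, e3, b0, -⟩ := h.exists_comm [a, a'] (by simp [ha, ha']) (x := a) (by simp; omega)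
  have ab := e3 a (by simp)
  have a'b := e3 a' (by simp)
  obtain ⟨b', hb', e4, e5, e6⟩ := h.sep2 ha ha' hb b0
    (fun e => by
      have := h.bt_congr hb ha e a'
      rw [aa, bt_comm, a'b] at this; exact zero_ne_one this)
    (fun e => by
      have := h.bt_congr hb ha' e a
      rw [bt_comm a', aa, bt_comm, ab] at this; exact zero_ne_one this)
    (fun e => by
      have := h.bt_congr hb (mul_mem ha ha') (e.trans (h.cl_mul ha ha').symm) a
      rw [h.bt_mul ha ha' ha, bt_comm a', aa, bt_comm, ab, bt_self] at this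
      exact zero_ne_one (this.trans (zero_add _)))
  exact ⟨a, a', b, b', ⟨ha, ha', hb, hb', aa, bt_comm b b' ▸ e6, ab, bt_comm a b' ▸ e4, a'b,
    bt_comm a' b' ▸ e5⟩, qd_eq_zero.1 q, qd_eq_zero.1 q'⟩

theorem PG.card_W (h : PG P z γ) :
    Nat.card P = 2 ^ finrank (ZMod 2) h.W * Nat.card (center P) := by
  rw [card_eq_card_quotient_mul_card_subgroup (center P)]
  congr 1
  exact (Module.natCard_eq_pow_finrank (K := ZMod 2) (V := h.W)).trans (by simp)

end Abs

variable {F V : Type*} [Field F] [AddCommGroup V] [Module F V]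

/-- Minus the identity. -/
abbrev ng (F V : Type*) [Field F] [AddCommGroup V] [Module F V] : V ≃ₗ[F] V := LinearEquiv.neg F

theorem sq_apply {y : V ≃ₗ[F] V} (e : y * y = ng F V) (v : V) : y (y v) = -v :=
  (LinearEquiv.congr_fun e v).trans (LinearEquiv.neg_apply v)

theorem invol_apply {x : V ≃ₗ[F] V} (e : x * x = 1) (v : V) : x (x v) = v :=
  LinearEquiv.congr_fun e v

theorem comm_apply {a b : V ≃ₗ[F] V} (e : a * b = b * a) (v : V) : a (b v) = b (a v) :=
  LinearEquiv.congr_fun e v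

theorem anti_apply {a b : V ≃ₗ[F] V} (e : a * b = ng F V * (b * a)) (v : V) :
    a (b v) = -b (a v) := LinearEquiv.congr_fun e v

theorem ng_mul_apply (a : V ≃ₗ[F] V) (v : V) : (ng F V * a) v = -a v := rfl

open scoped _root_.Classical in
/-- The gate `1 + y`. -/
noncomputable def gm1 (y : V ≃ₗ[F] V) : V ≃ₗ[F] V :=
  if h : (2 : F) ≠ 0 ∧ y * y = ng F V then
    LinearEquiv.ofLinear (1 + (y : End F V)) ((2 : F)⁻¹ • (1 - (y : End F V)))
      (LinearMap.ext fun v => by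
        simp [sq_apply h.2, smul_sub, smul_add]; match_scalars <;> field_simp [h.1] <;> ring)
      (LinearMap.ext fun v => by
        simp [sq_apply h.2, smul_sub, smul_add]; match_scalars <;> field_simp [h.1] <;> ring)
  else 1

theorem gm1_apply (h2 : (2 : F) ≠ 0) {y : V ≃ₗ[F] V} (e : y * y = ng F V) (v : V) :
    gm1 y v = v + y v := by rw [gm1, dif_pos ⟨h2, e⟩]; rfl

theorem gm1_inv_apply (h2 : (2 : F) ≠ 0) {y : V ≃ₗ[F] V} (e : y * y = ng F V) (v : V) :
    (gm1 y)⁻¹ v = (2 : F)⁻¹ • (v - y v) := by rw [gm1, dif_pos ⟨h2, e⟩]; rfl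

theorem mem_center_of_smul {g : V ≃ₗ[F] V} {c : F} (h : ∀ v, g v = c • v) :
    g ∈ center (V ≃ₗ[F] V) :=
  mem_center_iff.2 fun a => LinearEquiv.ext fun v => by simp [h]

theorem ng_cen : ng F V ∈ center (V ≃ₗ[F] V) := mem_center_of_smul (c := -1) fun v => by simp

theorem ng_ng : ng F V * ng F V = 1 := LinearEquiv.ext fun v => by simp

theorem mem_center_iff_smul {g : V ≃ₗ[F] V} :
    g ∈ center (V ≃ₗ[F] V) ↔ ∃ c : F, ∀ v, g v = c • v := by
  refine ⟨fun h => ?_, fun ⟨_, h⟩ => mem_center_of_smul h⟩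
  obtain ⟨c, hc⟩ := LinearMap.exists_eq_smul_id_of_forall_notLinearIndependent
    (f := (g : End F V)) fun v hv => by
      obtain ⟨φ, h1, h2⟩ := Geom.exists_dual_one (W := F ∙ v) (v := g v) fun e => by
        obtain ⟨a, ha⟩ := Submodule.mem_span_singleton.1 e
        simpa using LinearIndependent.pair_iff.1 hv a (-1) (by simp [ha])
      have h0 := h2 v (Submodule.mem_span_singleton_self v)
      have := comm_apply (mem_center_iff.1 h (Geom.tvE h0)) v
      simp only [Geom.tvE_apply, h0, h1, zero_smul, add_zero, one_smul, add_eq_left] at this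
      exact hv.ne_zero 0 this
  exact ⟨c, fun v => LinearMap.congr_fun hc v⟩

/-- A non-zero scalar. -/
def sc (V : Type*) [AddCommGroup V] [Module F V] {c : F} (hc : c ≠ 0) : V ≃ₗ[F] V :=
  LinearEquiv.smulOfNeZero F V c hc

@[simp] theorem sc_apply {c : F} (hc : c ≠ 0) (v : V) : sc V hc v = c • v := rfl

theorem sc_cen {c : F} (hc : c ≠ 0) : sc V hc ∈ center (V ≃ₗ[F] V) :=
  mem_center_of_smul (sc_apply hc)

/-- An eigenspace. -/
def Eg (t : V ≃ₗ[F] V) (c : F) : Submodule F V where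
  carrier := {v | t v = c • v}
  add_mem' {a b} ha hb := by simp_all
  zero_mem' := by simp
  smul_mem' a v hv := by simp_all [smul_comm a c]

theorem mem_Eg {t : V ≃ₗ[F] V} {c : F} {v : V} : v ∈ Eg t c ↔ t v = c • v := Iff.rfl

theorem mem_Eg_one {t : V ≃ₗ[F] V} {v : V} : v ∈ Eg t 1 ↔ t v = v := by rw [mem_Eg, one_smul]

theorem map_mem_Eg {t g : V ≃ₗ[F] V} {c : F} (e : g * t = t * g) {v : V} (hv : v ∈ Eg t c) :
    g v ∈ Eg t c := by rw [mem_Eg, ← comm_apply e, mem_Eg.1 hv, map_smul]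

/-- Restriction to an eigenspace. -/
def rs (t : V ≃ₗ[F] V) (c : F) : Cz t →* (Eg t c ≃ₗ[F] Eg t c) where
  toFun g :=
    { toFun := fun v => ⟨g.1 v, map_mem_Eg (mem_Cz.1 g.2) v.2⟩
      invFun := fun v => ⟨g.1⁻¹ v, map_mem_Eg (mem_Cz.1 (inv_mem g.2)) v.2⟩
      map_add' := fun _ _ => Subtype.ext (map_add _ _ _)
      map_smul' := fun _ _ => Subtype.ext (map_smul _ _ _)
      left_inv := fun _ => Subtype.ext (Geom.inv_apply_apply _ _)
      right_inv := fun _ => Subtype.ext (Geom.apply_inv_apply _ _) }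
  map_one' := rfl
  map_mul' _ _ := rfl

@[simp] theorem rs_apply {t : V ≃ₗ[F] V} {c : F} (g : Cz t) (v : Eg t c) :
    (rs t c g v : V) = g.1 v := rfl

theorem rs_ext {t : V ≃ₗ[F] V} {c : F} {g : Cz t} {a : Eg t c ≃ₗ[F] Eg t c}
    (e : ∀ v : Eg t c, g.1 v = a v) : rs t c g = a := LinearEquiv.ext fun v => Subtype.ext (e v)

theorem rs_ng {t : V ≃ₗ[F] V} {c : F} (h : ng F V ∈ Cz t) : rs t c ⟨_, h⟩ = ng F (Eg t c) :=
  rs_ext fun v => by simp

/-- The projection onto an eigenspace. -/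
def pj {t : V ≃ₗ[F] V} {c : F} (hc : c ≠ 0) (e : ∀ v, t (t v) = (c * c) • v) : V →ₗ[F] Eg t c :=
  LinearMap.codRestrict _ ((2 : F)⁻¹ • (1 + c⁻¹ • (t : End F V))) fun v => by
    simp [mem_Eg, e]; match_scalars <;> field_simp

theorem pj_apply {t : V ≃ₗ[F] V} {c : F} (hc : c ≠ 0) (e : ∀ v, t (t v) = (c * c) • v) (v : V) :
    (pj hc e v : V) = (2 : F)⁻¹ • (v + c⁻¹ • t v) := rfl

theorem pj_self (h2 : (2 : F) ≠ 0) {t : V ≃ₗ[F] V} {c : F} (hc : c ≠ 0)
    (e : ∀ v, t (t v) = (c * c) • v) (v : Eg t c) : pj hc e v = v := Subtype.ext <| by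
  rw [pj_apply, mem_Eg.1 v.2]; match_scalars; field_simp; ring

theorem pj_neg {t : V ≃ₗ[F] V} {c : F} (hc : c ≠ 0) (e : ∀ v, t (t v) = (c * c) • v) {v : V}
    (hv : t v = -(c • v)) : pj hc e v = 0 := Subtype.ext <| by
  rw [pj_apply, hv]; simp [smul_smul, hc]

instance instFinEquiv [Finite V] : Finite (V ≃ₗ[F] V) := DFunLike.finite _

/-- An absolutely irreducible group whose squares are `± 1`. -/
structure PaL (P : Subgroup (V ≃ₗ[F] V)) : Prop where
  two : (2 : F) ≠ 0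
  nt : Nontrivial V
  neg : ng F V ∈ P
  sq : ∀ x ∈ P, x * x = 1 ∨ x * x = ng F V
  span : ∀ S : Submodule F (End F V), (∀ x ∈ P, (x : End F V) ∈ S) → ∀ f, f ∈ S

namespace PaL

variable {P : Subgroup (V ≃ₗ[F] V)} (h : PaL P)
include h

theorem eq_zero {v : V} (e : v = -v) : v = 0 :=
  (smul_eq_zero.1 (show (2 : F) • v = 0 by rw [two_smul]; nth_rw 1 [e]; simp)).resolve_left h.two

theorem smul_inj {a b : F} (e : ∀ v : V, a • v = b • v) : a = b := by
  obtain ⟨v, hv⟩ := @exists_ne V h.nt 0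
  exact smul_left_injective F hv (e v)

theorem scalar {f : End F V} (e : ∀ x ∈ P, ∀ v, f (x v) = x (f v)) : ∃ c : F, ∀ v, f v = c • v := by
  obtain ⟨c, hc⟩ := (Algebra.IsCentral.mem_center_iff F).1 (Subalgebra.mem_center_iff.2 fun g =>
    h.span (LinearMap.eqLocus (LinearMap.mulRight F f) (LinearMap.mulLeft F f))
      (fun x hx => LinearMap.ext fun v => (e x hx v).symm) g)
  exact ⟨c, fun v => by simp [hc]⟩

theorem irr {U : Submodule F V} (e : ∀ x ∈ P, ∀ v ∈ U, x v ∈ U) {v : V} (hv : v ∈ U) (v0 : v ≠ 0) :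
    U = ⊤ := Submodule.eq_top_iff'.2 fun w => by
  obtain ⟨φ, h1, -⟩ := Geom.exists_dual_one (W := (⊥ : Submodule F V)) v0
  simpa [h1] using h.span (U.comap (LinearMap.applyₗ v)) (fun x hx => e x hx v hv)
    (φ.smulRight w)

theorem pg : PG P (ng F V) gm1 where
  mem := h.neg
  zz := ng_ng
  ne e := by
    obtain ⟨v, hv⟩ := @exists_ne V h.nt 0
    exact hv (h.eq_zero (by simpa using (LinearEquiv.congr_fun e v).symm))
  cen := ng_cen
  uniq c hc e := by
    obtain ⟨a, ha⟩ := mem_center_iff_smul.1 hc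
    have := h.smul_inj (a := a * a) (b := 1) fun v => by
      rw [mul_smul, ← ha, ← ha, invol_apply e, one_smul]
    exact (mul_self_eq_one_iff.1 this).imp (fun e => LinearEquiv.ext fun v => by simp [ha, e])
      fun e => LinearEquiv.ext fun v => by simp [ha, e]
  sq := h.sq
  schur g e := mem_center_iff_smul.2 (h.scalar (f := g) fun x hx => comm_apply (e x hx))
  g1 y a e e' := LinearEquiv.ext fun v => by simp [gm1_apply h.two e, comm_apply e']
  g2 y a e e' := LinearEquiv.ext fun v => by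
    simp [gm1_apply h.two e, anti_apply e', sq_apply e, add_comm]
  g3 y a e := LinearEquiv.ext fun v => by
    rw [gm1_apply h.two (by rw [conj_mul, e, mem_center_iff.1 ng_cen a, mul_inv_cancel_right])]
    simp [gm1_apply h.two e, Geom.apply_inv_apply]
  g4 := ⟨sc V h.two, sc_cen _, fun y e => LinearEquiv.ext fun v => by
    simp [gm1_apply h.two e, sq_apply e, two_smul]; abel⟩

theorem exists_Eg {t : V ≃ₗ[F] V} {c : F} (hc : c ≠ 0) (e : ∀ v, t (t v) = (c * c) • v)
    (t0 : t ∉ center (V ≃ₗ[F] V)) : ∃ v ∈ Eg t c, v ≠ 0 := by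
  by_contra! hn
  refine t0 (mem_center_of_smul (c := -c) fun v => ?_)
  have := hn _ (pj hc e v).2
  rw [pj_apply, smul_eq_zero_iff_right (inv_ne_zero h.two), add_eq_zero_iff_neg_eq,
    eq_inv_smul_iff₀ hc] at this
  simp [← this]

variable [Finite V]

theorem res {t : V ≃ₗ[F] V} (ht : t ∈ P) {c : F} (hc : c ≠ 0) (e : ∀ v, t (t v) = (c * c) • v)
    (t0 : t ∉ center (V ≃ₗ[F] V)) : PaL (rI (rs t c) P) where
  two := h.two
  nt := by
    obtain ⟨v, hv, v0⟩ := h.exists_Eg hc e t0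
    exact ⟨⟨v, hv⟩, 0, fun e => v0 (congrArg Subtype.val e)⟩
  neg := rs_ng (mem_Cz.2 (h.pg.zr t).symm) ▸ mem_rI h.neg _
  sq a ha := by
    obtain ⟨x, hx, hx', rfl⟩ := exists_of_rI ha
    rw [← map_mul]
    exact (h.sq x hx).imp (fun e => rs_ext fun v => invol_apply (x := x) e v.1)
      fun e => rs_ext fun v => sq_apply (y := x) e v.1
  span S hS f := by
    have := h.span (S.comap (LinearMap.llcomp F (Eg t c) V (Eg t c) (pj hc e) ∘ₗ
      LinearMap.lcomp F V (Eg t c).subtype)) (fun x hx => by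
        rcases h.pg.pm hx ht with p | p
        · exact (congrArg (· ∈ S) (LinearMap.ext fun v =>
            pj_self h.two hc e (rs t c ⟨x, mem_Cz.2 p⟩ v))).mpr (hS _ (mem_rI hx (mem_Cz.2 p)))
        · refine (congrArg (· ∈ S) (LinearMap.ext fun v => pj_neg hc e ?_)).mpr S.zero_mem
          have := anti_apply p v
          rw [mem_Eg.1 v.2, map_smul] at this
          simp [this]) ((Eg t c).subtype ∘ₗ f ∘ₗ pj hc e)
    exact (congrArg (· ∈ S) (LinearMap.ext fun v => by simp [pj_self h.two])).mp this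

section Res

variable {t : V ≃ₗ[F] V} (ht : t ∈ P) {c : F} (hc : c ≠ 0) (e : ∀ v, t (t v) = (c * c) • v)
  (t0 : t ∉ center (V ≃ₗ[F] V))
include ht hc e t0

theorem hc_res {H : Subgroup (V ≃ₗ[F] V)} (hH : HC P H (ng F V) gm1) :
    HC (rI (rs t c) P) (rI (rs t c) H) (ng F _) gm1 :=
  hH.res (h.res ht hc e t0).pg (rs_ng _) ht fun y hy hy' yy => rs_ext fun v => by
    rw [gm1_apply h.two (y := rs t c ⟨y, hy⟩) (by
      rw [← map_mul]; exact rs_ext fun v => sq_apply yy v.1)]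
    exact gm1_apply h.two yy v

theorem finrank_res : finrank (ZMod 2) (h.res ht hc e t0).pg.W + 2 = finrank (ZMod 2) h.pg.W :=
  h.pg.finrank_res _ (rs_ng _) ht t0

theorem res_center {a : V ≃ₗ[F] V} (ha : a ∈ P) (ha' : a ∈ Cz t) :
    rs t c ⟨a, ha'⟩ ∈ center _ ↔ a ∈ center _ ∨ h.pg.cl a = h.pg.cl t :=
  h.pg.res_center (h.res ht hc e t0).pg (rs_ng _) ht ha ha'

theorem bt_res {a b : V ≃ₗ[F] V} (ha : a ∈ P) (hb : b ∈ P) (ha' : a ∈ Cz t) (hb' : b ∈ Cz t) :
    bt (rs t c ⟨a, ha'⟩) (rs t c ⟨b, hb'⟩) = bt a b :=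
  h.pg.bt_res (h.res ht hc e t0).pg (rs_ng _) ha hb ha' hb'

end Res

theorem exists_fix2 {x y : V ≃ₗ[F] V} (hx : x ∈ P) (hy : y ∈ P) (xx : x * x = 1) (yy : y * y = 1)
    (x0 : x ∉ center _) (y0 : y ∉ center _) (xy : y * x = x * y) (ne : h.pg.cl y ≠ h.pg.cl x) :
    ∃ v, v ≠ 0 ∧ x v = v ∧ y v = v := by
  have e : ∀ v, x (x v) = ((1 : F) * 1) • v := fun v => by simp [invol_apply xx]
  obtain ⟨v, hv, v0⟩ := (h.res hx one_ne_zero e x0).exists_Eg (t := rs x 1 ⟨y, mem_Cz.2 xy⟩)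
    one_ne_zero (fun v => Subtype.ext (by simp [invol_apply yy])) fun hc =>
      ((h.res_center hx one_ne_zero e x0 hy _).1 hc).elim y0 ne
  exact ⟨v, fun e => v0 (Subtype.ext e), mem_Eg_one.1 v.2, congrArg Subtype.val (mem_Eg_one.1 hv)⟩

theorem exists_smul_out {x : V ≃ₗ[F] V} (hx : x ∈ P) :
    ∃ c : F, ∀ v, x v = c • h.pg.out (h.pg.cl x) v := by
  obtain ⟨c, hc⟩ := mem_center_iff_smul.1 ((h.pg.cl_eq hx (h.pg.out_mem _)).1 (h.pg.cl_out _).symm)
  exact ⟨c, fun v => by simpa [Geom.inv_apply_apply] using hc (h.pg.out (h.pg.cl x) v)⟩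

theorem finrank_sq_le : finrank F V ^ 2 ≤ 2 ^ finrank (ZMod 2) h.pg.W := by
  have := Fintype.ofFinite h.pg.W
  have e : Submodule.span F (Set.range fun w => (h.pg.out w : End F V)) = ⊤ :=
    Submodule.eq_top_iff'.2 (h.span _ fun x hx => by
      obtain ⟨c, hc⟩ := h.exists_smul_out hx
      rw [show (x : End F V) = c • (h.pg.out (h.pg.cl x) : End F V) from LinearMap.ext hc]
      exact Submodule.smul_mem _ _ (Submodule.subset_span ⟨_, rfl⟩))
  have h1 := finrank_range_le_card (R := F) fun w => (h.pg.out w : End F V)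
  rw [Set.finrank, e, finrank_top, finrank_linearMap, ← Nat.card_eq_fintype_card,
    Module.natCard_eq_pow_finrank (K := ZMod 2)] at h1
  simpa [pow_two] using h1

theorem trace_eq_zero {x : V ≃ₗ[F] V} (hx : x ∈ P) (x0 : x ∉ center _) :
    LinearMap.trace F V x = 0 := by
  obtain ⟨y, hy, e⟩ := h.pg.exists_partner x0
  have e1 := h.pg.anti (h.pg.pm hy hx) (bt_comm x y ▸ e)
  have e2 := LinearMap.trace_conj' (x : End F V) y
  rw [show y.conj (x : End F V) = -(x : End F V) from LinearMap.ext fun v => by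
    simp [LinearEquiv.conj_apply, anti_apply e1], map_neg] at e2
  exact (mul_eq_zero.1 (by linear_combination -e2)).resolve_left h.two

end PaL

end CF.MaxSub
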