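/-
The normaliser of `2^{1+4}_-` in `Sp₄(p)`.
-/
import Cfsg.Agent.MaxSub.C6K
import Cfsg.Agent.MaxSub.C6G
import Cfsg.Agent.Classical.LowDim
import Cfsg.Agent.Geom.Perfect

set_option autoImplicit false
set_option linter.unusedSectionVars false

namespace CF.MaxSub

open Module Subgroup Geom

section Abs

variable {G : Type*} [Group G] {P : Subgroup G} {z : G} {γ : G → G} {ι : Type}

/-- Pairwise anticommuting involutions. -/
structure AC (P : Subgroup G) (x : ι → G) : Prop where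
  mem : ∀ i, x i ∈ P
  sq : ∀ i, x i * x i = 1
  anti : ∀ i j, i ≠ j → bt (x i) (x j) = 1

theorem norm_of_gen [Finite G] {x : ι → G}
    (gen : ∀ K : Subgroup G, (∀ c ∈ P, c ∈ center G → c ∈ K) → (∀ i, x i ∈ K) → P ≤ K) {g : G}
    (hg : ∀ i, g * x i * g⁻¹ ∈ P) : g ∈ Nm P :=
  mem_normalizer_fintype fun _ ha => gen (P.comap (MulAut.conj g).toMonoidHom) (fun c hc hc' => by
    change g * c * g⁻¹ ∈ P
    rwa [mem_center_iff.1 hc' g, mul_inv_cancel_right]) hg ha

/-- A subgroup extended by a central involution. -/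
def pmS (K : Subgroup G) (hz : z ∈ center G) (zz : z * z = 1) : Subgroup G where
  carrier := {m | m ∈ K ∨ z * m ∈ K}
  one_mem' := .inl (one_mem _)
  mul_mem' := by
    rintro a b (ha | ha) (hb | hb)
    · exact .inl (mul_mem ha hb)
    · exact .inr (by
        rw [← mul_assoc, ← mem_center_iff.1 hz, mul_assoc]; exact mul_mem ha hb)
    · exact .inr (by rw [← mul_assoc]; exact mul_mem ha hb)
    · exact .inl (by
        have := mul_mem ha hb
        rwa [← mem_center_iff.1 hz, mul_assoc, ← mul_assoc z, zz, one_mul] at this)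
  inv_mem' := by
    rintro a (ha | ha)
    · exact .inl (inv_mem ha)
    · exact .inr (by
        have := inv_mem ha
        rwa [mul_inv_rev, inv_eq_of_mul_eq_one_right zz, mem_center_iff.1 hz] at this)

theorem le_of_perfect {Γ : Type*} [Group Γ] (ρ : G →* Γ) (hG : commutator G = ⊤) {H : Subgroup G}
    (hk : ρ.ker ≤ H) (h : ∀ g, ∃ k ∈ H, ∃ c ∈ center Γ, ρ g = c * ρ k) : H = ⊤ := by
  rw [eq_top_iff, ← hG, _root_.commutator_def, commutator_le]
  rintro a - b -
  obtain ⟨k, hk1, c, hc, e⟩ := h a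
  obtain ⟨l, hl1, d, hd, e'⟩ := h b
  have key : ∀ c ∈ center Γ, ∀ x, c * x * c⁻¹ = x := fun c hc x => by
    rw [← mem_center_iff.1 hc, mul_inv_cancel_right]
  have : a * b * a⁻¹ * b⁻¹ * (k * l * k⁻¹ * l⁻¹)⁻¹ ∈ ρ.ker := by
    rw [MonoidHom.mem_ker, map_mul, map_inv, mul_inv_eq_one]
    simp only [map_mul, map_inv, e, e']
    rw [← key d hd (_ * _ * _ * (ρ l)⁻¹), ← key c hc (d * _ * _)]
    calc _ = c * (ρ k * d) * ρ l * (ρ k)⁻¹ * (c⁻¹ * (d * ρ l)⁻¹) := by group
      _ = _ := by rw [mem_center_iff.1 hd, ← mem_center_iff.1 (inv_mem hc)]; group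
  exact (mul_mem_cancel_right (inv_mem (mul_mem (mul_mem (mul_mem hk1 hl1) (inv_mem hk1))
    (inv_mem hl1)))).1 (hk this)

namespace AC

variable {x : ι → G} (a : AC P x) (h : PG P z γ) {i j k l : ι}
include a h

theorem an (ij : i ≠ j) : x i * x j = z * (x j * x i) :=
  h.anti (h.pm (a.mem i) (a.mem j)) (a.anti i j ij)

theorem sq2 (ij : i ≠ j) : x i * x j * (x i * x j) = z := by
  rw [mul_assoc, ← mul_assoc (x j), a.an h ij.symm, mul_assoc, mul_assoc, a.sq, mul_one, h.zl, a.sq,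
    mul_one]

theorem nc [DecidableEq ι] (ij : i ≠ j) : x i * x j ∉ center G :=
  notMem_center_of_bt (b := x i) (by
    rw [h.bt_mul (a.mem i) (a.mem j) (a.mem i), bt_self, a.anti j i ij.symm, zero_add])

theorem r1 (jk : j ≠ k) : γ (x j * x k) * x k = x j * γ (x j * x k) := by
  rw [h.g2 _ _ (a.sq2 h jk) (by rw [← mul_assoc, a.an h jk.symm, mul_assoc]), mul_assoc (x j),
    a.sq, mul_one]

theorem r2 (jk : j ≠ k) : γ (x j * x k) * x j = z * x k * γ (x j * x k) := by
  rw [h.g2 _ _ (a.sq2 h jk) (by rw [mul_assoc, a.an h jk, h.zl]), mul_assoc (x j),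
    a.an h jk.symm, h.zl, ← mul_assoc (x j), a.sq, one_mul]

theorem r3 (jk : j ≠ k) (lj : l ≠ j) (lk : l ≠ k) : γ (x j * x k) * x l = x l * γ (x j * x k) :=
  h.g1 _ _ (a.sq2 h jk) (bt_eq_zero.1 (by
    rw [h.bt_mul' (a.mem j) (a.mem k) (a.mem l), a.anti l j lj, a.anti l k lk]; rfl))

theorem cyc (ij : i ≠ j) (ik : i ≠ k) (jk : j ≠ k) {g : G}
    (e : g = γ (x j * x i) * (γ (x j * x k))⁻¹) : g * x i * g⁻¹ = x j ∧ g * x j * g⁻¹ = x k ∧
      g * x k * g⁻¹ = x i ∧ ∀ l, l ≠ i → l ≠ j → l ≠ k → g * x l * g⁻¹ = x l := by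
  have key : ∀ {u v w : G}, γ (x j * x k) * v = u * γ (x j * x k) →
      γ (x j * x i) * v = w * γ (x j * x i) → g * u * g⁻¹ = w := fun {u v w} e1 e2 => by
    rw [e, ← mul_inv_eq_iff_eq_mul.2 e1, ← mul_inv_eq_iff_eq_mul.2 e2]; group
  refine ⟨key (a.r3 h jk ij ik) (a.r1 h ij.symm), key (a.r1 h jk) (a.r3 h ij.symm jk.symm ik.symm),
    key (v := z * x j) ?_ ?_, fun l li lj lk => key (a.r3 h jk lj lk) (a.r3 h ij.symm lj li)⟩
  · rw [h.zl, a.r2 h jk, mul_assoc, h.zzl]
  · rw [h.zl, a.r2 h ij.symm, mul_assoc, h.zzl]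

end AC

theorem PG.exists_five [Finite G] (h : PG P z γ) (h4 : finrank (ZMod 2) h.W = 4)
    (hm : ∀ x ∈ P, ∀ y ∈ P, x * x = 1 → y * y = 1 → x ∉ center G → y ∉ center G →
      h.cl x ≠ h.cl y → bt x y = 1) : ∃ x : Fin 5 → G, AC P x ∧
    (∀ K : Subgroup G, (∀ c ∈ P, c ∈ center G → c ∈ K) → (∀ i, x i ∈ K) → P ≤ K) ∧
    ∀ y ∈ P, y * y = 1 → y ∉ center G → ∃ i, h.cl y = h.cl (x i) := by
  obtain ⟨a, a', b, b', s, q, q'⟩ := h.exists_SB (by omega)
  have key : ∀ c ∈ P, c ∉ center G → bt a c = 0 → bt a' c = 0 → qd c = 1 := fun c hc c0 e e' =>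
    z2_ne.1 fun q1 => zero_ne_one (e.symm.trans (hm a s.ma c hc q (qd_eq_zero.1 q1)
      (notMem_center_of_bt s.aa) c0 fun e2 => zero_ne_one (by
        rw [← e', ← s.aa, h.bt_congr s.ma hc e2, bt_comm])))
  have qb := key b s.mb (notMem_center_of_bt s.bb) s.ab s.a'b
  have qb' := key b' s.mb' (notMem_center_of_bt (bt_comm b b' ▸ s.bb)) s.ab' s.a'b'
  rw [← qd_eq_zero] at q q'
  obtain ⟨m1, m2, m3, m4, e1, e2, e3, e4, e5, e6⟩ := id s
  have m5 := mul_mem m1 m2
  have m6 := mul_mem m5 m3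
  have ac : AC P ![a, a', a * a' * b, a * a' * b', a * a' * b * b'] := by
    refine ⟨fun i => ?_, fun i => qd_eq_zero.1 ?_, fun i j ij => ?_⟩
    · fin_cases i <;> simp [mul_mem, *]
    · fin_cases i <;> simp [h.qd_mul, h.bt_mul, mul_mem, *] <;> rfl
    · fin_cases i <;> fin_cases j <;> simp at ij <;>
        simp [h.bt_mul, h.bt_mul', mul_mem, bt_self, bt_comm a' a, bt_comm b a, bt_comm b' a,
          bt_comm b a', bt_comm b' a', bt_comm b' b, z2_add_self, *]
  refine ⟨_, ac, fun K hc hK => ?_, fun y hy yy y0 => ?_⟩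
  · have := mul_mem (hK 0) (hK 1)
    exact h.gen h4 s hc (hK 0) (hK 1) ((mul_mem_cancel_left this).1 (hK 2))
      ((mul_mem_cancel_left this).1 (hK 3))
  · by_contra! hn
    have := fun i => hm y hy _ (ac.mem i) yy (ac.sq i) y0
      (notMem_center_of_bt (ac.anti i (i + 1) (by simp))) (hn i)
    have h0 := this 0
    have h1 := this 1
    have h2 := this 2
    have h3 := this 3
    have h4 := this 4
    simp only [Matrix.cons_val] at h0 h1 h2 h3 h4
    simp only [h.bt_mul', m1, m2, m3, m4, m5, m6, hy, h0, h1] at h2 h3 h4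
    revert h2 h3 h4
    generalize bt y b = u
    generalize bt y b' = w
    revert u w
    decide

end Abs

variable {F V : Type*} [Field F] [AddCommGroup V] [Module F V] {ι : Type} [Fintype ι]
  [DecidableEq ι]

theorem isCyc_of {g : (ι → F) ≃ₗ[F] (ι → F)} {i j k : ι} (ij : i ≠ j) (ik : i ≠ k) (jk : j ≠ k)
    (h1 : g (ee F i) = ee F j) (h2 : g (ee F j) = ee F k) (h3 : g (ee F k) = ee F i)
    (h4 : ∀ l, l ≠ i → l ≠ j → l ≠ k → g (ee F l) = ee F l) : IsCyc g i j k := by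
  have : (g : End F (ι → F)) = 1 + (pr F k - pr F i).smulRight (ee F i) +
      (pr F i - pr F j).smulRight (ee F j) + (pr F j - pr F k).smulRight (ee F k) :=
    (Pi.basisFun F ι).ext fun l => by
      by_cases e1 : l = i
      · simp [e1, h1, ij.symm, ik.symm]
      by_cases e2 : l = j
      · simp [e2, h2, ij, jk.symm]
      by_cases e3 : l = k
      · simp [e3, h3, ik, jk]
      simp [h4 l e1 e2 e3, Ne.symm e1, Ne.symm e2, Ne.symm e3]
  exact fun x => LinearMap.congr_fun this x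

theorem exists_pm_ee {v : ι → F} (h1 : v ⬝ᵥ v = 1) (h : ∀ i j, i ≠ j → v i ≠ 0 → v j = 0) :
    ∃ j, v = ee F j ∨ v = -ee F j := by
  obtain ⟨j, hj⟩ : ∃ j, v j ≠ 0 := by
    by_contra! hc
    rw [show v = 0 from funext hc] at h1
    simp at h1
  have e : v = v j • ee F j := funext fun l => by
    by_cases e : l = j
    · simp [e]
    · simp [e, h j l (Ne.symm e) hj]
  rw [e] at h1
  simp only [smul_dotProduct, dotProduct_smul, single_dotProduct, Pi.single_eq_same, mul_one,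
    smul_eq_mul] at h1
  exact ⟨j, (mul_self_eq_one_iff.1 h1).imp (fun e' => by rw [e, e', one_smul]) fun e' => by
    rw [e, e', neg_one_smul]⟩

/-- Conjugation on endomorphisms. -/
def cjE (F V : Type*) [Field F] [AddCommGroup V] [Module F V] :
    (V ≃ₗ[F] V) →* End F (End F V) where
  toFun g := g.conj
  map_one' := rfl
  map_mul' _ _ := rfl

theorem cjE_apply (g : V ≃ₗ[F] V) (f : End F V) (v : V) : cjE F V g f v = g (f (g⁻¹ v)) := rfl

theorem cjE_coe (g x : V ≃ₗ[F] V) :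
    cjE F V g x = ((g * x * g⁻¹ : V ≃ₗ[F] V) : End F V) := rfl

/-- Linear combinations of a family of automorphisms. -/
def fr (x : ι → V ≃ₗ[F] V) : (ι → F) →ₗ[F] End F V :=
  Fintype.linearCombination F fun i => (x i : End F V)

theorem fr_ee (x : ι → V ≃ₗ[F] V) (i : ι) : fr x (ee F i) = x i := by simp [fr]

theorem fr_apply (x : ι → V ≃ₗ[F] V) (c : ι → F) (v : V) : fr x c v = ∑ i, c i • x i v := by
  simp [fr, Fintype.linearCombination_apply]

variable {P : Subgroup (V ≃ₗ[F] V)} {x : ι → V ≃ₗ[F] V}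

theorem PaL.fr_polar (h : PaL P) (a : AC P x) (c d : ι → F) (v : V) :
    fr x c (fr x d v) + fr x d (fr x c v) = (2 * (c ⬝ᵥ d)) • v := by
  simp only [fr_apply, map_sum, map_smul, Finset.smul_sum]
  rw [Finset.sum_comm, ← Finset.sum_add_distrib, dotProduct, Finset.mul_sum, Finset.sum_smul]
  refine Finset.sum_congr rfl fun i _ => ?_
  rw [← Finset.sum_add_distrib, Finset.sum_eq_single i (fun j _ ji => by
    rw [anti_apply (a.an h.pg ji)]; module) (by simp), invol_apply (a.sq i)]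
  module

theorem PaL.fr_sq (h : PaL P) (a : AC P x) (c : ι → F) (v : V) :
    fr x c (fr x c v) = (c ⬝ᵥ c) • v :=
  smul_right_injective V h.two (by simp only [two_smul, h.fr_polar a, ← mul_smul])

theorem PaL.fr_inj (h : PaL P) (a : AC P x) : Function.Injective (fr x) :=
  (injective_iff_map_eq_zero _).2 fun c e => funext fun i => by
    have := h.smul_inj (a := 2 * (c ⬝ᵥ ee F i)) (b := 0) fun v => by
      rw [← h.fr_polar a, e]; simp
    simpa [h.two] using this

theorem PaL.pm_one (h : PaL P) {B : LinearMap.BilinForm F V} (hB : B.Nondegenerate)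
    {g : V ≃ₗ[F] V} (hg : ∀ u v, B (g u) (g v) = B u v) (hc : g ∈ center (V ≃ₗ[F] V)) :
    g * g = 1 := by
  obtain ⟨c, hc⟩ := mem_center_iff_smul.1 hc
  refine LinearEquiv.ext fun u => sub_eq_zero.1 (hB.1 _ fun v => ?_)
  have := hg u v
  simp only [hc, map_smul, LinearMap.smul_apply, smul_eq_mul] at this
  simp [hc, this]

variable [Finite V] [Finite F]

theorem PaL.sp4 (h : PaL P) {B : LinearMap.BilinForm F V} (hB : B.Nondegenerate) (hA : B.IsAlt)
    (hp : (Nat.card F).Prime) (hV : finrank F V = 4) (h4 : finrank (ZMod 2) h.pg.W = 4)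
    (hm : ∀ x ∈ P, ∀ y ∈ P, x * x = 1 → y * y = 1 → x ∉ center _ → y ∉ center _ →
      h.pg.cl x ≠ h.pg.cl y → bt x y = 1) {H : Subgroup (V ≃ₗ[F] V)}
    (hH : HC P H (ng F V) gm1) (hle : H ≤ SpG B) : H ≤ Nm P ∨ SpG B ≤ H := by
  obtain ⟨x, a, gen, all⟩ := h.pg.exists_five h4 hm
  have iso : ∀ y ∈ P, ∀ u v, B (y u) (y v) = B u v := fun y hy => mem_SpG.1 (hle (hH.le hy))
  have pm : ∀ c ∈ SpG B, c ∈ center _ → c = 1 ∨ c = ng F V := fun c hc hc' =>
    h.pg.uniq c hc' (h.pm_one hB (mem_SpG.1 hc) hc')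
  have sa : ∀ c u v, B (fr x c u) v = B u (fr x c v) := fun c u v => by
    simp only [fr_apply, map_sum, map_smul, LinearMap.sum_apply, LinearMap.smul_apply]
    refine Finset.sum_congr rfl fun i _ => ?_
    rw [← iso _ (a.mem i), invol_apply (a.sq i)]
  have tr : ∀ c, LinearMap.trace F V (fr x c) = 0 := fun c => by
    simp [fr, Fintype.linearCombination_apply, fun i =>
      h.trace_eq_zero (a.mem i) (notMem_center_of_bt (a.anti i (i + 1) (by simp)))]
  have key : ∀ f : End F V, (∀ u v, B (f u) v = B u (f v)) → LinearMap.trace F V f = 0 →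
      ∃ c, f = fr x c := fun f f1 f2 => by
    obtain ⟨_, h1, s, hs, rfl⟩ := Submodule.mem_sup.1 (h.span
      (((F ∙ 1) ⊔ LinearMap.range (fr x)) ⊔ B.skewAdjointSubmodule) (fun y hy => by
        rcases h.sq y hy with e | e
        · refine Submodule.mem_sup_left ?_
          by_cases y0 : y ∈ center _
          · obtain ⟨c, hc⟩ := mem_center_iff_smul.1 y0
            exact Submodule.mem_sup_left (Submodule.mem_span_singleton.2
              ⟨c, LinearMap.ext fun v => (hc v).symm⟩)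
          obtain ⟨i, hi⟩ := all y hy e y0
          obtain ⟨c, hc⟩ := mem_center_iff_smul.1 ((h.pg.cl_eq hy (a.mem i)).1 hi)
          refine Submodule.mem_sup_right ⟨c • ee F i, LinearMap.ext fun v => ?_⟩
          simpa [fr_ee, inv_apply_apply] using (hc (x i v)).symm
        · refine Submodule.mem_sup_right ((LinearMap.mem_skewAdjointSubmodule _).2 fun u v => ?_)
          simpa [sq_apply e, neg_eq_iff_eq_neg] using (iso y hy (y u) v).symm) f)
    obtain ⟨_, h2, _, ⟨c, rfl⟩, rfl⟩ := Submodule.mem_sup.1 h1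
    obtain ⟨d, rfl⟩ := Submodule.mem_span_singleton.1 h2
    obtain rfl : s = 0 := LinearMap.ext fun u => hB.1 _ fun v => by
      have e1 := f1 u v
      have e2 := (LinearMap.mem_skewAdjointSubmodule _).1 hs u v
      simp [sa] at e1 e2
      exact (mul_eq_zero.1 (by linear_combination e1 + e2)).resolve_left h.two
    have : d * (2 * 2) = 0 := by
      simp only [map_add, map_smul, tr, LinearMap.trace_one, hV, map_zero, smul_eq_mul] at f2
      linear_combination f2
    obtain rfl : d = 0 := by simpa [h.two] using this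
    exact ⟨c, by simp⟩
  obtain ⟨ρ, hρ⟩ := Classical.exists_sub_rep (sqF (Fin 5) F) (fr x) (h.fr_inj a)
    ((cjE F V).comp (SpG B).subtype) fun g c => by
      obtain ⟨d, hd⟩ := key (cjE F V g (fr x c)) (fun u v => by
        rw [cjE_apply, cjE_apply, ← mem_SpG.1 (inv_mem g.2), inv_apply_apply, sa,
          ← mem_SpG.1 g.2, apply_inv_apply]) ((LinearMap.trace_conj' _ _).trans (tr c))
      refine ⟨d, hd, h.smul_inj fun v => ?_⟩
      rw [sqF_apply, sqF_apply, ← h.fr_sq a, ← hd, cjE_apply, cjE_apply, inv_apply_apply,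
        h.fr_sq a, map_smul, apply_inv_apply]
  have r1 : ∀ (g : SpG B) i j, g * x i * (g : V ≃ₗ[F] V)⁻¹ = x j → (ρ g).1 (ee F i) = ee F j :=
    fun g i j e => h.fr_inj a (by rw [hρ, fr_ee, fr_ee, ← e]; rfl)
  let K := ((H.subgroupOf (SpG B)).map ((OG _).subtype.comp ρ))
  have hX : RY (pmS K ng_cen ng_ng) := by
    refine ⟨?_, fun i => .inr ⟨⟨x i, hle (hH.le (a.mem i))⟩, hH.le (a.mem i), ?_⟩,
      fun i j k ij ik jk => ?_, by simp, h.two⟩
    · rintro m (⟨g, -, rfl⟩ | ⟨g, -, e⟩)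
      · exact (ρ g).2
      · refine mem_OG.2 fun v => ?_
        rw [← mem_OG.1 (ρ g).2 v, show (ρ g).1 v = -m v from LinearEquiv.congr_fun e v,
          QuadraticMap.map_neg]
    · refine LinearEquiv.toLinearMap_injective ((Pi.basisFun F _).ext fun l => h.fr_inj a ?_)
      simp only [Pi.basisFun_apply, LinearEquiv.coe_coe, ng_mul_apply, oRefl_ee]
      refine (hρ _ _).trans (LinearMap.ext fun v => ?_)
      by_cases e : l = i
      · simp [e, fr_ee, cjE_apply, two_smul, apply_inv_apply]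
      · simp [fr_ee, cjE_apply, Ne.symm e, anti_apply (a.an h.pg (Ne.symm e)), apply_inv_apply]
    · have hg := hH.gate _ (mul_mem (a.mem j) (a.mem i)) _ (mul_mem (a.mem j) (a.mem k))
        (a.sq2 h.pg ij.symm) (a.sq2 h.pg jk) (a.nc h.pg ij.symm) (a.nc h.pg jk)
      obtain ⟨e1, e2, e3, e4⟩ := a.cyc h.pg ij ik jk rfl
      exact ⟨ρ ⟨_, hle hg⟩, .inl ⟨_, hg, rfl⟩, isCyc_of ij ik jk (r1 _ _ _ e1) (r1 _ _ _ e2)
        (r1 _ _ _ e3) fun l l1 l2 l3 => r1 _ _ _ (e4 l l1 l2 l3)⟩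
  by_cases hO : OmG (sqF (Fin 5) F) ≤ pmS K ng_cen ng_ng
  · have hG := commutator_SpG_eq_top hB hA (.inr (.inl ⟨h.two, hV.ge⟩))
    refine .inr (subgroupOf_eq_top.1 (le_of_perfect ((OG _).subtype.comp ρ) hG (fun g hg => ?_)
      fun g => ?_))
    · refine hH.le (show g.1 ∈ P from (pm g g.2 (h.pg.schur _ fun y hy => (mem_Cz.1 (gen (Cz g.1)
        (fun c _ hc => mem_Cz.2 (mem_center_iff.1 hc _).symm) (fun i => mem_Cz.2 ?_) hy)).symm)).elim
        (fun e => e ▸ one_mem _) fun e => e ▸ h.neg)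
      have := hρ g (ee F i)
      rw [show (ρ g).1 = 1 from hg, LinearEquiv.coe_one, id, fr_ee] at this
      exact eq_mul_inv_iff_mul_eq.1 (LinearEquiv.toLinearMap_injective this)
    · rcases hO (mem_OmG.2 (Classical.range_le_commutator_of_perfect ρ hG ⟨g, rfl⟩)) with
        ⟨k, hk, e⟩ | ⟨k, hk, e⟩
      · exact ⟨k, hk, 1, one_mem _, by rw [e, one_mul]; rfl⟩
      · exact ⟨k, hk, _, ng_cen, by rw [e, ← mul_assoc, ng_ng, one_mul]; rfl⟩
  · refine .inl fun g hg => norm_of_gen gen fun k => ?_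
    obtain ⟨j, e⟩ := exists_pm_ee (v := (ρ ⟨g, hle hg⟩).1 (ee F k))
      (by rw [dot_map h.two (ρ _).2]; simp) fun i j ij hi => by_contra fun hj =>
        hO (hX.le_of_supp hp (.inl ⟨_, hg, rfl⟩) ij hi hj)
    have := hρ ⟨g, hle hg⟩ (ee F k)
    rcases e with e | e <;> rw [e] at this
    · rw [show g * x k * g⁻¹ = x j from LinearEquiv.toLinearMap_injective (by
        rw [← fr_ee, this, fr_ee]; rfl)]
      exact a.mem j
    · rw [show g * x k * g⁻¹ = ng F V * x j from LinearEquiv.ext fun v => by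
        simpa [fr_ee, cjE_apply] using (LinearMap.congr_fun this v).symm]
      exact mul_mem h.neg (a.mem j)

end CF.MaxSub
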