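/-
From symplectic-type matrix groups to Pauli groups.
-/
import Cfsg.Agent.MaxSub.C6L
import Cfsg.Agent.Even.Large
import Cfsg.Agent.Geom.TvGen
import Cfsg.Agent.Geom.StdQuad

set_option autoImplicit false
set_option linter.unusedSectionVars false

namespace CF.MaxSub

open Module Subgroup Geom Cfsg Cfsg.Geo

namespace PG

variable {G : Type*} [Group G] [Finite G] {P : Subgroup G} {z : G} {γ : G → G} (h : PG P z γ)

/-- Totally singular subspaces. -/
def TS (U : Submodule (ZMod 2) h.W) : Prop := ∀ a ∈ P, h.cl a ∈ U → qd a = 0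

theorem TS.lt {U : Submodule (ZMod 2) h.W} (hU : h.TS U) {k : ℕ} (hm : IsOfMinusType k P) :
    finrank (ZMod 2) U < k := by
  let A : Subgroup P :=
    { carrier := {a | h.cl a ∈ U}
      one_mem' := show h.cl 1 ∈ U from (h.cl_eq_zero (one_mem _)).2 (one_mem _) ▸ U.zero_mem
      mul_mem' := fun {a b} ha hb => show h.cl (a * b) ∈ U from
        (h.cl_mul a.2 b.2).symm ▸ U.add_mem ha hb
      inv_mem' := fun {a} ha => show h.cl (a : G)⁻¹ ∈ U from (h.cl_inv a.2).symm ▸ ha }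
  have h1 := hm A ⟨⟨fun a b => Subtype.ext (Subtype.ext (bt_eq_zero.1 (by
    have := h.qd_mul a.1.2 b.1.2
    rw [hU _ a.1.2 a.2, hU _ b.1.2 b.2, hU (a * b) (a * b).1.2 (a * b).2] at this
    simpa using this.symm)))⟩⟩ fun a ha => Subtype.ext (qd_eq_zero.1 (hU _ a.2 ha))
  have h2 : Nat.card A = Nat.card (center P) * Nat.card U :=
    (Nat.card_congr (Equiv.setCongr (Set.ext fun a => by
      change h.cl a ∈ U ↔ h.mkW a ∈ U
      rw [cl, dif_pos a.2]))).trans (QuotientGroup.card_preimage_mk (center P) (U : Set h.W))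
  have h3 : 1 < Nat.card (center P) := Finite.one_lt_card_iff_nontrivial.2
    ⟨⟨⟨z, h.mem⟩, h.mem_center_sub.2 h.cen⟩, 1, fun e => h.ne (congrArg (·.1.1) e)⟩
  rw [h2, Module.natCard_eq_pow_finrank (K := ZMod 2) (V := U), Nat.card_zmod, pow_succ'] at h1
  exact (Nat.pow_lt_pow_iff_right one_lt_two).1 (lt_of_mul_lt_mul_left
    ((Nat.mul_le_mul_right _ h3).trans_lt h1) (Nat.zero_le 2))

theorem TS.sup (hO : ∀ c ∈ P, c ∈ center G → c * c = 1) {U : Submodule (ZMod 2) h.W}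
    (hU : h.TS U) {x : G} (hx : x ∈ P) (xx : x * x = 1) (e : ∀ u ∈ U, h.β u (h.cl x) = 0) :
    h.TS (U ⊔ Submodule.span (ZMod 2) {h.cl x}) := fun a ha hm => by
  obtain ⟨u, hu, w, hw, e'⟩ := Submodule.mem_sup.1 hm
  rcases mem_span_z2.1 hw with rfl | rfl
  · exact hU a ha (by rwa [← e', add_zero])
  · rw [← h.cl_out u, ← h.cl_mul (h.out_mem u) hx] at e'
    rw [← h.qd_congr hO (mul_mem (h.out_mem u) hx) ha e', h.qd_mul (h.out_mem u) hx,
      hU _ (h.out_mem u) (by simpa), qd_eq_zero.2 xx, ← h.β_cl (h.out_mem u) hx, h.cl_out, e u hu]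
    rfl

theorem TS.bot (hO : ∀ c ∈ P, c ∈ center G → c * c = 1) : h.TS ⊥ := fun a ha e =>
  qd_eq_zero.2 (hO a ha ((h.cl_eq_zero ha).1 e))

theorem minus_two (hO : ∀ c ∈ P, c ∈ center G → c * c = 1) (hm : IsOfMinusType 2 P) :
    ∀ x ∈ P, ∀ y ∈ P, x * x = 1 → y * y = 1 → x ∉ center G → y ∉ center G → h.cl x ≠ h.cl y →
      bt x y = 1 := fun x hx y hy xx yy x0 y0 ne => z2_ne.1 fun e => by
  have h1 := (TS.bot h hO).sup h hO hx xx (by simp)
  rw [bot_sup_eq] at h1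
  have := (h1.sup h hO hy yy fun u hu => by
    rcases mem_span_z2.1 hu with rfl | rfl
    · simp
    · rw [h.β_cl hx hy, e]).lt h hm
  rw [Submodule.finrank_sup_span_singleton (by
    simp [mem_span_z2, h.cl_eq_zero hy, y0, ne.symm]),
    finrank_span_singleton (by simpa [h.cl_eq_zero hx])] at this
  omega

end PG

variable {F V : Type*} [Field F] [AddCommGroup V] [Module F V] {P : Subgroup (V ≃ₗ[F] V)}

theorem gm1_iso {σ : F →+* F} {B : V →ₛₗ[σ] V →ₗ[F] F} (h2 : (2 : F) ≠ 0) {y : V ≃ₗ[F] V}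
    (e : y * y = ng F V) (hy : ∀ u v, B (y u) (y v) = B u v) (u v : V) :
    B (gm1 y u) (gm1 y v) = 2 * B u v := by
  have := hy (y u) v
  simp only [gm1_apply h2 e, map_add, LinearMap.add_apply, hy, sq_apply e, map_neg,
    LinearMap.neg_apply] at this ⊢
  linear_combination -this

theorem gate_iso {σ : F →+* F} {B : V →ₛₗ[σ] V →ₗ[F] F} (h2 : (2 : F) ≠ 0) {y y' : V ≃ₗ[F] V}
    (e : y * y = ng F V) (hy : ∀ u v, B (y u) (y v) = B u v) (e' : y' * y' = ng F V)
    (hy' : ∀ u v, B (y' u) (y' v) = B u v) (u v : V) :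
    B ((gm1 y * (gm1 y')⁻¹) u) ((gm1 y * (gm1 y')⁻¹) v) = B u v := by
  rw [LinearEquiv.mul_apply, LinearEquiv.mul_apply, gm1_iso h2 e hy, ← gm1_iso h2 e' hy',
    apply_inv_apply, apply_inv_apply]

theorem exists_ker_two [FiniteDimensional F V] (h : 3 ≤ finrank F V) (φ ψ : Dual F V) :
    ∃ w, w ≠ 0 ∧ φ w = 0 ∧ ψ w = 0 := by
  obtain ⟨w, hw, w0⟩ := Submodule.exists_mem_ne_zero_of_ne_bot
    (LinearMap.ker_ne_bot_of_finrank_lt (f := φ.prod ψ) (by simp; omega))
  exact ⟨w, w0, by simpa using hw⟩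

theorem tv_mul_eq_one (h2 : (2 : F) ≠ 0) {u : V ≃ₗ[F] V} {φ ψ : Dual F V} {v w : V} (v0 : v ≠ 0)
    (w0 : w ≠ 0) (h1 : φ v = 0) (h3 : ψ w = 0)
    (e : ∀ x, u x = x + ψ x • w + (φ x + ψ x * φ w) • v) (uu : u * u = 1) : u = 1 := by
  have e1 := invol_apply uu w
  have e2 := invol_apply uu v
  simp only [e, map_add, map_smul, h1, h3, smul_eq_mul] at e1 e2
  have e3 := congrArg φ e1
  have e4 := congrArg ψ e1
  simp only [map_add, map_smul, h1, h3, smul_eq_mul] at e3 e4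
  have ab : ψ v * φ w = 0 := (mul_eq_zero.1 (show 2 * (ψ v * φ w) = 0 by
    linear_combination e4 - ψ v * e3)).resolve_left h2
  have b0 : φ w = 0 := by
    have : (2 * φ w) • v = 0 := by linear_combination (norm := module) e1 - ab • (w + φ w • v)
    simpa [h2, v0] using this
  have a0 : ψ v = 0 := by
    rw [b0] at e2
    have : (2 * ψ v) • w = 0 := by linear_combination (norm := module) e2
    simpa [h2, w0] using this
  refine LinearEquiv.ext fun x => smul_right_injective V h2 (show _ • u x = _ • x from ?_)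
  have := invol_apply uu x
  simp only [e, map_add, map_smul, h1, h3, smul_eq_mul, a0, b0] at this ⊢
  linear_combination (norm := module) this

theorem PaL.not_tv [Finite V] (h : PaL P) (h3 : 3 ≤ finrank F V) {φ : Dual F V} {v : V}
    (h0 : φ v = 0) (v0 : v ≠ 0) (hT : tvE h0 ∈ Nm P) : φ = 0 := by
  obtain ⟨c, hc⟩ := mem_center_iff_smul.1 (h.pg.schur (tvE h0) fun x hx => by
    have hu := mul_mem (Nm_conj hT hx) (inv_mem hx)
    have e : ∀ y, (tvE h0 * x * (tvE h0)⁻¹ * x⁻¹) y = y + (-φ ∘ₗ x⁻¹.toLinearMap) y • x v +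
        (φ y + (-φ ∘ₗ x⁻¹.toLinearMap) y * φ (x v)) • v := fun y => by
      rw [tvE_inv h0 (by simp [h0])]
      simp [tvE_apply, apply_inv_apply]
    rw [← mul_inv_eq_iff_eq_mul, ← mul_inv_eq_one]
    refine tv_mul_eq_one h.two v0 (by simpa) h0 (by simp [inv_apply_apply, h0]) e
      ((h.sq _ hu).resolve_right fun e' => ?_)
    obtain ⟨w, w0, h1, h2⟩ := exists_ker_two h3 φ (-φ ∘ₗ x⁻¹.toLinearMap)
    have := e w
    rw [h1, h2] at this
    simp only [zero_smul, add_zero, zero_mul] at this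
    exact w0 (h.eq_zero (by rw [← sq_apply e', this, this])))
  have h1 := hc v
  rw [tvE_apply, h0, zero_smul, add_zero] at h1
  obtain rfl : c = 1 := smul_left_injective F v0 (by simpa using h1.symm)
  exact LinearMap.ext fun x => by simpa [tvE_apply, v0] using hc x

theorem burnside_span [Finite V] [Nontrivial V]
    (irr : ∀ U : Submodule F V, (∀ x ∈ P, ∀ v ∈ U, x v ∈ U) → U = ⊥ ∨ U = ⊤)
    (sch : ∀ f : End F V, (∀ x ∈ P, ∀ v, f (x v) = x (f v)) → ∃ c : F, ∀ v, f v = c • v)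
    (S : Submodule F (End F V)) (hS : ∀ x ∈ P, (x : End F V) ∈ S) (f : End F V) : f ∈ S := by
  have := Fintype.ofFinite V
  let A := Algebra.adjoin F {f : End F V | ∃ x ∈ P, (x : End F V) = f}
  have mA : ∀ x ∈ P, (x : End F V) ∈ A := fun x hx => Algebra.subset_adjoin ⟨x, hx, rfl⟩
  have : IsSimpleModule A V := (isSimpleModule_iff _ _).2 ⟨fun U =>
    (irr (U.restrictScalars F) fun x hx v hv => U.smul_mem ⟨_, mA x hx⟩ hv).imp
      (Submodule.restrictScalars_eq_bot_iff _ _ _).1 (Submodule.restrictScalars_eq_top_iff _ _ _).1⟩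
  obtain ⟨r, hr⟩ := jacobson_density (R := A) (M := V) ⟨⟨f, f.map_add⟩, fun d v => by
    obtain ⟨c, hc⟩ := sch (d.restrictScalars F) fun x hx v => d.map_smul ⟨_, mA x hx⟩ v
    simp at hc
    simp [hc]⟩ Finset.univ
  rw [(LinearMap.ext fun v => hr v (Finset.mem_univ v) : f = r.1)]
  refine (Submodule.span_le.2 fun g hg => ?_ : _ ≤ S) ((Algebra.adjoin_eq_span F _).le r.2)
  suffices ∃ x ∈ P, (x : End F V) = g by obtain ⟨x, hx, rfl⟩ := this; exact hS x hx
  induction hg using Submonoid.closure_induction with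
  | mem _ h => exact h
  | one => exact ⟨1, one_mem _, rfl⟩
  | mul _ _ _ _ h1 h2 =>
    obtain ⟨x, hx, rfl⟩ := h1
    obtain ⟨y, hy, rfl⟩ := h2
    exact ⟨x * y, mul_mem hx hy, rfl⟩

variable {ι : Type} [Fintype ι] [DecidableEq ι] [Finite F] {R : Subgroup (GL ι F)}

/-- A matrix group as a group of linear maps. -/
noncomputable abbrev glP (R : Subgroup (GL ι F)) : Subgroup ((ι → F) ≃ₗ[F] (ι → F)) :=
  R.map (Geom.glEquiv ι F : GL ι F →* _)

theorem mem_glP {g : GL ι F} : Geom.glEquiv ι F g ∈ glP R ↔ g ∈ R :=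
  ⟨fun ⟨_, h, e⟩ => (Geom.glEquiv ι F).injective e ▸ h, fun h => ⟨g, h, rfl⟩⟩

theorem mem_Nm_glP (g : GL ι F) : g ∈ subgroupNormalizer R ↔ Geom.glEquiv ι F g ∈ Nm (glP R) := by
  exact mem_glP.symm.trans (Iff.of_eq (congrArg (_ ∈ ·) (map_equiv_normalizer_eq R _)))

theorem cp_of [Nonempty ι] (h2 : (2 : F) ≠ 0) (hR : IsSymplecticTypeGroup 2 R)
    (hi : ActsAbsolutelyIrreducibly (matrixSet R)) : PaL (glP R) := by
  have sch : ∀ f : End F (ι → F), (∀ x ∈ glP R, ∀ v, f (x v) = x (f v)) →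
      ∃ c : F, ∀ v, f v = c • v := fun f hf => by
    obtain ⟨f, rfl⟩ := Matrix.toLin'.surjective f
    obtain ⟨c, rfl⟩ := hi.2 f (by
      rintro _ ⟨g, hg, rfl⟩
      exact matrix_eq_iff_mulVec.2 fun v => by simpa using hf _ (mem_glP.2 hg) v)
    exact ⟨c, fun v => by simp⟩
  let e := (Geom.glEquiv ι F).subgroupMap R
  have hp : IsPGroup 2 (glP R) := hR.pGroup.of_equiv e
  have h4 : Monoid.exponent (glP R) = 4 := (Monoid.exponent_eq_of_mulEquiv e).symm.trans hR.exponent_eq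
  have : Nontrivial (glP R) := by
    by_contra hn
    rw [not_nontrivial_iff_subsingleton] at hn
    simp at h4
  have hn : ng F (ι → F) ∈ glP R := by
    have := hp.center_nontrivial
    obtain ⟨⟨⟨z, hz⟩, hc⟩, ho⟩ := exists_prime_orderOf_dvd_card' (G := center (glP R)) 2
      ((hp.to_subgroup _).nontrivial_iff_card.1 this |>.elim fun n hn => hn.2 ▸ dvd_pow_self 2 hn.1.ne')
    rw [← orderOf_coe, ← orderOf_coe] at ho
    obtain ⟨c, hc⟩ := sch z fun x hx =>
      comm_apply (congrArg Subtype.val (mem_center_iff.1 hc ⟨x, hx⟩)).symm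
    simp only [LinearEquiv.coe_coe] at hc ho
    obtain ⟨v, hv⟩ := exists_ne (0 : ι → F)
    have := invol_apply (x := z) (by rw [← sq, ← ho, pow_orderOf_eq_one]) v
    rw [hc, hc, smul_smul] at this
    rcases mul_self_eq_one_iff.1 (smul_left_injective F hv (this.trans (one_smul F v).symm)) with
      rfl | rfl
    · rw [show z = 1 from LinearEquiv.ext fun v => by simp [hc]] at ho
      simp at ho
    · rwa [show z = ng F _ from LinearEquiv.ext fun v => by simp [hc]] at hz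
  have n1 : ng F (ι → F) ≠ 1 := fun e => by
    obtain ⟨v, hv⟩ := exists_ne (0 : ι → F)
    exact hv ((smul_eq_zero_iff_right h2).1 (by
      rw [two_smul]; exact neg_eq_iff_add_eq_zero.1 (LinearEquiv.congr_fun e v)))
  obtain ⟨z, hz, ez⟩ := id hn
  have xs := Even.xs_of_symplectic (z := z) ⟨hR.pGroup, hR.cyclic_of_characteristic⟩
    ((MulEquiv.orderOf_eq (Geom.glEquiv ι F) z).symm.trans (by
      rw [show Geom.glEquiv ι F z = _ from ez]; exact orderOf_eq_prime (by rw [sq, ng_ng]) n1)) hz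
    (fun x _ => (Geom.glEquiv ι F).injective (by
      rw [map_mul, map_mul, show Geom.glEquiv ι F z = _ from ez, mem_center_iff.1 ng_cen]))
    fun q hq => congrArg Subtype.val ((show Monoid.exponent R = 4 from hR.exponent_eq) ▸ Monoid.pow_exponent_eq_one (⟨q, hq⟩ : R) :
      (⟨q, hq⟩ : R) ^ 4 = 1)
  refine ⟨h2, inferInstance, hn, ?_, burnside_span (fun U hU => hi.1 U ?_) sch⟩
  · rintro _ ⟨x, hx, rfl⟩
    rw [← map_mul, ← ez]
    exact (xs.sq x hx).imp (fun e => by rw [e, map_one]) fun e => by rw [e]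
  · rintro _ ⟨g, hg, rfl⟩ _ ⟨v, hv, rfl⟩
    exact hU _ (mem_glP.2 hg) v hv

theorem PaL.card_glP (h : PaL (glP R)) :
    Nat.card R = 2 ^ finrank (ZMod 2) h.pg.W * Nat.card (center R) := by
  let e := (Geom.glEquiv ι F).subgroupMap R
  rw [Nat.card_congr e.toEquiv, h.pg.card_W, Nat.card_congr (centerCongr e).toEquiv]

theorem PaL.finrank_glP (h : PaL (glP R)) {a k : ℕ} (h1 : Nat.card R = 2 ^ (a + k))
    (h2 : Nat.card (center R) = 2 ^ a) : finrank (ZMod 2) h.pg.W = k := by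
  have := h.card_glP
  rw [h1, h2, ← pow_add] at this
  have := Nat.pow_right_injective le_rfl this
  omega

theorem isMaximalIn_c6 {K : Subgroup (GL ι F)} {K' : Subgroup ((ι → F) ≃ₗ[F] (ι → F))}
    (hK : ∀ g, g ∈ K ↔ Geom.glEquiv ι F g ∈ K') (h1 : ¬ K' ≤ Nm (glP R))
    (h2 : ∀ H, K' ⊓ Nm (glP R) ≤ H → H ≤ K' → H ≤ Nm (glP R) ∨ K' ≤ H) :
    IsMaximalIn K (subgroupNormalizer R ⊓ K) :=
  MaxIn.isMaximalIn _ ⟨h1, fun M h3 h4 _ hm hn => (h2 M h3 h4).resolve_left fun e => hn (e hm)⟩ hK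
    mem_Nm_glP

theorem minus_glP {k : ℕ} (hm : IsOfMinusType k R) : IsOfMinusType k (glP R) := fun A hA h1 => by
  let e : R ≃* glP R := (Geom.glEquiv ι F).subgroupMap R
  have := hm (A.map (e.symm : glP R →* R)) inferInstance (by
    rintro _ ⟨x, hx, rfl⟩; rw [← map_mul, h1 x hx, map_one])
  rwa [card_map_of_injective e.symm.injective] at this

theorem hc_iso {σ : F →+* F} {B : V →ₛₗ[σ] V →ₗ[F] F} (h : PaL P) [Finite V]
    {K H : Subgroup (V ≃ₗ[F] V)} (hK : ∀ g, g ∈ K ↔ ∀ u v, B (g u) (g v) = B u v) (hP : P ≤ K)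
    (hH : K ⊓ Nm P ≤ H) : HC P H (ng F V) gm1 :=
  { h.pg with
    le := fun _ hx => hH ⟨hP hx, le_normalizer hx⟩
    gate := fun y hy y' hy' e e' _ _ => hH ⟨(hK _).2 (gate_iso h.two e ((hK _).1 (hP hy)) e'
      ((hK _).1 (hP hy'))), (Nm P).mul_mem (h.pg.gam_mem hy e) (inv_mem (h.pg.gam_mem hy' e'))⟩ }

theorem PaL.Sp_not_le (h : PaL P) [Finite V] {B : LinearMap.BilinForm F V} (hB : B.Nondegenerate)
    (hA : B.IsAlt) (h3 : 3 ≤ finrank F V) : ¬ SpG B ≤ Nm P := fun hle => by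
  obtain ⟨v, hv⟩ := @exists_ne V h.nt 0
  have := h.not_tv h3 (φ := (1 : F) • B.flip v) (by simp [hA.self_eq_zero]) hv
    (hle (spTrans hA v 1).2)
  exact hv (hB.2 v fun x => by simpa using LinearMap.congr_fun this x)

theorem isMaximalIn_sp4_c6 {F : Type*} [Field F] [Fintype F] (hodd : Odd (Fintype.card F)) (p : ℕ)
    (R : Subgroup (GL (Fin 2 ⊕ Fin 2) F)) (hp : p.Prime) (hF : Fintype.card F = p)
    (hR : IsSymplecticTypeGroup 2 R) (hi : ActsAbsolutelyIrreducibly (matrixSet R))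
    (hle : R ≤ spGL 2 F) (h1 : Nat.card R = 32) (h2 : Nat.card (center R) = 2)
    (hm : IsOfMinusType 2 R) : IsMaximalIn (spGL 2 F) (subgroupNormalizer R ⊓ spGL 2 F) := by
  have h := cp_of (two_ne_zero_of_odd_card hodd) hR hi
  have hP : glP R ≤ SpG (sympBilin 2 F) := by
    rintro _ ⟨g, hg, rfl⟩
    exact (mem_spGL_iff 2 g).1 (hle hg)
  exact isMaximalIn_c6 (mem_spGL_iff 2) (h.Sp_not_le (sympBilin_nondegenerate 2)
    (sympBilin_isAlt 2) (by simp)) fun H h3 h4 => h.sp4 (sympBilin_nondegenerate 2)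
      (sympBilin_isAlt 2) (by rwa [Nat.card_eq_fintype_card, hF]) (by simp)
      (h.finrank_glP (a := 1) h1 h2) (h.pg.minus_two (fun c hc => h.pm_one
        (sympBilin_nondegenerate 2) (mem_SpG.1 (hP hc))) (minus_glP hm))
      (hc_iso h (fun _ => mem_SpG) hP h3) h4

end CF.MaxSub
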