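/-
The Klein correspondence for Pauli groups in dimension four: matrices.
-/
import Cfsg.Agent.MaxSub.C6M
import Cfsg.Agent.MaxSub.C6I
import Cfsg.Agent.Classical.LowDim2

set_option autoImplicit false
set_option linter.unusedSectionVars false

namespace CF.MaxSub

open Module Subgroup Geom Classical Matrix

section Cyc

variable {F : Type*} [Field F] {ι : Type} [Fintype ι] [DecidableEq ι]
  {M : Subgroup ((ι → F) ≃ₗ[F] (ι → F))}

/-- A three-cycle on the standard basis. -/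
def C3 (g : (ι → F) ≃ₗ[F] (ι → F)) (i j k : ι) : Prop := g (ee F i) = ee F j ∧ g (ee F j) = ee F k ∧
  g (ee F k) = ee F i ∧ ∀ l, l ≠ i → l ≠ j → l ≠ k → g (ee F l) = ee F l

theorem C3.rot {g : (ι → F) ≃ₗ[F] (ι → F)} {i j k : ι} (h : C3 g i j k) : C3 g j k i :=
  ⟨h.2.1, h.2.2.1, h.1, fun l h1 h2 h3 => h.2.2.2 l h3 h1 h2⟩

theorem cyc_all {o : ι} (h : ∀ i k, i ≠ o → k ≠ o → i ≠ k → ∃ g ∈ M, C3 g i o k) (i j k : ι)
    (ij : i ≠ j) (ik : i ≠ k) (jk : j ≠ k) : ∃ g ∈ M, IsCyc g i j k := by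
  suffices ∃ g ∈ M, C3 g i j k by
    obtain ⟨g, hg, e1, e2, e3, e4⟩ := this
    exact ⟨g, hg, isCyc_of ij ik jk e1 e2 e3 e4⟩
  by_cases e1 : j = o
  · subst e1; exact h i k ij jk.symm ik
  by_cases e2 : i = o
  · subst e2; exact (h k j ik.symm e1 jk.symm).imp fun g hg => ⟨hg.1, hg.2.rot⟩
  by_cases e3 : k = o
  · subst e3; exact (h j i e1 e2 ij.symm).imp fun g hg => ⟨hg.1, hg.2.rot.rot⟩
  obtain ⟨a, ha, a1, a2, a3, a4⟩ := h k j e3 e1 jk.symm
  obtain ⟨b, hb, b1, b2, b3, b4⟩ := h i k e2 e3 ik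
  refine ⟨a * b, mul_mem ha hb, ?_, ?_, ?_, fun l l1 l2 l3 => ?_⟩ <;> rw [LinearEquiv.mul_apply]
  · rw [b1, a2]
  · rw [b4 j ij.symm e1 jk, a3]
  · rw [b3, a4 i ik e2 ij]
  · by_cases e : l = o
    · rw [e, b2, a1]
    · rw [b4 l l1 e l3, a4 l l3 e l2]

theorem refl_ee_sq (i : ι) : (oRefl (sqF ι F) (ee F i)).1 * (oRefl (sqF ι F) (ee F i)).1 = 1 :=
  congrArg Subtype.val (oRefl_mul_self _)

theorem tt_self (i : ι) : tt F i i = 1 := refl_ee_sq i

theorem tt_all {o : ι} (h : ∀ k, tt F o k ∈ M) (i j : ι) : tt F i j ∈ M := by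
  have := mul_mem (inv_mem (h i)) (h j)
  rwa [tt, tt, _root_.mul_inv_rev, mul_assoc, inv_mul_cancel_left,
    inv_eq_of_mul_eq_one_right (refl_ee_sq i)] at this

theorem mon_conj_tt {g : (ι → F) ≃ₗ[F] (ι → F)} (hg : g ∈ MonG ι F) (a b : ι) :
    ∃ c d, g * tt F a b * g⁻¹ = tt F c d := by
  obtain ⟨π, ν, -, h1, h2⟩ := exists_of_mem_MonG hg
  have key : ∀ a, g * (oRefl (sqF ι F) (ee F a)).1 * g⁻¹ = (oRefl (sqF ι F) (ee F (π a))).1 :=
    fun a => mul_inv_eq_iff_eq_mul.2 (LinearEquiv.ext fun x => by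
      simp only [LinearEquiv.mul_apply, oRefl_ee, map_sub, map_smul, h1, h2]; module)
  exact ⟨π a, π b, by rw [tt, tt, ← key, ← key, conj_mul]⟩

end Cyc

variable {F : Type*} [Field F]

/-- Coordinates in which the Pfaffian is a sum of squares. -/
def kp (i : F) : (Fin 3 ⊕ Fin 3 → F) →ₗ[F] (Fin 3 ⊕ Fin 3 → F) where
  toFun c := Sum.elim (fun j => c (.inl j) + i * c (.inr j)) fun j => c (.inl j) - i * c (.inr j)
  map_add' c d := by ext (j | j) <;> simp <;> ring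
  map_smul' a c := by ext (j | j) <;> simp <;> ring

theorem kp_apply (i : F) (c : Fin 3 ⊕ Fin 3 → F) : kp i c =
    Sum.elim (fun j => c (.inl j) + i * c (.inr j)) fun j => c (.inl j) - i * c (.inr j) := rfl

variable {i : F}

theorem kp_inj (h2 : (2 : F) ≠ 0) (ii : i * i = -1) : Function.Injective (kp i) :=
  (injective_iff_map_eq_zero _).2 fun c e => by
    have e1 := fun j => congrFun e (.inl j)
    have e2 := fun j => congrFun e (.inr j)
    simp only [kp_apply, Sum.elim_inl, Sum.elim_inr, Pi.zero_apply] at e1 e2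
    ext (j | j)
    · exact (mul_eq_zero.1 (by linear_combination e1 j + e2 j)).resolve_left h2
    · exact (mul_eq_zero.1 (by
        linear_combination i * (e2 j - e1 j) + 2 * c (.inr j) * ii)).resolve_left h2

theorem qPlus_kp (ii : i * i = -1) (c : Fin 3 ⊕ Fin 3 → F) : qPlus 3 F (kp i c) = c ⬝ᵥ c := by
  simp only [qPlus_apply, kp_apply, dotProduct, Fintype.sum_sum_type, Sum.elim_inl, Sum.elim_inr,
    ← Finset.sum_add_distrib]
  exact Finset.sum_congr rfl fun j _ => by linear_combination -c (.inr j) ^ 2 * ii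

theorem map_kp {σ : F →+* F} (h : σ i = -i) (c : Fin 3 ⊕ Fin 3 → F) :
    σ ∘ kp i c = kp i (σ ∘ c) ∘ Sum.swap := by
  ext (j | j) <;> simp [kp_apply, h, sub_eq_add_neg]

/-- A quarter turn. -/
def rq (k : Fin 3 ⊕ Fin 3) (c : Fin 3 ⊕ Fin 3 → F) : Fin 3 ⊕ Fin 3 → F :=
  c + (c k - c (.inl 0)) • ee F (.inl 0) - (c (.inl 0) + c k) • ee F k

theorem sand_alt (g : Matrix (Fin 4) (Fin 4) F) (v : Fin 3 ⊕ Fin 3 → F) (a b : Fin 4) :
    (g * altM F v * gᵀ) a b = (g a 0 * g b 1 - g a 1 * g b 0) * v (.inl 0) +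
      (g a 0 * g b 2 - g a 2 * g b 0) * v (.inl 1) + (g a 0 * g b 3 - g a 3 * g b 0) * v (.inl 2) +
      (g a 2 * g b 3 - g a 3 * g b 2) * v (.inr 0) - (g a 1 * g b 3 - g a 3 * g b 1) * v (.inr 1) +
      (g a 1 * g b 2 - g a 2 * g b 1) * v (.inr 2) := by
  simp [altM_apply, mul_apply, Fin.sum_univ_four]; ring

/-- The gates of a star of elements of order four. -/
def mG (i : F) : Fin 3 ⊕ Fin 3 → Matrix (Fin 4) (Fin 4) F := Sum.elim
  ![1, !![1, 0, 0, 1; 0, 1, 1, 0; 0, -1, 1, 0; -1, 0, 0, 1],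
    !![1, 0, -1, 0; 0, 1, 0, 1; 1, 0, 1, 0; 0, -1, 0, 1]]
  ![!![1 - i, 0, 0, 0; 0, 1 - i, 0, 0; 0, 0, 1 + i, 0; 0, 0, 0, 1 + i],
    !![1, 0, 0, i; 0, 1, -i, 0; 0, -i, 1, 0; i, 0, 0, 1],
    !![1, 0, -i, 0; 0, 1, 0, -i; -i, 0, 1, 0; 0, -i, 0, 1]]

theorem wedge_mG (ii : i * i = -1) (k : Fin 3 ⊕ Fin 3) (hk : k ≠ .inl 0) (c : Fin 3 ⊕ Fin 3 → F) :
    wedge F (mG i k) (kp i c) = (2 : F) • kp i (rq k c) := by
  have i2 : i ^ 2 = -1 := by rw [sq, ii]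
  have i3 : i ^ 3 = -i := by rw [pow_succ, i2]; ring
  simp only [wedge_apply, unalt_apply, sand_alt]
  rcases k with k | k <;> fin_cases k <;> simp at hk <;> ext (j | j) <;> fin_cases j <;>
    simp [mG, kp_apply, rq, -mul_eq_mul_right_iff] <;> ring_nf <;> (try simp only [i2, i3]) <;>
      (try ring1)

end CF.MaxSub
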