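/-
The normaliser of `4 ∘ 2^{1+4}` in `SL₄(p)` and `SU₄(p)`.
-/
import Cfsg.Agent.MaxSub.C6N
import Cfsg.Agent.Sig.Comp
import Cfsg.Agent.Geom.Simple
import Cfsg.Agent.Classical.Linear

set_option autoImplicit false
set_option linter.unusedSectionVars false

namespace CF.MaxSub

open Module Subgroup Geom Classical Matrix

variable {F V : Type*} [Field F] [AddCommGroup V] [Module F V] {σ : F →+* F}
  {B : V →ₛₗ[σ] V →ₗ[F] F} {i : F} {P H : Subgroup (V ≃ₗ[F] V)}

/-- The linear or unitary case over the prime field. -/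
structure LC (B : V →ₛₗ[σ] V →ₗ[F] F) (i : F) : Prop where
  ii : i * i = -1
  fix : ∀ a, σ a = a → ∃ n : ℕ, (n : F) = a
  alt : (B = 0 ∧ ∀ a, σ a = a) ∨ (IsHerm B ∧ B.Nondegenerate ∧ σ i = -i)

theorem SUG_zero : SUG (0 : V →ₛₗ[σ] V →ₗ[F] F) = SLG F V :=
  inf_eq_right.2 fun _ _ => mem_UG.2 fun _ _ => rfl

variable [Finite F] [Finite V]

theorem qs_SLG (h3 : 3 ≤ finrank F V) : Cfsg.IsQuasisimple (SLG F V) := by
  have := Fintype.ofFinite F
  let e := (finBasis F V).equivFun.symm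
  refine Sig.qs_of_mulEquiv ⟨⟨commutator_SL_eq_top (ι := Fin (finrank F V)) (by simpa)⟩,
    isSimpleGroup_PSL_of_three_le (by simpa)⟩ (equivOfMat SpecialLinearGroup.coeMonoidHom
      Subtype.val_injective (SLG F _) (fun h => mem_SLG.2 (by rw [det_toLE]; exact h.2))
      (fun e he => ⟨⟨LinearMap.toMatrix' e.toLinearMap, by
        rw [LinearMap.det_toMatrix']; exact mem_SLG.1 he⟩, fun v => LinearMap.toMatrix'_mulVec _ _⟩)
      |>.trans (((autCongr e).subgroupMap _).trans (MulEquiv.subgroupCongr ?_)))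
  ext g
  obtain ⟨g, rfl⟩ := (autCongr e).surjective g
  rw [autCongr_mem_SLG]
  exact ⟨fun ⟨_, h, e'⟩ => (autCongr e).injective e' ▸ h, fun h => ⟨g, h, rfl⟩⟩

theorem qs_SUG (hH : IsHerm B) (hB : B.Nondegenerate) (h4 : 4 ≤ finrank F V) :
    Cfsg.IsQuasisimple (SUG B) := by
  have h1 := uTransSub_eq_suSub hH hB (by omega) (.inr h4)
  have h2 : Group.IsPerfect (suSub B) := isPerfect_iff.2 (le_antisymm (commutator_le_left _ _) (by
    nth_rw 1 [← h1]
    rw [closure_le]
    rintro _ ⟨v, s, hv, hs, rfl⟩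
    obtain ⟨a, ha, b, hb, e⟩ := uTrans_eq_commutator hH hB (by omega) hv hs
    exact e ▸ commutator_mem_commutator (uEichSub_le_suSub hH ha) (uEichSub_le_suSub hH hb)))
  exact Sig.qs_of_mulEquiv ⟨h2, isSimpleGroup_su hH hB (by omega) (suSub B).subtype_injective
    (range_subtype _) h1 h2.1⟩ ((MulEquiv.subgroupCongr (Subgroup.ext fun _ =>
      mem_SUG_iff.symm)).trans (subgroupOfEquivOfLe inf_le_left))

theorem LC.qs (L : LC B i) (h4 : 4 ≤ finrank F V) : Cfsg.IsQuasisimple (SUG B) := by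
  rcases L.alt with ⟨rfl, -⟩ | ⟨hH, hB, -⟩
  · exact SUG_zero (σ := σ) (V := V) ▸ qs_SLG (by omega)
  · exact qs_SUG hH hB h4

theorem LC.i0 (L : LC B i) : -i ≠ 0 := fun e => by
  have := L.ii
  rw [neg_eq_zero.1 e] at this
  simp at this

theorem toMatrix_eq {ι : Type} [Fintype ι] [DecidableEq ι] (b : Basis ι F V) {f : End F V}
    {A : Matrix ι ι F} (h : ∀ k, f (b k) = ∑ l, A l k • b l) : LinearMap.toMatrix b b f = A := by
  ext l k
  simp [LinearMap.toMatrix_apply, h, Finsupp.single_apply]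

theorem PaL.exists_frame (h : PaL P) (L : LC B i) (h4 : finrank (ZMod 2) h.pg.W = 4)
    (hj : sc V L.i0 ∈ P) (hP : P ≤ UG B) : ∃ (b : Basis (Fin 4) F V)
      (y : Fin 3 ⊕ Fin 3 → V ≃ₗ[F] V), (∀ k l, B (b k) (b l) = if k = l then B (b 0) (b 0) else 0) ∧
      y (.inl 0) = 1 ∧ (∀ k, y k ∈ P) ∧
      (∀ K : Subgroup (V ≃ₗ[F] V), (∀ c ∈ P, c ∈ center _ → c ∈ K) → (∀ k, y k ∈ K) → P ≤ K) ∧
      ∀ k, k ≠ .inl 0 → y k * y k = ng F V ∧ y k ∉ center _ ∧
        LinearMap.toMatrix b b (gm1 (y k)) = mG i k := by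
  have jj : sc V L.i0 * sc V L.i0 = ng F V := LinearEquiv.ext fun v => by simp [smul_smul, L.ii]
  obtain ⟨x₁, z₁, x', z', s', xx₁, zz₁⟩ := h.pg.exists_SB (by omega)
  obtain ⟨x₂, mx, xx₂, e1⟩ := h.pg.exists_qd_cl hj (sc_cen _) jj s'.mb 0
  obtain ⟨z₂, mz, zz₂, e2⟩ := h.pg.exists_qd_cl hj (sc_cen _) jj s'.mb' 0
  have c1 := fun a => (bt_comm a x₂).trans ((h.pg.bt_congr mx s'.mb e1 a).trans (bt_comm _ _))
  have c2 := fun a => (bt_comm a z₂).trans ((h.pg.bt_congr mz s'.mb' e2 a).trans (bt_comm _ _))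
  have s : SB P x₁ z₁ x₂ z₂ := ⟨s'.ma, s'.ma', mx, mz, s'.aa,
    by rw [c2, bt_comm, c1, bt_comm, s'.bb], by rw [c1, s'.ab], by rw [c2, s'.ab'],
    by rw [c1, s'.a'b], by rw [c2, s'.a'b']⟩
  clear c1 c2 e1 e2 s'
  obtain ⟨m1, m2, m3, m4, e1, e2, e3, e4, e5, e6⟩ := id s
  obtain ⟨v, v0, v1, v2⟩ := h.exists_fix2 m2 m4 zz₁ (qd_eq_zero.1 zz₂)
    (notMem_center_of_bt (bt_comm x₁ z₁ ▸ e1)) (notMem_center_of_bt (bt_comm x₂ z₂ ▸ e2))
    (bt_eq_zero.1 e6).symm fun e => zero_ne_one (by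
      rw [← e4, bt_comm, h.pg.bt_congr m4 m2 e, bt_comm, e1])
  have r1 := invol_apply xx₁
  have r2 := invol_apply (qd_eq_zero.1 xx₂)
  have r3 := anti_apply (h.pg.anti (h.pg.pm m2 m1) (bt_comm x₁ z₁ ▸ e1))
  have r4 := anti_apply (h.pg.anti (h.pg.pm m4 m3) (bt_comm x₂ z₂ ▸ e2))
  have r5 := comm_apply (bt_eq_zero.1 e3).symm
  have r6 := comm_apply (bt_eq_zero.1 e4).symm
  have r7 := comm_apply (bt_eq_zero.1 e5)
  have li : LinearIndependent F ![v, x₂ v, x₁ v, x₁ (x₂ v)] :=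
    Fintype.linearIndependent_iff.2 fun g e k => by
      have f1 := congrArg z₁ e
      have f2 := congrArg z₂ e
      have f3 := congrArg z₂ f1
      simp only [Fin.sum_univ_four, cons_val, map_add, map_smul, map_neg, map_zero, r3, r4, r6, r7,
        v1, v2] at e f1 f2 f3
      have key : ∀ (a : F) (w : V), w ≠ 0 → (2 * 2 * a) • w = 0 → a = 0 := fun a w w0 e => by
        simpa [h.two, w0] using e
      fin_cases k
      · exact key (g 0) _ v0 (by linear_combination (norm := module) e + f1 + f2 + f3)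
      · exact key (g 1) (x₂ v) (by simpa) (by linear_combination (norm := module) e + f1 - f2 - f3)
      · exact key (g 2) (x₁ v) (by simpa) (by linear_combination (norm := module) e - f1 + f2 - f3)
      · exact key (g 3) (x₁ (x₂ v)) (by simpa)
          (by linear_combination (norm := module) e - f1 - f2 + f3)
  obtain ⟨U, hU⟩ : ∃ U, Submodule.span F (Set.range ![v, x₂ v, x₁ v, x₁ (x₂ v)]) = U := ⟨_, rfl⟩
  have mem : ∀ k, ![v, x₂ v, x₁ v, x₁ (x₂ v)] k ∈ U := fun k =>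
    hU ▸ Submodule.subset_span ⟨k, rfl⟩
  have st : ∀ g : V ≃ₗ[F] V, (∀ k, g (![v, x₂ v, x₁ v, x₁ (x₂ v)] k) ∈ U) → g ∈ subStab U :=
    fun g hg => mem_subStab_iff_le.2 fun _ hw => (Submodule.span_le (p := U.comap g.toLinearMap)).2
      (by rintro _ ⟨k, rfl⟩; exact hg k) (hU ▸ hw)
  have n0 := mem 0
  have n1 := mem 1
  have n2 := mem 2
  have n3 := mem 3
  simp only [cons_val] at n0 n1 n2 n3
  have sp := h.irr (fun x hx _ => subStab_apply (h.pg.gen h4 s (fun c _ hc => by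
      obtain ⟨a, ha⟩ := mem_center_iff_smul.1 hc
      exact st _ fun k => ha _ ▸ Submodule.smul_mem _ _ (mem k))
    (st _ fun k => by fin_cases k <;> simp [*]) (st _ fun k => by fin_cases k <;> simp [*])
    (st _ fun k => by fin_cases k <;> simp [*]) (st _ fun k => by fin_cases k <;> simp [*]) hx))
    n0 v0
  rw [← hU] at sp
  have iso := fun x hx => mem_UG.1 (hP (x := x) hx)
  have o : ∀ t ∈ P, ∀ u w, t u = u → t w = -w → B u w = 0 ∧ B w u = 0 := fun t ht u w hu hw => by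
    have a := iso t ht u w
    have b := iso t ht w u
    simp only [hu, hw, map_neg, LinearMap.neg_apply] at a b
    exact ⟨(mul_eq_zero.1 (by linear_combination -a)).resolve_left h.two,
      (mul_eq_zero.1 (by linear_combination -b)).resolve_left h.two⟩
  have sq : ∀ y ∈ P, qd y = 1 → y * y = ng F V := fun y => h.pg.sq_z
  have qj := h.pg.qd_one jj
  have bj := bt_of_center (sc_cen (V := V) L.i0)
  have q1 := qd_eq_zero.2 xx₁
  have q2 := qd_eq_zero.2 zz₁
  have m5 := mul_mem m2 m1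
  have m6 := mul_mem m1 m2
  have m7 := mul_mem m5 m3
  have m8 := mul_mem hj m7
  have e7 := bt_comm x₁ z₁ ▸ e1
  have e8 := bt_comm x₂ z₂ ▸ e2
  refine ⟨Basis.mk li sp.ge, Sum.elim ![1, z₁ * x₁ * x₂, x₁ * z₁ * z₂]
    ![sc V L.i0 * z₁, sc V L.i0 * (z₁ * x₁ * x₂) * z₂, sc V L.i0 * x₁], fun k l => ?_, rfl, ?_,
    fun K hc hK => ?_, fun k hk => ?_⟩
  · have o1 := o z₁ m2 v (x₁ v) v1 (by simp [*])
    have o2 := o z₁ m2 v (x₁ (x₂ v)) v1 (by simp [*])
    have o3 := o z₁ m2 (x₂ v) (x₁ v) (by simp [*]) (by simp [*])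
    have o4 := o z₂ m4 v (x₂ v) v2 (by simp [*])
    have o5 := o z₁ m2 (x₂ v) (x₁ (x₂ v)) (by simp [*]) (by simp [*])
    fin_cases k <;> fin_cases l <;> simp [o1, o2, o3, o4, o5, iso _ m1, iso _ m3]
  · rintro (k | k) <;> fin_cases k <;> simp [mul_mem, *]
  · have k1 := (mul_mem_cancel_left (hc _ hj (sc_cen _))).1 (hK (.inr 2))
    have k2 := (mul_mem_cancel_left (hc _ hj (sc_cen _))).1 (hK (.inr 0))
    exact h.pg.gen h4 s hc k1 k2 ((mul_mem_cancel_left (mul_mem k2 k1)).1 (hK (.inl 1)))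
      ((mul_mem_cancel_left (mul_mem k1 k2)).1 (hK (.inl 2)))
  · have key : ∀ y ∈ P, qd y = 1 → (∃ a, bt y a = 1) → (∀ l, Basis.mk li sp.ge l +
        y (Basis.mk li sp.ge l) = ∑ m, mG i k m l • Basis.mk li sp.ge m) →
        y * y = ng F V ∧ y ∉ center _ ∧ LinearMap.toMatrix (Basis.mk li sp.ge) (Basis.mk li sp.ge)
          (gm1 y) = mG i k := fun y hy q ⟨a, ha⟩ e => ⟨sq y hy q, notMem_center_of_bt ha,
        toMatrix_eq _ fun l => (gm1_apply h.two (sq y hy q) _).trans (e l)⟩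
    rcases k with k | k <;> fin_cases k <;> simp at hk
    · exact key _ m7 (by simp [h.pg.qd_mul, h.pg.bt_mul, *]) ⟨z₂, by simp [h.pg.bt_mul, *]⟩
        fun l => by fin_cases l <;> simp [mG, Fin.sum_univ_four, add_comm, *]
    · exact key _ (mul_mem m6 m4) (by simp [h.pg.qd_mul, h.pg.bt_mul, *])
        ⟨x₂, by simp [h.pg.bt_mul, *]⟩
        fun l => by fin_cases l <;> simp [mG, Fin.sum_univ_four, add_comm, *]
    · exact key _ (mul_mem hj m2) (by simp [h.pg.qd_mul, *]) ⟨x₁, by simp [h.pg.bt_mul, *]⟩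
        fun l => by fin_cases l <;> simp [mG, Fin.sum_univ_four, *] <;> module
    · exact key _ (mul_mem m8 m4) (by simp [h.pg.qd_mul, h.pg.bt_mul, *]; rfl)
        ⟨x₂, by simp [h.pg.bt_mul, bt_self, *]⟩
        fun l => by fin_cases l <;> simp [mG, Fin.sum_univ_four, add_comm, *]
    · exact key _ (mul_mem hj m1) (by simp [h.pg.qd_mul, *]) ⟨z₁, by simp [h.pg.bt_mul, *]⟩
        fun l => by fin_cases l <;> simp [mG, Fin.sum_univ_four, add_comm, *]

/-- The matrix of an automorphism. -/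
noncomputable def tM {ι : Type} [Fintype ι] [DecidableEq ι] (b : Basis ι F V) :
    (V ≃ₗ[F] V) →* Matrix ι ι F where
  toFun g := LinearMap.toMatrix b b g
  map_one' := LinearMap.toMatrix_one b
  map_mul' g h := LinearMap.toMatrix_mul b g.toLinearMap h.toLinearMap

theorem tM_unitary {ι : Type} [Fintype ι] [DecidableEq ι] (b : Basis ι F V) {c : F} (hc : c ≠ 0)
    (hb : ∀ k l, B (b k) (b l) = if k = l then c else 0) {g : V ≃ₗ[F] V} (hg : g ∈ UG B) :
    (tM b g).map σ * (tM b g)ᵀ = 1 := by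
  rw [mul_eq_one_comm]
  ext k l
  have e : ∀ k, g (b k) = ∑ m, tM b g m k • b m := fun k => by
    exact (b.sum_repr _).symm.trans (Finset.sum_congr rfl fun m _ => by
      rw [show tM b g m k = _ from LinearMap.toMatrix_apply b b _ m k]; rfl)
  have := mem_UG.1 hg (b l) (b k)
  rw [e k, e l] at this
  simp only [map_sum, LinearMap.map_smulₛₗ, LinearMap.sum_apply, LinearMap.smul_apply, hb,
    smul_eq_mul, RingHom.id_apply, mul_ite, mul_zero, Finset.sum_ite_eq', Finset.mem_univ,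
    if_true] at this
  refine mul_right_cancel₀ hc ?_
  simp only [mul_apply, transpose_apply, map_apply, Finset.sum_mul, mul_assoc, this, one_apply]
  simp [eq_comm]

theorem PaL.klein0 (h : PaL P) (L : LC B i) (h4 : finrank (ZMod 2) h.pg.W = 4)
    (hj : sc V L.i0 ∈ P) (hH : HC P H (ng F V) gm1) (hle : H ≤ SUG B) : H ≤ Nm P ∨ SUG B ≤ H := by
  obtain ⟨b, y, hb, y0, my, gen, hy⟩ := h.exists_frame L h4 hj fun _ hx => (hle (hH.le hx)).1
  have hV : finrank F V = 4 := by simpa using finrank_eq_card_basis b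
  have hp := Fact.mk (CharP.char_is_prime F (ringChar F))
  let _ := ZMod.algebra F (ringChar F)
  let a := algebraMap (ZMod (ringChar F)) F
  have h2 : (2 : ZMod (ringChar F)) ≠ 0 := fun e => h.two (by rw [← map_ofNat a, e, map_zero])
  let κ : (Fin 3 ⊕ Fin 3 → ZMod (ringChar F)) →ₗ[ZMod (ringChar F)] (Fin 3 ⊕ Fin 3 → F) :=
    (kp i).restrictScalars _ ∘ₗ (Algebra.linearMap _ F).compLeft _
  have κa : ∀ c, κ c = kp i (a ∘ c) := fun _ => rfl
  have κi : Function.Injective κ := (kp_inj h.two L.ii).comp (a.injective.comp_left)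
  have dt : ∀ g : SUG B, (tM b g).det = 1 := fun g =>
    (LinearMap.det_toMatrix b _).trans (mem_SLG.1 g.2.2)
  obtain ⟨ρ, hρ⟩ := exists_sub_rep (sqF _ _) κ κi (G := SUG B)
    ⟨⟨fun g => (wedge F (tM b g)).restrictScalars _, by simp; rfl⟩, fun g g' => by simp; rfl⟩
    fun g c => by
      obtain ⟨d, hd⟩ := LinearMap.injective_iff_surjective.1 (kp_inj h.two L.ii)
        (wedge F (tM b g) (κ c))
      have hσ : ∀ k, σ (d k) = d k := by
        rcases L.alt with ⟨-, e⟩ | ⟨-, hB, e⟩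
        · exact fun k => e _
        have h0 : B (b 0) (b 0) ≠ 0 := fun e => b.ne_zero 0 (hB.1 _ fun w => by
          rw [← b.sum_repr w, map_sum]
          exact Finset.sum_eq_zero fun l _ => by rw [map_smul, hb, e, ite_self, smul_zero])
        have h1 := congrArg (wedge F ((tM b g).map σ)) (wedge_swap_wedge (tM b g) (κ c))
        rw [← End.mul_apply, ← map_mul, tM_unitary b h0 hb g.2.1, map_one, End.one_apply, dt,
          one_smul, κa, ← show σ ∘ a ∘ c = a ∘ c from funext fun k =>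
            RingHom.congr_fun (Subsingleton.elim (σ.comp a) a) _, ← map_kp e, ← wedge_map,
          show σ ∘ a ∘ c = a ∘ c from funext fun k =>
            RingHom.congr_fun (Subsingleton.elim (σ.comp a) a) _, ← κa, ← hd, map_kp e] at h1
        exact congrFun (kp_inj h.two L.ii (Sum.swap_leftInverse.surjective.injective_comp_right
          h1)).symm
      choose n hn using fun k => L.fix _ (hσ k)
      have e : κ (fun k => n k) = kp i d := by
        rw [κa]; congr 1; exact funext fun k => (map_natCast a _).trans (hn k)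
      refine ⟨fun k => n k, hd.symm.trans e.symm, a.injective ?_⟩
      rw [sqF_apply, sqF_apply, a.map_dotProduct, a.map_dotProduct, ← qPlus_kp L.ii,
        ← qPlus_kp L.ii, ← κa, ← κa, e, hd, qPlus_wedge, dt, one_mul]
  replace hρ : ∀ g c, κ ((ρ g).1 c) = wedge F (tM b g) (κ c) := hρ
  have kr : ∀ g : SUG B, (ρ g).1 = 1 → g.1 ∈ P := fun g e => by
    have : wedge F (tM b g) = 1 := LinearMap.ext fun w => by
      obtain ⟨d, rfl⟩ := LinearMap.injective_iff_surjective.1 (kp_inj h.two L.ii) w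
      have : ∀ k, wedge F (tM b g) (kp i (ee F k)) = kp i (ee F k) := fun k => by
        have e' : κ (ee _ k) = kp i (ee F k) := by
          rw [κa]; congr 1; ext l; simp [Pi.single_apply]
        rw [← e', ← hρ, e]; rfl
      exact LinearMap.congr_fun ((Pi.basisFun F _).ext (f₁ := wedge F (tM b g) ∘ₗ kp i)
        (f₂ := kp i) (by simpa using this)) d
    rcases eq_of_wedge_eq_one (by simp [dt]) this with e | e
    · rw [show g.1 = 1 from LinearEquiv.toLinearMap_injective ((LinearMap.toMatrix b b).injective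
        (e.trans (LinearMap.toMatrix_one b).symm))]
      exact one_mem _
    · rw [show g.1 = ng F V from LinearEquiv.toLinearMap_injective
        ((LinearMap.toMatrix b b).injective (e.trans (by
          rw [← LinearMap.toMatrix_one b, ← map_neg]; rfl)))]
      exact h.neg
  have wg : ∀ k, k ≠ .inl 0 → ∀ c, wedge F (tM b (gm1 (y k))) (κ c) = (2 : F) • κ (rq k c) :=
    fun k hk c => by
      rw [show tM b _ = _ from (hy k hk).2.2, κa, wedge_mG L.ii k hk, κa]
      congr 2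
      ext l
      simp [rq, Pi.single_apply, apply_ite a]
  have ry : ∀ k, (ρ ⟨y k, hle (hH.le (my k))⟩).1 = tt _ (.inl 0) k := fun k => by
    by_cases hk : k = .inl 0
    · rw [hk, tt_self, show (⟨y (.inl 0), _⟩ : SUG B) = 1 from Subtype.ext y0, map_one]; rfl
    refine LinearEquiv.ext fun c => κi (smul_right_injective _ (mul_ne_zero h.two h.two) ?_)
    have e : tM b (gm1 (y k)) * tM b (gm1 (y k)) = (2 : F) • tM b (y k) := by
      rw [← map_mul]
      exact (congrArg (LinearMap.toMatrix b b) (LinearMap.ext fun v => by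
        simp [gm1_apply h.two (hy k hk).1, sq_apply (hy k hk).1, two_smul]; abel)).trans
          (map_smul _ _ _)
    have e' := congrArg (wedge F · (κ c)) e
    simp only [map_mul, End.mul_apply, wg k hk, map_smul] at e'
    rw [show rq k (rq k c) = tt _ (.inl 0) k c by
      rw [tt_apply (Ne.symm hk)]; simp [rq, hk, Ne.symm hk]; module] at e'
    simp only [hρ, mul_smul, e']
    simp [wedge_apply, smul_smul]
  have tP : ∀ k l, ∃ x ∈ P, ∃ hx, (ρ ⟨x, hx⟩).1 = tt _ k l := fun k l => by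
    obtain ⟨x, hx, e⟩ := tt_all (M := (P.subgroupOf (SUG B)).map ((OG _).subtype.comp ρ))
      (fun k => ⟨_, my k, ry k⟩) k l
    exact ⟨x, hx, x.2, e⟩
  by_cases hO : OmG (sqF _ _) ≤ (H.subgroupOf (SUG B)).map ((OG _).subtype.comp ρ)
  · refine .inr fun g hg => ?_
    obtain ⟨k, hk, e⟩ := hO (mem_OmG.2 (range_le_commutator_of_perfect ρ
      (L.qs hV.ge).1.1 ⟨⟨g, hg⟩, rfl⟩))
    have := hH.le (kr (k⁻¹ * ⟨g, hg⟩) (by
      rw [map_mul, map_inv, coe_mul, coe_inv, inv_mul_eq_one]; exact e))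
    exact (mul_mem_cancel_left (inv_mem hk)).1 this
  have f6 : F6 ((H.subgroupOf (SUG B)).map ((OG _).subtype.comp ρ)) := by
    refine ⟨by simpa using hp.1, h2, by simp, fun k l => ?_,
      cyc_all (o := .inl 0) fun k l hk hl kl => ?_,
      by rintro _ ⟨g, -, rfl⟩; exact (ρ g).2, hO⟩
    · obtain ⟨x, hx, _, e⟩ := tP k l
      exact ⟨_, hH.le hx, e⟩
    · have hg := hH.gate _ (my k) _ (my l) (hy k hk).1 (hy l hl).1 (hy k hk).2.1 (hy l hl).2.1
      have key : ∀ c, (ρ ⟨_, hle hg⟩).1 (rq l c) = rq k c := fun c =>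
        κi (smul_right_injective _ h.two (by
          simp only [hρ, ← map_smul, ← wg l hl, ← wg k hk]
          rw [← End.mul_apply, ← map_mul, ← map_mul, inv_mul_cancel_right]))
      refine ⟨_, ⟨⟨_, hle hg⟩, hg, rfl⟩, ?_, ?_, ?_, fun m m1 m2 m3 => ?_⟩
      · simpa [rq, hk, kl, kl.symm, Ne.symm hk] using key (ee _ k)
      · simpa [rq, hk, kl, kl.symm, Ne.symm hk, Ne.symm hl] using key (ee _ l)
      · simpa [rq, hk, hl, neg_eq_iff_eq_neg] using key (-ee _ (.inl 0))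
      · simpa [rq, m1, m2, m3, Ne.symm m1, Ne.symm m2, Ne.symm m3] using key (ee _ m)
  refine .inl fun g hg => norm_of_gen gen fun k => ?_
  obtain ⟨c, d, e⟩ := mon_conj_tt (f6.le_MonG ⟨⟨g, hle hg⟩, hg, rfl⟩) (.inl 0) k
  obtain ⟨x, hx, hx', e'⟩ := tP c d
  have := kr (⟨g, hle hg⟩ * ⟨y k, hle (hH.le (my k))⟩ * ⟨g, hle hg⟩⁻¹ * ⟨x, hx'⟩⁻¹) (by
    simp only [map_mul, map_inv, coe_mul, coe_inv, mul_inv_eq_one, ry, e']; exact e)
  exact (mul_mem_cancel_right (inv_mem hx)).1 this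

end CF.MaxSub
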