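/-
Normalisers of `4 ∘ 2^{1+2k}` in `SL` and `SU`: centralisers of Pauli elements.
-/
import Cfsg.Agent.MaxSub.C6O

set_option autoImplicit false
set_option linter.unusedSectionVars false

namespace CF.MaxSub

open Module Subgroup Geom

theorem PG.pm_eq {G : Type*} [Group G] {P : Subgroup G} {z : G} {γ : G → G} (h : PG P z γ)
    {a b : G} (ha : a ∈ P) (hb : b ∈ P) (e : h.cl a = h.cl b) (q : a * a = b * b) :
    a = b ∨ a = z * b := by
  have hc := (h.cl_eq ha hb).1 e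
  obtain ⟨c, rfl⟩ : ∃ c, a = c * b := ⟨a * b⁻¹, by simp⟩
  rw [mul_inv_cancel_right] at hc
  rw [mul_assoc, ← mul_assoc b, mem_center_iff.1 hc, mul_assoc, ← mul_assoc, mul_eq_right] at q
  exact (h.uniq c hc q).imp (fun e => by rw [e, one_mul]) fun e => by rw [e]

variable {F V : Type*} [Field F] [AddCommGroup V] [Module F V] {σ : F →+* F}
  {B : V →ₛₗ[σ] V →ₗ[F] F} {i : F} {P H : Subgroup (V ≃ₗ[F] V)}

theorem invol_split (h2 : (2 : F) ≠ 0) {x : V ≃ₗ[F] V} (xx : x * x = 1) (v : V) :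
    ∃ u w, x u = u ∧ x w = -w ∧ v = u + w :=
  ⟨(2 : F)⁻¹ • (v + x v), (2 : F)⁻¹ • (v - x v), by simp [invol_apply xx, add_comm],
    by simp only [map_smul, map_sub, invol_apply xx]; module, by
      match_scalars <;> field_simp <;> ring⟩

theorem ext_invol (h2 : (2 : F) ≠ 0) {x a b : V ≃ₗ[F] V} (xx : x * x = 1)
    (h : ∀ v, x v = v → a v = b v) (h' : ∀ v, x v = -v → a v = b v) : a = b :=
  LinearEquiv.ext fun v => by
    obtain ⟨u, w, hu, hw, rfl⟩ := invol_split h2 xx v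
    rw [map_add, map_add, h u hu, h' w hw]

theorem sq_one_one {x : V ≃ₗ[F] V} (xx : x * x = 1) (v : V) : x (x v) = ((1 : F) * 1) • v := by
  simp [invol_apply xx]

theorem perp_of_invol (h2 : (2 : F) ≠ 0) {x : V ≃ₗ[F] V} (hx : ∀ u v, B (x u) (x v) = B u v)
    {u w : V} (hu : x u = u) (hw : x w = -w) : B u w = 0 ∧ B w u = 0 := by
  have a := hx u w
  have b := hx w u
  simp only [hu, hw, map_neg, LinearMap.neg_apply] at a b
  exact ⟨(mul_eq_zero.1 (by linear_combination -a)).resolve_left h2,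
    (mul_eq_zero.1 (by linear_combination -b)).resolve_left h2⟩

theorem nondeg_res (h2 : (2 : F) ≠ 0) (hB : B.Nondegenerate) {x : V ≃ₗ[F] V} (xx : x * x = 1)
    (hx : ∀ u v, B (x u) (x v) = B u v) : (B.domRestrict₁₂ (Eg x 1) (Eg x 1)).Nondegenerate :=
  ⟨fun u hu => Subtype.ext (hB.1 _ fun v => by
    obtain ⟨a, w, ha, hw, rfl⟩ := invol_split h2 xx v
    rw [map_add, (perp_of_invol h2 hx (mem_Eg_one.1 u.2) hw).1, add_zero]
    exact hu ⟨a, mem_Eg_one.2 ha⟩), fun u hu => Subtype.ext (hB.2 _ fun v => by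
    obtain ⟨a, w, ha, hw, rfl⟩ := invol_split h2 xx v
    rw [map_add, LinearMap.add_apply, (perp_of_invol h2 hx (mem_Eg_one.1 u.2) hw).2, add_zero]
    exact hu ⟨a, mem_Eg_one.2 ha⟩)⟩

theorem LC.res (L : LC B i) (h2 : (2 : F) ≠ 0) {x : V ≃ₗ[F] V} (xx : x * x = 1) (hx : x ∈ UG B) :
    LC (B.domRestrict₁₂ (Eg x 1) (Eg x 1)) i :=
  ⟨L.ii, L.fix, L.alt.imp (fun e => ⟨by rw [e.1]; rfl, e.2⟩) fun e =>
    ⟨⟨e.1.ne_id, e.1.invol, ⟨fun u v => e.1.eq u v⟩⟩, nondeg_res h2 e.2.1 xx (mem_UG.1 hx), e.2.2⟩⟩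

theorem rI_le_UG {t : V ≃ₗ[F] V} {c : F} (hH : H ≤ UG B) :
    rI (rs t c) H ≤ UG (B.domRestrict₁₂ (Eg t c) (Eg t c)) := by
  rintro _ ⟨g, hg, rfl⟩
  exact mem_UG.2 fun u v => mem_UG.1 (hH hg) u v

variable [Finite F] [Finite V]

theorem LC.jj (L : LC B i) : sc V L.i0 * sc V L.i0 = ng F V :=
  LinearEquiv.ext fun v => by simp [smul_smul, L.ii]

namespace PaL

variable (h : PaL P)
include h

theorem finrank_sq : finrank F V ^ 2 = 2 ^ finrank (ZMod 2) h.pg.W := by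
  refine h.finrank_sq_le.antisymm ?_
  have := Fintype.ofFinite h.pg.W
  have n0 : (finrank F V : F) ≠ 0 := fun e => by
    obtain ⟨v, v0⟩ := @exists_ne V h.nt 0
    obtain ⟨φ, h1, -⟩ := exists_dual_one (W := (⊥ : Submodule F V)) v0
    simpa [h1] using h.span (LinearMap.ker (LinearMap.trace F V)) (fun x hx => by
      by_cases x0 : x ∈ center _
      · obtain ⟨c, hc⟩ := mem_center_iff_smul.1 x0
        simp [show (x : End F V) = c • 1 from LinearMap.ext hc, e]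
      · exact h.trace_eq_zero hx x0) (φ.smulRight v)
  have li : LinearIndependent F fun w => (h.pg.out w : End F V) :=
    Fintype.linearIndependent_iff.2 fun g e w => by
      have := congrArg (fun f => LinearMap.trace F V (f * ((h.pg.out w)⁻¹ : V ≃ₗ[F] V))) e
      simp only [Finset.sum_mul, smul_mul_assoc, map_sum, map_smul, zero_mul, map_zero] at this
      rw [Finset.sum_eq_single w (fun u _ hu => by
        exact smul_eq_zero_of_right _ (h.trace_eq_zero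
          (mul_mem (h.pg.out_mem u) (inv_mem (h.pg.out_mem w))) fun e => hu (by
            simpa using (h.pg.cl_eq (h.pg.out_mem u) (h.pg.out_mem w)).2 e))) (by simp),
        show (h.pg.out w : End F V) * ((h.pg.out w)⁻¹ : V ≃ₗ[F] V) = 1 from
          LinearMap.ext (apply_inv_apply _)] at this
      simpa [n0] using this
  have h1 := li.fintype_card_le_finrank
  rw [finrank_linearMap, ← Nat.card_eq_fintype_card,
    Module.natCard_eq_pow_finrank (K := ZMod 2)] at h1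
  simpa [pow_two] using h1

theorem le_finrank {k : ℕ} (hk : 2 * k ≤ finrank (ZMod 2) h.pg.W) : 2 ^ k ≤ finrank F V :=
  (Nat.pow_le_pow_iff_left two_ne_zero).1 (by
    rw [h.finrank_sq, ← pow_mul]; exact Nat.pow_le_pow_right two_pos (by omega))

theorem det_gate (h3 : Rich P) {y y' : V ≃ₗ[F] V} (hy : y ∈ P) (hy' : y' ∈ P)
    (e : y * y = ng F V) (e' : y' * y' = ng F V) (y0 : y ∉ center _) (y0' : y' ∉ center _) :
    gm1 y * (gm1 y')⁻¹ ∈ SLG F V := by
  obtain ⟨n, -, -, rfl⟩ := HC.fusion (H := ⊤) { h.pg with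
    le := le_top
    gate := fun _ _ _ _ _ _ _ _ => mem_top _ } h3 hy hy' y0 y0'
      ((h.pg.qd_one e).trans (h.pg.qd_one e').symm)
  simp [← h.pg.g3 y n e, MonoidHom.mem_ker]

theorem le_SLG {j : V ≃ₗ[F] V} (hj : j ∈ P) (jc : j ∈ center _) (jj : j * j = ng F V)
    (h3 : 3 ≤ finrank (ZMod 2) h.pg.W) : P ≤ SLG F V := by
  have k1 : ∀ y ∈ P, y ∉ center _ → qd y = 1 → y ∈ SLG F V := fun y hy y0 q => by
    obtain ⟨x, hx, e⟩ := h.pg.exists_partner y0
    have := congrArg LinearEquiv.det (h.pg.g2 y x (h.pg.sq_z hy q)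
      (h.pg.anti (h.pg.pm hx hy) (bt_comm y x ▸ e)))
    rw [map_mul, map_mul, map_mul, mul_comm, mul_left_inj, right_eq_mul] at this
    exact this
  have k2 : ∀ x ∈ P, x ∉ center _ → x ∈ SLG F V := fun x hx x0 => by
    rcases z2 (qd x) with q | q
    · obtain ⟨e, he, e1, e0, e2⟩ := h.pg.exists_comm [x] (by simpa) (x := x) (by simp; omega)
      obtain ⟨y, hy, qy, e3⟩ := h.pg.exists_qd_cl hj jc jj he 1
      refine (mul_mem_cancel_left (k1 y hy (by rwa [← h.pg.cl_eq_zero hy, e3, h.pg.cl_eq_zero he])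
        qy)).1 (k1 _ (mul_mem hy hx) ?_ ?_)
      · rwa [← h.pg.cl_eq_zero (mul_mem hy hx), h.pg.cl_mul hy hx, h.pg.add_eq_zero, e3]
      · rw [h.pg.qd_mul hy hx, qy, q, h.pg.bt_congr hy he e3, bt_comm, e1 x (by simp)]; rfl
    · exact k1 x hx x0 q
  intro c hc
  by_cases c0 : c ∈ center _
  · obtain ⟨x, hx, x0⟩ := h.pg.exists_notMem_center (by omega)
    exact (mul_mem_cancel_right (k2 x hx x0)).1 (k2 _ (mul_mem hc hx)
      (by rwa [mul_mem_cancel_left c0]))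
  · exact k2 c hc c0

theorem mem_of_four (L : LC B i) (hj : sc V L.i0 ∈ P) (c : V ≃ₗ[F] V) (hc : c ∈ center _)
    (e : c * c * (c * c) = 1) : c ∈ P := by
  rcases h.pg.uniq _ (mul_mem hc hc) e with e | e
  · exact (h.pg.uniq c hc e).elim (fun e => e ▸ one_mem _) fun e => e ▸ h.neg
  · refine (mul_mem_cancel_left hj).1 ((h.pg.uniq _ (mul_mem (sc_cen _) hc) ?_).elim
      (fun e => e ▸ one_mem _) fun e => e ▸ h.neg)
    rw [mul_assoc, ← mul_assoc c, mem_center_iff.1 (sc_cen _) c, mul_assoc, e, ← mul_assoc, L.jj,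
      ng_ng]

theorem comm_of_vec {a b : V ≃ₗ[F] V} (p : PM (ng F V) a b) {v : V} (v0 : v ≠ 0)
    (e : a (b v) = b (a v)) : a * b = b * a :=
  p.resolve_right fun e' => v0 (by simpa using h.eq_zero (e.symm.trans (anti_apply e' v)))

theorem klein (L : LC B i) (h4 : finrank (ZMod 2) h.pg.W = 4) (hj : sc V L.i0 ∈ P)
    (hH : HC P H (ng F V) gm1) (hle : H ≤ UG B) : H ≤ Nm P ∨ SUG B ≤ H := by
  have hH' : HC P (H ⊓ SLG F V) (ng F V) gm1 :=
    { h.pg with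
      le := le_inf hH.le (h.le_SLG hj (sc_cen _) L.jj (by omega))
      gate := fun y hy y' hy' e e' y0 y0' => ⟨hH.gate y hy y' hy' e e' y0 y0',
        h.det_gate (h.pg.rich_of_center hj (sc_cen _) L.jj) hy hy' e e' y0 y0'⟩ }
  refine (h.klein0 L h4 hj hH' (inf_le_inf_right _ hle)).imp (fun e g hg => ?_)
    fun e => e.trans inf_le_left
  exact hH'.norm_of_normal (by change _ ≤ finrank _ h.pg.W; omega) (h.mem_of_four L hj) e hj
    (sc_cen _) L.jj (mem_normalizer_fintype fun a ha => ⟨H.mul_mem (H.mul_mem hg ha.1) (H.inv_mem hg),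
      (MonoidHom.normal_ker _).conj_mem _ ha.2 g⟩)

end PaL

/-- Centralisers of involutions normalise the restricted Pauli groups. -/
def HN (P H : Subgroup (V ≃ₗ[F] V)) : Prop := ∀ x ∈ P, x * x = 1 → x ∉ center _ → ∀ c ∈ H,
  c * x = x * c → ∀ e ∈ P, e * x = x * e → ∃ f ∈ P, f * x = x * f ∧
    ∀ v, x v = v → (c * e * c⁻¹) v = f v

theorem exists_of_le_Nm {t : V ≃ₗ[F] V} {a : F} (h : rI (rs t a) H ≤ Nm (rI (rs t a) P))
    {c e : V ≃ₗ[F] V} (hc : c ∈ H) (ct : c * t = t * c) (he : e ∈ P) (et : e * t = t * e) :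
    ∃ f ∈ P, f * t = t * f ∧ ∀ v, t v = a • v → (c * e * c⁻¹) v = f v := by
  obtain ⟨f, hf, hf', e'⟩ := exists_of_rI (Nm_conj (h (mem_rI hc (mem_Cz.2 ct)))
    (mem_rI he (mem_Cz.2 et)))
  exact ⟨f, hf, mem_Cz.1 hf', fun v hv =>
    (congrArg Subtype.val (LinearEquiv.congr_fun e' ⟨v, hv⟩)).symm⟩

namespace PaL

variable (h : PaL P) (hN : HN P H)
include h hN

theorem lemU {x t c e u : V ≃ₗ[F] V} (hx : x ∈ P) (xx : x * x = 1) (x0 : x ∉ center _)
    (ht : t ∈ P) (tt : t * t = 1) (t0 : t ∉ center _) (tx : t * x = x * t)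
    (ne : h.pg.cl t ≠ h.pg.cl x) (hc : c ∈ H) (ct : c * t = t * c) (he : e ∈ P)
    (ex : e * x = x * e) (et : e * t = t * e) (hu : u ∈ P)
    (h1 : ∀ v, x v = -v → (c * e * c⁻¹) v = e v) (h2 : ∀ v, x v = v → (c * e * c⁻¹) v = u (e v)) :
    bt u e = 0 := by
  obtain ⟨f, hf, -, e1⟩ := hN t ht tt t0 c hc ct e he et
  obtain ⟨v, v0, v1, v2⟩ := h.exists_fix2 (mul_mem h.neg hx) ht
    (by rw [mul_assoc, ← mul_assoc x, h.pg.zr, mul_assoc, h.pg.zzl, xx])
    tt (by rwa [mul_mem_cancel_left ng_cen]) t0 (by rw [h.pg.zl, tx, mul_assoc])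
    (by rwa [h.pg.cl_mul h.neg hx, (h.pg.cl_eq_zero h.neg).2 ng_cen, zero_add])
  obtain ⟨w, w0, w1, w2⟩ := h.exists_fix2 hx ht xx tt x0 t0 tx ne
  rw [ng_mul_apply, neg_eq_iff_eq_neg] at v1
  have fe := h.comm_of_vec (h.pg.pm hf he) v0 (by
    rw [← e1 v v2, h1 v v1, ← e1 _ (by rw [← comm_apply et, v2]),
      h1 _ (by rw [← comm_apply ex, v1, map_neg])])
  refine bt_eq_zero.2 (h.comm_of_vec (h.pg.pm hu he) (v := e w) (by simpa) ?_)
  rw [← h2 w w1, e1 w w2, ← comm_apply fe, ← e1 _ (by rw [← comm_apply et, w2]),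
    h2 _ (by rw [← comm_apply ex, w1])]

theorem stepC (hH : HC P H (ng F V) gm1) {j : V ≃ₗ[F] V} (hj : j ∈ P) (jc : j ∈ center _)
    (jj : j * j = ng F V) (h5 : 5 ≤ finrank (ZMod 2) h.pg.W) {y c e : V ≃ₗ[F] V} (hy : y ∈ P)
    (yy : y * y = ng F V) (y0 : y ∉ center _) (hc : c ∈ H) (cy : c * y = y * c) (he : e ∈ P)
    (ey : e * y = y * e) (ee : e * e = ng F V) (e0 : e ∉ center _) (ne : h.pg.cl e ≠ h.pg.cl y) :
    c * e * c⁻¹ ∈ P := by
  have jm : ∀ {a b}, a * b = b * a → a * (j * b) = j * b * a := fun {a b} e => by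
    rw [← mul_assoc, mem_center_iff.1 jc, mul_assoc, e, mul_assoc]
  have jq : ∀ {b}, b * b = ng F V → j * b * (j * b) = 1 := fun {b} e => by
    rw [mul_assoc, jm rfl, mul_assoc, e, ← mul_assoc, jj, ng_ng]
  have jl : ∀ b ∈ P, h.pg.cl (j * b) = h.pg.cl b := fun b hb => by
    rw [h.pg.cl_mul hj hb, (h.pg.cl_eq_zero hj).2 jc, zero_add]
  obtain ⟨x, ex⟩ : ∃ x, j * y = x := ⟨_, rfl⟩
  have hx : x ∈ P := ex ▸ mul_mem hj hy
  have xx : x * x = 1 := ex ▸ jq yy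
  have x0 : x ∉ center _ := by rwa [← ex, mul_mem_cancel_left jc]
  have cx : c * x = x * c := ex ▸ jm cy
  have ex' : e * x = x * e := ex ▸ jm ey
  rw [← jl y hy, ex] at ne
  have nx : ∀ {a}, a * x = x * a → a * (ng F V * x) = ng F V * x * a := fun e => by
    rw [h.pg.zl, e, mul_assoc]
  have xx' : ng F V * x * (ng F V * x) = 1 := by rw [mul_assoc, h.pg.zl, h.pg.zzl, xx]
  have x0' : ng F V * x ∉ center _ := by rwa [mul_mem_cancel_left ng_cen]
  have nl : h.pg.cl (ng F V * x) = h.pg.cl x := by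
    rw [h.pg.cl_mul h.neg hx, (h.pg.cl_eq_zero h.neg).2 ng_cen, zero_add]
  obtain ⟨e₁, m1, c1, f1⟩ := hN x hx xx x0 c hc cx e he ex'
  obtain ⟨e₂, m2, c2, f2⟩ := hN _ (mul_mem h.neg hx) xx' x0' c hc (nx cx) e he (nx ex')
  have key : ∀ t ∈ P, t * t = 1 → t ∉ center _ → h.pg.cl t = h.pg.cl x → c * t = t * c →
      e * t = t * e → ∀ f ∈ P, f * t = t * f → (∀ v, t v = v → (c * e * c⁻¹) v = f v) →
      f * f = ng F V ∧ f ∉ center _ ∧ h.pg.cl f ≠ h.pg.cl x := fun t ht tt t0 tx ct et f hf ft e => by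
    have e1 : rs t 1 ⟨f, mem_Cz.2 ft⟩ = rs t 1 ⟨c, mem_Cz.2 ct⟩ * rs t 1 ⟨_, mem_Cz.2 et⟩ *
        (rs t 1 ⟨c, mem_Cz.2 ct⟩)⁻¹ := rs_ext fun v => (e v (mem_Eg_one.1 v.2)).symm
    refine ⟨(h.sq f hf).resolve_left fun ff => ?_, ?_⟩
    · obtain ⟨v, hv, v0⟩ := h.exists_Eg one_ne_zero (sq_one_one tt) t0
      rw [mem_Eg_one] at hv
      have := invol_apply ff v
      rw [← e _ (by rw [← comm_apply ft, hv]), ← e v hv] at this
      simp only [LinearEquiv.mul_apply, inv_apply_apply, sq_apply ee, map_neg,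
        apply_inv_apply] at this
      exact v0 (h.eq_zero this.symm)
    · rw [← tx, ← not_or, ← h.res_center ht one_ne_zero (sq_one_one tt) t0 hf (mem_Cz.2 ft), e1,
        conj_mem_center_iff, h.res_center ht one_ne_zero (sq_one_one tt) t0 he, tx]
      exact not_or.2 ⟨e0, ne⟩
  obtain ⟨q1, n1, l1⟩ := key x hx xx x0 rfl cx ex' e₁ m1 c1 f1
  obtain ⟨q2, n2, l2⟩ := key _ (mul_mem h.neg hx) xx' x0' nl (nx cx) (nx ex') e₂ m2 c2 f2
  replace c2 : e₂ * x = x * e₂ := by rwa [h.pg.zl, mul_assoc, mul_right_inj] at c2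
  replace f2 : ∀ v, x v = -v → (c * e * c⁻¹) v = e₂ v := fun v hv => f2 v (by
    rw [ng_mul_apply, hv, neg_neg])
  have fin : ∀ f ∈ P, f * f = ng F V → h.pg.cl e₁ = h.pg.cl f → (∀ v, x v = v → f v = e₂ v) →
      c * e * c⁻¹ ∈ P := fun f hf ff e e' => by
    rcases h.pg.pm_eq m1 hf e (q1.trans ff.symm) with rfl | rfl
    · rw [ext_invol h.two xx (fun v hv => (f1 v hv).trans (e' v hv)) f2]; exact m2
    · rw [ext_invol h.two (b := ng F V * x * e₂) xx (fun v hv => (f1 v hv).trans (by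
        simp [e' v hv, ← comm_apply c2, hv])) fun v hv => (f2 v hv).trans (by
          simp [← comm_apply c2, hv])]
      exact mul_mem (mul_mem h.neg hx) m2
  by_cases l3 : h.pg.cl e₁ = h.pg.cl e₂
  · exact fin e₂ m2 q2 l3 fun _ _ => rfl
  by_cases l4 : h.pg.cl e₂ = h.pg.cl x + h.pg.cl e₁
  · exact fin _ (mul_mem hx m2) (by rw [mul_assoc, ← mul_assoc e₂, c2, mul_assoc, q2, ← mul_assoc,
      xx, one_mul]) (by rw [h.pg.cl_mul hx m2, l4, ← add_assoc, h.pg.add_self, zero_add])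
      fun v hv => by simp [← comm_apply c2, hv]
  exfalso
  have qe : c * e * c⁻¹ * (c * e * c⁻¹) = ng F V := by rw [conj_mul, ee, h.pg.conj_z]
  obtain ⟨d, ed⟩ : ∃ d, gm1 (c * e * c⁻¹) * (gm1 e₂)⁻¹ = d := ⟨_, rfl⟩
  obtain ⟨g, eg⟩ : ∃ g, gm1 e₁ * (gm1 e₂)⁻¹ = g := ⟨_, rfl⟩
  have hd : d ∈ H := by
    have := mul_mem (mul_mem (mul_mem hc (hH.gate e he y hy ee yy e0 y0)) (inv_mem hc))
      (hH.gate y hy e₂ m2 yy q2 y0 n2)
    rwa [mul_assoc c, mul_assoc (gm1 e), ← mul_inv_rev, ← h.pg.g1 y c yy cy, mul_inv_rev,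
      ← mul_assoc (gm1 e), ← mul_assoc c, ← mul_assoc c, h.pg.g3 e c ee, mul_assoc,
      inv_mul_cancel_left, ed] at this
  have gx := comm_inv (h.pg.g1 e₂ x q2 c2.symm)
  have d1 : ∀ v, x v = -v → d v = v := fun v hv => by
    rw [← ed, LinearEquiv.mul_apply, gm1_apply h.two qe, f2 _ (by
      rw [← comm_apply gx, hv, map_neg]), ← gm1_apply h.two q2, apply_inv_apply]
  have d2 : ∀ v, x v = v → d v = g v := fun v hv => by
    rw [← ed, ← eg, LinearEquiv.mul_apply, gm1_apply h.two qe, f1 _ (by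
      rw [← comm_apply gx, hv]), ← gm1_apply h.two q1]; rfl
  have gx' : g * x = x * g := eg ▸ comm_mul (h.pg.g1 e₁ x q1 c1.symm) gx
  have fin2 : ∀ t ∈ P, t * t = 1 → t ∉ center _ → t * x = x * t → h.pg.cl t ≠ h.pg.cl x →
      t * e₁ = e₁ * t → t * e₂ = e₂ * t → ∀ a ∈ P, a * x = x * a → a * t = t * a → ∀ u ∈ P,
      g * a * g⁻¹ = u * a → bt u a = 0 := fun t ht tt t0 tx ne t1 t2 a ha ax at' u hu e => by
    have gt : g * t = t * g := eg ▸ comm_mul (h.pg.g1 e₁ t q1 t1) (comm_inv (h.pg.g1 e₂ t q2 t2))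
    refine h.lemU hN hx xx x0 ht tt t0 tx ne hd (ext_invol h.two xx (fun v hv => ?_)
      fun v hv => ?_) ha ax at' hu (fun v hv => ?_) fun v hv => ?_
    · simp only [LinearEquiv.mul_apply]
      rw [d2 v hv, d2 _ (by rw [← comm_apply tx, hv]), comm_apply gt]
    · simp only [LinearEquiv.mul_apply]
      rw [d1 v hv, d1 _ (by rw [← comm_apply tx, hv, map_neg])]
    · simp only [LinearEquiv.mul_apply]
      rw [← d1 v hv, inv_apply_apply, d1 v hv, d1 _ (by rw [← comm_apply ax, hv, map_neg])]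
    · have e1 : x (g⁻¹ v) = g⁻¹ v := by rw [← comm_apply (comm_inv gx'), hv]
      have e2 : d⁻¹ v = g⁻¹ v := by
        rw [← apply_inv_apply g v, ← d2 _ e1, inv_apply_apply, d2 _ e1, apply_inv_apply]
      simp only [LinearEquiv.mul_apply]
      rw [e2, d2 _ (by rw [← comm_apply ax, e1])]
      exact LinearEquiv.congr_fun e v
  rcases h.pg.pm m1 m2 with p | p
  · obtain ⟨a, ha, a1, a2, a3⟩ := h.pg.sep2 hx m1 m2 n2 l2 (Ne.symm l3) l4
    have := fin2 _ (mul_mem hj m1) (jq q1) (by rwa [mul_mem_cancel_left jc]) (jm c1.symm).symm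
      (by rwa [jl _ m1]) (jm rfl).symm (jm p.symm).symm a ha (bt_eq_zero.1 a1)
      (jm (bt_eq_zero.1 a2)) _ (inv_mem m2) (by
        have e1 := h.pg.g2 e₂ (e₂⁻¹ * a) q2 (by
          rw [mul_assoc, h.pg.anti (h.pg.pm ha m2) a3, h.pg.zl, inv_mul_cancel_left,
            mul_inv_cancel_left])
        rw [mul_inv_cancel_left] at e1
        rw [← eg, mul_inv_rev, inv_inv, mul_assoc, mul_assoc, ← mul_assoc a, ← e1, mul_assoc,
          inv_mul_cancel_left, ← mul_assoc, h.pg.g1 e₁ _ q1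
            (comm_mul (comm_inv p.symm) (bt_eq_zero.1 a2)), mul_inv_cancel_right])
    rw [h.pg.bt_congr (inv_mem m2) m2 (h.pg.cl_inv m2), bt_comm, a3] at this
    exact one_ne_zero this
  · obtain ⟨s, hs, s1, s0, s2⟩ := h.pg.exists_comm [x, e₁, e₂] (by simp [hx, m1, m2]) (x := x)
      (by simp; omega)
    obtain ⟨t, ht, qt, et⟩ := h.pg.exists_qd_cl hj jc jj hs 0
    have tc : ∀ u ∈ [x, e₁, e₂], t * u = u * t := fun u hu =>
      bt_eq_zero.1 (by rw [h.pg.bt_congr ht hs et, bt_comm, s1 u hu])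
    have := fin2 t ht (qd_eq_zero.1 qt) (by rwa [← h.pg.cl_eq_zero ht, et, h.pg.cl_eq_zero hs])
      (tc x (by simp)) (et ▸ s2) (tc _ (by simp)) (tc _ (by simp)) e₂ m2 c2 (tc _ (by simp)).symm
      e₁ m1 (by
        rw [← eg, mul_assoc (gm1 e₁), comm_inv (h.pg.g1 e₂ e₂ q2 rfl), mul_inv_rev, inv_inv,
          ← mul_assoc, ← mul_assoc, inv_mul_cancel_right,
          h.pg.g2 e₁ e₂ q1 (by rw [p, h.pg.zzl]), mul_inv_cancel_right])
    exact one_ne_zero ((h.pg.bt_one p).symm.trans this)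

end PaL

end CF.MaxSub
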