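/-
Normalisers of `4 ∘ 2^{1+2k}` in `SL` and `SU`: the induction.
-/
import Cfsg.Agent.MaxSub.C6P
import Cfsg.Agent.Geom.TvGen

set_option autoImplicit false
set_option linter.unusedSectionVars false

namespace CF.MaxSub

open Module Subgroup Geom

universe u

variable {F : Type*} {V : Type u} [Field F] [AddCommGroup V] [Module F V] {σ : F →+* F}
  {B : V →ₛₗ[σ] V →ₗ[F] F} {i : F} {P H : Subgroup (V ≃ₗ[F] V)}

/-- The elements fixing the `-1`-eigenspace pointwise. -/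
def FxN (x : V ≃ₗ[F] V) : Subgroup (V ≃ₗ[F] V) where
  carrier := {g | ∀ v, x v = -v → g v = v}
  mul_mem' ha hb v hv := by rw [LinearEquiv.mul_apply, hb v hv, ha v hv]
  one_mem' _ _ := rfl
  inv_mem' {a} ha v hv := by rw [← ha v hv, inv_apply_apply, ha v hv]

theorem conj_mem_FxN {x c k : V ≃ₗ[F] V} (cx : c * x = x * c) (hk : k ∈ FxN x) :
    c * k * c⁻¹ ∈ FxN x := fun v hv => by
  rw [LinearEquiv.mul_apply, LinearEquiv.mul_apply,
    hk _ (by rw [← comm_apply (comm_inv cx), hv, map_neg]), apply_inv_apply]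

/-- All elements of `K` supported on the fixed space of `x` lie in `H`. -/
def GdX (K H : Subgroup (V ≃ₗ[F] V)) (x : V ≃ₗ[F] V) : Prop :=
  ∀ g ∈ K, g * x = x * g → g ∈ FxN x → g ∈ H

theorem GdX.conj {K : Subgroup (V ≃ₗ[F] V)} {x n : V ≃ₗ[F] V} (h : GdX K H x) (hn : n ∈ H)
    (hK : n ∈ Nm K) : GdX K H (n * x * n⁻¹) := fun g hg gx hf => by
  have := h (n⁻¹ * g * n⁻¹⁻¹) (Nm_conj (inv_mem hK) hg) (by
    rw [inv_inv, ← mul_left_inj n⁻¹, ← mul_right_inj n]
    simpa [mul_assoc] using gx) fun v hv => by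
      simp only [inv_inv, LinearEquiv.mul_apply]
      rw [hf (n v) (by simp [hv]), inv_apply_apply]
  rwa [mul_mem_cancel_right (inv_mem (inv_mem hn)), mul_mem_cancel_left (inv_mem hn)] at this

theorem le_Nm_SUG (hle : H ≤ UG B) [Finite V] : H ≤ Nm (SUG B) := fun _ hg =>
  mem_normalizer_fintype fun a ha => mem_inf.2 ⟨mul_mem (mul_mem (hle hg) ha.1) (inv_mem (hle hg)),
    (MonoidHom.normal_ker _).conj_mem _ ha.2 _⟩

variable [Finite F] [Finite V]

theorem det_rs (h2 : (2 : F) ≠ 0) {x g : V ≃ₗ[F] V} (xx : x * x = 1) (gx : g ∈ Cz x)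
    (hf : g ∈ FxN x) : LinearMap.det (rs x 1 ⟨g, gx⟩ : End F (Eg x 1)) = LinearMap.det (g : End F V) := by
  have he : Eg x 1 ≤ (Eg x 1).comap (g : End F V) := fun v hv => map_mem_Eg (mem_Cz.1 gx) hv
  rw [LinearMap.det_eq_det_mul_det _ _ he, show (Eg x 1).mapQ _ _ he = LinearMap.id from
    Submodule.linearMap_qext _ (LinearMap.ext fun v => (Submodule.Quotient.eq _).2 (by
      obtain ⟨u, w, hu, hw, rfl⟩ := invol_split h2 xx v
      simpa [hf w hw] using sub_mem (map_mem_Eg (mem_Cz.1 gx) (mem_Eg_one.2 hu)) (mem_Eg_one.2 hu))),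
    LinearMap.det_id, mul_one]
  rfl

namespace PaL

variable (h : PaL P)
include h

theorem sc_res {c : F} (hc : c ≠ 0) (hj : sc V hc ∈ P) (t : V ≃ₗ[F] V) (a : F) :
    sc (Eg t a) hc ∈ rI (rs t a) P := by
  have := mem_rI (r := rs t a) hj (mem_Cz.2 (mem_center_iff.1 (sc_cen hc) t).symm)
  rwa [rs_ext (a := sc (Eg t a) hc) fun _ => rfl] at this

/-- A gate acting as a Pauli element on the fixed space and trivially on the other one. -/
theorem gate_fx {x y : V ≃ₗ[F] V} (xx : x * x = 1) (yy : y * y = ng F V) (yx : y * x = x * y) :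
    ng F V * x * y * (ng F V * x * y) = ng F V ∧
      gm1 y * (gm1 (ng F V * x * y))⁻¹ ∈ Cz x ∧ gm1 y * (gm1 (ng F V * x * y))⁻¹ ∈ FxN x ∧
      ∀ v, x v = v → (gm1 y * (gm1 (ng F V * x * y))⁻¹) v = y v := by
  have e : ng F V * x * y * (ng F V * x * y) = ng F V := LinearEquiv.ext fun v => by
    simp [comm_apply yx, invol_apply xx, sq_apply yy]
  refine ⟨e, mem_Cz.2 (comm_mul (h.pg.g1 y x yy yx.symm) (comm_inv (h.pg.g1 _ x e
    (comm_mul (comm_mul (h.pg.zr x).symm rfl) yx).symm))), fun v hv => ?_, fun v hv => ?_⟩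
  · simp only [LinearEquiv.mul_apply, gm1_inv_apply h.two e, gm1_apply h.two yy, ng_mul_apply,
      ← comm_apply yx, hv, map_neg, map_smul, map_sub, sq_apply yy, LinearEquiv.neg_apply]
    match_scalars <;> field_simp [h.two] <;> ring
  · simp only [LinearEquiv.mul_apply, gm1_inv_apply h.two e, gm1_apply h.two yy, ng_mul_apply,
      ← comm_apply yx, hv, map_neg, map_smul, map_sub, sq_apply yy, LinearEquiv.neg_apply]
    match_scalars <;> field_simp [h.two] <;> ring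

/-- If the centraliser of `x` induces a quasisimple group `S` on the fixed space, then so does the
pointwise stabiliser of the other eigenspace. -/
theorem lift_qs (hH : HC P H (ng F V) gm1) {x y : V ≃ₗ[F] V} (hx : x ∈ P) (xx : x * x = 1)
    (x0 : x ∉ center _) (hy : y ∈ P) (yy : y * y = ng F V) (y0 : y ∉ center _) (yx : y * x = x * y)
    (ne : h.pg.cl y ≠ h.pg.cl x) {S : Subgroup (Eg x 1 ≃ₗ[F] Eg x 1)} (hS : Cfsg.IsQuasisimple S)
    (h1 : rI (rs x 1) P ≤ S) (h2 : S ≤ rI (rs x 1) H) {g : V ≃ₗ[F] V} (gx : g ∈ Cz x)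
    (hf : g ∈ FxN x) (hg : rs x 1 ⟨g, gx⟩ ∈ S) : g ∈ H := by
  obtain ⟨e1, e2, e3, e4⟩ := h.gate_fx xx yy yx
  have hk := hH.gate y hy _ (mul_mem (mul_mem h.neg hx) hy) yy e1 y0 (by
    rwa [mul_assoc, mul_mem_cancel_left ng_cen, ← h.pg.cl_eq_zero (mul_mem hx hy),
      h.pg.cl_mul hx hy, h.pg.add_eq_zero, eq_comm])
  have r := h.res hx one_ne_zero (sq_one_one xx) x0
  rcases Sig.qs_eq_or_le_centralizer hS (N := rI (rs x 1) (H ⊓ FxN x) ⊓ S) inf_le_right
    (fun s hs => mem_normalizer_fintype fun a ha => mem_inf.2 ⟨by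
      obtain ⟨c, hc, cx, rfl⟩ := exists_of_rI (h2 hs)
      obtain ⟨k, hk, kx, rfl⟩ := exists_of_rI ha.1
      exact mem_rI (r := rs x 1) (a := c * k * c⁻¹) (mem_inf.2
        ⟨mul_mem (mul_mem hc hk.1) (inv_mem hc), conj_mem_FxN (mem_Cz.1 cx) hk.2⟩)
        (mul_mem (mul_mem cx kx) (inv_mem cx)),
      mul_mem (mul_mem hs ha.2) (inv_mem hs)⟩) with e | e
  · obtain ⟨k, hk, kx, e'⟩ := exists_of_rI (e.ge hg).1
    rw [ext_invol h.two xx (a := g) (b := k) (fun v hv => (congrArg Subtype.val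
      (LinearEquiv.congr_fun e' ⟨v, mem_Eg_one.2 hv⟩)).symm) fun v hv => by
        rw [hf v hv, hk.2 v hv]]
    exact hk.1
  · have e5 : rs x 1 ⟨_, e2⟩ = rs x 1 ⟨y, mem_Cz.2 yx⟩ := rs_ext fun v => e4 v (mem_Eg_one.1 v.2)
    have := e (mem_inf.2 ⟨mem_rI (mem_inf.2 ⟨hk, e3⟩) e2, e5 ▸ h1 (mem_rI hy _)⟩)
    rw [e5] at this
    exact ((h.res_center hx one_ne_zero (sq_one_one xx) x0 hy _).1
      (r.pg.schur _ fun a ha => (this a (h1 ha)).symm)).elim (absurd · y0) (absurd · ne)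

theorem exists_two {j : V ≃ₗ[F] V} (hj : j ∈ P) (jc : j ∈ center _) (jj : j * j = ng F V)
    (h3 : 3 ≤ finrank (ZMod 2) h.pg.W) {x : V ≃ₗ[F] V} (hx : x ∈ P) (c : ZMod 2) :
    ∃ y ∈ P, qd y = c ∧ y ∉ center _ ∧ y * x = x * y ∧ h.pg.cl y ≠ h.pg.cl x := by
  obtain ⟨e, he, e1, e0, e2⟩ := h.pg.exists_comm [x] (by simpa) (x := x) (by simp; omega)
  obtain ⟨y, hy, qy, e3⟩ := h.pg.exists_qd_cl hj jc jj he c
  exact ⟨y, hy, qy, by rwa [← h.pg.cl_eq_zero hy, e3, h.pg.cl_eq_zero he],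
    bt_eq_zero.1 (by rw [h.pg.bt_congr hy he e3, bt_comm, e1 x (by simp)]), e3 ▸ e2⟩

end PaL

theorem GdX.tv (h2 : (2 : F) ≠ 0) {x : V ≃ₗ[F] V} (xx : x * x = 1) (h : GdX (SLG F V) H x)
    {φ : Dual F V} {v : V} (h0 : φ v = 0) (hv : x v = v) (hφ : ∀ w, x w = -w → φ w = 0) :
    tvE h0 ∈ H :=
  h _ (tvE_mem_SLG h0) (ext_invol h2 xx (fun w hw => by simp [tvE_apply, hw, hv])
    fun w hw => by simp [tvE_apply, hw, hφ w hw]) fun w hw => by simp [tvE_apply, hφ w hw]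

theorem GdX.good {Q : V → F} {K : Subgroup (V ≃ₗ[F] V)} (hK : PolarG B Q K) (h2 : (2 : F) ≠ 0)
    {x : V ≃ₗ[F] V} (xx : x * x = 1) (hx : ∀ u v, B (x u) (x v) = B u v) (h : GdX K H x) :
    Good B Q H (Eg x 1) :=
  hK.good_of_fix fun g hg h1 h3 => by
    have hf : g ∈ FxN x := fun v hv => h3 v fun u hu => (perp_of_invol h2 hx (mem_Eg_one.1 hu) hv).1
    exact h g hg (ext_invol h2 xx (fun v hv => by
      simp [hv, mem_Eg_one.1 (subStab_apply h1 (mem_Eg_one.2 hv))])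
      fun v hv => by simp [hv, hf v hv]) hf

theorem sup_three (h2 : (2 : F) ≠ 0) {x y : V ≃ₗ[F] V} (xx : x * x = 1) (yy : y * y = 1)
    (yx : y * x = x * y) : Eg x 1 ⊔ Eg y 1 ⊔ Eg (x * y) 1 = ⊤ :=
  eq_top_iff.2 fun v _ => by
    obtain ⟨u, w, hu, hw, rfl⟩ := invol_split h2 xx v
    have e : w = (2 : F)⁻¹ • (w + y w) + (2 : F)⁻¹ • (w - y w) := by
      match_scalars <;> field_simp <;> ring
    rw [e, ← add_assoc]
    refine Submodule.add_mem_sup (Submodule.add_mem_sup (mem_Eg_one.2 hu) (mem_Eg_one.2 ?_))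
      (mem_Eg_one.2 ?_)
    · simp [invol_apply yy, add_comm]
    · simp [invol_apply yy, ← comm_apply yx, hw]; module

theorem PaL.le_of_gd (h : PaL P) (L : LC B i) (hj : sc V L.i0 ∈ P) (hP : P ≤ H) (hle : H ≤ UG B)
    (h6 : 6 ≤ finrank (ZMod 2) h.pg.W)
    (hG : ∀ x ∈ P, x * x = 1 → x ∉ center _ → GdX (SUG B) H x) : SUG B ≤ H := by
  obtain ⟨t, ht, -⟩ := h.pg.exists_notMem_center (by omega)
  obtain ⟨x, hx, xx, x0, -⟩ := h.exists_two hj (sc_cen _) L.jj (by omega) ht 0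
  obtain ⟨y, hy, yy, y0, yx, ne⟩ := h.exists_two hj (sc_cen _) L.jj (by omega) hx 0
  rw [qd_eq_zero] at xx yy
  have zz : x * y * (x * y) = 1 := by rw [mul_assoc, ← mul_assoc y, yx, mul_assoc, yy, mul_one, xx]
  have g1 := hG x hx xx x0
  have g2 := hG y hy yy y0
  have g3 := hG _ (mul_mem hx hy) zz (by
    rwa [← h.pg.cl_eq_zero (mul_mem hx hy), h.pg.cl_mul hx hy, h.pg.add_eq_zero, eq_comm])
  have h2 := h.two
  rcases L.alt with ⟨rfl, -⟩ | ⟨hH, hB, -⟩
  · rw [SUG_zero] at g1 g2 g3 ⊢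
    obtain ⟨v, v0, v1, v2⟩ := h.exists_fix2 hx hy xx yy x0 y0 yx ne
    refine SLG_le_of_cenSub (h.irr (fun a ha _ => subStab_apply (le_subStab_cenSub (hP ha)))
      (v := v) (fun φ h0 => ?_) v0)
    have := mul_mem (mul_mem
      (g1.tv h2 xx (φ := (2 : F)⁻¹ • (φ + φ ∘ₗ x)) (by simp [h0, v1]) v1 fun w hw => by simp [hw])
      (g2.tv h2 yy (φ := (2 * 2 : F)⁻¹ • (φ - φ ∘ₗ x + φ ∘ₗ y - φ ∘ₗ (x * y :)))
        (by simp [h0, v1, v2]) v2 fun w hw => by simp [hw]; right; ring))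
      (g3.tv h2 zz (v := v) (φ := (2 * 2 : F)⁻¹ • (φ - φ ∘ₗ x - φ ∘ₗ y + φ ∘ₗ (x * y :)))
        (by simp [h0, v1, v2]) (by simp [v1, v2]) fun w hw => by
          have e := congrArg x hw
          rw [LinearEquiv.mul_apply, invol_apply xx] at e
          simp [e, invol_apply xx])
    rw [← tvE_mul_right _ _ (by simp [h0, v1, v2]), ← tvE_mul_right _ _ (by simp [h0, v1, v2])]
      at this
    convert this using 2
    ext w
    simp
    field_simp
    ring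
  · have r1 := h.res hx one_ne_zero (sq_one_one xx) x0
    have hy' := mem_rI (r := rs x 1) hy (mem_Cz.2 yx)
    have yy' : rs x 1 ⟨y, mem_Cz.2 yx⟩ * rs x 1 ⟨y, mem_Cz.2 yx⟩ = 1 := by
      rw [← map_mul, ← map_one (rs x 1)]; exact congrArg _ (Subtype.ext yy)
    have y0' := fun e => ((h.res_center hx one_ne_zero (sq_one_one xx) x0 hy
      (mem_Cz.2 yx)).1 e).elim y0 ne
    have L2 := (L.res h2 xx (hle (hP hx))).res h2 yy' (rI_le_UG (hP.trans hle) hy')
    have d1 := h.finrank_res hx one_ne_zero (sq_one_one xx) x0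
    have d2 := r1.finrank_res hy' one_ne_zero (sq_one_one yy') y0'
    have d3 := (r1.res hy' one_ne_zero (sq_one_one yy') y0').le_finrank (k := 1) (by omega)
    obtain ⟨-, e⟩ | ⟨hH', hB', -⟩ := L2.alt
    · exact absurd (RingHom.ext e) hH.ne_id
    obtain ⟨e, f, ee, ff, ef, -⟩ := exists_hyperbolic_herm hH' hB' d3
    have hK := polarG_su' hH hB ((h.le_finrank (k := 1) (by omega)))
    have iso := fun a (ha : a ∈ P) => mem_UG.1 (hle (hP ha))
    have m : ∀ v : Eg (rs x 1 ⟨y, mem_Cz.2 yx⟩) 1, v.1.1 ∈ Eg x 1 ∧ v.1.1 ∈ Eg y 1 ∧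
        v.1.1 ∈ Eg (x * y) 1 := fun v => by
      have e1 := mem_Eg_one.1 v.1.2
      have e2 : y v.1.1 = v.1.1 := congrArg Subtype.val (mem_Eg_one.1 v.2)
      exact ⟨v.1.2, mem_Eg_one.2 e2, mem_Eg_one.2 (by rw [LinearEquiv.mul_apply, e2, e1])⟩
    have ee' : B e.1.1 e.1.1 = B 0 0 := by rw [map_zero (B 0)]; exact ee
    have ff' : B f.1.1 f.1.1 = B 0 0 := by rw [map_zero (B 0)]; exact ff
    have ef' : B e.1.1 f.1.1 ≠ 0 := by rw [show B e.1.1 f.1.1 = 1 from ef]; exact one_ne_zero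
    refine hK.le_of_good_top ?_
    rw [← sup_three h2 xx yy yx]
    exact hK.witt.good_sup (hK.witt.good_sup (g1.good hK h2 xx (iso x hx))
      (g2.good hK h2 yy (iso y hy)) (m e).1 (m e).2.1 (m f).1 (m f).2.1 ee' ff' ef')
      (g3.good hK h2 zz (iso _ (mul_mem hx hy))) (Submodule.mem_sup_left (m e).1) (m e).2.2
      (Submodule.mem_sup_left (m f).1) (m f).2.2 ee' ff' ef'

theorem PaL.le_of_HN (h : PaL P) (L : LC B i) (hj : sc V L.i0 ∈ P) (hH : HC P H (ng F V) gm1)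
    (h5 : 5 ≤ finrank (ZMod 2) h.pg.W) (hN : HN P H) : H ≤ Nm P := by
  have jc := sc_cen (V := V) L.i0
  have lY := fun {y} => hH.locY (y := y) (by change _ ≤ finrank _ h.pg.W; omega)
    fun y hy yy y0 c hc cy e he ey => by
      have key : ∀ f ∈ P, h.pg.cl e = h.pg.cl f → c * f * c⁻¹ ∈ P → c * e * c⁻¹ ∈ P :=
        fun f hf e1 e2 => by
          have := mul_mem (mul_mem he (inv_mem hf)) e2
          rwa [← mul_assoc, ← mul_assoc, ← mem_center_iff.1 ((h.pg.cl_eq he hf).1 e1) c,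
            mul_assoc c, inv_mul_cancel_right] at this
      by_cases e0 : e ∈ center _
      · rwa [mem_center_iff.1 e0, mul_inv_cancel_right]
      by_cases e1 : h.pg.cl e = h.pg.cl y
      · exact key y hy e1 (by rwa [cy, mul_inv_cancel_right])
      obtain ⟨f, hf, q, e2⟩ := h.pg.exists_qd_cl hj jc L.jj he 1
      exact key f hf e2.symm (h.stepC hN hH hj jc L.jj h5 hy yy y0 hc cy hf
        (bt_eq_zero.1 (by rw [h.pg.bt_congr hf he e2, bt_eq_zero.2 ey])) (h.pg.sq_z hf q)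
        (by rwa [← h.pg.cl_eq_zero hf, e2, h.pg.cl_eq_zero he]) (e2 ▸ e1))
  refine GC.le_L { hH with
    loc := fun x hx x0 => ?_
    hZ := fun c _ => h.mem_of_four L hj c } hj jc L.jj h5
  rcases h.sq x hx with xx | xx
  · exact fun c hc cx => lY (mul_mem hj hx) (by
      rw [mul_assoc, ← mul_assoc x, mem_center_iff.1 jc x, mul_assoc, xx, mul_one, L.jj])
      (by rwa [mul_mem_cancel_left jc]) c hc (comm_mul (mem_center_iff.1 jc c).symm cx.symm).symm
  · exact lY hx xx x0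

theorem PaL.mainL (k : ℕ) : ∀ {V : Type u} [AddCommGroup V] [Module F V] [Finite V]
    {B : V →ₛₗ[σ] V →ₗ[F] F} {P H : Subgroup (V ≃ₗ[F] V)} (h : PaL P) (L : LC B i),
    finrank (ZMod 2) h.pg.W = 2 * k + 4 → sc V L.i0 ∈ P → HC P H (ng F V) gm1 → H ≤ UG B →
      H ≤ Nm P ∨ SUG B ≤ H := by
  induction k with
  | zero => exact fun h L hk => h.klein L hk
  | succ k ih =>
    intro V _ _ _ B P H h L hk hj hH hle
    by_cases hN : HN P H
    · exact .inl (h.le_of_HN L hj hH (by omega) hN)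
    refine .inr (h.le_of_gd L hj hH.le hle (by omega) fun x' hx' xx' x0' => ?_)
    simp only [HN, not_forall] at hN
    obtain ⟨x, hx, xx, x0, c, hc, cx, e, he, ex, hn⟩ := hN
    obtain ⟨n, hn1, -, rfl⟩ := hH.fusion (h.pg.rich_of_center hj (sc_cen _) L.jj) hx hx' x0 x0'
      ((qd_eq_zero.2 xx).trans (qd_eq_zero.2 xx').symm)
    refine GdX.conj (fun g hg gx hf => ?_) hn1 (le_Nm_SUG hle hn1)
    have r := h.res hx one_ne_zero (sq_one_one xx) x0
    have d := h.finrank_res hx one_ne_zero (sq_one_one xx) x0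
    have L' := L.res h.two xx (hle (hH.le hx))
    have hj' := h.sc_res L.i0 hj x 1
    obtain ⟨y, hy, yy, y0, yx, ne⟩ := h.exists_two hj (sc_cen _) L.jj (by omega) hx 1
    refine h.lift_qs hH hx xx x0 hy (h.pg.sq_z hy yy) y0 yx ne
      (L'.qs (r.le_finrank (k := 2) (by omega))) (le_inf (rI_le_UG (hH.le.trans hle))
        (r.le_SLG hj' (sc_cen _) L'.jj (by omega))) ((ih r L' (by omega) hj' (h.hc_res hx
          one_ne_zero (sq_one_one xx) x0 hH) (rI_le_UG hle)).resolve_left fun e' => hn ?_)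
      (mem_Cz.2 gx) hf ⟨rI_le_UG (H := UG B) le_rfl (mem_rI hg.1 _),
        mem_SLG.2 ((det_rs h.two xx _ hf).trans (mem_SLG.1 hg.2))⟩
    simpa using exists_of_le_Nm e' hc cx he ex

/-- The normaliser of `4 ∘ 2^{1+2k}` in the linear and unitary cases. -/
theorem PaL.main_L (h : PaL P) (L : LC B i) (h3 : 3 ≤ finrank F V) (hj : sc V L.i0 ∈ P)
    (hH : HC P H (ng F V) gm1) (hle : H ≤ UG B) : H ≤ Nm P ∨ SUG B ≤ H := by
  have e := h.finrank_sq
  obtain ⟨a, -, ha⟩ := (Nat.dvd_prime_pow Nat.prime_two).1 ((dvd_pow_self _ two_ne_zero).trans e.dvd)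
  rw [ha, ← pow_mul] at e
  have e' := Nat.pow_right_injective le_rfl e
  have : 2 ≤ a := by
    by_contra! hc
    rw [ha] at h3
    interval_cases a <;> simp at h3
  exact PaL.mainL (a - 2) h L (by omega) hj hH hle

end CF.MaxSub
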