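/-
Maximality of the normalisers of `4 ∘ 2^{1+2k}` in `SL(p)` and `SU(p)`.
-/
import Cfsg.Agent.MaxSub.C6Q

set_option autoImplicit false
set_option linter.unusedSectionVars false

namespace CF.MaxSub

open Module Subgroup Geom Cfsg Cfsg.Geo

variable {F V : Type*} [Field F] [AddCommGroup V] [Module F V] {σ : F →+* F}
  {B : V →ₛₗ[σ] V →ₗ[F] F} {i : F} {P : Subgroup (V ≃ₗ[F] V)} [Finite F] [Finite V]

theorem PaL.exists_i (h : PaL P) (hc : Nat.card (center P) = 4) :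
    ∃ i : F, i * i = -1 ∧ ∀ h0 : -i ≠ 0, sc V h0 ∈ P := by
  by_contra! hn
  refine absurd (hc ▸ Nat.card_le_card_of_surjective (fun b : Bool => if b then (1 : center P) else
    ⟨⟨_, h.neg⟩, h.pg.mem_center_sub.2 ng_cen⟩) fun c => ?_) (by simp)
  have cc := h.pg.mem_center_sub.1 c.2
  rcases h.sq _ c.1.2 with e | e
  · rcases h.pg.uniq _ cc e with e | e
    · exact ⟨true, Subtype.ext (Subtype.ext e.symm)⟩
    · exact ⟨false, Subtype.ext (Subtype.ext e.symm)⟩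
  · obtain ⟨a, ha⟩ := mem_center_iff_smul.1 cc
    obtain ⟨h0, h1⟩ := hn (-a) (by
      rw [neg_mul_neg]
      exact h.smul_inj fun v => by rw [mul_smul, ← ha, ← ha, sq_apply e, neg_one_smul])
    exact absurd (show sc V h0 = c.1.1 from LinearEquiv.ext fun v => by simp [ha]) fun e' =>
      h1 (e' ▸ c.1.2)

theorem PaL.SUG_not_le (h : PaL P) (L : LC B i) (h3 : 3 ≤ finrank F V) : ¬ SUG B ≤ Nm P :=
  fun hle => by
  rcases L.alt with ⟨rfl, -⟩ | ⟨hH, hB, -⟩
  · obtain ⟨v, v0⟩ := @exists_ne V h.nt 0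
    obtain ⟨w, hw⟩ := exists_linearIndependent_pair_of_one_lt_finrank (R := F) (by omega) v0
    obtain ⟨φ, h1, h2⟩ := exists_dual_one (W := F ∙ v) (v := w) fun e => by
      obtain ⟨a, rfl⟩ := Submodule.mem_span_singleton.1 e
      simpa using (LinearIndependent.pair_iff.1 hw a (-1) (by simp)).2
    rw [h.not_tv h3 (h2 v (Submodule.mem_span_singleton_self v)) v0
      (hle (SUG_zero (σ := σ) (V := V) ▸ tvE_mem_SLG _))] at h1
    exact zero_ne_one h1
  · obtain ⟨v, v0, hv⟩ := exists_isotropic_of_two_le hH.ne_id hH.invol hH.symm (by omega)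
    obtain ⟨s, s0, hs⟩ := exists_skew_ne_zero hH.ne_id hH.invol
    have := h.not_tv h3 (φ := s • B v) (by simp [hv]) v0
      (hle (mem_inf.2 ⟨(uTrans hH hv hs).2, mem_SLG.2 (det_uTrans hH hv hs)⟩))
    exact v0 (hB.1 v fun x => by simpa [s0] using LinearMap.congr_fun this x)

theorem PaL.hc_SUG (h : PaL P) (L : LC B i) (h3 : 3 ≤ finrank F V) (hj : sc V L.i0 ∈ P)
    (hP : P ≤ UG B) {H : Subgroup (V ≃ₗ[F] V)} (hH : SUG B ⊓ Nm P ≤ H) :
    HC P H (ng F V) gm1 := by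
  have h4 : 3 ≤ finrank (ZMod 2) h.pg.W := by
    by_contra! hc
    have := Nat.pow_le_pow_right two_pos (Nat.le_of_lt_succ hc)
    rw [← h.finrank_sq] at this
    nlinarith
  exact { h.pg with
    le := fun _ hx => hH ⟨⟨hP hx, h.le_SLG hj (sc_cen _) L.jj h4 hx⟩, le_normalizer hx⟩
    gate := fun y hy y' hy' e e' y0 y0' => hH ⟨⟨mem_UG.2 (gate_iso h.two e (mem_UG.1 (hP hy)) e'
      (mem_UG.1 (hP hy'))), h.det_gate (h.pg.rich_of_center hj (sc_cen _) L.jj) hy hy' e e' y0 y0'⟩,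
      (Nm P).mul_mem (h.pg.gam_mem hy e) (inv_mem (h.pg.gam_mem hy' e'))⟩ }

variable {ι : Type} [Fintype ι] [DecidableEq ι] {R : Subgroup (GL ι F)}

theorem isMaximalIn_c6L {B : (ι → F) →ₛₗ[σ] (ι → F) →ₗ[F] F} {K : Subgroup (GL ι F)}
    (hK : ∀ g, g ∈ K ↔ Geom.glEquiv ι F g ∈ SUG B) (h : PaL (glP R)) (h3 : 3 ≤ Fintype.card ι)
    (hc : Nat.card (center R) = 4) (hP : glP R ≤ UG B) (L : ∀ i : F, i * i = -1 → LC B i) :
    IsMaximalIn K (subgroupNormalizer R ⊓ K) := by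
  obtain ⟨i, hi, hj⟩ := h.exists_i
    ((Nat.card_congr (centerCongr ((Geom.glEquiv ι F).subgroupMap R)).toEquiv).symm.trans hc)
  rw [← finrank_fintype_fun_eq_card F] at h3
  exact isMaximalIn_c6 hK (h.SUG_not_le (L i hi) h3) fun H h1 h2 => h.main_L (L i hi) h3 (hj _)
    (h.hc_SUG (L i hi) h3 (hj _) hP h1) (h2.trans inf_le_left)

theorem tabL6 {F : Type*} [Field F] [Fintype F] {n : ℕ} (hn : 3 ≤ n) (p : ℕ)
    (R : Subgroup (GL (Fin n) F)) (hp : p.Prime) (hF : Fintype.card F = p) (h4 : p % 4 = 1)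
    (hR : IsLinearSymplecticTypeData 2 R) :
    IsMaximalIn (specialLinear (Fin n) F) (subgroupNormalizer R ⊓ specialLinear (Fin n) F) := by
  have : Nonempty (Fin n) := ⟨⟨0, by omega⟩⟩
  obtain ⟨_, _, -, -, hc⟩ := hR.field
  exact isMaximalIn_c6L (σ := RingHom.id F) (B := 0) (fun g => by
      rw [SUG_zero, mem_specialLinear_iff])
    (cp_of (Geom.two_ne_zero_of_odd_card (by rw [hF, Nat.odd_iff]; omega)) hR.symplecticType
      hR.absIrred) (by simpa) (by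
        rcases hc with ⟨h, -⟩ | ⟨-, -, h, -⟩ | ⟨-, -, h, -⟩
        · exact absurd h (by decide)
        · exact h
        · simp at h; omega) (fun _ _ => mem_UG.2 fun _ _ => rfl) fun i hi =>
    ⟨hi, fun a _ => exists_natCast (by rwa [Nat.card_eq_fintype_card, hF]) a, .inl ⟨rfl, fun _ => rfl⟩⟩

theorem tabU6 {F : Type*} [Field F] [Fintype F] {n q : ℕ} (hF : Fintype.card F = q ^ 2)
    (hn : 3 ≤ n) (p : ℕ) (R : Subgroup (GL (Fin n) F)) (hp : p.Prime) (hq : q = p) (h4 : p % 4 = 3)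
    (hR : IsSymplecticTypeGroup 2 R) (hi : ActsAbsolutelyIrreducibly (matrixSet R))
    (hle : R ≤ GU n F q) (hc : Nat.card (center R) = 4) :
    IsMaximalIn (GU n F q ⊓ specialLinear (Fin n) F)
      (subgroupNormalizer R ⊓ (GU n F q ⊓ specialLinear (Fin n) F)) := by
  subst hq
  have : Nonempty (Fin n) := ⟨⟨0, by omega⟩⟩
  have := Fact.mk hp
  have := charP_of_card_eq_prime_pow hF
  obtain ⟨σ, hσ, h1, h2⟩ := exists_conj hF
  refine isMaximalIn_c6L (mem_SU_iff hσ) (cp_of (Geom.two_ne_zero_of_odd_card (by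
    rw [hF]; exact (Nat.odd_iff.2 (by omega)).pow)) hR hi) (by simpa) hc ?_ fun i hi =>
      ⟨hi, fun a ha => ?_, .inr ⟨isHerm_hermSesq h1 h2, hermSesq_nondegenerate σ, ?_⟩⟩
  · rintro _ ⟨g, hg, rfl⟩
    exact mem_UG.2 fun u v => by simpa [hermForm_eq hσ] using mem_GU.1 (hle hg) v u
  · obtain ⟨m, rfl⟩ := (mem_bot_iff_intCast q F).1
      ((Subfield.mem_bot_iff_pow_eq_self F q).2 (hσ a ▸ ha))
    exact ⟨(m : ZMod q).val, by rw [← map_natCast (ZMod.castHom dvd_rfl F), ZMod.natCast_zmod_val,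
      map_intCast]⟩
  · rw [hσ, ← Nat.div_add_mod q 4, h4, pow_add, pow_mul,
      show i ^ 4 = 1 by linear_combination (i * i - 1) * hi, one_pow]
    linear_combination i * hi

end CF.MaxSub
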