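/-
Normalisers of `2^{1+2k}` in symplectic and orthogonal groups: centralisers of elements of order
four.
-/
import Cfsg.Agent.MaxSub.C6Q
import Cfsg.Agent.MaxSub.C4A
import Cfsg.Agent.MaxSub.F3V

set_option autoImplicit false
set_option linter.unusedSectionVars false

namespace CF.MaxSub

open Module Subgroup Geom

variable {F V : Type*} [Field F] [AddCommGroup V] [Module F V] {B : LinearMap.BilinForm F V}
  {P H : Subgroup (V ≃ₗ[F] V)} {y : V ≃ₗ[F] V}

/-- The unipotent isometries commuting with `y` lie in `H`. -/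
def UPy (B : LinearMap.BilinForm F V) (H : Subgroup (V ≃ₗ[F] V)) (y : V ≃ₗ[F] V) : Prop :=
  ∀ n : End F V, n * n = 0 → (∀ v, n (y v) = y (n v)) →
    (∀ u v, B (u + n u) (v + n v) = B u v) → Un H n

/-- The centraliser of `y` normalises the centraliser in `P`. -/
def HEy (P H : Subgroup (V ≃ₗ[F] V)) (y : V ≃ₗ[F] V) : Prop :=
  ∀ c ∈ H, c * y = y * c → ∀ e ∈ P, e * y = y * e → c * e * c⁻¹ ∈ P

theorem eq_of_Eg (h2 : (2 : F) ≠ 0) (hB : B.Nondegenerate) {i : F} (ii : i * i = -1)
    (yy : y * y = ng F V) (hy : y ∈ UG B) {a b : V ≃ₗ[F] V} (ha : a ∈ UG B) (hb : b ∈ UG B)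
    (ay : a * y = y * a) (by' : b * y = y * b) (e : ∀ v, y v = -i • v → a v = b v) : a = b := by
  have sp : ∀ v, ∃ u w, y u = -i • u ∧ y w = i • w ∧ v = u + w := fun v =>
    ⟨(2 : F)⁻¹ • (v + i • y v), (2 : F)⁻¹ • (v - i • y v), by
      simp only [map_smul, map_add, sq_apply yy]; match_scalars <;> grind, by
      simp only [map_smul, map_sub, sq_apply yy]; match_scalars <;> grind, by
      match_scalars <;> grind⟩
  refine LinearEquiv.ext fun v => ?_
  obtain ⟨u, w, hu, hw, rfl⟩ := sp v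
  rw [map_add, map_add, e u hu, add_right_inj, ← sub_eq_zero]
  refine hB.2 _ fun t => ?_
  obtain ⟨t, rfl⟩ := a.surjective t
  obtain ⟨t, s, ht, hs, rfl⟩ := sp t
  have := mem_UG.1 hy (a s) (a w - b w)
  simp only [map_sub, ← comm_apply ay, ← comm_apply by', hs, hw, map_smul, LinearMap.smul_apply,
    smul_eq_mul] at this
  rw [map_add, map_add, LinearMap.add_apply, map_sub, mem_UG.1 ha, e t ht, mem_UG.1 hb, sub_self,
    zero_add, map_sub]
  grind

variable [Finite F] [Finite V]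

theorem PaL.o1a (h : PaL P) (hp : (Nat.card F).Prime) (hH : HC P H (ng F V) gm1)
    (h6 : 6 ≤ finrank (ZMod 2) h.pg.W) (hy : y ∈ P) (yy : y * y = ng F V) (y0 : y ∉ center _)
    (hB : B.Nondegenerate) (hle : ∀ c ∈ H, c * y = y * c → c ∈ UG B) {i : F} (ii : i * i = -1) :
    HEy P H y ∨ UPy B H y := by
  have L : LC (0 : Eg y (-i) →ₛₗ[RingHom.id F] Eg y (-i) →ₗ[F] F) i :=
    ⟨ii, fun a _ => exists_natCast hp a, .inl ⟨rfl, fun _ => rfl⟩⟩
  have e : ∀ v, y (y v) = (-i * -i) • v := fun v => by simp [sq_apply yy, ii]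
  have r := h.res hy L.i0 e y0
  have d := h.finrank_res hy L.i0 e y0
  have inj := fun {a b} => eq_of_Eg (a := a) (b := b) h.two hB ii yy (hle y (hH.le hy) rfl)
  refine (r.main_L L ((r.le_finrank (k := 2) (by omega)).trans' (by norm_num)) (by
    have := mem_rI (r := rs y (-i)) hy (mem_Cz.2 rfl)
    rwa [rs_ext (a := sc _ L.i0) fun v => mem_Eg.1 v.2] at this) (h.hc_res hy L.i0 e y0 hH)
    fun _ _ => mem_UG.2 fun _ _ => rfl).imp (fun hN c hc cy a ha ay => ?_) fun hS n nn ny hn => ?_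
  · obtain ⟨f, hf, fy, e'⟩ := exists_of_le_Nm hN hc cy ha ay
    have := comm_mul (comm_mul cy ay) (comm_inv cy)
    rwa [inj (hle _ (mul_mem (mul_mem hc (hH.le ha)) (inv_mem hc)) this) (hle f (hH.le hf) fy)
      this fy e']
  · have gy : unip n nn * y = y * unip n nn := LinearEquiv.ext fun v => by simp [unip_apply, ny]
    have m : ∀ v ∈ Eg y (-i), n v ∈ Eg y (-i) := fun v hv => by
      rw [mem_Eg, ← ny, mem_Eg.1 hv, map_smul]
    obtain ⟨k, hk, ky, e'⟩ := exists_of_rI (hS (SUG_zero (σ := RingHom.id F) (V := Eg y (-i)) ▸ mem_SLG.2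
      (det_one_add_of_sq (T := n.restrict m) (LinearMap.ext fun v => Subtype.ext
        (LinearMap.congr_fun nn v)))) : rs y (-i) ⟨_, mem_Cz.2 gy⟩ ∈ _)
    refine un_of_apply (LinearMap.congr_fun nn) hk fun v => ?_
    rw [inj (hle k hk (mem_Cz.1 ky)) (mem_UG.2 hn : unip n nn ∈ _) (mem_Cz.1 ky) gy fun v hv =>
      congrArg Subtype.val (LinearEquiv.congr_fun e' ⟨v, hv⟩), unip_apply]

section Ext

variable {K : Type*} [Field K] [Algebra F K] [Module K V] [IsScalarTower F K V] {ω : K}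
  (hω : ∀ v, ω • v = y v) (gen : ∀ k : K, ∃ a b : F, k = algebraMap F K a + algebraMap F K b * ω)
include hω gen

theorem lin_of_comm {f : End F V} (e : ∀ v, f (y v) = y (f v)) (k : K) (v : V) :
    f (k • v) = k • f v := by
  obtain ⟨a, b, rfl⟩ := gen k
  simp [add_smul, mul_smul, hω, e]

/-- The centraliser of `y` acts linearly over the field generated by `y`. -/
def rk : Cz y →* (V ≃ₗ[K] V) where
  toFun g := { g.1.toAddEquiv with
    map_smul' := lin_of_comm hω gen (f := g.1) (comm_apply (mem_Cz.1 g.2)) }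
  map_one' := rfl
  map_mul' _ _ := rfl

theorem rk_apply (g : Cz y) (v : V) : rk hω gen g v = g.1 v := rfl

theorem PaL.resK (h : PaL P) (hy : y ∈ P) (yy : y * y = ng F V) : PaL (rI (rk hω gen) P) where
  two := by simpa [map_ofNat] using (map_ne_zero (algebraMap F K)).2 h.two
  nt := h.nt
  neg := mem_rI (r := rk hω gen) h.neg (mem_Cz.2 (h.pg.zr y).symm)
  sq a ha := by
    obtain ⟨x, hx, hx', rfl⟩ := exists_of_rI ha
    exact (h.sq x hx).imp (fun e => LinearEquiv.ext (invol_apply (x := x) e))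
      fun e => LinearEquiv.ext (sq_apply (y := x) e)
  span S hS f := by
    obtain ⟨g, hg, e⟩ := h.span
      { carrier := {f | ∃ g ∈ S, ∀ v, g v = (2 : F)⁻¹ • (f v - y (f (y v)))}
        add_mem' := by
          rintro a b ⟨g, hg, e⟩ ⟨g', hg', e'⟩
          exact ⟨g + g', add_mem hg hg', fun v => by simp [e, e']; module⟩
        zero_mem' := ⟨0, zero_mem _, by simp⟩
        smul_mem' := by
          rintro c a ⟨g, hg, e⟩
          exact ⟨algebraMap F K c • g, S.smul_mem _ hg, fun v => by simp [e]; module⟩ }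
      (fun x hx => by
        rcases h.pg.pm hx hy with p | p
        · refine ⟨_, hS _ (mem_rI hx (mem_Cz.2 p)), fun v => ?_⟩
          simp only [LinearEquiv.coe_coe, rk_apply, comm_apply p, sq_apply yy]
          match_scalars; field_simp [h.two]; ring
        · exact ⟨0, zero_mem _, fun v => by simp [anti_apply p, sq_apply yy]⟩)
      (f.restrictScalars F)
    rwa [show g = f from LinearMap.ext fun v => by
      rw [e, LinearMap.restrictScalars_apply, LinearMap.restrictScalars_apply, ← hω v, map_smul,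
        hω, sq_apply yy]
      match_scalars; field_simp [h.two]; ring] at hg

theorem PaL.o1b [Finite K] (h : PaL P) (hp : (Nat.card F).Prime) (hH : HC P H (ng F V) gm1)
    (h6 : 6 ≤ finrank (ZMod 2) h.pg.W) (hy : y ∈ P) (yy : y * y = ng F V) (y0 : y ∉ center _)
    (hB : B.Nondegenerate) (hS : ∀ u v, B u v = B v u) (hle : ∀ c ∈ H, c * y = y * c → c ∈ UG B)
    {τ : K →+* K} (t1 : ∀ a, τ (algebraMap F K a) = algebraMap F K a) (t2 : τ ω = -ω)
    {ν : Dual F K} (n1 : ν 1 = 1) (n2 : ν ω = 0) : HEy P H y ∨ UPy B H y := by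
  have : FiniteDimensional F K := .of_finite
  have r := h.resK hω gen hy yy
  have hz : rk hω gen ⟨_, mem_Cz.2 (h.pg.zr y).symm⟩ = ng K V := rfl
  have d := h.pg.finrank_res r.pg hz hy y0
  have ww : ω * ω = -1 := r.smul_inj fun v => by rw [mul_smul, hω, hω, sq_apply yy, neg_one_smul]
  have ν0 : ν ≠ 0 := fun e => by simp [e] at n1
  have t3 : ∀ k, τ (τ k) = k := fun k => by obtain ⟨a, b, rfl⟩ := gen k; simp [t1, t2]
  have n3 : ∀ k, ν (τ k) = ν k := fun k => by
    obtain ⟨a, b, rfl⟩ := gen k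
    rw [map_add, map_mul, t1, t1, t2]
    simp [← Algebra.smul_def, n2]
  obtain ⟨Bk, e⟩ := exists_kform (σ := RingHom.id F) (τ := τ) B (fun k u v => by
    obtain ⟨a, b, rfl⟩ := gen k
    have := mem_UG.1 (hle y (hH.le hy) rfl) u (y v)
    rw [sq_apply yy] at this
    simp [add_smul, mul_smul, hω, t1, t2, ← this]) ν0
  have iso : ∀ g : V ≃ₗ[K] V, (∀ u v, B (g u) (g v) = B u v) → g ∈ UG Bk := fun g hg =>
    mem_UG.2 fun u v => sub_eq_zero.1 (eq_zero_of_nu ν0 fun k => by
      have := hg u (k • v)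
      rw [e, e, map_smul g] at this
      simpa [mul_sub, sub_eq_zero] using this)
  have hH' : IsHerm Bk := ⟨fun e => r.two (by
      have : ω = -ω := by rw [← t2, e]; rfl
      linear_combination 2 * ww - ω * this), t3,
    ⟨fun u v => sub_eq_zero.1 (eq_zero_of_nu ν0 fun k => by
      have := hS (k • u) v
      rw [e, e, ← n3] at this
      simpa [mul_sub, sub_eq_zero, t3] using this)⟩⟩
  have hB' : ∀ x, (∀ y, Bk x y = 0) → x = 0 := fun x h => hB.1 x fun y => by simp [e, h]
  have L : LC Bk (-ω) := ⟨by simpa using ww, fun k hk => by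
      obtain ⟨a, b, rfl⟩ := gen k
      obtain ⟨n, rfl⟩ := exists_natCast hp a
      simp only [map_add, map_mul, t1, t2] at hk
      exact ⟨n, by
        rw [map_natCast, left_eq_add]
        exact (mul_eq_zero.1 (by linear_combination -hk)).resolve_left r.two⟩,
    .inr ⟨hH', ⟨hB', fun y h => hB' y fun x => hH'.refl (h x)⟩, by simp [t2]⟩⟩
  refine (r.main_L L ((r.le_finrank (k := 2) (by omega)).trans' (by norm_num)) (by
    have := mem_rI (r := rk hω gen) hy (mem_Cz.2 rfl)
    rwa [show rk hω gen _ = sc V L.i0 from LinearEquiv.ext fun v => by simp [rk_apply, hω]]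
      at this) (hH.res r.pg hz hy fun a ha ha' aa => LinearEquiv.ext fun v => by
        rw [gm1_apply r.two (LinearEquiv.ext (sq_apply (y := a) aa))]; exact gm1_apply h.two aa v)
    fun a ha => ?_).imp (fun hN c hc cy a ha ay => ?_) fun hS n nn ny hn => ?_
  · obtain ⟨c, hc, cy, rfl⟩ := exists_of_rI ha
    exact iso _ (mem_UG.1 (hle c hc (mem_Cz.1 cy)))
  · obtain ⟨f, hf, _, e'⟩ := exists_of_rI (Nm_conj (hN (mem_rI hc (mem_Cz.2 cy)))
      (mem_rI ha (mem_Cz.2 ay)))
    rwa [← show f = c * a * c⁻¹ from LinearEquiv.ext (LinearEquiv.congr_fun e' :)]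
  · have gy : unip n nn * y = y * unip n nn := LinearEquiv.ext fun v => by simp [unip_apply, ny]
    obtain ⟨k, hk, _, e'⟩ := exists_of_rI (hS (mem_inf.2 ⟨iso _ hn, mem_SLG.2 (det_one_add_of_sq
      (T := ⟨n.toAddHom, lin_of_comm hω gen ny⟩) (LinearMap.ext (LinearMap.congr_fun nn :)))⟩) :
        rk hω gen ⟨_, mem_Cz.2 gy⟩ ∈ _)
    exact un_of_apply (LinearMap.congr_fun nn) hk (LinearEquiv.congr_fun e')

end Ext

theorem PaL.o1 (h : PaL P) (hp : (Nat.card F).Prime) (hH : HC P H (ng F V) gm1)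
    (h6 : 6 ≤ finrank (ZMod 2) h.pg.W) (hy : y ∈ P) (yy : y * y = ng F V) (y0 : y ∉ center _)
    (hB : B.Nondegenerate) (hS : ∀ u v, B u v = B v u) (hle : ∀ c ∈ H, c * y = y * c → c ∈ UG B) :
    HEy P H y ∨ UPy B H y := by
  by_cases hi : ∃ i : F, i * i = -1
  · exact hi.elim fun i => h.o1a hp hH h6 hy yy y0 hB hle
  have : Fact (∀ r : F, r ^ 2 ≠ -1 + 0 * r) := ⟨fun r e => hi ⟨r, by linear_combination e⟩⟩
  let φ : QuadraticAlgebra F (-1) 0 →ₐ[F] End F V := QuadraticAlgebra.lift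
    ⟨y, LinearMap.ext fun v => by simp [sq_apply yy]⟩
  let _ : Module (QuadraticAlgebra F (-1) 0) V := Module.compHom V φ.toRingHom
  have : IsScalarTower F (QuadraticAlgebra F (-1) 0) V :=
    ⟨fun a k v => LinearMap.congr_fun (map_smul φ a k) v⟩
  have : Finite (QuadraticAlgebra F (-1) 0) := .of_equiv _ (QuadraticAlgebra.equivProd _ _).symm
  exact h.o1b (K := QuadraticAlgebra F (-1) 0) (ω := QuadraticAlgebra.omega)
    (fun v => by change φ _ v = _; simp [φ]) (fun k => ⟨k.re, k.im, by ext <;> simp⟩) hp hH h6 hy yy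
    y0 hB hS hle (τ := starRingEnd _) (fun a => by ext <;> simp [starRingEnd_apply])
    (by ext <;> simp [starRingEnd_apply]) (ν := QuadraticAlgebra.reₗ _ _) rfl rfl

end CF.MaxSub
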