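/-
Normalisers of `2^{1+2k}` in symplectic and orthogonal groups: centralisers of involutions.
-/
import Cfsg.Agent.MaxSub.C6S

set_option autoImplicit false
set_option linter.unusedSectionVars false

namespace CF.MaxSub

open Module Subgroup Geom Cfsg.Geo

section Abs

variable {G : Type*} [Group G] [Finite G] {P H : Subgroup G} {z : G} {γ : G → G}

/-- Any three elements are centralised by an element of order four. -/
def R3 (P : Subgroup G) : Prop := ∀ a ∈ P, ∀ b ∈ P, ∀ c ∈ P,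
  ∃ y ∈ P, qd y = 1 ∧ bt y a = 0 ∧ bt y b = 0 ∧ bt y c = 0

namespace PG

variable (h : PG P z γ)
include h

theorem r3_of_seven (h7 : 7 ≤ finrank (ZMod 2) h.W) : R3 P := fun a ha b hb c hc => by
  obtain ⟨w, hw, q, e⟩ := h.exists_qd' [a, b, c] (by simp [*]) (by simp; omega) (one_mem P) 1
  simp only [List.mem_cons, List.not_mem_nil, or_false, forall_eq_or_imp, forall_eq,
    bt_of_center (one_mem _)] at e
  exact ⟨w, hw, q, e⟩

theorem r3_of_minus (h6 : 6 ≤ finrank (ZMod 2) h.W) (hm : IsOfMinusType 3 P) : R3 P :=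
  fun a ha b hb c hc => by
  by_contra! hn
  have h1 := h.finrank_orth (Submodule.span _ {x | x ∈ [h.cl a, h.cl b, h.cl c]})
  have h2 := finrank_span_list_le' (F := ZMod 2) [h.cl a, h.cl b, h.cl c]
  have h3 := TS.lt h (U := h.β.orthogonal (Submodule.span _ {x | x ∈ [h.cl a, h.cl b, h.cl c]}))
    (fun y hy hU => by
      have k : ∀ x ∈ P, h.cl x ∈ [h.cl a, h.cl b, h.cl c] → bt y x = 0 := fun x hx e => by
        rw [bt_comm, ← h.β_cl hx hy]; exact hU _ (mem_span_list e)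
      by_contra e
      exact hn y hy (z2_ne.1 e) (k a ha (by simp)) (k b hb (by simp)) (k c hc (by simp))) hm
  simp only [List.length_cons, List.length_nil] at h2
  omega

/-- Adjust the square of an element. -/
theorem r3_adj (hR : R3 P) {a b w : G} (ha : a ∈ P) (hb : b ∈ P) (hw : w ∈ P) :
    ∃ y ∈ P, qd y = 1 ∧ bt y a = bt w a ∧ bt y b = bt w b := by
  rcases z2 (qd w) with q | q
  · obtain ⟨y, hy, q', e1, e2, e3⟩ := hR a ha b hb w hw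
    exact ⟨_, mul_mem hy hw, by rw [h.qd_mul hy hw, q, q', e3]; rfl,
      by rw [h.bt_mul hy hw ha, e1, zero_add], by rw [h.bt_mul hy hw hb, e2, zero_add]⟩
  · exact ⟨w, hw, q, rfl, rfl⟩

variable (hO : ∀ c ∈ P, c ∈ center G → c * c = 1)
include hO

theorem nc_of_qd {y : G} (hy : y ∈ P) (q : qd y = 1) : y ∉ center G := fun e =>
  zero_ne_one ((qd_eq_zero.2 (hO y hy e)).symm.trans q)

theorem config (hR : R3 P) (h5 : 5 ≤ finrank (ZMod 2) h.W) {x : G} (hx : x ∈ P) (xx : x * x = 1) :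
    ∃ s ∈ P, ∃ y₁ ∈ P, ∃ y₂ ∈ P, qd s = 0 ∧ s ∉ center G ∧ h.cl s ≠ h.cl x ∧ qd y₁ = 1 ∧
      qd y₂ = 1 ∧ bt s x = 0 ∧ bt y₁ x = 0 ∧ bt y₂ x = 0 ∧ bt y₁ s = 0 ∧ bt y₂ s = 0 ∧
      bt y₁ y₂ = 1 := by
  obtain ⟨t, ht, t1, t0, t2⟩ := h.exists_comm [x] (by simpa) (x := x) (by simp; omega)
  obtain ⟨w, hw, w1, w2⟩ := h.sep1 hx ht t0 t2
  obtain ⟨s, hs, qs, s1⟩ := h.exists_qd' [x, t] (by simp [*]) (by simp; omega) hw 0
  have s2 := (s1 x (by simp)).trans w1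
  have s3 := (s1 t (by simp)).trans w2
  obtain ⟨y₁, m1, q1, a1, a2, -⟩ := hR x hx s hs s hs
  have k : ∀ u ∈ P, qd u = 0 → h.cl y₁ ≠ h.cl u := fun u hu q e =>
    zero_ne_one (q.symm.trans ((h.qd_congr hO m1 hu e).symm.trans q1))
  have qx := qd_eq_zero.2 xx
  obtain ⟨u, hu, u1, u2, u3⟩ := h.sep2 hx hs m1 (h.nc_of_qd hO m1 q1) (k x hx qx) (k s hs qs)
    (h.cl_mul hx hs ▸ k _ (mul_mem hx hs) (by rw [h.qd_mul hx hs, qx, qs, bt_comm, s2]; rfl))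
  obtain ⟨y₂, m2, q2, b1, b2, b3⟩ : ∃ y₂ ∈ P, qd y₂ = 1 ∧ bt y₂ x = 0 ∧ bt y₂ s = 0 ∧
      bt y₂ y₁ = 1 := by
    rcases z2 (qd u) with q | q
    · obtain ⟨y, hy, q', e1, e2, e3⟩ := hR x hx s hs u hu
      rcases z2 (bt y y₁) with e4 | e4
      · exact ⟨_, mul_mem hy hu, by rw [h.qd_mul hy hu, q, q', e3]; rfl,
          by rw [h.bt_mul hy hu hx, e1, u1]; rfl, by rw [h.bt_mul hy hu hs, e2, u2]; rfl,
          by rw [h.bt_mul hy hu m1, e4, u3]; rfl⟩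
      · exact ⟨y, hy, q', e1, e2, e4⟩
    · exact ⟨u, hu, q, u1, u2, u3⟩
  exact ⟨s, hs, y₁, m1, y₂, m2, qs, notMem_center_of_bt s3, fun e => zero_ne_one (by
    rw [← t1 x (by simp), ← h.bt_congr hs hx e, s3]), q1, q2, s2, a1, b1, a2, b2, bt_comm y₁ _ ▸ b3⟩

end PG

theorem HC.commutator (h : HC P H z γ) (hO : ∀ c ∈ P, c ∈ center G → c * c = 1) (hR : R3 P) :
    HC P ⁅H, H⁆ z γ := by
  have nc := fun {y} hy (e : y * y = z) => h.nc_of_qd hO hy (h.qd_one e)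
  have k1 : ∀ y ∈ P, y * y = z → y ∈ ⁅H, H⁆ := fun y hy e => by
    obtain ⟨a, ha, e1⟩ := h.exists_partner (nc hy e)
    obtain ⟨v, hv, q, e2, -⟩ := hR a ha a ha a ha
    have vv := h.sq_z hv q
    have := commutator_mem_commutator (h.gate y hy v hv e vv (nc hy e) (nc hv vv)) (h.le ha)
    rwa [commutatorElement_def, mul_assoc (γ y), comm_inv (h.g1 v a vv (bt_eq_zero.1 e2).symm),
      mul_inv_rev, inv_inv, ← mul_assoc, ← mul_assoc, inv_mul_cancel_right,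
      h.g2 y a e (h.anti (h.pm ha hy) (bt_comm y a ▸ e1)), mul_inv_cancel_right,
      mul_inv_cancel_right] at this
  have k2 : ∀ y ∈ P, ∀ y' ∈ P, y * y = z → y' * y' = z → bt y y' = 1 →
      γ y * (γ y')⁻¹ ∈ ⁅H, H⁆ := fun y hy y' hy' e e' b => by
    obtain ⟨v, hv, q, e1, e2, -⟩ := hR y hy y' hy' y hy
    have vv := h.sq_z hv q
    obtain ⟨n, hn, -, nv, rfl⟩ := h.tr1 hy hy' hv (bt_eq_zero.1 e1).symm (bt_eq_zero.1 e2).symm rfl b
      ((h.qd_one e).trans (h.qd_one e').symm) vv (nc hv vv) (bt_comm y v ▸ e1)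
    have := commutator_mem_commutator (h.gate y hy v hv e vv (nc hy e) (nc hv vv)) hn
    rwa [commutatorElement_def, mul_assoc (γ y), comm_inv (h.g1 v n vv nv), mul_inv_rev, inv_inv,
      ← mul_assoc, ← mul_assoc, inv_mul_cancel_right, show γ y * n * (γ y)⁻¹ * n⁻¹ =
        γ y * (n * γ y * n⁻¹)⁻¹ by group, h.g3 y n e] at this
  refine ⟨h.toPG, fun x hx => ?_, fun y hy y' hy' e e' y0 y0' => ?_⟩
  · rcases h.sq x hx with e | e
    · obtain ⟨v, hv, q, e1, -⟩ := hR x hx x hx x hx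
      exact (mul_mem_cancel_left (k1 v hv (h.sq_z hv q))).1 (k1 _ (mul_mem hv hx)
        (h.sq_z (mul_mem hv hx) (by rw [h.qd_mul hv hx, q, e1, qd_eq_zero.2 e]; rfl)))
    · exact k1 x hx e
  · obtain ⟨w₀, hw₀, b1, b2⟩ : ∃ w ∈ P, bt w y = 1 ∧ bt w y' = 1 := by
      obtain ⟨a, ha, e1⟩ := h.exists_partner y0
      obtain ⟨b, hb, e2⟩ := h.exists_partner y0'
      rw [bt_comm] at e1 e2
      rcases z2 (bt a y') with e3 | e3
      · rcases z2 (bt b y) with e4 | e4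
        · exact ⟨_, mul_mem ha hb, by rw [h.bt_mul ha hb hy, e1, e4]; rfl,
            by rw [h.bt_mul ha hb hy', e2, e3]; rfl⟩
        · exact ⟨b, hb, e4, e2⟩
      · exact ⟨a, ha, e1, e3⟩
    obtain ⟨w, hw, q, c1, c2⟩ := h.r3_adj hR hy hy' hw₀
    simpa using mul_mem (k2 y hy w hw e (h.sq_z hw q) (by rw [bt_comm, c1, b1]))
      (k2 w hw y' hy' (h.sq_z hw q) e' (c2.trans b2))

theorem HC.mono {H' : Subgroup G} (h : HC P H z γ) (hle : H ≤ H') : HC P H' z γ :=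
  ⟨h.toPG, h.le.trans hle, fun y hy y' hy' e e' y0 y0' => hle (h.gate y hy y' hy' e e' y0 y0')⟩

end Abs

variable {F V : Type*} [Field F] [AddCommGroup V] [Module F V] {B : LinearMap.BilinForm F V}
  {P H : Subgroup (V ≃ₗ[F] V)} [Finite F] [Finite V]

theorem rs_gm1 (h2 : (2 : F) ≠ 0) {t y : V ≃ₗ[F] V} {c : F} (hy : y ∈ Cz t) (hy' : gm1 y ∈ Cz t)
    (yy : y * y = ng F V) : rs t c ⟨_, hy'⟩ = gm1 (rs t c ⟨y, hy⟩) := rs_ext fun v => by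
  rw [gm1_apply h2 (y := rs t c ⟨y, hy⟩) (by
    rw [← map_mul]; exact rs_ext fun v => sq_apply yy v.1)]
  exact gm1_apply h2 yy v

theorem cj_rs {t c e f : V ≃ₗ[F] V} (ct : c ∈ Cz t) (et : e ∈ Cz t) (ft : f ∈ Cz t)
    (h : ∀ v, t v = v → (c * e * c⁻¹) v = f v) :
    rs t 1 ⟨f, ft⟩ = rs t 1 ⟨c, ct⟩ * rs t 1 ⟨e, et⟩ * (rs t 1 ⟨c, ct⟩)⁻¹ :=
  rs_ext fun v => (h v (mem_Eg_one.1 v.2)).symm

namespace PaL

variable (h : PaL P)
include h

theorem cen_of_FxN {x u : V ≃ₗ[F] V} (hx : x ∈ P) (xx : x * x = 1) (x0 : x ∉ center _)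
    (hu : u ∈ P) (hf : u ∈ FxN x) : u ∈ center _ ∨ h.pg.cl u = h.pg.cl x := by
  by_contra! hc
  obtain ⟨w, hw, w1, w2⟩ := h.pg.sep1 hx hu hc.1 hc.2
  obtain ⟨v, hv, v0⟩ := h.exists_Eg (c := -1) (by simp) (by simpa using invol_apply xx) x0
  rw [mem_Eg, neg_one_smul] at hv
  rw [bt_eq_zero.2 (h.comm_of_vec (h.pg.pm hw hu) v0 (by
    rw [hf v hv, hf _ (by rw [← comm_apply (bt_eq_zero.1 w1), hv, map_neg])]))] at w2
  exact zero_ne_one w2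

theorem gate_cj {t c y y' f f' : V ≃ₗ[F] V} (yy : y * y = ng F V) (yy' : y' * y' = ng F V)
    (ff : f * f = ng F V) (ff' : f' * f' = ng F V) (ft : f' * t = t * f')
    (e : ∀ v, t v = v → (c * y * c⁻¹) v = f v) (e' : ∀ v, t v = v → (c * y' * c⁻¹) v = f' v)
    (v : V) (hv : t v = v) : (c * (gm1 y * (gm1 y')⁻¹) * c⁻¹) v = (gm1 f * (gm1 f')⁻¹) v := by
  have q : ∀ {y}, y * y = ng F V → c * y * c⁻¹ * (c * y * c⁻¹) = ng F V := fun e => by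
    rw [conj_mul, e, h.pg.conj_z]
  rw [show c * (gm1 y * (gm1 y')⁻¹) * c⁻¹ = c * gm1 y * c⁻¹ * (c * gm1 y' * c⁻¹)⁻¹ by group,
    h.pg.g3 y c yy, h.pg.g3 y' c yy', LinearEquiv.mul_apply, LinearEquiv.mul_apply (gm1 f),
    gm1_inv_apply h.two (q yy'), gm1_inv_apply h.two ff', gm1_apply h.two (q yy),
    gm1_apply h.two ff, e' v hv, e _ (by simp [← comm_apply ft, hv])]

variable (hH : HC P H (ng F V) gm1) (hB : B.Nondegenerate) (hle : H ≤ UG B)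
include hH hB hle

theorem hO (c : V ≃ₗ[F] V) (hc : c ∈ H) (e : c ∈ center _) : c * c = 1 :=
  h.pm_one hB (mem_UG.1 (hle hc)) e

variable (hR : R3 P) (h5 : 5 ≤ finrank (ZMod 2) h.pg.W)
  (hL : ∀ y ∈ P, y * y = ng F V → Lcl P H y)
include hR h5 hL

theorem res_eq {x : V ≃ₗ[F] V} (hx : x ∈ P) (xx : x * x = 1) (x0 : x ∉ center _) :
    rI (rs x 1) (H ⊓ FxN x) = rI (rs x 1) P ∧ rI (rs x 1) H ≤ Nm (rI (rs x 1) P) := by
  have hO := fun c hc => h.hO hH hB hle c (hH.le hc)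
  have r := h.res hx one_ne_zero (sq_one_one xx) x0
  have hB' := nondeg_res h.two hB xx (mem_UG.1 (hle (hH.le hx)))
  have hH' := h.hc_res hx one_ne_zero (sq_one_one xx) x0 hH
  have hO' := fun c hc => r.hO hH' hB' (rI_le_UG hle) c (hH'.le hc)
  have k1 : ∀ y ∈ P, ∀ yx : y ∈ Cz x, qd y = 1 → rs x 1 ⟨y, yx⟩ ∈ rI (rs x 1) (H ⊓ FxN x) :=
    fun y hy yx q => by
      obtain ⟨e1, e2, e3, e4⟩ := h.gate_fx xx (h.pg.sq_z hy q) (mem_Cz.1 yx)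
      have m := mul_mem (mul_mem h.neg hx) hy
      rw [← show rs x 1 ⟨_, e2⟩ = rs x 1 ⟨y, yx⟩ from rs_ext fun v => e4 v (mem_Eg_one.1 v.2)]
      exact mem_rI (mem_inf.2 ⟨hH.gate y hy _ m (h.pg.sq_z hy q) e1 (h.pg.nc_of_qd hO hy q)
        (h.pg.nc_of_qd hO m (h.pg.qd_one e1)), e3⟩) e2
  have le : rI (rs x 1) P ≤ rI (rs x 1) (H ⊓ FxN x) := fun a ha => by
    obtain ⟨e, he, ex, rfl⟩ := exists_of_rI ha
    rcases z2 (qd e) with q | q
    · obtain ⟨y, hy, qy, e1, e2, -⟩ := hR x hx e he e he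
      have yx := mem_Cz.2 (bt_eq_zero.1 e1)
      refine (mul_mem_cancel_left (k1 y hy yx qy)).1 ?_
      rw [← map_mul]
      exact k1 _ (mul_mem hy he) _ (by rw [h.pg.qd_mul hy he, qy, q, e2]; rfl)
    · exact k1 e he ex q
  have nm : rI (rs x 1) H ≤ Nm (rI (rs x 1) (H ⊓ FxN x)) := fun s hs =>
    mem_normalizer_fintype fun a ha => by
      obtain ⟨c, hc, cx, rfl⟩ := exists_of_rI hs
      obtain ⟨k, hk, kx, rfl⟩ := exists_of_rI ha
      exact mem_rI (r := rs x 1) (a := c * k * c⁻¹) (mem_inf.2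
        ⟨mul_mem (mul_mem hc hk.1) (inv_mem hc), conj_mem_FxN (mem_Cz.1 cx) hk.2⟩)
        (mul_mem (mul_mem cx kx) (inv_mem cx))
  suffices e : rI (rs x 1) (H ⊓ FxN x) = rI (rs x 1) P from ⟨e, e ▸ nm⟩
  obtain ⟨s, hs, y₁, m1, y₂, m2, qs, s0, s1, q1, q2, c0, c1, c2, b1, b2, b3⟩ :=
    h.pg.config hO hR h5 hx xx
  have bt' := fun {a b} => h.bt_res hx one_ne_zero (sq_one_one xx) x0 (a := a) (b := b)
  have qd' := fun {a} => h.pg.sq_res r.pg (rs_ng _) (a := a)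
  have c0' := mem_Cz.2 (bt_eq_zero.1 c0)
  have c1' := mem_Cz.2 (bt_eq_zero.1 c1)
  have c2' := mem_Cz.2 (bt_eq_zero.1 c2)
  have g : ∀ y ∈ P, ∀ yx : y ∈ Cz x, qd y = 1 → bt y s = 0 → gm1 (rs x 1 ⟨y, yx⟩) *
      (gm1 (rs x 1 ⟨y, yx⟩ * rs x 1 ⟨s, c0'⟩))⁻¹ ∈ Nm (rI (rs x 1) (H ⊓ FxN x)) :=
    fun y hy yx q b => by
      have m := mul_mem (mem_rI (r := rs x 1) hy yx) (mem_rI hs c0')
      have a1 := (qd' hy yx).trans q
      have a2 : qd (rs x 1 ⟨y, yx⟩ * rs x 1 ⟨s, c0'⟩) = 1 := by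
        rw [r.pg.qd_mul (mem_rI hy yx) (mem_rI hs c0'), a1, qd' hs, qs, bt' hy hs, b]; rfl
      exact nm (hH'.gate _ (mem_rI hy yx) _ m (r.pg.sq_z (mem_rI hy yx) a1) (r.pg.sq_z m a2)
        (r.pg.nc_of_qd hO' (mem_rI hy yx) a1) (r.pg.nc_of_qd hO' m a2))
  refine le_antisymm (r.pg.o3core le hO' (fun k hk' y hy' yy ky => ?_) (mem_rI hs c0') (mem_rI m1 c1')
    (mem_rI m2 c2') (qd_eq_zero.1 ((qd' hs _).trans qs))
    (fun e => ((h.res_center hx one_ne_zero (sq_one_one xx) x0 hs _).1 e).elim s0 s1)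
    (r.pg.sq_z (mem_rI m1 _) ((qd' m1 _).trans q1)) (r.pg.sq_z (mem_rI m2 _) ((qd' m2 _).trans q2))
    ((bt' m1 hs _ _).trans b1) ((bt' m2 hs _ _).trans b2) ((bt' m1 m2 _ _).trans b3)
    (g y₁ m1 _ q1 b1) (g y₂ m2 _ q2 b2)) le
  obtain ⟨k, hk, kx, rfl⟩ := exists_of_rI hk'
  obtain ⟨y, hy, yx, rfl⟩ := exists_of_rI hy'
  have kN := hL y hy (h.pg.sq_z hy ((qd' hy yx).symm.trans (r.pg.qd_one yy))) k hk.1
    (ext_invol h.two xx (fun v hv => congrArg Subtype.val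
      (LinearEquiv.congr_fun ky ⟨v, mem_Eg_one.2 hv⟩)) fun v hv => by
        rw [LinearEquiv.mul_apply, LinearEquiv.mul_apply, hk.2 v hv,
          hk.2 _ (by rw [← comm_apply (mem_Cz.1 yx), hv, map_neg])])
  obtain ⟨u, hu, e⟩ := r.pg.exists_of_pm (a := rs x 1 ⟨k, kx⟩) fun a ha => by
    obtain ⟨e, he, ex, rfl⟩ := exists_of_rI ha
    refine r.pg.pm_of_center ?_ (r.pg.sq_cen ha)
    have m := mul_mem (Nm_conj kN he) (inv_mem he)
    exact (h.res_center hx one_ne_zero (sq_one_one xx) x0 m (mul_mem (mul_mem (mul_mem kx ex)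
      (inv_mem kx)) (inv_mem ex))).2 (h.cen_of_FxN hx xx x0 m (by
        rw [mul_assoc, mul_assoc, ← mul_assoc e]
        exact mul_mem hk.2 (conj_mem_FxN (mem_Cz.1 ex) (inv_mem hk.2))))
  refine (mul_mem_cancel_right (inv_mem hu)).1 ((r.pg.uniq _ e (r.hO hH' hB' (rI_le_UG hle) _
    (mul_mem (mem_rI hk.1 kx) (inv_mem (hH'.le hu))) e)).elim (fun e => e ▸ one_mem _)
      fun e => e ▸ r.neg)

theorem lcl_invol {x : V ≃ₗ[F] V} (hx : x ∈ P) (xx : x * x = 1) (x0 : x ∉ center _) :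
    Lcl P H x := fun c hc cx => by
  have hO := fun c hc => h.hO hH hB hle c (hH.le hc)
  have nx : ∀ {a}, a * x = x * a → a * (ng F V * x) = ng F V * x * a := fun e => by
    rw [h.pg.zl, e, mul_assoc]
  have nx' : ∀ {a}, a * (ng F V * x) = ng F V * x * a → a * x = x * a := fun e => by
    rwa [h.pg.zl, mul_assoc, mul_right_inj] at e
  have hx' := mul_mem h.neg hx
  have xx' : ng F V * x * (ng F V * x) = 1 := by rw [mul_assoc, h.pg.zl, h.pg.zzl, xx]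
  have x0' : ng F V * x ∉ center _ := by rwa [mul_mem_cancel_left ng_cen]
  have nl : h.pg.cl (ng F V * x) = h.pg.cl x := by
    rw [h.pg.cl_mul h.neg hx, (h.pg.cl_eq_zero h.neg).2 ng_cen, zero_add]
  have hv' : ∀ {v}, x v = -v → (ng F V * x) v = v := fun hv => by rw [ng_mul_apply, hv, neg_neg]
  obtain ⟨e1, n1⟩ := h.res_eq hH hB hle hR h5 hL hx xx x0
  obtain ⟨-, n2⟩ := h.res_eq hH hB hle hR h5 hL hx' xx' x0'
  have r := h.res hx one_ne_zero (sq_one_one xx) x0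
  have r' := h.res hx' one_ne_zero (sq_one_one xx') x0'
  have hH' := h.hc_res hx one_ne_zero (sq_one_one xx) x0 hH
  have hO' := fun c hc => r.hO hH' (nondeg_res h.two hB xx (mem_UG.1 (hle (hH.le hx))))
    (rI_le_UG hle) c (hH'.le hc)
  obtain ⟨-, -, y₁, m1, y₂, m2, -, -, -, q1, q2, -, c1, c2, -, -, b3⟩ := h.pg.config hO hR h5 hx xx
  obtain ⟨y, hy, q, c0, a1, a2⟩ := hR x hx y₁ m1 y₂ m2
  rw [bt_eq_zero] at c0 c1 c2
  have cx' := mem_Cz.2 cx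
  have ex : ∀ y ∈ P, y * x = x * y → qd y = 1 → (∃ f ∈ P, f * x = x * f ∧ f * f = ng F V ∧
      ∀ v, x v = v → (c * y * c⁻¹) v = f v) ∧ ∃ f ∈ P, f * x = x * f ∧ f * f = ng F V ∧
      ∀ v, (ng F V * x) v = v → (c * y * c⁻¹) v = f v := fun y hy yx q => by
    obtain ⟨f, hf, f1, f2⟩ := exists_of_le_Nm n1 hc cx hy yx
    obtain ⟨g, hg, g1, g2⟩ := exists_of_le_Nm n2 hc (nx cx) hy (nx yx)
    simp only [one_smul] at f2 g2
    refine ⟨⟨f, hf, f1, h.pg.sq_z hf ?_, f2⟩, g, hg, nx' g1, h.pg.sq_z hg ?_, g2⟩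
    · rw [← h.pg.sq_res r.pg (rs_ng _) hf (mem_Cz.2 f1), cj_rs cx' (mem_Cz.2 yx) _ f2, qd_conj,
        h.pg.sq_res r.pg (rs_ng _) hy, q]
    · rw [← h.pg.sq_res r'.pg (rs_ng _) hg (mem_Cz.2 g1), cj_rs (mem_Cz.2 (nx cx))
        (mem_Cz.2 (nx yx)) _ g2, qd_conj, h.pg.sq_res r'.pg (rs_ng _) hy, q]
  obtain ⟨⟨e₁, k1, d1, s1, f1⟩, e₂, k2, d2, s2, f2⟩ := ex y hy c0 q
  have bb : ∀ a ∈ P, ∀ b ∈ P, a * x = x * a → b * x = x * b → ∀ f ∈ P, ∀ g ∈ P, f * x = x * f →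
      g * x = x * g → (∀ v, (ng F V * x) v = v → (c * a * c⁻¹) v = f v) →
      (∀ v, (ng F V * x) v = v → (c * b * c⁻¹) v = g v) → bt f g = bt a b :=
    fun a ha b hb ax bx f hf g hg fx gx e e' => by
      rw [← h.bt_res hx' one_ne_zero (sq_one_one xx') x0' hf hg (mem_Cz.2 (nx fx))
        (mem_Cz.2 (nx gx)), cj_rs (mem_Cz.2 (nx cx)) (mem_Cz.2 (nx ax)) _ e,
        cj_rs (mem_Cz.2 (nx cx)) (mem_Cz.2 (nx bx)) _ e', bt_conj,
        h.bt_res hx' one_ne_zero (sq_one_one xx') x0' ha hb]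
  have key : ∀ y' ∈ P, ∀ w ∈ P, y' * x = x * y' → w * x = x * w → qd y' = 1 → bt y y' = 0 →
      bt y w = 0 → bt y' w = 1 → ∀ g ∈ P, ∀ gx : g * x = x * g, g * g = ng F V →
      (∀ v, (ng F V * x) v = v → (c * y' * c⁻¹) v = g v) →
      r.pg.cl (rs x 1 ⟨e₁, mem_Cz.2 d1⟩) = r.pg.cl (rs x 1 ⟨e₂, mem_Cz.2 d2⟩) ∨
      r.pg.cl (rs x 1 ⟨e₁, mem_Cz.2 d1⟩) = r.pg.cl (rs x 1 ⟨g, mem_Cz.2 gx⟩) :=
    fun y' hy' w hw yx wx q' b1 b2 b3 g hg gx gg eg => by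
      obtain ⟨⟨f, hf, fx, ff, ef⟩, -⟩ := ex y' hy' yx q'
      have sq : ∀ a (ax : a ∈ Cz x), a * a = ng F V → rs x 1 ⟨a, ax⟩ * rs x 1 ⟨a, ax⟩ = ng F _ :=
        fun a ax aa => by rw [← map_mul]; exact rs_ext fun v => sq_apply aa v.1
      have gx' : ∀ {a}, a * a = ng F V → a * x = x * a → gm1 a ∈ Cz x := fun aa ax =>
        mem_Cz.2 (h.pg.g1 _ x aa ax.symm)
      have yy := h.pg.sq_z hy q
      have yy' := h.pg.sq_z hy' q'
      refine r.pg.gate_inj hO' (mem_rI k1 _) (mem_rI hf (mem_Cz.2 fx)) (mem_rI k2 _) (mem_rI hg _)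
        (sq _ _ s1) (sq _ _ ff) (sq _ _ s2) (sq _ _ gg)
        ((h.bt_res hx one_ne_zero (sq_one_one xx) x0 k2 hg _ _).trans
          ((bb y hy y' hy' c0 yx _ k2 _ hg d2 gx f2 eg).trans b1)) (fun e => ?_) ?_
      · have := r.pg.bt_congr (mem_rI k1 _) (mem_rI hf _) e
          (rs x 1 ⟨c, cx'⟩ * rs x 1 ⟨w, mem_Cz.2 wx⟩ * (rs x 1 ⟨c, cx'⟩)⁻¹)
        rw [cj_rs cx' (mem_Cz.2 c0) _ f1, cj_rs cx' (mem_Cz.2 yx) _ ef, bt_conj, bt_conj,
          h.bt_res hx one_ne_zero (sq_one_one xx) x0 hy hw,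
          h.bt_res hx one_ne_zero (sq_one_one xx) x0 hy' hw, b2, b3] at this
        exact zero_ne_one this
      · have G := mul_mem (gx' s2 d2) (inv_mem (gx' gg gx))
        have G' := mul_mem (mul_mem cx' (mul_mem (gx' yy c0) (inv_mem (gx' yy' yx)))) (inv_mem cx')
        have := mem_rI (r := rs x 1) (K := H ⊓ FxN x) (mem_inf.2 ⟨mul_mem (mul_mem (mul_mem hc
          (hH.gate y hy y' hy' yy yy' (h.pg.nc_of_qd hO hy q) (h.pg.nc_of_qd hO hy' q')))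
          (inv_mem hc)) (inv_mem (hH.gate _ k2 _ hg s2 gg (h.pg.nc_of_qd hO k2 (h.pg.qd_one s2))
            (h.pg.nc_of_qd hO hg (h.pg.qd_one gg)))), fun v hv => by
          rw [LinearEquiv.mul_apply, h.gate_cj yy yy' s2 gg (nx gx) f2 eg _ (hv' (by
            rw [← comm_apply (comm_inv (mem_Cz.1 G)), hv, map_neg])), apply_inv_apply]⟩)
          (mul_mem G' (inv_mem G))
        rw [e1] at this
        rw [← rs_gm1 h.two _ (gx' s1 d1) s1, ← rs_gm1 h.two _ (gx' ff fx) ff,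
          ← rs_gm1 h.two _ (gx' s2 d2) s2, ← rs_gm1 h.two _ (gx' gg gx) gg, ← map_inv, ← map_inv,
          ← map_mul, ← map_mul, show rs x 1 _ = rs x 1 ⟨_, G'⟩ from rs_ext fun v =>
            (h.gate_cj yy yy' s1 ff fx f1 ef v (mem_Eg_one.1 v.2)).symm, ← map_inv, ← map_mul]
        exact this
  obtain ⟨-, g₁, l1, l2, l3, l4⟩ := ex y₁ m1 c1 q1
  obtain ⟨-, g₂, l5, l6, l7, l8⟩ := ex y₂ m2 c2 q2
  have fin : r.pg.cl (rs x 1 ⟨e₁, mem_Cz.2 d1⟩) = r.pg.cl (rs x 1 ⟨e₂, mem_Cz.2 d2⟩) := by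
    refine (key y₁ m1 y₂ m2 c1 c2 q1 a1 a2 b3 g₁ l1 l2 l3 l4).elim id fun e => ?_
    refine (key y₂ m2 y₁ m1 c2 c1 q2 a2 a1 (bt_comm y₁ _ ▸ b3) g₂ l5 l6 l7 l8).elim id fun e' => ?_
    have := r.pg.bt_congr (mem_rI l1 _) (mem_rI l5 _) (e.symm.trans e') (rs x 1 ⟨g₂, mem_Cz.2 l6⟩)
    rw [bt_self, h.bt_res hx one_ne_zero (sq_one_one xx) x0 l1 l5,
      bb y₁ m1 y₂ m2 c1 c2 _ l1 _ l5 l2 l6 l4 l8, b3] at this
    exact absurd this one_ne_zero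
  refine hH.mem_of_conj (h.pg.rich_of_five h5) hc hy (h.pg.nc_of_qd hO hy q)
    (hL y hy (h.pg.sq_z hy q)) ?_
  rcases r.pg.pm_eq (mem_rI k1 _) (mem_rI k2 _) fin (by
    rw [← map_mul, ← map_mul]; exact congrArg _ (Subtype.ext (s1.trans s2.symm))) with e | e
  · rw [ext_invol h.two xx (fun v hv => (f1 v hv).trans (congrArg Subtype.val
      (LinearEquiv.congr_fun e ⟨v, mem_Eg_one.2 hv⟩))) fun v hv => f2 v (hv' hv)]
    exact k2
  · rw [ext_invol h.two (b := ng F V * x * e₂) xx (fun v hv => (f1 v hv).trans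
      ((congrArg Subtype.val (LinearEquiv.congr_fun e ⟨v, mem_Eg_one.2 hv⟩)).trans (by
        simp [← comm_apply d2, hv]))) fun v hv => (f2 v (hv' hv)).trans (by
          simp [← comm_apply d2, hv])]
    exact mul_mem hx' k2

end PaL

end CF.MaxSub
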