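/-
Maximality of the normalisers of `2^{1+2k}` in symplectic and orthogonal groups over prime fields.
-/
import Cfsg.Agent.MaxSub.C6T

set_option autoImplicit false
set_option linter.unusedSectionVars false

namespace CF.MaxSub

open Module Subgroup Geom Cfsg Cfsg.Geo QuadraticMap

variable {F V : Type*} [Field F] [AddCommGroup V] [Module F V] {B : LinearMap.BilinForm F V}
  {P H : Subgroup (V ≃ₗ[F] V)} [Finite F] [Finite V]

theorem UPy.conj {y g : V ≃ₗ[F] V} (h : UPy B H y) (hg : g ∈ H) (hi : g ∈ UG B) :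
    UPy B H (g * y * g⁻¹) := fun n nn ny hn =>
  (h ((g⁻¹ : V ≃ₗ[F] V) * n * g) (LinearMap.ext fun v => by
    simp [show ∀ v, n (n v) = 0 from LinearMap.congr_fun nn]) (fun v => by
      simpa using congrArg g.symm (ny (g v))) fun u v => by
        rw [← mem_UG.1 hi, ← mem_UG.1 hi u v, ← hn (g u)]; simp).of_conj hg fun v => by simp

theorem skew_of_iso {y : V ≃ₗ[F] V} (yy : y * y = ng F V) (hy : y ∈ UG B) (u v : V) :
    B (y u) v = -B u (y v) := by
  rw [← mem_UG.1 hy u, sq_apply yy, map_neg, neg_neg]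

namespace PaL

variable (h : PaL P)
include h

theorem main_O (hp : (Nat.card F).Prime) (hH : HC P H (ng F V) gm1) (hB : B.Nondegenerate)
    (hS : (∀ u v, B u v = B v u) ∨ B.IsAlt) (hle : H ≤ UG B) (hR : R3 P)
    (h6 : 6 ≤ finrank (ZMod 2) h.pg.W) : H ≤ Nm P ∨ ∀ y ∈ P, y * y = ng F V → UPy B H y := by
  have hO := h.hO hH hB hle
  have hO' := fun c hc => hO c (hH.le hc)
  have nc := fun {y} hy (e : y * y = ng F V) => h.pg.nc_of_qd hO' hy (h.pg.qd_one e)
  by_cases hE : ∀ y ∈ P, y * y = ng F V → y ∉ center _ → HEy P H y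
  · have hL : ∀ y ∈ P, y * y = ng F V → Lcl P H y := fun y hy yy =>
      hH.locY (by change _ ≤ finrank _ h.pg.W; omega) hE hy yy (nc hy yy)
    exact .inl (GC.le_O { hH with
      loc := fun x hx x0 => (h.sq x hx).elim
        (fun xx => h.lcl_invol hH hB hle hR (by omega) hL hx xx x0) (hL x hx)
      hZ := fun c hc e _ => (h.pg.uniq c e (hO c hc e)).elim (fun e => e ▸ one_mem _)
        fun e => e ▸ h.neg } hO' (by change _ ≤ finrank _ h.pg.W; omega))
  simp only [not_forall] at hE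
  obtain ⟨y, hy, yy, y0, hE⟩ := hE
  refine .inr fun y' hy' yy' => ?_
  obtain ⟨n, hn, -, rfl⟩ := hH.fusion (h.pg.rich_of_five (by omega)) hy hy' y0 (nc hy' yy')
    ((h.pg.qd_one yy).trans (h.pg.qd_one yy').symm)
  refine UPy.conj ?_ hn (hle hn)
  rcases hS with hS | hA
  · exact (h.o1 hp hH h6 hy yy y0 hB hS fun c hc _ => hle hc).resolve_left hE
  have sk := skew_of_iso yy (hle (hH.le hy))
  refine fun n nn ny hn => (h.o1 (B := B.compl₂ y.toLinearMap) hp hH h6 hy yy y0
    ⟨fun u hu => hB.1 u fun v => by simpa using hu (y.symm v),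
      fun u hu => by simpa using hB.2 _ hu⟩ (fun u v => ?_)
    fun c hc cy => mem_UG.2 fun u v => ?_).resolve_left hE n nn ny fun u v => ?_
  · simp only [LinearMap.compl₂_apply, LinearEquiv.coe_coe]
    rw [← hA.neg_eq, sk, neg_neg]
  · simp only [LinearMap.compl₂_apply, LinearEquiv.coe_coe]
    rw [← comm_apply cy, mem_UG.1 (hle hc)]
  · simp only [LinearMap.compl₂_apply, LinearEquiv.coe_coe]
    rw [map_add y, ← ny, hn]

theorem omega_le {Q : QuadraticForm F V} (hQ : (polarBilin Q).Nondegenerate) (h5 : 5 ≤ finrank F V)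
    (hP : P ≤ H) (hle : H ≤ OG Q) (hU : ∀ y ∈ P, y * y = ng F V → UPy (polarBilin Q) H y) :
    OmG Q ≤ H := by
  obtain ⟨u, u0, hu⟩ := exists_singular_of_three_le Q (by omega)
  have iso := fun x (hx : x ∈ P) => (hle (hP hx)).1
  have uu : polar Q u u = 0 := by simp [hu]
  have k1 : ∀ y ∈ P, y * y = ng F V → y u ∈ Ysub H hu := fun y hy yy c => by
    have sk := skew_of_iso yy (mem_UG.2 (iso y hy))
    simp only [polarBilin_apply_apply] at sk
    have e1 : polar Q u (y u) = 0 := (mul_eq_zero.1 (by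
      linear_combination sk u u + polar_comm Q u (y u))).resolve_left h.two
    have e2 : Q (y u) = 0 := ((hle (hP hy)).2 u).trans hu
    have e3 := (polar_comm Q (y u) u).trans e1
    have e4 : polar Q (y u) (y u) = 0 := by simp [e2]
    have hw : polar Q u (c • y u) = 0 := by simp [e1]
    obtain ⟨g, hg, e⟩ := (hU y hy yy ((polarBilin Q u).smulRight (c • y u) -
      (polarBilin Q (c • y u)).smulRight u) (LinearMap.ext fun x => by simp [uu, e1, e3, e4])
      (fun v => by simp [sk, sq_apply yy]; module) fun a b => by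
        convert (eichler hu hw).2.1 a b using 3 <;> simp [eichler_apply, quad_smul, e2, add_sub_assoc]).mem
    exact ⟨hu, hw, by
      rwa [show (eichler hu hw).1 = g from LinearEquiv.ext fun x => by
        rw [show g x = _ from LinearMap.congr_fun e x]
        simp [eichler_apply, quad_smul, e2, add_sub_assoc]]⟩
  obtain ⟨a, ha⟩ : ∃ a, polar Q a u = 1 := by
    by_contra! hc
    refine u0 (hQ.2 u fun a => ?_)
    by_contra e
    exact hc ((polar Q a u)⁻¹ • a) (by simpa using inv_mul_cancel₀ e)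
  obtain ⟨m, hm, e⟩ : ∃ m ∈ P, polar Q u (m u) ≠ 0 := by
    by_contra! hc
    simpa [ha, polar_comm Q u a] using h.span (LinearMap.ker (polarBilin Q u ∘ₗ LinearMap.applyₗ u))
      hc ((polarBilin Q a).smulRight a)
  refine le_of_Ysub hQ h5 u0 (hu := hu) (fun w hw => ?_) (hP hm) (hle (hP hm)) e
  obtain ⟨v, h1, h2⟩ := h.span
    { carrier := {f | ∃ v, (∀ a, polar Q (f a) u = polar Q a v) ∧ f u - v ∈ Ysub H hu}
      add_mem' := by
        rintro f g ⟨v, a1, a2⟩ ⟨w, b1, b2⟩
        exact ⟨v + w, fun a => by simp [a1, b1], by simpa [add_sub_add_comm] using add_mem a2 b2⟩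
      zero_mem' := ⟨0, by simp, by simp⟩
      smul_mem' := by
        rintro c f ⟨v, a1, a2⟩
        exact ⟨c • v, fun a => by simp [a1], by
          simpa [smul_sub] using Submodule.smul_mem _ c a2⟩ }
    (fun x hx => (h.sq x hx).elim
      (fun xx => ⟨x u, fun a => by simpa [invol_apply xx] using (iso x hx (x a) u).symm, by simp⟩)
      fun xx => ⟨-x u, fun a => by simpa using skew_of_iso xx (mem_UG.2 (iso x hx)) a u,
        by simpa using add_mem (k1 x hx xx) (k1 x hx xx)⟩) ((polarBilin Q a).smulRight w)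
  rw [hQ.2 v fun x => by simpa [polar_comm Q w u, hw] using (h1 x).symm] at h2
  simpa [ha] using h2

theorem sp_half (hB : B.Nondegenerate) (hA : B.IsAlt) (hP : P ≤ UG B) (hR : R3 P)
    (hU : ∀ y ∈ P, y * y = ng F V → UPy B H y) {a b : V ≃ₗ[F] V} (ha : a ∈ P) (hb : b ∈ P)
    {r : End F V} (rr : ∀ v, r (r v) = v) (sk : ∀ u v, B (r u) v = -B u (r v))
    (hr : ∀ y : V ≃ₗ[F] V, y * a = a * y → y * b = b * y → ∀ v, r (y v) = y (r v)) {u : V}
    (hu : r u = u) (c : F) : (spTrans hA u c).1 ∈ H := by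
  have z0 : ∀ v, (1 - r) ((1 + r) v) = 0 := fun v => by simp [rr, add_comm]
  have z1 : ∀ u v, B ((1 + r) u) v = B u ((1 - r) v) := fun u v => by simp [sk, sub_eq_add_neg]
  have z2 : ∀ u v, B ((1 - r) u) v = B u ((1 + r) v) := fun u v => by simp [sk]
  have z : ∀ f g : End F V, (1 + r) * f * (1 - r) * ((1 + r) * g * (1 - r)) = 0 := fun f g =>
    LinearMap.ext fun v => by simp only [End.mul_apply, z0, map_zero, LinearMap.zero_apply]
  obtain ⟨f, h1, h2⟩ := h.span
    { carrier := {f | ∃ f' : End F V, (∀ u v, B (f u) v = B u (f' v)) ∧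
        ∀ c : F, Un H ((1 + r) * (c • (f - f')) * (1 - r))}
      add_mem' := by
        rintro f g ⟨f', a1, a2⟩ ⟨g', b1, b2⟩
        exact ⟨f' + g', fun u v => by simp [a1, b1], fun c =>
          ((a2 c).add (b2 c) (z _ _) (z _ _)).congr fun v => by simp; module⟩
      zero_mem' := ⟨0, by simp, fun c => by simpa using Un.zero⟩
      smul_mem' := by
        rintro d f ⟨f', a1, a2⟩
        exact ⟨d • f', fun u v => by simp [a1], fun c => by
          rw [← smul_sub, smul_smul]; exact a2 _⟩ }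
    (fun x hx => ⟨(x⁻¹ : V ≃ₗ[F] V), fun u v => by
      rw [← mem_UG.1 (hP hx) u]; simp, fun c => by
        obtain ⟨y, hy, q, e1, e2, e3⟩ := hR a ha b hb x hx
        rw [bt_eq_zero] at e1 e2 e3
        have e4 := fun u v => (mem_UG.1 (hP hx) u (x.symm v)).symm
        have e5 := fun u v => mem_UG.1 (hP hx) (x.symm u) v
        simp only [LinearEquiv.apply_symm_apply] at e4 e5
        refine hU y hy (h.pg.sq_z hy q) _ (z _ _) (fun v => by
          simp [hr y e1 e2, ← comm_apply e3, show ∀ v, x.symm (y v) = y (x.symm v) from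
            comm_apply (comm_inv e3.symm)]) fun u v => ?_
        have n1 : ∀ u v, B ((c • ((x : End F V) - (x⁻¹ : V ≃ₗ[F] V))) u) v =
            -B u ((c • ((x : End F V) - (x⁻¹ : V ≃ₗ[F] V))) v) := fun u v => by
          simp [e4 u v, e5]; ring
        simp only [map_add, LinearMap.add_apply (B _), End.mul_apply, z1, z0, n1, z2, map_zero]
        ring⟩) ((B.flip u).smulRight u)
  obtain rfl : f = -(B.flip u).smulRight u := LinearMap.ext fun v => sub_eq_zero.1 (hB.2 _ fun w => by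
    simp [← h1, ← hA.neg_eq u v]; ring)
  obtain ⟨g, hg, e⟩ := (h2 (c / (2 * 2 * 2))).mem
  rwa [show (spTrans hA u c).1 = g from LinearEquiv.ext fun x => by
    rw [show g x = _ from LinearMap.congr_fun e x]
    simp [spTrans_apply, sk, hu]
    match_scalars; field_simp [h.two]; ring]

theorem sp_le (hB : B.Nondegenerate) (hA : B.IsAlt) (hP : P ≤ H) (hle : H ≤ SpG B) (hR : R3 P)
    (hU : ∀ y ∈ P, y * y = ng F V → UPy B H y) : SpG B ≤ H := by
  have iso : P ≤ UG B := fun x hx => mem_UG.2 (hle (hP hx)).1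
  have hO := fun c hc => h.pm_one hB (g := c) (mem_UG.1 (iso hc))
  obtain ⟨a, ha, qa, -⟩ := hR 1 (one_mem _) 1 (one_mem _) 1 (one_mem _)
  obtain ⟨w, hw, e⟩ := h.pg.exists_partner (h.pg.nc_of_qd hO ha qa)
  obtain ⟨b, hb, qb, e', -⟩ := h.pg.r3_adj hR ha ha hw
  have ab := anti_apply (h.pg.anti (h.pg.pm hb ha) (by rw [e', bt_comm, e]))
  have aa := h.pg.sq_z ha qa
  have bb := h.pg.sq_z hb qb
  obtain ⟨α, β, e1⟩ := exists_binary_eq (F := F) one_ne_zero one_ne_zero (-1)
  obtain ⟨r, hr⟩ : ∃ r : End F V, ∀ v, r v = α • a v + β • b v :=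
    ⟨α • (a : End F V) + β • (b : End F V), fun _ => rfl⟩
  have rr : ∀ v, r (r v) = v := fun v => by
    simp only [hr, map_add, map_smul, ab, sq_apply aa, sq_apply bb]
    match_scalars <;> grind
  have sk : ∀ u v, B (r u) v = -B u (r v) := fun u v => by
    simp [hr, skew_of_iso aa (iso ha), skew_of_iso bb (iso hb), add_comm]
  have cm : ∀ y : V ≃ₗ[F] V, y * a = a * y → y * b = b * y → ∀ v, r (y v) = y (r v) :=
    fun y e1 e2 v => by simp [hr, comm_apply e1, comm_apply e2]
  have k1 := fun u => h.sp_half hB hA iso hR hU ha hb rr sk cm (u := u)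
  have k2 := fun u => h.sp_half hB hA iso hR hU ha hb (r := -r) (by simpa) (by simp [sk])
    (by simpa) (u := u)
  have k3 : ∀ u v, (∀ c, (spTrans hA u c).1 ∈ H) → (∀ c, (spTrans hA v c).1 ∈ H) → B u v ≠ 0 →
      ∀ c, (spTrans hA (u + v) c).1 ∈ H := fun u v hu hv e c => by
    have := mul_mem (mul_mem (hv (B u v)⁻¹) (hu c)) (inv_mem (hv (B u v)⁻¹))
    rwa [← coe_inv, ← coe_mul, ← coe_mul, conj_spTrans, spTrans_apply, inv_mul_cancel₀ e,
      one_smul] at this
  have ti : ∀ u v, r u = u → r v = v → B u v = 0 := fun u v hu hv =>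
    (mul_eq_zero.1 (by have := sk u v; rw [hu, hv] at this; linear_combination this)).resolve_left
      h.two
  have sp : ∀ v, ∃ u w, r u = u ∧ r w = -w ∧ v = u + w := fun v =>
    ⟨(2 : F)⁻¹ • (v + r v), (2 : F)⁻¹ • (v - r v), by simp [rr, add_comm], by
      simp only [map_smul, map_sub, rr]; module, by match_scalars <;> field_simp [h.two] <;> ring⟩
  intro g hg
  refine (show Subgroup.closure _ ≤ H.subgroupOf (SpG B) from (closure_le _).2 ?_)
    ((closure_spTrans hB hA).ge (mem_top ⟨g, hg⟩))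
  rintro _ ⟨v, c, rfl⟩
  obtain ⟨u, w, hu, hw, rfl⟩ := sp v
  have hw' := k2 w (by simp [hw])
  by_cases e : B u w = 0
  swap
  · exact k3 u w (k1 u hu) hw' e c
  by_cases w0 : w = 0
  · rw [w0, add_zero]; exact k1 u hu c
  obtain ⟨t, ht, e'⟩ : ∃ t, r t = t ∧ B t w ≠ 0 := by
    by_contra! hc
    refine w0 (hB.2 w fun x => ?_)
    obtain ⟨t, s, ht, hs, rfl⟩ := sp x
    have := sk s w
    rw [hs, hw, map_neg, map_neg, LinearMap.neg_apply, neg_neg] at this
    rw [map_add, LinearMap.add_apply, hc t ht, zero_add]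
    exact (mul_eq_zero.1 (by linear_combination -this)).resolve_left h.two
  have := k3 _ t (k3 (u - t) w (k1 _ (by simp [hu, ht])) hw' (by simpa [e])) (k1 t ht)
    (by simpa [ti u t hu ht, hA.self_eq_zero, ← hA.neg_eq t w]) c
  rwa [show u - t + w + t = u + w by abel] at this

theorem eq_one_of_fix {u : V ≃ₗ[F] V} (hu : u ∈ P) {A : Submodule F V} (e : ∀ x, u x - x ∈ A)
    (hd : 2 * finrank F A < finrank F V) : u = 1 := by
  have k : ∀ v, u v = -v → v ∈ A := fun v hv => by
    have := e v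
    rwa [hv, show -v - v = (-2 : F) • v by module, A.smul_mem_iff (neg_ne_zero.2 h.two)] at this
  by_contra u1
  obtain ⟨a, ha⟩ : ∃ a : V ≃ₗ[F] V, ∀ v, v ∈ A ⊔ A.map (a : V →ₗ[F] V) := by
    rcases h.sq u hu with uu | uu
    · by_cases u0 : u ∈ center _
      · exact ⟨1, fun v => Submodule.mem_sup_left (k v (by
          rw [(h.pg.uniq u u0 uu).resolve_left u1]; rfl))⟩
      obtain ⟨a, ha, e'⟩ := h.pg.exists_partner u0
      refine ⟨a, fun v => ?_⟩
      obtain ⟨s, t, hs, ht, rfl⟩ := invol_split h.two uu v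
      refine add_mem (Submodule.mem_sup_right (mem_map_equiv'.2 (k _ (a.injective ?_))))
        (Submodule.mem_sup_left (k t ht))
      rw [← neg_inj, ← anti_apply (h.pg.anti (h.pg.pm hu ha) e')]
      simp [hs]
    · refine ⟨1, fun v => Submodule.mem_sup_left ?_⟩
      have := e (u v + v)
      rwa [map_add, sq_apply uu, show -v + u v - (u v + v) = (-2 : F) • v by module,
        A.smul_mem_iff (neg_ne_zero.2 h.two)] at this
  have h1 := Submodule.finrank_add_le_finrank_add_finrank A (A.map (a : V →ₗ[F] V))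
  rw [Submodule.eq_top_iff'.2 ha, finrank_top, LinearEquiv.finrank_map_eq] at h1
  omega

theorem Om_not_le {Q : QuadraticForm F V} (hQ : (polarBilin Q).Nondegenerate)
    (h9 : 9 ≤ finrank F V) : ¬ OmG Q ≤ Nm P := fun hle => by
  obtain ⟨u, u0, hu⟩ := exists_singular_of_three_le Q (by omega)
  obtain ⟨w, -, hw, wu⟩ := exists_singular_perp_of_five_le hQ (by omega) u0 hu
  have hg := eichler_mem_Rad hu hw (A := Submodule.span F {u, w})
    (Submodule.subset_span (by simp)) (Submodule.subset_span (by simp))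
  have hN := hle ((polarG_omega' hQ (by omega)).rad_le' u0 (by simpa using hu) _ hg)
  have h2 := IsWittPair.finrank_span_pair_le (F := F) u w
  obtain ⟨c, hc⟩ := mem_center_iff_smul.1 (h.pg.schur (eichler hu hw).1 fun x hx => by
    generalize (eichler hu hw).1 = g at hg hN
    have h1 := Submodule.finrank_add_le_finrank_add_finrank (Submodule.span F {u, w})
      ((Submodule.span F {u, w}).map (x : V →ₗ[F] V))
    rw [LinearEquiv.finrank_map_eq] at h1
    rw [← mul_inv_eq_one, mul_inv_rev, ← mul_assoc]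
    refine h.eq_one_of_fix (A := Submodule.span F {u, w} ⊔ (Submodule.span F {u, w}).map
      (x : V →ₗ[F] V)) (mul_mem (Nm_conj hN hx) (inv_mem hx)) (fun v => ?_) (by omega)
    simpa using Submodule.add_mem_sup (hg.2.2.2 (x (g⁻¹ (x⁻¹ v))))
      (Submodule.mem_map_of_mem (f := (x : V →ₗ[F] V)) ((inv_mem hg).2.2.2 (x⁻¹ v))))
  obtain rfl : c = 1 := smul_left_injective F u0 (by simpa [hc] using hg.2.1)
  obtain ⟨f, -, hf⟩ := (isWittPair_quad Q hQ).exists_hyperbolic u0 (by simpa using hu)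
  have := hc f
  rw [eichler_apply, show polar Q u f = 1 from hf] at this
  exact wu (Submodule.mem_span_singleton.2 ⟨polar Q w f + Q w, by
    linear_combination (norm := module) -this⟩)

theorem sp_max (hp : (Nat.card F).Prime) (hB : B.Nondegenerate) (hA : B.IsAlt) (hP : P ≤ SpG B)
    (hR : R3 P) (h6 : 6 ≤ finrank (ZMod 2) h.pg.W) (h1 : SpG B ⊓ Nm P ≤ H) (h2 : H ≤ SpG B) :
    H ≤ Nm P ∨ SpG B ≤ H :=
  have hH := hc_iso h (fun _ => mem_SpG) hP h1
  (h.main_O hp hH hB (.inr hA) (fun _ hg => mem_UG.2 (h2 hg).1) hR h6).imp_right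
    (h.sp_le hB hA hH.le h2 hR)

theorem om_max (hp : (Nat.card F).Prime) {Q : QuadraticForm F V}
    (hQ : (polarBilin Q).Nondegenerate) (hP : P ≤ OG Q) (h7 : 7 ≤ finrank (ZMod 2) h.pg.W)
    (h1 : OmG Q ⊓ Nm P ≤ H) (h2 : H ≤ OmG Q) : H ≤ Nm P ∨ OmG Q ≤ H := by
  have hR := h.pg.r3_of_seven h7
  have hH := ((hc_iso h (B := polarBilin Q) (K := OG Q) (fun g => ⟨fun h => h.1, fun e =>
    mem_OG.2 fun v => mul_left_cancel₀ h.two (by simpa using e v v)⟩) hP le_rfl).commutator
    (fun c hc => h.pm_one hQ (hP hc).1) hR).mono ((le_inf ((commutator_mono inf_le_left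
      inf_le_left).trans (map_subtype_commutator _).ge) ((commutator_le_self _).trans
        inf_le_right)).trans h1)
  exact (h.main_O hp hH hQ (.inl (polar_comm Q)) (fun _ hg => mem_UG.2 (OmG_le (h2 hg)).1) hR
    (by omega)).imp_right (h.omega_le hQ ((h.le_finrank (k := 3) (by omega)).trans' (by norm_num))
      hH.le (h2.trans OmG_le))

theorem le_W {k : ℕ} (hk : 2 ^ k < finrank F V ^ 2) : k < finrank (ZMod 2) h.pg.W :=
  (Nat.pow_lt_pow_iff_right one_lt_two).1 (h.finrank_sq ▸ hk)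

end PaL

theorem isMaximalIn_sp_c6 {F : Type*} [Field F] [Fintype F] {m : ℕ} (p : ℕ)
    (R : Subgroup (GL (Fin m ⊕ Fin m) F)) (hp : p.Prime) (hodd : Odd p) (hF : Fintype.card F = p)
    (hR : IsSymplecticTypeGroup 2 R) (hi : ActsAbsolutelyIrreducibly (matrixSet R))
    (hle : R ≤ spGL m F) (hm : 5 ≤ m ∨ m = 4 ∧ IsOfMinusType 3 R) :
    IsMaximalIn (spGL m F) (subgroupNormalizer R ⊓ spGL m F) := by
  have : Nonempty (Fin m) := ⟨⟨0, by omega⟩⟩
  have h := cp_of (Geom.two_ne_zero_of_odd_card (hF ▸ hodd)) hR hi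
  have hP : glP R ≤ SpG (sympBilin m F) := by
    rintro _ ⟨g, hg, rfl⟩
    exact (mem_spGL_iff m g).1 (hle hg)
  have h6 := h.le_W (k := 5) (by simp; nlinarith [show 4 ≤ m by omega])
  exact isMaximalIn_c6 (mem_spGL_iff m) (h.Sp_not_le (sympBilin_nondegenerate m)
    (sympBilin_isAlt m) (by simp; omega)) fun H => h.sp_max
      (by rwa [Nat.card_eq_fintype_card, hF]) (sympBilin_nondegenerate m) (sympBilin_isAlt m) hP
      (hm.elim (fun e => h.pg.r3_of_seven (h.le_W (by simp; nlinarith)))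
        fun e => h.pg.r3_of_minus h6 (minus_glP e.2)) h6

theorem isMaximalIn_om_c6 {F : Type*} [Field F] [Fintype F] {n : ℕ} (hn : 9 ≤ n)
    {Q : (Fin n → F) → F} (hQ : IsNondegenerateQuadraticForm Q) {p : ℕ} (hp : p.Prime)
    (hodd : Odd p) (hF : Fintype.card F = p) {R : Subgroup (GL (Fin n) F)}
    (hR : IsSymplecticTypeGroup 2 R) (hi : ActsAbsolutelyIrreducibly (matrixSet R))
    (hle : R ≤ isometryGroup F Q) : IsMaximalIn (omegaGL Q) (subgroupNormalizer R ⊓ omegaGL Q) := by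
  have : Nonempty (Fin n) := ⟨⟨0, by omega⟩⟩
  obtain ⟨Q, rfl, hQ'⟩ := exists_quadraticForm hQ
  have h := cp_of (Geom.two_ne_zero_of_odd_card (hF ▸ hodd)) hR hi
  exact isMaximalIn_c6 (mem_omegaGL_iff Q) (h.Om_not_le hQ' (by simpa)) fun H => h.om_max
    (by rwa [Nat.card_eq_fintype_card, hF]) hQ' (by
      rintro _ ⟨g, hg, rfl⟩
      exact mem_OG.2 (mem_isometryGroup.1 (hle hg))) (h.le_W (by simp; nlinarith))

end CF.MaxSub
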