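/-
Kernel-checked certificates: non-maximal geometric subgroups of small unitary groups.
-/
import Cfsg.Agent.MaxSub.Cd4

set_option autoImplicit false
set_option maxRecDepth 100000

namespace CF.MaxSub

open Matrix Cfsg Cfsg.Geo

theorem cert_sing52 : certOK 2 1 1 5 2 32 32
    (Tsing 2 1 1 5 11 906681615749623 570 (fun _ _ _ => 0) 0 0 fun y _ => Nat.beq y 2)
    (Tsing 2 1 1 5 11 906681615749623 570 (fun _ _ _ => 0) 0 0 fun _ _ => true)
    855991344233779 11 281487878520833 2 1000 320 = true := by decide +kernel

theorem cert_mono62 : certOK 2 1 1 6 2 64 64 (Tmono 2 1 1 6 fun w d => Nat.beq w 2 || Nat.beq d 1)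
    (Tmono 2 1 1 6 fun w _ => Nat.beq w 1) 393458478246784210260 2 1060177157739119196648 2
    1280 1024 = true := by decide +kernel

end CF.MaxSub
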