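/-
Non-maximal geometric subgroups of `SU₆(2)`.
-/
import Cfsg.Agent.MaxSub.Cd5
import Cfsg.Agent.MaxSub.F3B

set_option autoImplicit false

namespace CF.MaxSub

section
open Module Geom

theorem exists_J {F K V : Type*} [Field F] [Fintype F] [Field K] [Finite K] [Algebra F K]
    [AddCommGroup V] [Module F V] [Module K V] [IsScalarTower F K V] {σ : F →+* F}
    {B : V →ₛₗ[σ] V →ₗ[F] F} (hF : Fintype.card F = 4) (t2 : (2 : F) = 0) (hH : IsHerm B)
    (hB : B.Nondegenerate) (h3 : finrank F K = 3) (hd : finrank K V = 2)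
    (hs : ∀ k : K, ∃ k' : K, ∀ x y, B (k • x) y = B x (k' • y)) :
    ∃ J : V → V, (∀ u v, J (u + v) = J u + J v) ∧ (∀ (c : F) v, J (c • v) = σ c • J v) ∧
      (∀ v, J (J v) = v) ∧ (∀ v, B (J v) v = 0) ∧ ∀ g ∈ SemiG F K V, (∀ x y, B (g x) (g y) = B x y) →
        LinearMap.det (g : V →ₗ[F] V) = 1 → ∃ c : F, ∀ v, g (J v) = c • J (g v) := by
  have : FiniteDimensional F K := .of_finrank_pos (by omega)
  have : FiniteDimensional K V := .of_finrank_pos (by omega)
  have : FiniteDimensional F V := Module.Finite.trans K V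
  have : Nontrivial V := Module.nontrivial_of_finrank_pos (R := K) (by omega)
  obtain ⟨τ, h1, h2⟩ := exists_tau B hB.2 hs
  have h4 : ∀ k, τ (τ k) = k := fun k => by
    obtain ⟨y, hy⟩ := exists_ne (0 : V)
    refine smul_left_injective K hy (sub_eq_zero.1 (hB.2 _ fun x => ?_))
    simp only [map_sub]
    rw [← h1, ← hH.eq, ← h1, hH.eq, sub_self]
  have h5 : τ ≠ RingHom.id K := fun e => hH.ne_id (RingHom.ext fun a =>
    (algebraMap F K).injective (by rw [← h2, e]; rfl))
  let σ' : F ≃+* F := RingEquiv.ofRingHom σ σ (RingHom.ext hH.invol) (RingHom.ext hH.invol)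
  let τ' : K ≃+* K := RingEquiv.ofRingHom τ τ (RingHom.ext h4) (RingHom.ext h4)
  have h7 : ∀ k, Algebra.trace F K (τ k) = σ (Algebra.trace F K k) := fun k => by
    rw [Algebra.trace_eq_of_equiv_equiv σ' τ' (RingHom.ext fun a => (h2 a).symm) k]
    exact (hH.invol _).symm
  have ν0 := Algebra.trace_ne_zero F K
  obtain ⟨Bk, e⟩ := exists_kform B h1 ν0
  have hS : Bk.IsSymm := ⟨fun x y => sub_eq_zero.1 (eq_zero_of_nu ν0 fun k => by
    have := hH.eq x (τ k • y)
    rw [e, e, ← h7] at this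
    simpa [h4, mul_sub, sub_eq_zero] using this)⟩
  have hB' : ∀ x, (∀ y, Bk x y = 0) → x = 0 := fun x h => hB.1 x fun y => by simp [e, h]
  have hH' : IsHerm Bk := ⟨h5, h4, hS⟩
  obtain ⟨b, hb⟩ := exists_orthonormal_basis h5 h4 hS
    ⟨hB', fun y h => hB' y fun x => hH'.refl (h x)⟩ hd
  have k2 : (2 : K) = 0 := by rw [← map_ofNat (algebraMap F K), t2, map_zero]
  have hK : Nat.card K = 8 ^ 2 := by
    rw [Module.natCard_eq_pow_finrank (K := F), Nat.card_eq_fintype_card, hF, h3]; rfl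
  have b1 : ∀ v, v = Bk (b 0) v • b 0 + Bk (b 1) v • b 1 := fun v => by
    conv => enter [2]; rw [← b.sum_repr v]
    simp only [Fin.sum_univ_two, map_add, map_smul, hb]
    simpa [-Basis.sum_repr] using (b.sum_repr v).symm
  obtain ⟨J, hJ⟩ : ∃ J : V →ₛₗ[τ] V, ∀ v, J v = Bk v (b 1) • b 0 + Bk v (b 0) • b 1 :=
    ⟨⟨⟨fun v => Bk v (b 1) • b 0 + Bk v (b 0) • b 1, fun u v => by
      simp [add_smul, add_add_add_comm]⟩, fun k v => by simp [smul_smul]⟩, fun _ => rfl⟩
  have j1 : ∀ x y, Bk (J x) y = Bk (b 1) x * Bk (b 0) y + Bk (b 0) x * Bk (b 1) y := fun x y => by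
    simp [hJ, hH'.eq]
  have j2 : ∀ v, J (J v) = v := fun v => by
    rw [hJ, j1, j1]
    simpa [hb] using (b1 v).symm
  refine ⟨J, map_add J, fun c v => ?_, j2, fun v => ?_, fun g hg g1 g2 => ?_⟩
  · rw [← algebraMap_smul K c, map_smulₛₗ, h2, algebraMap_smul]
  · rw [e, j1, mul_comm, ← two_mul, k2, zero_mul, map_zero]
  choose s hs using hg.1
  obtain ⟨y₀, y0⟩ := exists_ne (0 : V)
  have inj := smul_left_injective K ((map_ne_zero_iff g g.injective).2 y0)
  let α₀ : K →ₐ[F] K :=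
    { toFun := s
      map_one' := inj (by simp [← hs])
      map_mul' := fun a b => inj (by simp [← hs, mul_smul])
      map_zero' := inj (by simp [← hs])
      map_add' := fun a b => inj (by simp [← hs, add_smul])
      commutes' := fun a => inj (by simp [← hs]) }
  let α := AlgEquiv.ofBijective α₀ (Finite.injective_iff_bijective.1 α₀.injective)
  replace hs : ∀ k v, g (k • v) = α k • g v := hs
  have a1 : ∀ x y, Bk (g x) (g y) = α (Bk x y) := fun x y =>
    sub_eq_zero.1 (eq_zero_of_nu ν0 fun k => by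
      obtain ⟨k, rfl⟩ := α.surjective k
      have := g1 x (k • y)
      rw [e, e, hs, map_smul, map_smul (Bk x), ← Algebra.trace_eq_of_algEquiv α (k • _)] at this
      simpa [mul_sub, sub_eq_zero] using this)
  obtain ⟨δ, hδ⟩ := α.surjective (Bk (J (g (b 0))) (g (b 1)))
  have a2 : ∀ x y, Bk (J (g x)) (g y) = α (δ * Bk (J x) y) := fun x y => by
    rw [j1] at hδ ⊢
    conv_lhs => rw [b1 x, b1 y]
    simp only [j1, map_add, hs, map_mul, map_smul, smul_eq_mul, hδ]
    linear_combination (α (Bk (b 0) x) * α (Bk (b 0) y) * Bk (b 0) (g (b 0)) * Bk (b 1) (g (b 0)) +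
      α (Bk (b 1) x) * α (Bk (b 1) y) * Bk (b 0) (g (b 1)) * Bk (b 1) (g (b 1))) * k2
  have a3 : ∀ x, J (g x) = τ (α δ) • g (J x) := fun x => sub_eq_zero.1 (hB' _ fun y => by
    obtain ⟨y, rfl⟩ := g.surjective y
    simp [a2, a1, h4])
  have a4 : α δ * τ (α δ) = 1 := inj (by
    have := j2 (g y₀)
    rwa [a3, map_smulₛₗ, a3, j2, h4, smul_smul, ← one_smul K (g y₀), smul_smul, mul_one] at this)
  let A : LinearMap.BilinForm F V := LinearMap.mk₂ F (fun x y => B (J x) y) (by simp)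
    (fun c x y => by
      rw [← algebraMap_smul K c, map_smulₛₗ, h2, algebraMap_smul, map_smulₛₗ, hH.invol]; rfl)
    (by simp) (by simp)
  have A1 : A.comp g g = A.comp LinearMap.id ((δ • LinearMap.id : V →ₗ[K] V).restrictScalars F) :=
    LinearMap.ext₂ fun x y => by simp [A, e, a2, -map_mul, Algebra.trace_eq_of_algEquiv]
  have A2 : A.Nondegenerate := ⟨fun x h => by rw [← j2 x, hB.1 _ h, map_zero],
    fun y h => hB.2 y fun x => by simpa [A, j2] using h (J x)⟩
  let c := finBasis F V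
  have A3 := congrArg (fun A => (LinearMap.BilinForm.toMatrix c A).det) A1
  simp only [LinearMap.BilinForm.toMatrix_comp c c, Matrix.det_mul, Matrix.det_transpose,
    LinearMap.det_toMatrix, g2, LinearMap.det_id, LinearMap.det_restrictScalars, LinearMap.det_smul,
    hd, one_mul, mul_one] at A3
  have A4 := FiniteField.algebraMap_norm_eq_pow (K := F) (x := α δ ^ 2)
  rw [← map_pow, Algebra.norm_eq_of_algEquiv, ← (mul_right_inj' ((
    LinearMap.BilinForm.nondegenerate_iff_det_ne_zero c).1 A2)).1 ((mul_one _).trans A3), map_one,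
    hK, Nat.card_eq_fintype_card, hF, map_pow, ← pow_mul] at A4
  have := Fintype.ofFinite K
  obtain ⟨ρ, r1, r2, r3⟩ := exists_conj (F := K) (q := 8) (Nat.card_eq_fintype_card.symm.trans hK)
  have a5 := a4
  rw [invol_unique h4 r3 h5 r2, r1, ← pow_succ'] at a5
  obtain ⟨d, hd⟩ := mem_range_of_pow_card (F := F) (x := α δ) (by
    rw [hF, pow_succ, show α δ ^ 3 = 1 from pow_gcd_eq_one.2 ⟨A4.symm, a5⟩, one_mul])
  exact ⟨d, fun v => by rw [a3, ← algebraMap_smul K d, hd, smul_smul, a4, one_smul]⟩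

end

open Matrix Cfsg Cfsg.Geo

variable {ι : Type} [Fintype ι] [DecidableEq ι] {F : Type*} [Field F] [Fintype F]

namespace FD.IsU

variable {φ : FD ι F} {q : ℕ} (h : φ.IsU q)
include h

theorem field_six (hq : q = 2) (hι : Fintype.card ι = 6) {K : Subalgebra F (Matrix ι ι F)}
    (hK : IsFieldSubalgebra 3 K) (ha : IsAdjointClosedFor φ.f K) :
    ∃ (F₀ : Subfield F) (P : GL ι F) (ζ : F), Fintype.card F = Nat.card F₀ ^ 2 ∧ ζ ≠ 0 ∧
      ζ + ζ ^ q = 0 ∧ IsFormRationalStructure φ.f F₀ ζ P ∧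
      (∀ u : ι → F, (∀ i, u i ∈ F₀) → φ.f (P.val *ᵥ u) (P.val *ᵥ u) = 0) ∧
      subalgebraNormalizer K ⊓ φ.su ≤ subfieldSubgroup F₀ P := by
  have : Nonempty ι := Fintype.card_pos_iff.1 (by omega)
  have hF := isField_of_fieldSubalgebra hK
  letI := hF.toField
  have : IsScalarTower F K (ι → F) := ⟨fun c k v => smul_mulVec c (k : Matrix ι ι F) v⟩
  have h1 := Module.finrank_mul_finrank F K (ι → F)
  rw [hK.finrank_eq, Module.finrank_fintype_fun_eq_card] at h1
  obtain ⟨J, j1, j2, j3, j4, j5⟩ := exists_J (K := K) (B := φ.B) (by rw [h.card, hq]; rfl)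
    (h.two_eq_zero (by rw [hq]; decide)) ⟨h.ne, φ.invol, φ.B_symm h.eps⟩ φ.B_nondeg hK.finrank_eq
    (by omega) fun k => ⟨⟨_, φ.adjCl_iff.1 ha _ k.2⟩, fun x y => φ.f_mulVec_right _ _ _⟩
  obtain ⟨F₀, P, ζ, h10, h11, h12, h13, h14, h15⟩ := h.exists_c5s j1 j2 j3 j4
  exact ⟨F₀, P, ζ, h10, h11, h12, h13, h14, fun g hg => h15 g (j5 _
    ((mem_subalgebraNormalizer_iff_semiG hF g).1 hg.1) (fun x y => φ.mem_isom.1 hg.2.1 y x)
    (Geom.mem_SLG.1 ((Geom.mem_specialLinear_iff g).1 hg.2.2)))⟩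

theorem not_max_mono62 (hq : q = 2) {D : Fin 6 → Submodule F (ι → F)}
    (hD : IsNondegenerateMDecomposition φ.f 1 D) :
    ¬ IsMaximalIn φ.su (decompositionStabilizer D ⊓ φ.su) := fun hH => by
  classical
  obtain ⟨ψ, H, h1, h2, h3, h4⟩ := h.mono_std hD hH inf_le_left
  subst hq
  obtain ⟨c⟩ := h1.cd_two rfl
  have key : ∀ Φ, ∀ x ∈ H, ∀ w, Tmono 2 1 1 6 Φ (c.encV w) = true →
      Tmono 2 1 1 6 Φ (c.encV (x.val *ᵥ w)) = true := fun Φ x hx w hw => by
    obtain ⟨s, hs⟩ := h4 x hx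
    have e1 : ∀ j, (x.val *ᵥ w) (s j) = x.val (s j) j * w j := fun j =>
      Fintype.sum_eq_single (f := fun k => x.val (s j) k * w k) j fun k e => by
        simp [hs _ k (s.injective.ne e.symm)]
    have e2 : ∏ j, x.val (s j) j = 1 := by
      have := det_permute s x.val
      rw [mem_specialLinear.1 (h3.1.le hx).2, show x.val.submatrix s id = diagonal fun j =>
        x.val (s j) j from Matrix.ext fun i j => by
          by_cases e : i = j
          · simp [e]
          · simp [e, hs _ j (s.injective.ne e)], det_diagonal] at this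
      have t2 := h.two_eq_zero (by decide)
      rcases Int.units_eq_one_or (Equiv.Perm.sign s) with e | e <;> simp only [this, e] <;> simp
      linear_combination -t2
    have e3 : ∀ j, x.val (s j) j ≠ 0 := fun j =>
      Finset.prod_ne_zero_iff.1 (e2.trans_ne one_ne_zero) j (Finset.mem_univ j)
    rw [c.Tmono_eq] at hw ⊢
    rw [← Equiv.sum_comp s, ← Equiv.prod_comp s]
    simpa only [e1, Finset.prod_mul_distrib, e2, one_mul, mul_eq_zero, e3, false_or]
  exact c.cert h2 h1 cert_mono62 h3 (key _) (key _)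

end FD.IsU

end CF.MaxSub
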