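/-
Simple subgroups of `Sp₄` (characteristic two) with at most one transvection at each point, I.
-/
import Cfsg.Agent.MaxSub.E4D
import Cfsg.Agent.Char.ZStarCor
import Cfsg.Agent.CIT.Basic

set_option autoImplicit false

namespace CF.MaxSub.E4

open Matrix Cfsg.Lie CF.BN.Suz CF.BG CF.Invol

variable {F : Type*} [Field F] {G : Type*} [Group G] {M N B : M4 F} {u v w : Fin 4 → F}

theorem prop_of_det (h0 : v ≠ 0) (v2 : v 2 = 0) (v3 : v 3 = 0) (w2 : w 2 = 0) (w3 : w 3 = 0)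
    (h : v 0 * w 1 - v 1 * w 0 = 0) : ∃ c : F, w = c • v := by
  by_cases k : v 0 = 0
  · have k1 : v 1 ≠ 0 := fun e => h0 (ext4 k e v2 v3)
    refine ⟨w 1 / v 1, ext4 ?_ ?_ ?_ ?_⟩ <;> simp only [Pi.smul_apply, smul_eq_mul] <;> grind
  · refine ⟨w 0 / v 0, ext4 ?_ ?_ ?_ ?_⟩ <;> simp only [Pi.smul_apply, smul_eq_mul] <;> grind

theorem PL.det (h : PL M) (k : Sp M) : (top M).det ≠ 0 := by
  obtain ⟨a, b, c, d⟩ := h
  obtain ⟨c1, c2, c3, c4, c5, c6⟩ := k.col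
  simp only [top, det_fin_two_of]
  grind

theorem top_uu (s t z y : F) : top (uu s t z y) = up t := by simp [top, uu, up]

theorem mid_uu (s t z y : F) : mid (uu s t z y) = up s := by simp [mid, uu, up]

variable [CharP F 2]

theorem PP.det (h : PP M) (k : Sp M) : (mid M).det = 1 := by
  obtain ⟨-, -, -, d⟩ := h.sp k
  simp only [mid, det_fin_two_of]
  grind

theorem conj_up {X Y : M2 F} {a : F} (hX : X.det ≠ 0) (e : Y * X = X * up a) :
    Y * Y = 1 ∧ Y.det = 1 ∧ (a ≠ 0 → X 1 0 ≠ 0 → Y 1 0 ≠ 0) := by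
  have hu : IsUnit X := (isUnit_iff_isUnit_det X).2 hX.isUnit
  refine ⟨hu.mul_right_cancel ?_, ?_, ?_⟩
  · rw [mul_assoc, e, ← mul_assoc, e, mul_assoc, up_sq, mul_one, one_mul]
  · have := congrArg det e
    simpa [up, hX] using this
  · have a := congrFun₂ e 1 0
    have b := congrFun₂ e 1 1
    simp [up, mul_apply] at a b
    grind

theorem Tv.center_eq (h : Tv M u 1) (k : Tv M v 1) : u = v := by
  have e (i) := (h.entry i i.rev).symm.trans (k.entry i i.rev)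
  ext i
  have := e i
  rw [Fin.rev_rev] at this
  grind

theorem Tv.sq {a : F} (h : Tv M v a) : M * M = 1 :=
  (h.mul h).eq fun x => by simp [CharTwo.add_self_eq_zero]

theorem tv_of_rank [Finite F] {s z y : F} (h : s * y - z ^ 2 = 0) :
    ∃ a b : F, Tv (uu s 0 z y) ![a, b, 0, 0] 1 := by
  obtain ⟨a, rfl⟩ := exists_sq y
  obtain ⟨b, rfl⟩ := exists_sq s
  exact ⟨a, b, (show a * b = z by grind) ▸ Tv.of_uu a b⟩

/-- A linear functional on the radical of the line stabiliser, extended to the stabiliser. -/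
def phiN (a b c : F) (M : M4 F) : F := a * (M 0 2 * M 0 1 + M 0 3 * M 0 0) +
  b * (M 1 2 * M 0 1 + M 1 3 * M 0 0) + c * (M 1 2 * M 1 1 + M 1 3 * M 1 0)

theorem phiN_mul {a b c : F} (hM : Sp M) (hN : Sp N) (p : PL M) (q : PL N)
    (h1 : a * M 0 0 ^ 2 + b * M 0 0 * M 1 0 + c * M 1 0 ^ 2 = a)
    (h2 : a * M 0 1 ^ 2 + b * M 0 1 * M 1 1 + c * M 1 1 ^ 2 = c)
    (h3 : b * (M 0 0 * M 1 1 + M 0 1 * M 1 0) = b) :
    phiN a b c (M * N) = phiN a b c M + phiN a b c N := by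
  obtain ⟨p1, p2, p3, p4⟩ := p
  obtain ⟨q1, q2, q3, q4⟩ := q
  obtain ⟨-, r2, r3, r4, r5, -⟩ := hN.row
  have r1 := hN.row.1
  simp only [phiN, mul4, *] at *
  grind

namespace Rep

variable (R : Rep G F) {g x t k : G}

omit [CharP F 2] in
/-- At most one transvection at each point. -/
def One : Prop := ∀ v (c : F), v ≠ 0 → R.Om v → R.Om (c • v) → c = 0 ∨ c = 1

omit [CharP F 2] in
/-- Transvections with centre on the standard line. -/
structure OL (t : G) (v : Fin 4 → F) : Prop where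
  ne : v ≠ 0
  tv : Tv (R.ρ t) v 1
  h2 : v 2 = 0
  h3 : v 3 = 0

variable {R}

omit [CharP F 2] in
theorem One.cj (h : R.One) (hB : Sp B) : (R.cj hB).One := fun v c h0 a b =>
  h _ c (hB.ne_zero h0) ((om_cj hB).1 a) (mulVec_smul B c v ▸ (om_cj hB).1 b)

theorem OL.eq (h : R.OL t v) : R.ρ t = uu (v 1 ^ 2) 0 (v 0 * v 1) (v 0 ^ 2) := by
  simpa using tv_uu h.tv h.h2 h.h3

theorem OL.sq (h : R.OL t v) : t * t = 1 := R.inj (by rw [map_mul, h.tv.sq, map_one])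

omit [CharP F 2] in
theorem OL.ne_one (h : R.OL t v) : t ≠ 1 := fun e => by
  simpa [h.ne] using h.tv.eq_one (by rw [e, map_one])

theorem OL.order (h : R.OL t v) : orderOf t = 2 :=
  orderOf_eq_prime ((_root_.sq t).trans h.sq) h.ne_one

omit [CharP F 2] in
theorem One.eq (h : R.One) {t' : G} (a : R.OL t v) (b : R.OL t' w)
    (e : v 0 * w 1 - v 1 * w 0 = 0) : w = v := by
  obtain ⟨c, rfl⟩ := prop_of_det a.ne a.h2 a.h3 b.h2 b.h3 e
  obtain rfl | rfl := h v c a.ne ⟨_, a.tv⟩ ⟨_, b.tv⟩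
  exacts [absurd (zero_smul _ _) b.ne, one_smul _ _]

variable [Finite G]

theorem OL.mem (h : R.OL t v) : t ∈ R.A := ⟨_, _, _, h.eq⟩

theorem OL.of_mem (h : R.OL t v) (k : g * t * g⁻¹ ∈ R.NL) : R.OL (g * t * g⁻¹) (R.ρ g *ᵥ v) :=
  have := (R.tv_conj h.tv g).pl one_ne_zero k
  ⟨(R.sp g).ne_zero h.ne, R.tv_conj h.tv g, this.1, this.2⟩

theorem OL.conj (h : R.OL t v) (k : g ∈ R.NL) : R.OL (g * t * g⁻¹) (R.ρ g *ᵥ v) :=
  h.of_mem (mul_mem (mul_mem k (R.U_le_NL (R.A_le_U h.mem))) (inv_mem k))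

variable (R) in
theorem abel_A : Abel R.A := abel_of_forall (by
  rintro x ⟨s, z, y, a⟩ x' ⟨s', z', y', b⟩
  refine R.inj ?_
  rw [map_mul, map_mul, a, b, uu_mul, uu_mul]
  apply uu_eq <;> ring)

variable (R) in
theorem norm_A : R.NL ≤ 𝐍 R.A := le_norm_iff.2 (by
  rintro g hg x ⟨s, z, y, a⟩
  exact ⟨_, _, _, R.ρ_conj (a ▸ rl_mul (R.sp g) hg s z y)⟩)

omit [CharP F 2] in
theorem top_mul' (h : x ∈ R.NL) : top (R.ρ (g * x)) = top (R.ρ g) * top (R.ρ x) := by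
  rw [map_mul, top_mul h]

omit [CharP F 2] in
theorem mid_mul' (k : g ∈ R.NP) (h : x ∈ R.NP) : mid (R.ρ (g * x)) = mid (R.ρ g) * mid (R.ρ x) := by
  rw [map_mul, mid_mul k h (R.sp x)]

omit [CharP F 2] in
theorem top_conj (k : g ∈ R.NL) (h : x ∈ R.NL) :
    top (R.ρ (g * x * g⁻¹)) * top (R.ρ g) = top (R.ρ g) * top (R.ρ x) := by
  rw [← top_mul' k, ← top_mul' h, inv_mul_cancel_right]

omit [CharP F 2] in
theorem mid_conj (k : g ∈ R.NP) (h : x ∈ R.NP) :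
    mid (R.ρ (g * x * g⁻¹)) * mid (R.ρ g) = mid (R.ρ g) * mid (R.ρ x) := by
  rw [← mid_mul' (mul_mem (mul_mem k h) (inv_mem k)) k, ← mid_mul' k h, inv_mul_cancel_right]

variable [IsSimpleGroup G] (nc : ¬ IsMulCommutative G) (hS : Syl 2 R.U ⊤) (h1 : R.One)
include nc hS h1

theorem One.two (h : R.OL t v) :
    ∃ g, R.OL (g * t * g⁻¹) (R.ρ g *ᵥ v) ∧ v 0 * (R.ρ g *ᵥ v) 1 - v 1 * (R.ρ g *ᵥ v) 0 ≠ 0 := by
  by_contra k
  push Not at k
  obtain ⟨Q, hQ⟩ := hS.exists_sylow_top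
  refine nc ⟨⟨CF.Char.comm_of_simple_of_inZStar h.order
    (CF.Char.inZStar_of_weaklyClosed Q (hQ.ge (R.A_le_U h.mem)) fun g hg => ?_)⟩⟩
  have a := h.of_mem (R.U_le_NL (hQ.le hg))
  exact R.inj ((h1.eq h a (k g a) ▸ a.tv).eq h.tv)

theorem One.mem_NL (h : R.OL t v) (k : BG.cj x R.A ≤ R.U) : x ∈ R.NL := by
  obtain ⟨g, a, b⟩ := h1.two nc hS h
  have c := h.of_mem (R.U_le_NL (k (conj_mem_cj.2 h.mem)))
  have d := a.of_mem (R.U_le_NL (k (conj_mem_cj.2 a.mem)))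
  exact pl_of_two h.h2 h.h3 a.h2 a.h3 b ⟨c.h2, c.h3⟩ ⟨d.h2, d.h3⟩

theorem One.trans (h : R.OL t v) (hg : g * t * g⁻¹ ∈ R.NL) :
    ∃ k ∈ R.NL, k * t * k⁻¹ = g * t * g⁻¹ := by
  have a := h.of_mem hg
  have pA : PiGrp {2} R.A := R.pi_U.le R.A_le_U
  obtain ⟨c, hc, x, p, q⟩ := common hS (le_cent1_iff.2 (R.abel_A a.mem))
    (cj_cent1 g t ▸ cj_mono g (le_cent1_iff.2 (R.abel_A h.mem))) pA (pA.cj g)
  rw [BG.cj_cj] at q
  refine ⟨c * g, ?_, ?_⟩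
  · have := mul_mem (inv_mem (h1.mem_NL nc hS h p)) (h1.mem_NL nc hS h q)
    rwa [mul_assoc x, inv_mul_cancel_left] at this
  · rw [← mul_inv_cancel_right (g * t * g⁻¹) c, ← mem_cent1.1 hc]; group

theorem One.form (h : R.OL t v) {a b c : F}
    (k : ∀ g ∈ R.NL, a * R.ρ g 0 0 ^ 2 + b * R.ρ g 0 0 * R.ρ g 1 0 + c * R.ρ g 1 0 ^ 2 = a ∧
      a * R.ρ g 0 1 ^ 2 + b * R.ρ g 0 1 * R.ρ g 1 1 + c * R.ρ g 1 1 ^ 2 = c ∧
      b * (R.ρ g 0 0 * R.ρ g 1 1 + R.ρ g 0 1 * R.ρ g 1 0) = b) :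
    a * v 0 ^ 2 + b * (v 0 * v 1) + c * v 1 ^ 2 = 0 := by
  have := no_hom nc (K := R.NL) (R.NL.relIndex_top_right ▸ Hall.odd hS (inf_le_left.trans R.U_le_NL) le_top)
    h.sq (R.U_le_NL (R.A_le_U h.mem))
    (fun g hg => by simpa using h1.trans nc hS h (g := g⁻¹) (by simpa using hg))
    (fun g => phiN a b c (R.ρ g)) fun x hx y hy => by
      rw [map_mul, phiN_mul (R.sp x) (R.sp y) hx hy (k x hx).1 (k x hx).2.1 (k x hx).2.2]
  simpa [h.eq, phiN, uu] using this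

variable [Finite F]

theorem One.gamma' (hA : R.U ≤ R.A) (h : R.OL t e0) {g₀ : G} (h0 : R.ρ g₀ *ᵥ e0 = e0)
    (hg : g₀ ∉ R.NL) : False := by
  let C : Subgroup G := R.sub (fun M => M *ᵥ e0 = e0) (one_mulVec _)
    fun M N a b => by rw [← mulVec_mulVec, b, a]
  have hC : C ≤ R.NP := fun g hg => pp_iff.2 ⟨1, by rw [one_smul]; exact hg⟩
  have hU : R.U ≤ C := by
    rintro g ⟨s, t, z, y, e⟩
    change R.ρ g *ᵥ e0 = e0
    apply ext4 <;> simp [e, mv_e0, uu, e0]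
  have pl (g) (hg : g ∈ C) (e : R.ρ g 2 1 = 0) : g ∈ R.NL :=
    ⟨(hC hg).2.1, (hC hg).2.2, e, ((hC hg).sp (R.sp g)).1⟩
  have g21 : R.ρ g₀ 2 1 ≠ 0 := fun e => hg (pl _ h0 e)
  have hZ (g z y) (e : R.ρ g = uu 0 0 z y) : z = 0 := by
    have a := R.ρ_conj (e ▸ rp_mul (R.sp g₀) (hC h0) 0 z y)
    obtain ⟨s', z', y', b⟩ := hA ⟨_, _, _, _, a⟩
    have := (uu_inj (a.symm.trans b)).2.1
    have := ((hC h0).sp (R.sp g₀)).2.2.1
    grind
  obtain ⟨g, a, b⟩ := h1.two nc hS h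
  obtain ⟨k, hk, e⟩ := h1.trans nc hS h (R.U_le_NL (R.A_le_U a.mem))
  rw [← e] at a
  generalize R.ρ g *ᵥ e0 = w at a b
  have w1 : w 1 ^ 2 ≠ 0 := by simpa [e0] using b
  let Ma : AddSubgroup F :=
    { carrier := {s | ∃ g z y, R.ρ g = uu s 0 z y}
      zero_mem' := ⟨1, 0, 0, by rw [map_one, uu_zero]⟩
      add_mem' := by
        rintro _ _ ⟨g, z, y, a⟩ ⟨g', z', y', b⟩
        exact ⟨g * g', _, _, by rw [map_mul, a, b, uu_mul, add_zero]⟩
      neg_mem' := fun h => by rwa [CharTwo.neg_eq] }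
  have ev : Even (Nat.card Ma) := even_iff_two_dvd.2 (by
    rw [← addOrderOf_eq_prime (p := 2) (x := w 1 ^ 2) (by rw [two_nsmul, CharTwo.add_self_eq_zero]) w1]
    exact Ma.addOrderOf_dvd_natCard ⟨_, _, _, a.eq⟩)
  have od := Hall.odd hS (K := 𝐂₁ t) (L := R.NL)
    (inf_le_left.trans (hA.trans (le_cent1_iff.2 (R.abel_A h.mem)))) R.U_le_NL
  rw [← CF.CIT.ncard_conj, ← Set.InjOn.ncard_image (f := fun w => R.ρ w 1 2)] at od
  · refine Nat.not_even_iff_odd.2 od ?_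
    convert ev using 1
    refine congrArg Set.ncard (Set.ext fun s => ⟨?_, ?_⟩)
    · rintro ⟨_, ⟨l, hl, rfl⟩, rfl⟩
      exact ⟨_, _, _, (h.conj hl).eq.trans (uu_eq (congrFun₂ (h.conj hl).eq 1 2).symm rfl rfl rfl)⟩
    rintro ⟨u, z, y, hu⟩
    by_cases s0 : s = 0
    · exact ⟨t, ⟨1, one_mem _, by simp⟩, by simp [h.eq, uu, e0, s0]⟩
    have aU := R.A_le_U a.mem
    have c := conj_up ((hC h0).det (R.sp _) ▸ one_ne_zero)
      ((mid_conj (hC h0) (R.U_le_NP aU)).trans (by rw [a.eq, mid_uu]))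
    obtain l | ⟨K, -, l, m⟩ := l2b (fun M => ∃ g ∈ C, mid (R.ρ g) = M) (by
        rintro _ _ ⟨g, a, rfl⟩ ⟨g', b, rfl⟩
        exact ⟨_, mul_mem a b, mid_mul' (hC a) (hC b)⟩) (by
        rintro _ ⟨g, a, rfl⟩
        exact (hC a).det (R.sp g)) w1 ⟨_, hU aU, by rw [a.eq, mid_uu]⟩
        ⟨_, mul_mem (mul_mem h0 (hU aU)) (C.inv_mem h0), rfl⟩ c.1 (c.2.2 w1 g21)
    · obtain rfl := (l s ⟨u, hU ⟨_, _, _, _, hu⟩, by rw [hu, mid_uu]⟩).resolve_left s0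
      exact ⟨_, ⟨k, hk, rfl⟩, by simp [a.eq, uu]⟩
    · obtain ⟨x, hx, e⟩ := CF.MH.exists_sq CharTwo.two_eq_zero K ((l (s / w 1 ^ 2)).2
        ⟨u, hU ⟨_, _, _, _, hu⟩, by rw [hu, mid_uu, div_mul_cancel₀ _ w1]⟩)
      obtain ⟨_, ⟨g, c, rfl⟩, m1, m2, -⟩ := m x hx (by grind)
      have d := pl g c m1
      refine ⟨_, ⟨g * k, mul_mem d hk, rfl⟩, ?_⟩
      rw [show g * k * t * (g * k)⁻¹ = g * (k * t * k⁻¹) * g⁻¹ by group]
      refine (congrFun₂ (a.conj d).eq 1 2).trans (?_ : _ ^ 2 = s)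
      rw [mulVec4, (hC c).1, a.h2, a.h3, show R.ρ g 1 1 = x from m2, ← div_mul_cancel₀ s w1, ← e]
      ring
  · rintro _ ⟨l, hl, rfl⟩ _ ⟨l', hl', rfl⟩ e
    have a := h.conj hl
    have b := h.conj hl'
    generalize R.ρ l *ᵥ e0 = u at a
    generalize R.ρ l' *ᵥ e0 = v at b
    simp only [a.eq, b.eq, uu] at e
    simp at e
    have := hZ (l * t * l⁻¹ * (l' * t * l'⁻¹)) _ _ (by
      rw [map_mul, a.eq, b.eq, uu_mul, e, CharTwo.add_self_eq_zero, add_zero])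
    exact R.inj (a.tv.eq (h1.eq a b (by grind) ▸ b.tv))

theorem One.gamma (hA : R.U ≤ R.A) (h : R.OL t v) : False := by
  have hA' : Syl 2 R.A R.NL := (hA.antisymm R.A_le_U) ▸ hS.of_le R.U_le_NL le_top
  by_cases hc : ∀ u ∈ R.A, u ≠ 1 → 𝐂₁ u ≤ R.NL
  · have se : SEmb R.NL := fun u hu o g hg => by
      have a := hA'.mem_normal R.norm_A hu (Fgs3.piElt_two o)
      have b := hA'.mem_normal R.norm_A hg ((Fgs3.piElt_two o).conj g)
      refine h1.mem_NL nc hS h (le_trans ?_ R.A_le_U)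
      refine hA'.le_normal R.norm_A (le_trans ?_ (hc _ b ?_)) (hA'.pi.cj g)
      · exact cj_cent1 g u ▸ cj_mono g (le_cent1_iff.2 (R.abel_A a))
      · exact ne_one_of_orderOf ((BG.orderOf_conj' g u).trans o)
    have nt : R.NL ≠ ⊤ := fun e => by
      rcases IsSimpleGroup.eq_bot_or_eq_top_of_normal R.A (normalIn_top.1 ⟨le_top, e ▸ R.norm_A⟩)
        with k | k
      · exact h.ne_one (Subgroup.mem_bot.1 (k ▸ h.mem))
      · exact nc ⟨⟨fun a b => R.abel_A.mul_comm (k ▸ trivial) (k ▸ trivial)⟩⟩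
    obtain ⟨g, a, b⟩ := h1.two nc hS h
    generalize R.ρ g *ᵥ v = w at a b
    generalize g * t * g⁻¹ = t' at a
    have e := map_mul R.ρ t t'
    rw [h.eq, a.eq, uu_mul] at e
    have o : orderOf (t * t') = 2 := orderOf_eq_prime (by
      rw [sq, ← mul_assoc, mul_assoc t, ← R.abel_A.mul_comm h.mem a.mem, ← mul_assoc, h.sq, one_mul,
        a.sq]) fun k => by
      rw [k, map_one, ← uu_zero] at e
      have := uu_inj e
      grind
    obtain ⟨x, hx⟩ := isConj_iff.1 (se_isConj (se_iff.2 ⟨nt,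
      even_card_of_invol_mem (hA'.le h.mem) h.order, se⟩) h.order o)
    have c := h.of_mem (hx ▸ hA'.le (mul_mem h.mem a.mem))
    have := uu_inj (e.symm.trans (hx ▸ c.eq))
    grind
  push Not at hc
  obtain ⟨u, ⟨s, z, y, hu⟩, u1, hc⟩ := hc
  obtain ⟨g, c, hg⟩ := SetLike.not_le_iff_exists.1 hc
  have c' := R.eq_of_conj (mul_inv_eq_of_eq_mul (mem_cent1.1 c))
  obtain ⟨a, b, tv⟩ := tv_of_rank (s := s) (z := z) (y := y)
    (by_contra fun e => hg (pl_of_rl e (hu ▸ c')))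
  rw [← hu] at tv
  obtain ⟨p, q, k⟩ := exists_det (a := a) (b := b) (by
    by_contra e
    push Not at e
    exact u1 (R.inj (tv.eq fun x => by
      rw [map_one, one_mulVec, e.1, e.2]; apply ext4 <;> simp)))
  have hB := sp_levL k
  have e : levL a b p q *ᵥ e0 = ![a, b, 0, 0] := by apply ext4 <;> simp [mv_e0, levL]
  have pB : PL (levL a b p q) := by simp [PL, levL]
  have pB' : PL (spi (levL a b p q)) := by
    simp only [PL, spi, mul4, transpose_apply]; simp [levL, wM]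
  have l : R.U ≤ (R.cj hB).A := fun x hx => by
    obtain ⟨s, z, y, hx⟩ := hA hx
    exact ⟨_, _, _, by rw [cj_ρ, hx, rl_mul hB.spi pB', mul_assoc, hB.spi_mul, mul_one]⟩
  have l' := hS.eq_of_le (l.trans (A_le_U _)) le_top (pi_U _)
  refine One.gamma' (R := R.cj hB) nc (l' ▸ hS) (h1.cj hB) (l' ▸ l) (t := u) (g₀ := g)
    ⟨e0_ne, (R.cj_tv hB).2 (e ▸ tv), rfl, rfl⟩ (hB.inj ?_) fun m => hg ?_
  · rw [cj_mv, e]
    exact (R.tv_conj tv g).center_eq (by rwa [mul_inv_eq_of_eq_mul (mem_cent1.1 c)])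
  · have := (pB.mul m).mul pB'
    rwa [cj_mul, mul_assoc, hB.mul_spi, mul_one] at this

end Rep

end CF.MaxSub.E4
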