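/-
Simple subgroups of `Sp₄` (characteristic two) with at most one transvection at each point, II.
-/
import Cfsg.Agent.MaxSub.E4E

set_option autoImplicit false

namespace CF.MaxSub.E4

open Matrix Cfsg.Lie CF.BN.Suz CF.BG CF.Invol

variable {F : Type*} [Field F] {G : Type*} [Group G] {M N B : M4 F} {u v w : Fin 4 → F}

namespace Rep

variable {R : Rep G F} {g x t k : G} [Finite G] {s τ z y : F}

theorem bo_pow (hk : k ∈ R.NL) (hp : k ∈ R.NP) (n : ℕ) :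
    R.ρ (k ^ n) 0 0 = R.ρ k 0 0 ^ n ∧ R.ρ (k ^ n) 1 1 = R.ρ k 1 1 ^ n := by
  induction n with
  | zero => simp
  | succ n ih =>
    have := (R.NP.pow_mem hp n).1
    obtain ⟨a, b, c⟩ := hp
    simp [pow_succ, mul4, ← map_pow, ih, a, b, c, hk.2.2.1, hk.2.2.2, this]

theorem bo_ne (hk : k ∈ R.NL) (hp : k ∈ R.NP) : R.ρ k 0 0 ≠ 0 ∧ R.ρ k 1 1 ≠ 0 := by
  simpa [top, hp.1] using PL.det hk (R.sp k)

variable [CharP F 2]

theorem mem_U_of (hk : k ∈ R.NL) (hp : k ∈ R.NP) (a : R.ρ k 0 0 = 1) (b : R.ρ k 1 1 = 1) :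
    k ∈ R.U := ⟨_, _, _, _, isU_of (R.sp k) hp hk a b⟩

theorem bo_conj (hk : k ∈ R.NL) (hp : k ∈ R.NP) (hx : R.ρ x = uu s τ z y) :
    ∃ s z y, R.ρ (k * x * k⁻¹) = uu s (R.ρ k 0 0 / R.ρ k 1 1 * τ) z y := by
  have xU : x ∈ R.U := ⟨_, _, _, _, hx⟩
  have l := mul_mem (mul_mem hk (R.U_le_NL xU)) (inv_mem hk)
  have p := mul_mem (mul_mem hp (R.U_le_NP xU)) (inv_mem hp)
  have e := top_conj hk (R.U_le_NL xU)
  rw [hx, top_uu] at e
  generalize k * x * k⁻¹ = g at *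
  have e00 := congrFun₂ e 0 0; have e01 := congrFun₂ e 0 1; have e11 := congrFun₂ e 1 1
  obtain ⟨a, b⟩ := bo_ne hk hp
  simp [top, up, hp.1, p.1, a, b] at e00 e01 e11
  refine ⟨_, _, _, (isU_of (R.sp g) p l e00 e11).trans (uu_eq rfl ?_ rfl rfl)⟩
  rw [e00] at e01
  field_simp
  linear_combination e01

theorem OL.zeta (h : R.OL t v) (hx : R.ρ x = uu s τ z y) :
    R.ρ (x * t * x⁻¹ * t) = uu 0 0 (τ * v 1 ^ 2) (τ ^ 2 * v 1 ^ 2) := by
  rw [map_mul, (h.conj (R.U_le_NL ⟨_, _, _, _, hx⟩)).eq, h.eq, uu_mul, hx]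
  apply uu_eq <;> simp [mulVec4, uu, h.h2, h.h3] <;> grind

variable (h1 : R.One)
include h1

theorem One.scalar (h : R.OL t v) (hk : k ∈ R.NL) (hp : k ∈ R.NP) (e : R.ρ k 0 0 = R.ρ k 1 1) :
    R.ρ k 1 1 = 1 := by
  have a : R.ρ (k * k) *ᵥ v = R.ρ k 1 1 ^ 2 • v := by
    obtain ⟨a, b, c⟩ := hp
    obtain ⟨-, -, d, f⟩ := hk
    apply ext4 <;> simp [mulVec4, mul4, h.h2, h.h3, a, b, c, d, f, e] <;> grind
  have := h1 v _ h.ne ⟨_, h.tv⟩ (a ▸ Om.mv ⟨_, h.tv⟩ (k * k))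
  have := (bo_ne hk hp).2
  grind

variable [Finite F]

theorem One.beta (h : R.OL t v) (hx : R.ρ x = uu s τ z y) (h0 : τ ≠ 0)
    (np : ∀ c : F, R.Om (c • e0) → c = 0) (hk : k ∈ R.NL) (hp : k ∈ R.NP) : R.ρ k 1 1 = 1 := by
  obtain ⟨a, b⟩ := bo_ne hk hp
  have T (i : ℕ) : ∃ g s z y, R.ρ g = uu s ((R.ρ k 0 0 / R.ρ k 1 1) ^ i * τ) z y := by
    induction i with
    | zero => exact ⟨x, s, z, y, by simpa using hx⟩
    | succ i ih =>
      obtain ⟨g, s, z, y, e⟩ := ih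
      exact ⟨_, by simpa only [pow_succ', mul_assoc] using bo_conj hk hp e⟩
  generalize hγ : R.ρ k 0 0 / R.ρ k 1 1 = γ at T
  have fin : IsOfFinOrder γ := isOfFinOrder_iff_isUnit.2 (hγ ▸ (div_ne_zero a b).isUnit)
  have : NeZero (orderOf γ) := ⟨fin.orderOf_pos.ne'⟩
  have p := bo_pow hk hp (orderOf γ)
  have q := h1.scalar h (pow_mem hk _) (pow_mem hp _) (by
    rw [p.1, p.2, ← div_mul_cancel₀ (R.ρ k 0 0) b, hγ, mul_pow, pow_orderOf_eq_one, one_mul])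
  obtain ⟨i, -, e⟩ := (IsPrimitiveRoot.orderOf γ).eq_pow_of_pow_eq_one (p.2.symm.trans q)
  obtain ⟨g, s', z', y', hg⟩ := T (i * 2)
  rw [pow_mul, e] at hg
  have z1 := h.zeta hg
  have z2 := (h.conj hk).zeta hx
  have v1 : v 1 ≠ 0 := fun e => h.ne (by
    have : v = v 0 • e0 := ext4 (by simp [e0]) (by simp [e0, e]) (by simp [e0, h.h2])
      (by simp [e0, h.h3])
    rw [this, np (v 0) (this ▸ ⟨_, h.tv⟩), zero_smul])
  rw [mulVec4, hp.1, h.h2, h.h3] at z2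
  generalize R.ρ k 1 1 = β at *
  have := np (τ * β * v 1 * (1 + β)) ⟨g * t * g⁻¹ * t * (x * (k * t * k⁻¹) * x⁻¹ * (k * t * k⁻¹)), by
    rw [map_mul, z1, z2, uu_mul]
    convert Tv.of_uu (τ * β * v 1 * (1 + β)) 0 using 1
    · apply uu_eq <;> grind
    · apply ext4 <;> simp [e0]⟩
  simp only [mul_eq_zero, h0, b, v1, false_or] at this
  grind

theorem One.bo (h : R.OL t v) (hx : R.ρ x = uu s τ z y) (h0 : τ ≠ 0) (hk : k ∈ R.NL)
    (hp : k ∈ R.NP) : R.ρ k 0 0 = 1 ∨ R.ρ k 1 1 = 1 := by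
  by_cases np : ∀ c : F, R.Om (c • e0) → c = 0
  · exact Or.inr (h1.beta h hx h0 np hk hp)
  push Not at np
  obtain ⟨c, a, b⟩ := np
  refine Or.inl ((h1 _ _ (smul_ne_zero b e0_ne) a ?_).resolve_left (bo_ne hk hp).1)
  convert a.mv k using 1
  apply ext4 <;> simp [mulVec4, e0, hp.1, hp.2.1, hp.2.2]

variable [IsSimpleGroup G] (nc : ¬ IsMulCommutative G) (hS : Syl 2 R.U ⊤)
include nc hS

theorem One.alpha (h : R.OL t v) (hx : R.ρ x = uu s τ z y) (h0 : τ ≠ 0) (l : R.NL ≤ R.NP) :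
    False := by
  have np (c : F) (a : R.Om (c • e0)) : c = 0 := by_contra fun c0 => by
    obtain ⟨t, a⟩ := a
    have b : R.OL t (c • e0) := ⟨smul_ne_zero c0 e0_ne, a, by simp [e0], by simp [e0]⟩
    obtain ⟨g, a, d⟩ := h1.two nc hS b
    obtain ⟨k, hk, e⟩ := h1.trans nc hS b (R.U_le_NL (R.A_le_U a.mem))
    rw [(e ▸ a.tv :).center_eq (b.conj hk).tv] at d
    simp [mulVec4, e0, (l hk).1] at d
  have := h1.form nc hS h (a := 0) (b := 0) (c := 1) fun g hg => by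
    simp [(l hg).1, h1.beta h hx h0 np hg (l hg)]
  have e : v 1 = 0 := by simpa using this
  have : v = v 0 • e0 := ext4 (by simp [e0]) (by simp [e0, e]) (by simp [e0, h.h2])
    (by simp [e0, h.h3])
  exact h.ne (by rw [this, np (v 0) (this ▸ ⟨_, h.tv⟩), zero_smul])

theorem One.dih (h : R.OL t v) (hx : R.ρ x = uu s τ z y) (h0 : τ ≠ 0) (hk : k ∈ R.NL)
    (hp : k ∉ R.NP) : False := by
  have xU : x ∈ R.U := ⟨_, _, _, _, hx⟩
  have xL := R.U_le_NL xU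
  have c (g) (hg : g ∈ R.NL) := conj_up (PL.det hg (R.sp g))
    ((top_conj hg xL).trans (by rw [hx, top_uu]))
  have pp (g) (hg : g ∈ R.NL) (e : R.ρ g 1 0 = 0) : g ∈ R.NP := ⟨e, hg.1, hg.2.1⟩
  obtain l | ⟨K, ⟨a, ha, a0, a1⟩, -, m⟩ := l2b
    (fun M => ∃ g ∈ R.NL, (top (R.ρ g)).det = 1 ∧ top (R.ρ g) = M) (by
      rintro _ _ ⟨g, a, b, rfl⟩ ⟨g', c, d, rfl⟩
      exact ⟨_, mul_mem a c, by rw [top_mul' c, det_mul, b, d, one_mul], top_mul' c⟩)
    (by rintro _ ⟨g, -, a, rfl⟩; exact a) h0 ⟨x, xL, by simp [hx, top_uu, up], by rw [hx, top_uu]⟩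
    ⟨_, mul_mem (mul_mem hk xL) (inv_mem hk), (c k hk).2.1, rfl⟩ (c k hk).1
    ((c k hk).2.2 h0 fun e => hp (pp k hk e))
  swap
  · obtain ⟨_, ⟨g, b, -, rfl⟩, m1, m2, m3⟩ := m a ha a0
    obtain e | e := h1.bo h hx h0 b (pp g b m1)
    exacts [a1 (m2.symm.trans e), a1 (inv_eq_one.1 (m3.symm.trans e))]
  have hT {g s t z y} (e : R.ρ g = uu s t z y) : t = 0 ∨ t = τ :=
    l t ⟨g, R.U_le_NL ⟨_, _, _, _, e⟩, by simp [e, top_uu, up], by rw [e, top_uu]⟩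
  have bo (g) (a : g ∈ R.NL) (b : g ∈ R.NP) : g ∈ R.U := by
    obtain ⟨_, _, _, e⟩ := bo_conj a b hx
    have := bo_ne a b
    have d : R.ρ g 0 0 = R.ρ g 1 1 := by have := hT e; grind
    exact mem_U_of a b (d.trans (h1.scalar h a b d)) (h1.scalar h a b d)
  let K : Subgroup G := R.sub (fun M => PL M ∧ (top M).det = 1) ⟨by simp [PL], by simp [top_one]⟩
    fun M N a b => ⟨a.1.mul b.1, by rw [top_mul b.1, det_mul, a.2, b.2, one_mul]⟩
  have UK : R.U ≤ K := by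
    rintro g ⟨s, t, z, y, e⟩
    exact ⟨e ▸ pl_uu .., by simp [e, top_uu, up]⟩
  have nK : K ⊴ R.NL := ⟨fun g a => a.1, le_norm_iff.2 fun g a g' b =>
    ⟨mul_mem (mul_mem a b.1) (inv_mem a), by
      have := congrArg det (top_conj a b.1)
      rwa [det_mul, det_mul, b.2, mul_one, mul_eq_right₀ (PL.det a (R.sp g))] at this⟩⟩
  have dt (g) (a : g ∈ R.NL) : (top (R.ρ g)).det = 1 := by
    obtain ⟨p, b, q, d, rfl⟩ := (hS.of_le UK le_top).syl_frattini nK a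
    refine (mul_mem b (UK (bo q d.1 (pp q d.1 (by_contra fun e => ?_))))).2
    exact (c q d.1).2.2 h0 e (R.U_le_NP (conj_mem_of_norm d.2 xU)).1
  obtain ⟨Q, q1, q2, q3⟩ := exists_avg (Hall.odd hS inf_le_left R.U_le_NL) (fun g => top (R.ρ g))
    (fun a _ b hb => top_mul' hb) (fun u v => u 0 * v 1 + u 1 * v 0) (fun g a u v => by
      have := dt g a
      simp [top, mulVec, dotProduct] at this ⊢
      grind) (fun u => τ⁻¹ * u 0 ^ 2 + u 0 * u 1) (fun u v => by simp; grind)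
    (fun c v => by simp; ring) (by
      rintro g ⟨s, t, z, y, e⟩ - v
      have := hT e
      simp [e, top_uu, up, mulVec, dotProduct]
      grind)
  have eQ (u : Fin 2 → F) : Q u = Q ![1, 0] * u 0 ^ 2 + u 0 * u 1 + Q ![0, 1] * u 1 ^ 2 := by
    rw [show Q u = Q (u 0 • ![1, 0] + u 1 • ![0, 1]) by congr 1; ext i; fin_cases i <;> simp, q1, q2,
      q2]
    simp; ring
  have fm {t v} (h : R.OL t v) := h1.form nc hS h (a := Q ![1, 0]) (b := 1) (c := Q ![0, 1])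
    fun g a => by
      have b := q3 g a ![1, 0]
      have c := q3 g a ![0, 1]
      have d := dt g a
      rw [eQ] at b c
      simp [top, mulVec, dotProduct] at b c d
      grind
  have n0 := q3 x xL ![0, 1]
  rw [eQ] at n0
  simp [hx, top_uu, up, mulVec, dotProduct] at n0
  have a := h.conj xL
  have x0 : (R.ρ x *ᵥ v) 0 = v 0 + τ * v 1 := by simp [hx, mulVec4, uu, h.h2, h.h3]
  have x1 : (R.ρ x *ᵥ v) 1 = v 1 := by simp [hx, mulVec4, uu, h.h2, h.h3]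
  generalize R.ρ x *ᵥ v = w at a x0 x1
  have f := fm h
  have v1 : v 1 ≠ 0 := fun e => h.ne (ext4 (by simp only [Pi.zero_apply]; grind) e h.h2 h.h3)
  have two {t' u} (b : R.OL t' u) : u = v ∨ u = w := by
    have f' := fm b
    have : (v 0 * u 1 - v 1 * u 0) * (w 0 * u 1 - w 1 * u 0) = 0 := by rw [x0, x1]; grind
    exact (mul_eq_zero.1 this).imp (h1.eq h b) (h1.eq a b)
  have vw : v ≠ w := fun e => by rw [← e] at x0; grind
  have : R.ρ k *ᵥ (v + w) = v + w := by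
    rw [mulVec_add]
    obtain p | p := two (h.conj hk) <;> obtain q | q := two (a.conj hk)
    · exact absurd ((R.sp k).inj (p.trans q.symm)) vw
    · rw [p, q]
    · rw [p, q, add_comm]
    · exact absurd ((R.sp k).inj (p.trans q.symm)) vw
  have := congrFun this 1
  simp only [mulVec4, Pi.add_apply, x0, x1, h.h2, h.h3, a.h2, a.h3] at this
  exact hp (pp k hk (by grind))

theorem One.false (h : R.OL t v) : False := by
  by_cases hA : R.U ≤ R.A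
  · exact h1.gamma nc hS hA h
  obtain ⟨x, ⟨s, τ, z, y, hx⟩, h0⟩ := SetLike.not_le_iff_exists.1 hA
  have h0 : τ ≠ 0 := fun e => h0 ⟨s, z, y, e ▸ hx⟩
  by_cases l : R.NL ≤ R.NP
  · exact h1.alpha nc hS h hx h0 l
  obtain ⟨k, a, b⟩ := SetLike.not_le_iff_exists.1 l
  exact h1.dih nc hS h hx h0 a b

omit h1 hS in
theorem Irr.sub (h : R.Irr) (h4 : 4 ≤ Nat.card F) (nt : ¬ R.NT) : R.Sub := by
  by_cases h1 : R.One
  · obtain ⟨B, hB, hS⟩ := R.exists_syl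
    refine absurd (fun t v a => by_contra fun h0 => ?_) (mt (fun k : (R.cj hB).NT => ?_) nt)
    · obtain ⟨g, -, e⟩ := hS.syl_cj_le le_top (K := Subgroup.zpowers t) (piGrp_zpowers.2
        (piElt_of_pow_eq_one Nat.prime_two ((R.cj hB).inj (by rw [sq, map_mul, a.sq, map_one]))))
      have b := tv_conj _ a g
      have c := b.pl one_ne_zero (U_le_NL _ (e (conj_mem_cj.2 (Subgroup.mem_zpowers t))))
      exact (h1.cj hB).false nc hS ⟨(sp _ g).ne_zero h0, b, c.1, c.2⟩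
    · intro g v a
      rw [← hB.mulVec_spi v] at a ⊢
      rw [k g _ ((R.cj_tv hB).2 a), mulVec_zero]
  · simp only [One, not_forall, not_or] at h1
    obtain ⟨v, c, h0, a, b, c0, c1⟩ := h1
    exact h.two h4 h0 a b c0 c1

end Rep

end CF.MaxSub.E4
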