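/-
Simple subgroups of `Sp₄` (characteristic two) without root elements, I.
-/
import Cfsg.Agent.MaxSub.E4E
import Cfsg.Agent.CIT.App

set_option autoImplicit false

namespace CF.MaxSub.E4

open Matrix Cfsg.Lie CF.BN.Suz CF.BG CF.Invol CF.CIT

variable {F : Type*} [Field F] {G : Type*} [Group G] {M N B : M4 F} {u v w : Fin 4 → F}

theorem zt_of [Finite G] [IsSimpleGroup G] (nc : ¬ IsMulCommutative G) (h : IsCIT G)
    {S : Subgroup G} (hS : Syl 2 S ⊤) (hc : ∀ u ∈ S, orderOf u = 2 → S ≤ 𝐂₁ u) : Fgs3.ZT S S := by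
  have ns := not_sol_of_simple nc
  refine h.zt (O_eq_bot_of_simple ns 2) ns hS fun S' k e => ?_
  obtain ⟨u, hu, o⟩ := exists_inv (hS.pi.le inf_le_left) e
  obtain ⟨g, -, rfl⟩ := hS.syl_conj k
  refine (k.eq_of_le' hS ?_).symm
  rw [hS.eq_of_le (hc u hu.1 o) le_top (h.cent1 o)]
  have := cj_mono g (hc _ (mem_cj.1 hu.2) ((Invol.orderOf_conj' g u).trans o))
  rw [cj_cent1, show g * (g⁻¹ * u * g) * g⁻¹ = u by group] at this
  rwa [← hS.eq_of_le (hc u hu.1 o) le_top (h.cent1 o)] at this ⊢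

namespace Rep

variable {R : Rep G F} {g x j : G} [CharP F 2] [Finite F] {s t z y : F}

theorem NT.a (h : R.NT) (e : R.ρ g = uu s 0 z y) (k : s * y - z ^ 2 = 0) : g = 1 := by
  obtain ⟨a, b, tv⟩ := tv_of_rank k
  rw [← e] at tv
  exact R.inj (tv.eq fun x => by rw [h g _ tv, map_one, one_mulVec, smul_zero, add_zero])

theorem NT.b (h : R.st.NT) (e : R.ρ g = uu 0 t z 0) : g = 1 :=
  h.a (by rw [st_ρ, e, star_uu]) (by grind)

theorem NT.st_cj (h : R.st.NT) (hB : Sp B) : (R.cj hB).st.NT := R.cj_st hB ▸ h.cj _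

omit [Finite F] in
theorem cen (e : R.ρ x = uu 0 t z y) (hy : y ≠ 0) (h : z ≠ 0 ∨ t ≠ 0) (c : g * x = x * g) :
    g ^ 4 = 1 := by
  have c' : R.ρ g * uu 0 t z y = uu 0 t z y * R.ρ g := by rw [← e, ← map_mul, c, map_mul]
  have p := pp_of_rp (R.sp g) hy c'
  obtain ⟨-, a, b, d⟩ := uu_inj ((R.sp g).cancel (c'.symm.trans (rp_mul (R.sp g) p t z y)))
  have h0 : R.ρ g 0 0 = 1 := by grind
  obtain ⟨c, d, k⟩ := exists_det h
  obtain ⟨_, _, _, _, l⟩ := isU_lev (R.sp g) ((R.cj (sp_lev k)).sp g) p h0 (w := ![z, t]) k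
    (R.cj_mul _ g) (by
      rw [h0, one_mul] at a b
      ext i; fin_cases i <;> simp [mid, mulVec, dotProduct, ← a, ← b])
  exact (R.cj (sp_lev k)).inj (by rw [map_pow, l, uu_pow, map_one])

omit [Finite F] in
theorem sq_eq_one (e : R.ρ x = uu s t z y) : x * x = 1 ↔ s = 0 ∨ t = 0 := by
  rw [← R.inj.eq_iff, map_mul, e, uu_sq, map_one, ← uu_zero, ← mul_eq_zero]
  exact ⟨fun h => (uu_inj h).2.2.1, fun h => uu_eq rfl rfl h (by rw [sq, ← mul_assoc, h, zero_mul])⟩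

variable [Finite G]

theorem cit (h : R.NT) (k : R.st.NT) : IsCIT G := fun x g o c od => by
  obtain ⟨B, hB, l⟩ := R.exists_cj_le (piGrp_zpowers.2 (Fgs3.piElt_two o))
  obtain ⟨s, t, z, y, e⟩ := l (Subgroup.mem_zpowers x)
  have h := h.cj hB
  have k := k.st_cj hB
  generalize R.cj hB = R at *
  have x1 := ne_one_of_orderOf o
  have : g ^ 4 = 1 := by
    obtain rfl | rfl := (sq_eq_one e).1 (mul_self_of_orderOf o)
    · refine cen e (fun y0 => x1 (k.b (y0 ▸ e))) (by_contra fun a => x1 ?_) c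
      push Not at a
      exact h.a (a.2 ▸ e) (by simp [a.1])
    · refine cen (R := R.st) (x := x) (by rw [st_ρ, e, star_uu, zero_pow two_ne_zero])
        (fun a => x1 (h.a e (by grind))) (by_contra fun a => x1 ?_) c
      push Not at a
      refine k.b (t := 0) (z := z) (e.trans (uu_eq a.2 rfl rfl ?_))
      simpa using a.1
  exact orderOf_eq_one_iff.1 (Nat.Coprime.eq_one_of_dvd (Nat.Coprime.pow_right 2
    (Nat.coprime_two_right.2 od)) (orderOf_dvd_of_pow_eq_one this))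

omit [Finite F] in
theorem cenZ (e : R.ρ x = uu 0 0 z y) (hz : z ≠ 0) (hy : y ≠ 0) : 𝐂₁ x ≤ R.U := fun g c => by
  have c' : R.ρ g * uu 0 0 z y = uu 0 0 z y * R.ρ g := by
    rw [← e, ← map_mul, mem_cent1.1 c, map_mul]
  have p := pp_of_rp (R.sp g) hy c'
  obtain ⟨-, a, b, d⟩ := uu_inj ((R.sp g).cancel (c'.symm.trans (rp_mul (R.sp g) p 0 z y)))
  exact ⟨_, _, _, _, isU_of (R.sp g) p (pl_of_rl (by simpa using hz) c') (by grind) (by grind)⟩

omit [Finite F] in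
theorem st_U (hS : Syl 2 R.U ⊤) : R.st.U = R.U := (hS.eq_of_le (by
  rintro g ⟨s, t, z, y, e⟩
  exact ⟨_, _, _, _, by rw [st_ρ, e, star_uu]⟩) le_top (pi_U _)).symm

omit [Finite F] in
theorem A_le_st : R.A ≤ R.st.E := by
  rintro g ⟨s, z, y, e⟩
  exact ⟨_, _, _, by rw [st_ρ, e, star_uu, zero_pow two_ne_zero]⟩

theorem elemE (hE : R.U ≤ R.E) (zt : Fgs3.ZT R.U R.U) (hi : R.Irr) (hq : R.NQ) (h : R.NT)
    (k : R.st.NT) : False := by
  obtain ⟨u, hu, -, -, o, -⟩ := zt.two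
  obtain ⟨t, z, y, e⟩ := hE hu
  have pp (g) (hg : g ∈ 𝐍 R.U) : g ∈ R.NP := by
    obtain ⟨t', z', y', e'⟩ := hE (conj_mem_of_norm hg hu)
    have c := R.eq_of_conj (g := g) (x := u) rfl
    rw [e, e'] at c
    refine pp_of_rp (R.sp g) (fun y0 => ?_) c
    exact ne_one_of_orderOf ((BG.orderOf_conj' g u).trans o) (k.b (y0 ▸ e'))
  have w0 : z ≠ 0 ∨ t ≠ 0 := by_contra fun a => by
    push Not at a
    exact ne_one_of_orderOf o (h.a (a.2 ▸ e) (by simp [a.1]))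
  by_cases c : ∀ g t' z' y', R.ρ g = uu 0 t' z' y' → t' * z + z' * t = 0
  · obtain ⟨j, hj, oj⟩ := se_exists_invol_not_mem zt.se
    obtain ⟨a, b, n0, hn⟩ : ∃ a b : F, (a ≠ 0 ∨ b ≠ 0) ∧
        altForm4 (R.ρ j *ᵥ e0) ![a, b * z, b * t, 0] = 0 := by
      generalize R.ρ j *ᵥ e0 = x
      by_cases x3 : x 3 = 0
      · exact ⟨1, 0, by simp, by simp [altForm4, x3]⟩
      · exact ⟨x 1 * t + x 2 * z, x 3, Or.inr x3, by simp [altForm4]; grind⟩
    obtain ⟨g, hg⟩ := hi.orb e0_ne (w := ![a, b * z, b * t, 0]) fun e => by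
      have a0 := congrFun e 0; have a1 := congrFun e 1; have a2 := congrFun e 2
      simp at a0 a1 a2
      grind
    by_cases m : g ∈ 𝐍 R.U
    · obtain ⟨c, l⟩ := pp_iff.1 (pp g m)
      exact hg (by rw [l]; simp [altForm4, e0])
    obtain ⟨s, hs, l⟩ := zt.exists_T hj oj m
    obtain ⟨c', l⟩ := pp_iff.1 (pp _ (inv_mem l))
    obtain ⟨t', z', y', e'⟩ := hE (inv_mem hs)
    have := c _ _ _ _ e'
    rw [show g = s * j * (g⁻¹ * s * j)⁻¹ by group, mv_mul, l, mulVec_smul, bf_smul_left, mv_mul,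
      ← (R.sp s⁻¹).bf, mv_inv, e'] at hg
    refine hg (mul_eq_zero_of_right _ ((congrArg _ ?_).trans hn))
    apply ext4 <;> simp [mulVec4, uu]
    grind
  obtain ⟨Q, q1, q2, q3⟩ := exists_avg (Hall.odd zt.syl inf_le_left (le_norm_self _))
    (fun g => mid (R.ρ g)) (fun a ha b hb => mid_mul' (pp a ha) (pp b hb))
    (fun u v => u 0 * v 1 + u 1 * v 0) (fun g a u v => by
      have := PP.det (pp g a) (R.sp g)
      simp [mid, mulVec, dotProduct] at this ⊢
      grind) (fun u => u 0 * u 1) (fun u v => by simp; ring) (fun c v => by simp; ring)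
    fun g a _ v => by
      obtain ⟨t, z, y, e⟩ := hE a
      rw [e, mid_uu, up_zero, one_mulVec]
  have key {g t' z' y'} (e' : R.ρ g = uu 0 t' z' y') : Q ![z', t'] * y = y' * Q ![z, t] := by
    by_cases g1 : g = 1
    · rw [g1, map_one, ← uu_zero] at e'
      obtain ⟨-, rfl, rfl, rfl⟩ := uu_inj e'
      have := q2 0 ![0, 0]
      rw [smul_cons, smul_cons, smul_zero, smul_empty] at this
      rw [this]; ring
    obtain ⟨m, hm, rfl⟩ := se_exists_conj_mem zt.se (le_norm_self _ hu) o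
      (le_norm_self R.U ⟨_, _, _, _, e'⟩)
      (orderOf_eq_prime ((sq g).trans ((sq_eq_one e').2 (Or.inl rfl))) g1)
    obtain ⟨-, rfl, rfl, rfl⟩ :=
      uu_inj ((R.ρ_conj (e ▸ rp_mul (R.sp m) (pp m hm) t z y)).symm.trans e')
    rw [← q3 m hm ![z, t], mul_right_comm, ← q2]
    congr 2
    ext i; fin_cases i <;> simp [mid, mulVec, dotProduct, mul_comm]
  push Not at c
  obtain ⟨g, t', z', y', e', c⟩ := c
  have y0 : y ≠ 0 := fun y0 => ne_one_of_orderOf o (k.b (y0 ▸ e))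
  have qy : Q ![z, t] = y := by
    have a := key e'
    have b := key (g := g * u) (by rw [map_mul, e', e, uu_mul, add_zero])
    have d := q1 ![z', t'] ![z, t]
    simp at b d
    grind
  obtain ⟨Q', p1, p2, p3⟩ := exists_avg (K := ⊤) (Hall.odd zt.syl inf_le_left le_top) R.ρ
    (fun a _ b _ => map_mul _ a b) altForm4 (fun g _ => (R.sp g).bf)
    (fun x => x 0 * x 3 + Q ![x 1, x 2]) (fun u v => by
      have := q1 ![u 1, u 2] ![v 1, v 2]
      simp [altForm4] at this ⊢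
      rw [this]; ring) (fun c v => by
      have := q2 c ![v 1, v 2]
      simp at this ⊢
      rw [this]; ring) fun g a _ v => by
      obtain ⟨t', z', y', e'⟩ := hE a
      have a := key e'
      have b := q1 ![v 1, v 2] (v 3 • ![z', t'])
      rw [q2] at b
      simp [e', mulVec4, uu, mul_comm (v 3)] at b ⊢
      rw [b]; grind
  exact hq Q' ⟨p1, p2⟩ fun g => p3 g trivial

theorem elem [IsSimpleGroup G] (nc : ¬ IsMulCommutative G) (hS : Syl 2 R.U ⊤) (hi : R.Irr)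
    (hi' : R.st.Irr) (hq : R.NQ) (hq' : R.st.NQ) (h : R.NT) (k : R.st.NT) :
    ∃ x s t z y, R.ρ x = uu s t z y ∧ s ≠ 0 ∧ t ≠ 0 := by
  by_contra c
  have c {x s t z y} (e : R.ρ x = uu s t z y) : s = 0 ∨ t = 0 := by_contra fun a =>
    c ⟨x, s, t, z, y, e, not_or.1 a⟩
  have sq (x) (hx : x ∈ R.U) : x * x = 1 := by
    obtain ⟨s, t, z, y, e⟩ := hx
    exact (sq_eq_one e).2 (c e)
  have zt := zt_of nc (cit h k) hS fun u hu _ g hg => mem_cent1.2 (by
    rw [← inv_eq_of_mul_eq_one_right (sq _ (mul_mem hg hu)), _root_.mul_inv_rev,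
      inv_eq_of_mul_eq_one_right (sq _ hu), inv_eq_of_mul_eq_one_right (sq _ hg)])
  by_cases hE : R.U ≤ R.E
  · exact elemE hE zt hi hq h k
  obtain ⟨x, ⟨s, t, z, y, e⟩, hx⟩ := SetLike.not_le_iff_exists.1 hE
  have s0 : s ≠ 0 := fun a => hx ⟨t, z, y, a ▸ e⟩
  refine elemE (R := R.st) ?_ (st_U hS ▸ zt) hi' hq' k h.st_st
  rw [st_U hS]
  rintro g ⟨s', t', z', y', e'⟩
  refine A_le_st ⟨s', z', y', e'.trans (uu_eq rfl ?_ rfl rfl)⟩
  have a := c e
  have b := c e'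
  have d := c (x := x * g) (by rw [map_mul, e, e', uu_mul])
  grind

end Rep

end CF.MaxSub.E4
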