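/-
Simple subgroups of `Sp₄` (characteristic two) without root elements, II: eigenvalues, Suzuki groups.
-/
import Cfsg.Agent.MaxSub.E4G
import Cfsg.Agent.CIT.Spec
import Cfsg.Agent.BN.SzNorm

set_option autoImplicit false

namespace CF.MaxSub.E4

open Matrix Cfsg.Lie CF.BN CF.BN.Suz CF.BG CF.Invol CF.CIT Polynomial
open scoped MatrixGroups

variable {F : Type*} [Field F] {G : Type*} [Group G] {M N B : M4 F} {u v w : Fin 4 → F}

theorem root_of_eig {c : F} (h0 : v ≠ 0) (h : M *ᵥ v = c • v) : M.charpoly.IsRoot c := by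
  rw [IsRoot, eval_charpoly, ← exists_mulVec_eq_zero_iff]
  exact ⟨v, h0, by rw [sub_mulVec, h, scalar_apply, ← smul_one_eq_diagonal, smul_mulVec, one_mulVec,
    sub_self]⟩

theorem charpoly_spi (M : M4 F) : (spi M).charpoly = M.charpoly := by
  rw [spi, charpoly_mul_comm, ← mul_assoc, wM_mul_wM, one_mul, charpoly_transpose]

theorem exists_eig [IsAlgClosed F] {r : ℕ} (hr : (r : F) ≠ 0) (h : M ^ r = 1) (h1 : M ≠ 1) :
    ∃ (c : F) (v : Fin 4 → F), v ≠ 0 ∧ c ≠ 1 ∧ M *ᵥ v = c • v := by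
  let W := LinearMap.range (toLin' (M - 1))
  have hW : ∀ x ∈ W, toLin' M x ∈ W := by
    rintro _ ⟨x, rfl⟩
    exact ⟨M *ᵥ x, by simp [mulVec_sub]⟩
  have : Nontrivial W := Submodule.nontrivial_iff_ne_bot.2 fun e =>
    h1 (sub_eq_zero.1 (toLin'.map_eq_zero_iff.1 (LinearMap.range_eq_bot.1 e)))
  obtain ⟨c, hc⟩ := Module.End.exists_eigenvalue ((toLin' M).restrict hW)
  obtain ⟨⟨_, x, rfl⟩, k, k0⟩ := hc.exists_hasEigenvector
  have k := congrArg Subtype.val (Module.End.mem_eigenspace_iff.1 k)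
  refine ⟨c, _, fun e => k0 (Subtype.ext e), fun e => k0 (Subtype.ext ?_), k⟩
  change M *ᵥ (M - 1) *ᵥ x = c • (M - 1) *ᵥ x at k
  change (M - 1) *ᵥ x = 0
  have p (n : ℕ) : M ^ n *ᵥ (M - 1) *ᵥ x = (M - 1) *ᵥ x := by
    induction n with
    | zero => simp
    | succ n ih => rw [pow_succ, ← mulVec_mulVec, k, e, one_smul, ih]
  have := congrArg (· *ᵥ x) (geom_sum_mul M r)
  simp only [← mulVec_mulVec, sum_mulVec, p, h, sub_self, zero_mulVec, Finset.sum_const,
    Finset.card_range, ← Nat.cast_smul_eq_nsmul F] at this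
  exact (smul_eq_zero.1 this).resolve_left hr

theorem trace_sq [CharP F 2] (M : M4 F) : (M * M).trace = M.trace ^ 2 := by
  simp only [trace4, mul4]; grind

theorem sz_conj [Finite F] {T : Tits F} {D : SzData T G} {r : ℕ} (hr : r ^ 2 = 2 * Nat.card F)
    (h8 : 8 ≤ Nat.card F) {z : G} (hz : D.Reg z) : IsConj z (z ^ Nat.card F) := by
  have := D.finite
  have := Fintype.ofFinite F
  obtain ⟨p, y, hp, h1, h2, e⟩ := hz.exists_prime
  have hE := IsPpd.isField (ι := Fin 4) (M := D.ρ y) (by simpa using hp)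
    (by rw [← map_pow, h1, map_one]) ((map_ne_one_iff _ D.inj).2 h2)
  let _ := hE.toField
  let Y : Set G := {c | c ∈ 𝐂₁ z ∧ aeval (D.ρ c) (D.ρ z).charpoly = 0}
  have hY : Y.ncard ≤ 4 := by
    let f : Y → (D.ρ z).charpoly.rootSet (Subalgebra.centralizer F ({D.ρ y} : Set (M4 F))) :=
      fun c => ⟨⟨D.ρ c, by
        rintro _ rfl
        rw [← map_mul, ← map_mul, (e ▸ c.2.1 : c.1 ∈ 𝐂₁ y) y rfl]⟩, mem_rootSet.2
        ⟨(charpoly_monic _).ne_zero, Subtype.ext ((aeval_subalgebra_coe _ _ _).trans c.2.2)⟩⟩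
    refine (Nat.card_le_card_of_injective f fun a b h =>
      Subtype.ext (D.inj (congrArg (fun z => z.1.1) h))).trans ?_
    exact (ncard_rootSet_le _ _).trans (charpoly_natDegree_eq_dim _).le
  obtain ⟨v, hv, o⟩ := hz.exists_orderOf_four hr h8
  have v4 : v * v * (v * v) = 1 := by
    rw [← pow_orderOf_eq_one v, o]; simp only [pow_succ, pow_zero, one_mul, mul_assoc]
  have od {x} (hx : x ∈ 𝐂₁ z) (e : x * x = 1) : x = 1 :=
    orderOf_eq_one_iff.1 (Nat.Coprime.eq_one_of_dvd (Nat.coprime_two_right.2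
      (hz.odd_card_centralizer.of_dvd_nat (orderOf_dvd_card' hx)))
      (orderOf_dvd_of_pow_eq_one ((sq x).trans e)))
  have i := hz.conj_eq_inv (mul_mem hv hv) (fun h => by
    have := orderOf_dvd_of_pow_eq_one ((sq v).trans (od h v4))
    rw [o] at this; omega) v4 (self_mem_cent1 z)
  have n1 : z ≠ z⁻¹ := fun e => hz.ne_one (od (self_mem_cent1 z) (by nth_rw 1 [e, inv_mul_cancel]))
  have i' : v * (v * z * v⁻¹) * v⁻¹ = z⁻¹ := by rw [← i]; group
  have n2 : z ≠ v * z * v⁻¹ := fun e => n1 (by rw [← i', ← e, ← e])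
  have n3 : z⁻¹ ≠ v * z * v⁻¹ := fun e => n1 (by
    rw [← i', ← e]; nth_rw 1 [← inv_inv z, e]; group)
  have c1 : IsConj z z⁻¹ := isConj_iff.2 ⟨_, i⟩
  have c2 : IsConj z (v * z * v⁻¹) := isConj_iff.2 ⟨_, rfl⟩
  have c3 : IsConj z (v * z * v⁻¹)⁻¹ := c1.trans (isConj_iff.2 ⟨v, by group⟩)
  have m {x} (hx : x ∈ 𝐂₁ z) (c : IsConj z x) : x ∈ Y := by
    obtain ⟨g, rfl⟩ := isConj_iff.1 c
    refine ⟨hx, ?_⟩
    rw [show (D.ρ z).charpoly = (D.ρ (g * z * g⁻¹)).charpoly by
      rw [map_mul, charpoly_mul_comm, ← map_mul, inv_mul_cancel_left], aeval_self_charpoly]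
  have mv := conj_mem_of_norm hv (self_mem_cent1 z)
  by_contra k
  have : ({z ^ Nat.card F, z, z⁻¹, v * z * v⁻¹, (v * z * v⁻¹)⁻¹} : Set G) ⊆ Y := by
    rintro _ (rfl | rfl | rfl | rfl | rfl)
    · refine ⟨pow_mem (self_mem_cent1 z) _, ?_⟩
      rw [map_pow, ← expand_aeval, Nat.card_eq_fintype_card, FiniteField.expand_card, map_pow,
        aeval_self_charpoly, zero_pow Fintype.card_ne_zero]
    exacts [m (self_mem_cent1 _) (IsConj.refl _), m (inv_mem (self_mem_cent1 z)) c1, m mv c2,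
      m (inv_mem mv) c3]
  have := (Set.ncard_le_ncard this).trans hY
  rw [Set.ncard_insert_of_notMem, Set.ncard_insert_of_notMem, Set.ncard_insert_of_notMem,
    Set.ncard_pair] at this
  · omega
  · exact fun e => n1 (by simpa [mul_assoc] using e)
  · rintro (e | e)
    exacts [n3 e, n2 (inv_injective e)]
  · rintro (e | e | e)
    exacts [n1 e, n2 e, n3 (inv_eq_iff_eq_inv.2 e)]
  · rintro (e | e | e | e) <;> rw [e] at k
    exacts [k (IsConj.refl _), k c1, k c2, k c3]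

theorem exists_psl3 {K : Type*} [Field K] [CharP K 2] :
    ∃ g : PSL(3, K), orderOf g = 7 ∧ IsConj g (g ^ 2) := by
  let f := SpecialLinearGroup.map (n := Fin 3) (ZMod.castHom (dvd_refl 2) K)
  let a : SL(3, ZMod 2) := ⟨!![0, 0, 1; 1, 0, 1; 0, 1, 0], by decide⟩
  let h : SL(3, ZMod 2) := ⟨!![1, 0, 0; 0, 0, 1; 0, 1, 1], by decide⟩
  have e : f h * f a = f a ^ 2 * f h := by rw [← map_pow, ← map_mul, ← map_mul]; congr 1; decide
  have : Fact (Nat.Prime 7) := ⟨by norm_num⟩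
  refine ⟨QuotientGroup.mk' _ (f a), orderOf_eq_prime ?_ fun k => ?_, isConj_iff.2
    ⟨QuotientGroup.mk' _ (f h), by rw [← map_mul, e, map_mul, map_pow, mul_inv_cancel_right]⟩⟩
  · rw [← map_pow, ← map_pow, show a ^ 7 = 1 by decide, map_one, map_one]
  · rw [Subgroup.mem_center_iff.1 ((QuotientGroup.eq_one_iff _).1 k), sq, mul_left_inj,
      left_eq_mul] at e
    have : ZMod.castHom (dvd_refl 2) K 0 = 1 := congrArg (fun x : SL(3, K) => x.1 0 0) e
    simp at this

theorem exists_psl2 {K : Type*} [Field K] {r : ℕ} [CharP K r] (hr : r.Prime) (h7 : 7 ≤ r) :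
    ∃ g : PSL(2, K), orderOf g = r ∧ IsConj g (g ^ 4) ∧ IsConj g (g ^ 9) := by
  let u : SL(2, K) := ⟨!![1, 1; 0, 1], by simp⟩
  have p (n : ℕ) : (u ^ n).1 = !![1, (n : K); 0, 1] := by
    induction n with
    | zero => simp [one_fin_two]
    | succ n ih => rw [pow_succ]; exact (congrArg (· * u.1) ih).trans (by simp [u, add_comm])
  have nz (n : ℕ) (a : 0 < n) (b : n < 7) : (n : K) ≠ 0 := fun e =>
    absurd (Nat.le_of_dvd a ((CharP.cast_eq_zero_iff K r n).1 e)) (by omega)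
  have c (n : ℕ) (h : (n : K) ≠ 0) : ∃ d : SL(2, K), d * u = u ^ (n ^ 2) * d :=
    ⟨⟨!![n, 0; 0, (n : K)⁻¹], by simp [h]⟩, Subtype.ext (by
      change _ * u.1 = (u ^ n ^ 2).1 * _
      rw [p]; simp [u, sq, h])⟩
  have : Fact r.Prime := ⟨hr⟩
  obtain ⟨d, hd⟩ := c 2 (nz 2 (by omega) (by omega))
  obtain ⟨d', hd'⟩ := c 3 (nz 3 (by omega) (by omega))
  refine ⟨QuotientGroup.mk' _ u, orderOf_eq_prime ?_ fun k => ?_, isConj_iff.2
    ⟨QuotientGroup.mk' _ d, by rw [← map_mul, hd, map_mul, map_pow, mul_inv_cancel_right]; rfl⟩,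
    isConj_iff.2
    ⟨QuotientGroup.mk' _ d', by rw [← map_mul, hd', map_mul, map_pow, mul_inv_cancel_right]; rfl⟩⟩
  · rw [← map_pow, show u ^ r = 1 from Subtype.ext (by simp [p, one_fin_two]), map_one]
  · rw [Subgroup.mem_center_iff.1 ((QuotientGroup.eq_one_iff _).1 k), mul_left_inj] at hd
    have := congrArg (fun x : SL(2, K) => x.1 0 1) hd
    simp only [p] at this
    simp [u] at this
    exact nz 3 (by omega) (by omega) (by push_cast; linear_combination -this)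

namespace Rep

variable (R : Rep G F) {g x : G}

/-- Extension of the field. -/
def map {K : Type*} [Field K] (φ : F →+* K) : Rep G K where
  ρ := φ.mapMatrix.toMonoidHom.comp R.ρ
  sp g := (R.sp g).map φ
  inj := (Matrix.map_injective φ.injective).comp R.inj

theorem charpoly_conj (h : IsConj g x) : (R.ρ x).charpoly = (R.ρ g).charpoly := by
  obtain ⟨c, rfl⟩ := isConj_iff.1 h
  rw [map_mul, charpoly_mul_comm, ← map_mul, inv_mul_cancel_left]

theorem trace_conj (h : IsConj g x) : (R.ρ x).trace = (R.ρ g).trace := by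
  obtain ⟨c, rfl⟩ := isConj_iff.1 h
  rw [map_mul, trace_mul_comm, ← map_mul, inv_mul_cancel_left]

variable [CharP F 2]

theorem trace_pow (g : G) (n : ℕ) : (R.ρ (g ^ 2 ^ n)).trace = (R.ρ g).trace ^ 2 ^ n := by
  induction n with
  | zero => simp
  | succ n ih => rw [pow_succ, pow_mul, pow_mul, sq, map_mul, trace_sq, ih]

include R in
theorem no_conj {r : ℕ} (hr : r.Prime) (h7 : 7 ≤ r) (h13 : r ≠ 13) (o : orderOf g = r)
    (c4 : IsConj g (g ^ 4)) (c9 : IsConj g (g ^ 9)) : False := by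
  classical
  replace R := R.map (algebraMap F (AlgebraicClosure F))
  have : Fact r.Prime := ⟨hr⟩
  obtain ⟨c, v, h0, c1, e⟩ := exists_eig (M := R.ρ g) (r := r)
    (fun e => by
      have := (Nat.prime_dvd_prime_iff_eq Nat.prime_two hr).1 ((CharP.cast_eq_zero_iff _ 2 r).1 e)
      omega)
    (by rw [← map_pow, ← o, pow_orderOf_eq_one, map_one])
    (fun e => by rw [R.inj (e.trans (map_one _).symm), orderOf_one] at o; omega)
  have p (n : ℕ) : R.ρ (g ^ n) *ᵥ v = c ^ n • v := by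
    induction n with
    | zero => simp
    | succ n ih => rw [pow_succ, mv_mul, e, mulVec_smul, ih, smul_smul, pow_succ']
  have cr : c ^ r = 1 := by
    have := p r
    rw [← o, pow_orderOf_eq_one, map_one, one_mulVec, o] at this
    exact smul_left_injective _ h0 (this.symm.trans (one_smul _ v).symm)
  have c0 : c ≠ 0 := fun e => by simp [e, hr.ne_zero] at cr
  have n (k : ℕ) (hk : k ∈ [2, 3, 5, 8, 10, 13]) : c ^ k ≠ 1 := fun e => by
    have := orderOf_dvd_of_pow_eq_one e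
    rw [orderOf_eq_prime cr c1] at this
    clear e
    have l : r ≤ 13 := (Nat.le_of_dvd (by clear this; revert k; decide) this).trans
      (by clear this; revert k; decide)
    interval_cases r <;> first | (revert k; decide) | exact h13 rfl | exact absurd hr (by decide)
  have rt (n : ℕ) (h : IsConj g (g ^ n)) :
      c ^ n ∈ (R.ρ g).charpoly.roots ∧ (c ^ n)⁻¹ ∈ (R.ρ g).charpoly.roots := by
    simp only [mem_roots (charpoly_monic _).ne_zero, ← R.charpoly_conj h]
    refine ⟨root_of_eig h0 (p n), ?_⟩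
    rw [← charpoly_spi, ← ρ_inv]
    refine root_of_eig h0 ?_
    rw [eq_inv_smul_iff₀ (pow_ne_zero n c0), ← mulVec_smul, ← p, mv_inv]
  have := card_le_degree_of_subset_roots (p := (R.ρ g).charpoly)
    (Z := {c ^ 1, c ^ 4, c ^ 9, (c ^ 1)⁻¹, (c ^ 4)⁻¹}) (fun x hx => by
      simp only [Finset.mem_val, Finset.mem_insert, Finset.mem_singleton] at hx
      have a := rt 1 (by rw [pow_one])
      obtain rfl | rfl | rfl | rfl | rfl := hx
      exacts [a.1, (rt 4 c4).1, (rt 9 c9).1, a.2, (rt 4 c4).2])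
  have A (a k) (hk : k ∈ [2, 3, 5, 8, 10, 13]) : c ^ a ≠ c ^ (a + k) := fun e =>
    n k hk (mul_left_cancel₀ (pow_ne_zero a c0) (by rw [← pow_add, ← e, mul_one]))
  have B (a b) (hk : a + b ∈ [2, 3, 5, 8, 10, 13]) : c ^ a ≠ (c ^ b)⁻¹ := fun e =>
    n _ hk (by rw [pow_add, e, inv_mul_cancel₀ (pow_ne_zero b c0)])
  rw [Finset.card_insert_of_notMem, Finset.card_insert_of_notMem, Finset.card_insert_of_notMem,
    Finset.card_pair, charpoly_natDegree_eq_dim, Fintype.card_fin] at this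
  · omega
  · exact fun e => A 1 3 (by simp) (inv_injective e)
  all_goals simp only [Finset.mem_insert, Finset.mem_singleton, not_or]
  exacts [⟨B 9 1 (by simp), B 9 4 (by simp)⟩, ⟨A 4 5 (by simp), B 4 1 (by simp), B 4 4 (by simp)⟩,
    ⟨A 1 3 (by simp), A 1 8 (by simp), B 1 1 (by simp), B 1 4 (by simp)⟩]

include R in
theorem not_l34 (h : L34 G) : False := by
  obtain ⟨K, _, _, hK, ⟨e⟩⟩ := h
  have : CharP K 2 := charP_of_card (n := 2) hK
  obtain ⟨g, o, c⟩ := exists_psl3 (K := K)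
  refine R.no_conj (g := e.symm g) (by norm_num) le_rfl (by norm_num)
    ((e.symm.orderOf_eq g).trans o) ?_ ?_ <;> rw [← map_pow] <;> apply e.symm.toMonoidHom.map_isConj
  · exact c.trans (by simpa only [← pow_mul] using c.pow 2)
  · rwa [show g ^ 9 = g ^ 7 * g ^ 2 from pow_add g 7 2, ← o, pow_orderOf_eq_one, one_mul]

include R in
theorem nine_of_l2o (h : L2o G) : ∃ (K : Type) (_ : Field K) (_ : Fintype K),
    Fintype.card K = 9 ∧ Nonempty (G ≃* PSL(2, K)) := by
  obtain ⟨K, _, _, hK | ⟨hr, k, k3, hk⟩, ⟨e⟩⟩ := h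
  · exact ⟨K, _, _, hK, ⟨e⟩⟩
  have : Fact (Fintype.card K).Prime := ⟨hr⟩
  have : CharP K (Fintype.card K) := charP_of_card_eq_prime rfl
  have h7 := OddQ.seven_le (Or.inr ⟨hr, k, k3, hk⟩)
  obtain ⟨g, o, c, d⟩ := exists_psl2 (K := K) hr h7
  refine (R.no_conj (g := e.symm g) hr h7 (fun a => ?_) ((e.symm.orderOf_eq g).trans o) ?_ ?_).elim
  · obtain ⟨k, rfl⟩ := Nat.exists_eq_add_of_le k3
    rw [a, pow_add] at hk
    omega
  all_goals rw [← map_pow]; apply e.symm.toMonoidHom.map_isConj; assumption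

theorem not_l2e (h : L2e G) (o : orderOf x = 4) : False := by
  obtain ⟨K, _, _, n, h2, hK, ⟨e⟩⟩ := h
  have := l2e_order_cases hK (e x)
  obtain ⟨k, rfl⟩ := Nat.exists_eq_add_of_le h2
  have := Nat.two_pow_pos k
  rw [e.orderOf_eq, o, pow_add] at *
  omega

theorem trace_sz {K : Type*} [Field K] [Fintype K] {m : ℕ} (hm : 1 ≤ m)
    (hK : Fintype.card K = 2 ^ (2 * m + 1)) (D : SzData (titsOfCard K m hK) G) (g : G) :
    (R.ρ g).trace ^ 2 ^ (2 * m + 1) = (R.ρ g).trace := by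
  have hK' := Nat.card_eq_fintype_card.trans hK
  obtain ⟨k, h⟩ | ⟨k, t, rfl⟩ | h := D.trichotomy g
  · have := R.trace_pow g 2
    rw [show g ^ 2 ^ 2 = 1 from (D.conj k).pow_four_of_mem_U h, map_one, trace4] at this
    simp only [one_apply_eq] at this
    rw [show (R.ρ g).trace = 0 by grind, zero_pow (by positivity)]
  · rw [← trace_pow, ← map_pow, ← hK, show t ^ Fintype.card K = t from
      Units.ext (by simp [FiniteField.pow_card])]
  · rw [← trace_pow, ← hK', R.trace_conj (sz_conj (sq_two_pow hK')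
      ((eight_le_card hm hK).trans_eq Nat.card_eq_fintype_card.symm) h)]

variable {R} [Fintype F] [Finite G]

theorem sz (hS : Syl 2 R.U ⊤) (h : R.NT) {s t z y : F} (hx : R.ρ x = uu s t z y) (s0 : s ≠ 0)
    (t0 : t ≠ 0) (k : IsoSuzuki G) : R.Sub ∨ ∃ m, 1 ≤ m ∧ Fintype.card F = 2 ^ (2 * m + 1) ∧
      Nonempty (G ≃* Sz F (2 ^ (m + 1))) := by
  obtain ⟨K, _, _, m, hm, hK, ⟨e⟩⟩ := k
  let D := (lieD K m hK).ofEquiv e
  by_cases c : ∃ a, iterateFrobenius F 2 (2 * m + 1) a ≠ a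
  · refine Or.inl (Or.inr ⟨_, c, fun g => ⟨R.trace_sz hm hK D g, ?_⟩⟩)
    rw [← (R.sp g).trace_star]
    exact R.st.trace_sz hm hK D g
  push Not at c
  have a : Fintype.card F ≤ 2 ^ (2 * m + 1) := by
    classical
    have := card_le_degree_of_subset_roots (p := (X ^ 2 ^ (2 * m + 1) - X : F[X])) (Z := Finset.univ)
      fun a _ => (mem_roots (FiniteField.X_pow_card_sub_X_ne_zero F
        (Nat.one_lt_two_pow (by omega)))).2 (by simpa [sub_eq_zero, iterateFrobenius_def] using c a)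
    rwa [FiniteField.X_pow_card_sub_X_natDegree_eq F (Nat.one_lt_two_pow (by omega))] at this
  obtain ⟨g, -, l⟩ := hS.syl_conj (syl_mk Nat.prime_two le_top
    (piGrp_of_isPGroup Nat.prime_two D.isPGroup_U)
    (by rw [Subgroup.relIndex_top_right]; exact D.odd_index_U.not_two_dvd_nat))
  have f (b : K) : ∃ z y, R.ρ (g⁻¹ * D.u 0 b * g) = uu 0 0 z y := by
    obtain ⟨s', t', z', y', e'⟩ : g⁻¹ * D.u 0 b * g ∈ R.U := mem_cj.1 (l ▸ D.u_mem_U 0 b)
    have c := D.commute_of_mem_Z ⟨b, rfl⟩ (l ▸ conj_mem_cj.2 ⟨s, t, z, y, hx⟩ : g * x * g⁻¹ ∈ D.U)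
    have c' : g⁻¹ * D.u 0 b * g * x = x * (g⁻¹ * D.u 0 b * g) := by
      rw [← mul_inv_cancel_left g⁻¹ (x * _), ← mul_inv_cancel_right (_ * x) g⁻¹, inv_inv]
      simpa only [mul_assoc, mul_inv_cancel_left, inv_mul_cancel_left] using
        congrArg (g⁻¹ * · * g) c.eq
    have d := (sq_eq_one e').1 (by
      rw [show g⁻¹ * D.u 0 b * g * (g⁻¹ * D.u 0 b * g) = g⁻¹ * (D.u 0 b * D.u 0 b) * g by group,
        D.u_zero_sq, mul_one, inv_mul_cancel])
    have := congrArg R.ρ c'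
    rw [map_mul, map_mul _ x, e', hx, uu_mul, uu_mul] at this
    have := uu_inj this
    exact ⟨z', y', e'.trans (uu_eq (by grind) (by grind) rfl rfl)⟩
  choose f f' hf using f
  have b : Fintype.card K ≤ Fintype.card F := Fintype.card_le_of_injective f fun a b e => by
    have := h.a (g := g⁻¹ * D.u 0 a * g * (g⁻¹ * D.u 0 b * g)) (by
      rw [map_mul, hf, hf, uu_mul, add_zero]) (by grind)
    rw [show g⁻¹ * D.u 0 a * g * (g⁻¹ * D.u 0 b * g) = g⁻¹ * (D.u 0 a * D.u 0 b) * g by group,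
      D.u_zero_mul] at this
    have := charP_of_card hK
    have := (D.u_eq_one (a := 0) (b := a + b)).1 (by_contra fun k => conj_ne_one k ‹_›)
    grind
  have e' : Fintype.card K = Fintype.card F := by omega
  exact Or.inr ⟨m, hm, e' ▸ hK, ⟨e.trans (sz_congr e' _).some⟩⟩

end Rep

end CF.MaxSub.E4
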