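/-
Simple subgroups of `Sp₄` (characteristic two), III: the group `L₂(9)`, the main theorem.
-/
import Cfsg.Agent.MaxSub.E4F
import Cfsg.Agent.MaxSub.E4H

set_option autoImplicit false

namespace CF.MaxSub.E4

open Matrix Cfsg.Lie CF.BN CF.BN.Suz CF.BG CF.Invol CF.CIT
open scoped MatrixGroups

variable {F : Type*} [Field F] {G : Type*} [Group G] {M N B : M4 F}

section nine

variable {K : Type*} [Field K]

theorem psl_pow (g : SL(2, K)) (n : ℕ) (c : K) (h : g.1 ^ n = c • (1 : M2 K)) :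
    QuotientGroup.mk' (Subgroup.center _) g ^ n = 1 := by
  rw [← map_pow]
  refine (QuotientGroup.eq_one_iff _).2 (Subgroup.mem_center_iff.2 fun x => Subtype.ext ?_)
  simp [h]

variable [Fintype K] (hK : Fintype.card K = 9)
include hK

theorem nine_cases (g : PSL(2, K)) : g ^ 3 = 1 ∨ g ^ 4 = 1 ∨ g ^ 5 = 1 := by
  have : Fact (Nat.Prime 3) := ⟨Nat.prime_three⟩
  have : CharP K 3 := charP_of_card_eq_prime_pow (p := 3) (f := 2) hK
  obtain ⟨g, rfl⟩ := QuotientGroup.mk'_surjective _ g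
  have c := psl_pow g
  have d := g.2
  rw [det_fin_two] at d
  have t := FiniteField.pow_card (g.1 0 0 + g.1 1 1)
  rw [hK] at t
  generalize g.1 = m at *
  obtain h | h | h | h | h | h : m 0 0 + m 1 1 = 0 ∨ m 0 0 + m 1 1 = 1 ∨ m 0 0 + m 1 1 = -1 ∨
      (m 0 0 + m 1 1) ^ 2 = -1 ∨ (m 0 0 + m 1 1) ^ 2 = 1 + (m 0 0 + m 1 1) ∨
      (m 0 0 + m 1 1) ^ 2 = 1 - (m 0 0 + m 1 1) := by
    generalize m 0 0 + m 1 1 = x at t
    grind
  · refine Or.inr (Or.inl (c _ 1 ?_))
    ext i j; fin_cases i <;> fin_cases j <;> simp [pow_succ, mul_apply] <;> grind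
  · refine Or.inl (c _ (-1) ?_)
    ext i j; fin_cases i <;> fin_cases j <;> simp [pow_succ, mul_apply] <;> grind
  · refine Or.inl (c _ 1 ?_)
    ext i j; fin_cases i <;> fin_cases j <;> simp [pow_succ, mul_apply] <;> grind
  · refine Or.inr (Or.inl (c _ (-1) ?_))
    ext i j; fin_cases i <;> fin_cases j <;> simp [pow_succ, mul_apply] <;> grind
  · refine Or.inr (Or.inr (c _ (-1) ?_))
    ext i j; fin_cases i <;> fin_cases j <;> simp [pow_succ, mul_apply] <;> grind
  · refine Or.inr (Or.inr (c _ 1 ?_))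
    ext i j; fin_cases i <;> fin_cases j <;> simp [pow_succ, mul_apply] <;> grind

theorem nine_uni : ∃ (u : K → PSL(2, K)) (i : K), i ^ 2 = -1 ∧ (∀ x y, u (x + y) = u x * u y) ∧
    ∀ x, u x ^ 3 = 1 ∧ (x ≠ 0 → u x ≠ 1 ∧ ∃ a, a ^ 2 = 1 ∧ (a * u x) ^ 5 = 1) := by
  have : Fact (Nat.Prime 3) := ⟨Nat.prime_three⟩
  have : CharP K 3 := charP_of_card_eq_prime_pow (p := 3) (f := 2) hK
  obtain ⟨i, hi⟩ : IsSquare (-1 : K) := FiniteField.isSquare_neg_one_iff.2 (by rw [hK]; decide)
  refine ⟨fun x => QuotientGroup.mk' _ (⟨up x, by simp [up]⟩ : SL(2, K)), i, by grind,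
    fun x y => ?_, fun x => ⟨psl_pow _ _ 1 ?_, fun x0 => ⟨fun e => x0 ?_, ?_⟩⟩⟩
  · exact (congrArg _ (Subtype.ext (up_mul x y).symm)).trans (map_mul _ _ _)
  · ext a b; fin_cases a <;> fin_cases b <;> simp [up, pow_succ] <;> grind
  · have := Subgroup.mem_center_iff.1 ((QuotientGroup.eq_one_iff _).1 e) ⟨lo 1, by simp [lo]⟩
    have : (lo 1 * up x :) 0 0 = (up x * lo 1 :) 0 0 := congrArg (fun g : SL(2, K) => g.1 0 0) this
    simpa [lo, up] using this
  · obtain ⟨r, hr⟩ : ∃ r, r * x = 1 + i := ⟨_, div_mul_cancel₀ _ x0⟩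
    obtain ⟨s, hs⟩ : ∃ s, s * r = -1 := ⟨-r⁻¹, by rw [neg_mul, inv_mul_cancel₀ (by grind)]⟩
    refine ⟨QuotientGroup.mk' _ (⟨!![0, s; r, 0], by simp [hs]⟩ : SL(2, K)),
      psl_pow _ _ (-1) ?_, ?_⟩
    · ext a b; fin_cases a <;> fin_cases b <;> simp [pow_succ] <;> grind
    · refine (congrArg (· ^ 5) (map_mul _ _ _).symm).trans (psl_pow _ _ 1 ?_)
      change (!![0, s; r, 0] * up x) ^ 5 = _
      ext a b; fin_cases a <;> fin_cases b <;> simp [up, pow_succ] <;> grind

end nine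

variable [CharP F 2]

omit [CharP F 2] in
theorem spi_apply (M : M4 F) (i j : Fin 4) : spi M i j = M j.rev i.rev := by
  fin_cases i <;> fin_cases j <;> simp [spi, mul4, wM, vecMul, dotProduct, Fin.sum_univ_four]

theorem half_sq (M : M4 F) : ∃ p : F, (M + spi M) * (M + spi M) =
    M.trace • (M + spi M) + p • 1 := by
  refine ⟨(M 0 0 + M 3 3) * (M 1 1 + M 2 2) + (M 0 1 + M 2 3) * (M 1 0 + M 3 2) +
    (M 0 2 + M 1 3) * (M 2 0 + M 3 1), ?_⟩
  ext i j
  fin_cases i <;> fin_cases j <;> simp [spi_apply, mul4, trace4, Fin.rev] <;> grind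

theorem half_scalar {c : F} (h : M + spi M = c • 1) : M.trace = 0 := by
  have a := congrFun₂ h 0 0
  have b := congrFun₂ h 1 1
  simp [spi_apply, Fin.rev] at a b
  rw [trace4]; grind

theorem half_cases {a b : F} (h : (M + spi M) * (M + spi M) = a • (M + spi M) + b • 1) :
    M.trace = a ∨ M.trace = 0 ∧ ∃ c : F, M + spi M = c • 1 := by
  refine or_iff_not_imp_left.2 fun k => ?_
  obtain ⟨p, e⟩ := half_sq M
  have : M + spi M = ((b - p) / (M.trace - a)) • 1 := by
    rw [div_eq_inv_mul, ← smul_smul, eq_inv_smul_iff₀ (sub_ne_zero.2 k), sub_smul, sub_smul,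
      sub_eq_sub_iff_add_eq_add, ← e, h, add_comm]
  exact ⟨half_scalar this, _, this⟩

omit [CharP F 2] in
theorem add_four_rev (a b c d : F) : a + b + c + d = d + c + b + a := by ring

theorem two_eq (M : M4 F) : M + M = 0 := by ext i j; exact CharTwo.add_self_eq_zero _

theorem no_fix {a b X : M4 F} (ha : a ^ 2 = 1) (hb : b + b * b = 1) (h : (a * b) ^ 5 = 1)
    (e : a * b * X = X) : X = 0 := by
  have e1 : a * X = b * X := by
    conv_lhs => rw [← e, mul_assoc a b, ← mul_assoc a, ← sq, ha, one_mul]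
  have e2 : a * b * (b * X) = b * X + X := by
    rw [mul_assoc, ← mul_assoc b, show b * b = b + 1 by rw [← hb, ← add_assoc, two_eq, zero_add],
      add_mul, mul_add, ← mul_assoc, e, one_mul, e1, add_comm]
  have e3 : a * b * (a * b * (b * X)) = b * X := by
    rw [e2, mul_add, e2, e, add_assoc, two_eq, add_zero]
  have : (a * b) ^ 5 * (b * X) = a * b * (a * b * (a * b * (a * b * (a * b * (b * X))))) := by
    simp only [pow_succ, pow_zero, one_mul, mul_assoc]
  rw [h, one_mul, e3, e3, e2] at this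
  exact left_eq_add.1 this

theorem exists_tr {K : Type*} [Field K] [CharP K 3] {i : K} (hi : i ^ 2 = -1) (φ : K → M4 F)
    (hφ : ∀ x y, φ (x + y) = φ x * φ y) (hs : ∀ x, spi (φ x) = φ (-x)) (h0 : φ 0 = 1) :
    ∃ x, x ≠ 0 ∧ (φ x).trace ≠ 1 := by
  have : Fact (Nat.Prime 3) := ⟨Nat.prime_three⟩
  by_contra h
  push Not at h
  let n (x : K) := φ x + spi (φ x)
  have mul (x y) : n x * n y = n (x + y) + n (x - y) := by
    simp only [n, hs, add_mul, mul_add, ← hφ, neg_add, neg_sub, sub_eq_add_neg, neg_neg]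
    abel
  have sq (x) : n x * n x = n x := by
    rw [mul, sub_self, show x + x = -x by grind]
    simp only [n, hs, neg_neg, neg_zero, two_eq, add_zero, add_comm]
  have ns (x) (x0 : x ≠ 0) (c : F) : n x ≠ c • 1 := fun e =>
    zero_ne_one ((half_scalar e).symm.trans (h x x0))
  have key (x y) (x0 : x ≠ 0) (a : x + y ≠ 0) (b : x - y ≠ 0) : n x * n y = 0 := by
    have e : φ (x + y) + φ (x - y) + spi (φ (x + y) + φ (x - y)) = n x * n y := by
      rw [mul, spi, transpose_add, mul_add, add_mul]; simp only [n, spi]; abel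
    have e' : n x * n y * (n x * n y) = n x * n y := by
      rw [mul_assoc, ← mul_assoc (n y), show n y * n x = n x * n y by
        rw [mul, mul, add_comm y]; simp only [n, hs, neg_sub, add_comm], mul_assoc, sq,
        ← mul_assoc, sq]
    obtain k | ⟨-, c, k⟩ := half_cases (M := φ (x + y) + φ (x - y)) (a := 1) (b := 0)
      (by rw [e, e']; simp)
    · rw [trace_add, h _ a, h _ b, CharTwo.add_self_eq_zero] at k
      exact absurd k zero_ne_one
    rw [e] at k
    have := congrFun₂ (k ▸ e') 0 0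
    simp at this
    obtain rfl | rfl : c = 0 ∨ c = 1 := by grind
    · rw [k, zero_smul]
    · refine absurd ?_ (ns x x0 1)
      rw [← k, ← sq x, mul_assoc, k, one_smul, mul_one, sq]
  have a := key 1 i one_ne_zero (by grind) (by grind)
  have b := key (1 + i) (1 - i) (by grind) (by grind) (by grind)
  rw [mul, ← two_eq (n (1 + i)), add_right_inj] at a
  rw [a, sq] at b
  exact ns _ (by grind) 0 (b.trans (zero_smul _ _).symm)

namespace Rep

variable (R : Rep G F) {g x : G}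

theorem cube (h : g ^ 3 = 1) : R.ρ g + spi (R.ρ g) = R.ρ g + R.ρ (g * g) := by
  rw [← ρ_inv, inv_eq_of_mul_eq_one_left ((pow_three' g).symm.trans h)]

theorem cube_cases (h : g ^ 3 = 1) (g1 : g ≠ 1) :
    (R.ρ g).trace = 1 ∨ R.ρ g + R.ρ g * R.ρ g = 1 := by
  have e : (R.ρ g + R.ρ (g * g)) * (R.ρ g + R.ρ (g * g)) = R.ρ g + R.ρ (g * g) := by
    have : g * g * g = 1 := (pow_three' g).symm.trans h
    simp only [add_mul, mul_add, ← map_mul, ← mul_assoc, this, one_mul]
    rw [add_assoc, ← add_assoc (R.ρ 1), two_eq, zero_add, add_comm]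
  refine (half_cases (a := 1) (b := 0) (by rw [R.cube h, e]; simp)).imp_right fun ⟨_, c, k⟩ => ?_
  rw [R.cube h] at k
  rw [k] at e
  have := congrFun₂ e 0 0
  simp at this
  obtain rfl | rfl : c = 0 ∨ c = 1 := by grind
  · rw [zero_smul, ← two_eq (R.ρ g), add_right_inj] at k
    exact absurd (mul_eq_left.1 (R.inj k)) g1
  · rwa [one_smul, map_mul] at k

theorem nine {K : Type*} [Field K] [Fintype K] (hK : Fintype.card K = 9) (e : G ≃* PSL(2, K))
    (g : G) : (R.ρ g).trace ^ 2 = (R.ρ g).trace := by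
  have : Fact (Nat.Prime 3) := ⟨Nat.prime_three⟩
  have : CharP K 3 := charP_of_card_eq_prime_pow (p := 3) (f := 2) hK
  have h := nine_cases hK (e g)
  simp only [← map_pow, MulEquiv.map_eq_one_iff] at h
  obtain h | h | h := h
  · rw [← trace_sq, ← map_mul, ← inv_eq_of_mul_eq_one_left ((pow_three' g).symm.trans h), ρ_inv]
    simp only [trace4, spi_apply]
    exact add_four_rev _ _ _ _
  · have := R.trace_pow g 2
    rw [show g ^ 2 ^ 2 = 1 from h, map_one, trace4] at this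
    simp only [one_apply_eq] at this
    grind
  obtain ⟨u, i, hi, hu, k⟩ := nine_uni hK
  have u0 : u 0 = 1 := by simpa using hu 0 0
  obtain ⟨x, x0, t⟩ := exists_tr hi (fun x => R.ρ (e.symm (u x))) (fun x y => by simp [hu])
    (fun x => by
      rw [← ρ_inv, ← map_inv, inv_eq_of_mul_eq_one_right ((hu x (-x)).symm.trans (by simpa))])
    (by simp [u0])
  obtain ⟨u3, k⟩ := k x
  obtain ⟨u1, a, a2, a5⟩ := k x0
  have b := (R.cube_cases (g := e.symm (u x)) (by rw [← map_pow, u3, map_one])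
    (by simpa)).resolve_left t
  have nf {X} := no_fix (a := R.ρ (e.symm a)) (X := X) (by simp [← map_pow, a2]) b
    (by simp [← map_pow, ← map_mul, a5])
  rw [← map_mul] at nf
  have c5 : (e.symm a * e.symm (u x)) ^ 5 = 1 := by simp [← map_pow, ← map_mul, a5]
  generalize e.symm a * e.symm (u x) = c at nf c5
  by_cases g1 : g = 1
  · rw [g1, map_one, trace4]
    simp only [one_apply_eq]
    grind
  have : Finite G := Finite.of_equiv _ e.symm.toEquiv
  have : Fact (Nat.Prime 5) := ⟨Nat.prime_five⟩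
  have pi {g : G} (h : g ^ 5 = 1) : PiGrp {5} (Subgroup.zpowers g) := piGrp_zpowers.2
    ((piNat_pow_self Nat.prime_five 1).dvd (orderOf_dvd_of_pow_eq_one h))
  obtain ⟨z, -, l⟩ := (syl_mk Nat.prime_five le_top (pi h) (by
    have a := card_psl_odd (F := K) (hK ▸ by decide)
    have b := (Subgroup.zpowers g).card_mul_index
    rw [Nat.card_zpowers, orderOf_eq_prime h g1, Nat.card_congr e.toEquiv] at b
    rw [hK] at a
    rw [Subgroup.relIndex_top_right]
    omega)).syl_cj_le le_top (pi c5)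
  obtain ⟨n, l⟩ := mem_powers_iff_mem_zpowers.2
    (l (conj_mem_cj.2 (Subgroup.mem_zpowers c)))
  have nf {X} (e : R.ρ g * X = X) : X = 0 := by
    have p (n : ℕ) : R.ρ (g ^ n) * X = X := by
      induction n with
      | zero => simp
      | succ n ih => rw [pow_succ, map_mul, mul_assoc, e, ih]
    have := nf (X := R.ρ z⁻¹ * X) (by
      conv_rhs => rw [← p n, show g ^ n = _ from l]
      simp only [← mul_assoc, ← map_mul, inv_mul_cancel, one_mul])
    rw [← one_mul X, ← map_one R.ρ, ← mul_inv_cancel z, map_mul, mul_assoc, this, mul_zero]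
  have h5 : R.ρ g ^ 5 = 1 := by rw [← map_pow, h, map_one]
  have s := nf (X := 1 + R.ρ g + R.ρ g ^ 2 + R.ρ g ^ 3 + R.ρ g ^ 4) (by
    simp only [mul_add, ← pow_succ', ← sq, mul_one, h5]; abel)
  have i4 : spi (R.ρ g) = R.ρ g ^ 4 := ((R.sp g).eq_spi (by rw [← pow_succ, h5])).symm
  obtain k | ⟨k, -⟩ := half_cases (M := R.ρ g) (a := 1) (b := 1) (by
    rw [i4, add_mul, mul_add, mul_add, ← pow_succ', ← pow_succ, ← pow_add, pow_add _ 5 3, h5,
      ← sq, one_mul, one_smul, one_smul]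
    linear_combination (norm := abel) s - two_eq (R.ρ g + R.ρ g ^ 4)) <;> simp [k]

theorem l2o_sub [Finite F] (h4 : 4 ≤ Nat.card F) (h : L2o G) : R.Sub := by
  obtain ⟨K, _, _, hK, ⟨e⟩⟩ := R.nine_of_l2o h
  refine Or.inr ⟨frobenius F 2, ?_, fun g => ⟨R.nine hK e g, ?_⟩⟩
  · by_contra k
    push Not at k
    have := Nat.card_le_card_of_surjective (fun b : Bool => if b then (1 : F) else 0) fun a => by
      have : a ^ 2 = a := k a
      obtain rfl | rfl : a = 0 ∨ a = 1 := by grind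
      exacts [⟨false, rfl⟩, ⟨true, rfl⟩]
    simp at this
    omega
  · rw [← (R.sp g).trace_star]
    exact R.st.nine hK e g

variable {R}

theorem main [Fintype F] [Finite G] [IsSimpleGroup G] (nc : ¬ IsMulCommutative G)
    (h4 : 4 ≤ Nat.card F) (hi : R.Irr) (hi' : R.st.Irr) (hq : R.NQ) (hq' : R.st.NQ) :
    R.Sub ∨ ∃ m, 1 ≤ m ∧ Fintype.card F = 2 ^ (2 * m + 1) ∧
      Nonempty (G ≃* Sz F (2 ^ (m + 1))) := by
  by_cases h : R.NT
  swap
  · exact Or.inl (hi.sub nc h4 h)
  by_cases k : R.st.NT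
  swap
  · exact Or.inl (hi'.sub nc h4 k).of_st
  obtain ⟨B, hB, hS⟩ := R.exists_syl
  obtain ⟨x, s, t, z, y, e, s0, t0⟩ := elem nc hS (hi.cj hB) (R.cj_st hB ▸ hi'.cj _) (hq.cj hB)
    (R.cj_st hB ▸ hq'.cj _) (h.cj hB) (k.st_cj hB)
  obtain l | l | l | l := (cit h k).simple nc
  · refine (not_l2e l (x := x) (orderOf_eq_prime_pow (p := 2) (n := 1) (fun a => ?_) ?_)).elim
    · exact ((sq_eq_one e).1 ((sq x).symm.trans a)).elim s0 t0
    · exact (R.cj hB).pow_four ⟨s, t, z, y, e⟩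
  · exact (sz hS (h.cj hB) e s0 t0 l).imp_left Sub.of_cj
  · exact (R.not_l34 l).elim
  · exact Or.inl (R.l2o_sub h4 l)

end Rep

end CF.MaxSub.E4
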