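/-
Absolutely irreducible subgroups of `Sp₄` (characteristic two) under the exceptional isogeny.
-/
import Cfsg.Agent.MaxSub.E4I
import Cfsg.Agent.MaxSub.Subfield

set_option autoImplicit false

namespace CF.MaxSub.E4

open Matrix Cfsg Cfsg.Lie Cfsg.Geo CF.BN.Suz

variable {F : Type*} [Field F] {G : Type*} [Group G] {M N B : M4 F} [CharP F 2]

theorem IsQ.eq {Q : (Fin 4 → F) → F} (h : IsQ Q) (v : Fin 4 → F) : Q v = v 0 * v 3 + v 1 * v 2 +
    (v 0 ^ 2 * Q (Pi.single 0 1) + v 1 ^ 2 * Q (Pi.single 1 1) + v 2 ^ 2 * Q (Pi.single 2 1) +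
      v 3 ^ 2 * Q (Pi.single 3 1)) := by
  have : v = v 0 • Pi.single 0 1 + v 1 • Pi.single 1 1 + v 2 • Pi.single 2 1 + v 3 • Pi.single 3 1 :=
    ext4 (by simp) (by simp) (by simp) (by simp)
  conv_lhs => rw [this, h.add, h.add, h.add, h.smul, h.smul, h.smul, h.smul]
  simp [altForm4]
  ring

/-- An alternating matrix. -/
def omg (c : Fin 4 → F) : M4 F := !![0, c 0, c 1, 1; c 0, 0, 0, c 2; c 1, 0, 0, c 3; 1, c 2, c 3, 0]

theorem omg_conj (h : Sp M) {c : Fin 4 → F} (k : ∀ j, star4 M 0 j * star4 M 3 j +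
    star4 M 1 j * star4 M 2 j + (star4 M 0 j ^ 2 * c 0 ^ 2 + star4 M 1 j ^ 2 * c 1 ^ 2 +
      star4 M 2 j ^ 2 * c 2 ^ 2 + star4 M 3 j ^ 2 * c 3 ^ 2) = c j ^ 2) :
    ∃ d : F, Mᵀ * omg c * M = omg c + d • wM F := by
  obtain ⟨c1, c2, c3, c4, c5, c6⟩ := h.col
  obtain ⟨r1, r2, r3, r4, r5, r6⟩ := h.row
  have e (j) (i l) (e : pairOf j = (i, l)) (s : M 0 i * M 3 l + M 1 i * M 2 l + M 2 i * M 1 l +
      M 3 i * M 0 l = 0) : (Mᵀ * omg c * M) i l = c j ∧ (Mᵀ * omg c * M) l i = c j := by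
    have := k j
    simp [star4, mul4, omg, show pairOf 0 = (0, 1) from rfl, show pairOf 1 = (0, 2) from rfl,
      show pairOf 2 = (1, 3) from rfl, show pairOf 3 = (2, 3) from rfl] at this ⊢
    simp only [e] at this
    constructor <;> apply frobenius_inj F 2 <;> simp only [frobenius_def] <;> grind
  have e0 := e 0 _ _ rfl c1
  have e1 := e 1 _ _ rfl c2
  have e2 := e 2 _ _ rfl c5
  have e3 := e 3 _ _ rfl c6
  refine ⟨(Mᵀ * omg c * M) 1 2, ?_⟩
  ext i j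
  fin_cases i <;> fin_cases j <;> simp [e0, e1, e2, e3] <;> simp [omg, wM, mul4] <;> grind

theorem blk_star (h : Sp M) (a : M 1 0 = 0 ∧ M 2 0 = 0) (b : M 1 3 = 0 ∧ M 2 3 = 0)
    (v : Fin 4 → F) : (star4 M *ᵥ v) 0 * (star4 M *ᵥ v) 3 + (star4 M *ᵥ v) 1 * (star4 M *ᵥ v) 2 =
      v 0 * v 3 + v 1 * v 2 := by
  obtain ⟨c1, c2, c3, c4, c5, c6⟩ := h.col
  obtain ⟨r1, r2, r3, r4, r5, r6⟩ := h.row
  have h1 : M 0 1 = 0 := by grind
  have h2 : M 0 2 = 0 := by grind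
  have h3 : M 3 1 = 0 := by grind
  have h4 : M 3 2 = 0 := by grind
  simp [mulVec4, star4, pairOf, *]
  grind

namespace Rep

variable {R : Rep G F} [Finite F]

theorem nq_st [IsSimpleGroup G] (nc : ¬ IsMulCommutative G)
    (ha : ∀ X : M4 F, (∀ g, X * R.ρ g = R.ρ g * X) → ∃ c : F, X = c • 1) : R.st.NQ := by
  intro Q hQ k
  choose c hc using fun i : Fin 4 => exists_sq (Q (Pi.single i 1))
  have hd (g : G) : ∃ d : F, wM F * omg c * R.ρ g = R.ρ g * (wM F * omg c) + d • R.ρ g := by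
    obtain ⟨d, e⟩ := omg_conj (R.sp g) (c := c) fun j => by
      have := k g (Pi.single j 1)
      rw [hQ.eq, mulVec_single_one] at this
      simp only [hc]
      exact this
    refine ⟨d, ?_⟩
    have : R.ρ g * spi (R.ρ g) * (wM F * omg c * R.ρ g) =
        R.ρ g * (wM F * ((R.ρ g)ᵀ * (wM F * wM F) * omg c * R.ρ g)) := by simp only [spi, mul_assoc]
    rw [(R.sp g).mul_spi, one_mul, wM_mul_wM, mul_one, e] at this
    simp [this, mul_add, wM_mul_wM]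
  choose d hd using hd
  let f : G →* Multiplicative F := MonoidHom.mk' (fun g => Multiplicative.ofAdd (d g)) fun a b => by
    refine congrArg Multiplicative.ofAdd (smul_left_injective F (m := R.ρ (a * b)) (fun e => ?_) ?_)
    · simpa [e] using (R.sp (a * b)).det
    have := hd (a * b)
    rw [map_mul, ← mul_assoc, hd, add_mul, mul_assoc, hd, mul_add, add_assoc, ← mul_assoc,
      add_right_inj] at this
    simp [← this, add_smul, add_comm]
  obtain ⟨a, e⟩ := ha _ fun g => by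
    rw [hd, show d g = 0 from hom_triv nc f g, zero_smul, add_zero]
  have a0 := congrFun₂ e 0 0
  have a1 := congrFun₂ e 1 1
  simp [mul4, wM, omg] at a0 a1
  exact one_ne_zero (a0.trans a1.symm)

theorem irr_st (hi : R.Irr) (hq : R.NQ) : R.st.Irr := fun W hW => by
  have cj (B) (hB : Sp B) : ∃ S : Rep G F, (∃ g, S.ρ g 3 0 ≠ 0) ∧ S.NQ ∧
      ∀ g v, B *ᵥ S.st.ρ g *ᵥ v = R.st.ρ g *ᵥ B *ᵥ v := by
    obtain ⟨C, hC, rfl⟩ := hB.exists_star
    refine ⟨R.cj hC, ?_, hq.cj hC, fun g v => by rw [cj_st, cj_mv]⟩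
    simpa [altForm4, e0, mulVec4] using (hi.cj hC).orb e0_ne e0_ne
  by_cases T : ∃ u ∈ W, u ≠ 0 ∧ ∀ y ∈ W, altForm4 u y = 0
  · obtain ⟨u, hu, u0, k⟩ := T
    have k (g y) (hy : y ∈ W) : altForm4 (R.st.ρ g *ᵥ u) y = 0 := by
      rw [← (R.st.sp g⁻¹).bf, mv_inv, k _ (hW _ _ hy)]
    by_cases l : ∀ g, ∃ c : F, R.st.ρ g *ᵥ u = c • u
    · obtain ⟨B, hB, rfl⟩ := exB0 u0
      obtain ⟨S, ⟨g, h⟩, -, e⟩ := cj B hB
      obtain ⟨c, l⟩ := l g
      rw [← e, ← mulVec_smul] at l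
      exact absurd ((pp_star (S.sp g)).1 (pp_iff.2 ⟨c, hB.inj l⟩)).2.1 h
    push Not at l
    obtain ⟨x, l⟩ := l
    obtain ⟨B, hB, rfl, e'⟩ := exB01 u0 l (bf_comm u _ ▸ k x u hu)
    obtain ⟨S, ⟨g, h⟩, -, e⟩ := cj B hB
    have a := k g _ hu
    have b := k g _ (hW x _ hu)
    have c := k (g * x) _ hu
    have d := k (g * x) _ (hW x _ hu)
    simp only [mv_mul, ← e'] at b c d
    rw [← e, hB.bf] at a b c d
    simp [altForm4, e0, e1, mulVec4] at a b c d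
    exact absurd ((pl_star (S.sp g)).1 ⟨b, a, d, c⟩).2.2 h
  push Not at T
  refine or_iff_not_imp_left.2 fun h0 => by_contra fun h1 => ?_
  obtain ⟨u, hu, u0⟩ := W.ne_bot_iff.1 h0
  obtain ⟨y, hy, k⟩ := T u hu u0
  obtain ⟨B, hB, rfl, e'⟩ := exB03 (u := u) (v := (altForm4 u y)⁻¹ • y)
    (by rw [bf_smul_right, inv_mul_cancel₀ k])
  have h3 : B *ᵥ e3 ∈ W := e' ▸ W.smul_mem _ hy
  have red {x} (hx : B *ᵥ x ∈ W) : B *ᵥ ![0, x 1, x 2, 0] ∈ W := by
    convert W.sub_mem hx (W.add_mem (W.smul_mem (x 0) hu) (W.smul_mem (x 3) h3))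
    rw [← mulVec_smul, ← mulVec_smul, ← mulVec_add, ← mulVec_sub]
    congr 1; apply ext4 <;> simp [e0, e3]
  have key {x} (hx : B *ᵥ x ∈ W) : x 1 = 0 ∧ x 2 = 0 := by_contra fun n => by
    obtain ⟨z, hz, k⟩ := T _ (red hx) (hB.ne_zero fun e => n ⟨congrFun e 1, congrFun e 2⟩)
    obtain ⟨z, rfl⟩ : ∃ w, z = B *ᵥ w := ⟨_, (hB.mulVec_spi z).symm⟩
    rw [hB.bf] at k
    refine h1 (W.eq_top_iff'.2 fun w => ?_)
    obtain ⟨w, rfl⟩ : ∃ x, w = B *ᵥ x := ⟨_, (hB.mulVec_spi w).symm⟩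
    obtain ⟨t, ht⟩ : ∃ t, t * altForm4 ![0, x 1, x 2, 0] z = 1 := ⟨_, inv_mul_cancel₀ k⟩
    convert W.add_mem (W.add_mem (W.smul_mem (w 0) hu) (W.smul_mem (w 3) h3))
      (W.add_mem (W.smul_mem (t * (w 1 * z 2 + w 2 * z 1)) (red hx))
        (W.smul_mem (t * (w 1 * x 2 + w 2 * x 1)) (red hz)))
    simp only [← mulVec_smul, ← mulVec_add]
    simp [altForm4] at ht
    congr 1; apply ext4 <;> simp [e0, e3] <;> grind
  obtain ⟨S, -, h, e⟩ := cj B hB
  refine h.st_st (fun v => v 0 * v 3 + v 1 * v 2) ⟨fun u v => by simp [altForm4]; ring,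
    fun c v => by simp; ring⟩ fun g => blk_star (S.st.sp g) ?_ ?_
  · exact mv_e0 (S.st.ρ g) 1 ▸ mv_e0 (S.st.ρ g) 2 ▸ key (e g _ ▸ hW g _ hu)
  · exact mv_e3 (S.st.ρ g) 1 ▸ mv_e3 (S.st.ρ g) 2 ▸ key (e g _ ▸ hW g _ h3)

end Rep

/-- The reindexing. -/
def eq4 : Fin 4 ≃ Fin 2 ⊕ Fin 2 where
  toFun := ![.inl 0, .inl 1, .inr 1, .inr 0]
  invFun := Sum.elim ![0, 1] ![3, 2]
  left_inv := by decide
  right_inv := by decide

theorem symp_eq (u v : Fin 2 ⊕ Fin 2 → F) : sympForm 2 F u v = altForm4 (u ∘ eq4) (v ∘ eq4) := by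
  simp [sympForm, J, altForm4, eq4, dotProduct, mulVec, Fintype.sum_sum_type]
  grind

theorem mem_spGL {g : GL (Fin 2 ⊕ Fin 2) F} : g ∈ spGL 2 F ↔ Sp (g.1.submatrix eq4 eq4) := by
  constructor
  · intro h
    refine sp_of_bf fun u v => ?_
    have := h (u ∘ eq4.symm) (v ∘ eq4.symm)
    simpa [symp_eq, submatrix_mulVec_equiv, Function.comp_assoc] using this
  · intro h u v
    have := h.bf (u ∘ eq4) (v ∘ eq4)
    simpa [symp_eq, submatrix_mulVec_equiv, Function.comp_assoc] using this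

theorem residual [Fintype F] (h4 : 4 ≤ Fintype.card F) {H P : Subgroup (GL (Fin 2 ⊕ Fin 2) F)}
    (hH : H < spGL 2 F) (h : IsResidualCore H P)
    (hq : ¬ ∃ Q, IsNondegenerateQuadraticForm Q ∧ FixesQuadForm (matrixSet P) Q) :
    ∃ m, 1 ≤ m ∧ Fintype.card F = 2 ^ (2 * m + 1) ∧
      Nonempty ((P ⧸ (scalars _ F).subgroupOf P) ≃* Lie.Sz F (2 ^ (m + 1))) := by
  have sp (g : P) := mem_spGL.1 (hH.le (h.le g.2))
  have b : (scalars _ F).subgroupOf P = ⊥ := (Subgroup.eq_bot_iff_forall _).2 fun g hg => by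
    obtain ⟨c, e⟩ := (mem_scalars_iff' _).1 hg
    have := (sp g).col.2.2.1
    rw [show g.1.1 = _ from e] at this
    simp [eq4] at this
    exact Subtype.ext (Units.ext (e.trans (by rw [show c = 1 by grind, one_smul]; rfl)))
  let q : (P ⧸ (scalars _ F).subgroupOf P) ≃* P :=
    (QuotientGroup.quotientMulEquivOfEq b).trans QuotientGroup.quotientBot
  have := h.simple
  have : IsSimpleGroup P := q.symm.isSimpleGroup
  have nc : ¬ IsMulCommutative P := fun k => h.nonabelian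
    ⟨⟨fun a b => q.injective (by rw [map_mul, map_mul, k.1.1])⟩⟩
  let R : Rep P F :=
    { ρ := { toFun g := g.1.1.submatrix eq4 eq4
             map_one' := by simp
             map_mul' a b := by simp [submatrix_mul_equiv] }
      sp := sp
      inj a b e := Subtype.ext (Units.ext ((reindex eq4.symm eq4.symm).injective e)) }
  have cc (v : Fin 4 → F) : (v ∘ eq4.symm) ∘ eq4 = v := by simp [Function.comp_assoc]
  have mv (g : P) (v) : R.ρ g *ᵥ v ∘ eq4 = (g.1.1 *ᵥ v) ∘ eq4 :=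
    (submatrix_mulVec_equiv ..).trans (by simp [Function.comp_assoc])
  have ir := (irr_iff P).2 h.absIrred.1
  have hi : R.Irr := fun W hW => by
    refine (ir (W.comap (LinearMap.funLeft F F eq4)) fun g hg v hv =>
      show _ ∘ _ ∈ W from mv ⟨g, hg⟩ v ▸ hW ⟨g, hg⟩ _ hv).imp
      (fun e => W.eq_bot_iff.2 fun v hv => ?_) fun e => W.eq_top_iff'.2 fun v => ?_
    · rw [← cc v] at hv ⊢
      rw [(Submodule.eq_bot_iff _).1 e (v ∘ eq4.symm) hv]; rfl
    · exact cc v ▸ Submodule.eq_top_iff'.1 e (v ∘ eq4.symm)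
  have hq : R.NQ := fun Q hQ k => by
    have p : QuadraticMap.polar (fun v => Q (v ∘ eq4)) = fun u v => altForm4 (u ∘ eq4) (v ∘ eq4) := by
      ext u v
      rw [QuadraticMap.polar, show (u + v) ∘ eq4 = u ∘ eq4 + v ∘ eq4 from rfl, hQ.add]; ring
    refine hq ⟨fun v => Q (v ∘ eq4), ⟨fun c v => hQ.smul c _, p ▸ ⟨fun _ _ _ => bf_add_left ..,
      fun _ _ _ => bf_smul_left .., fun _ _ _ => bf_add_right .., fun _ _ _ => bf_smul_right ..⟩,
      p ▸ fun v h0 => ?_⟩, ?_⟩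
    · obtain ⟨x, hx⟩ := exists_bf (v := v ∘ eq4) fun e => h0 (eq4.surjective.injective_comp_right e)
      rw [← cc x] at hx
      exact ⟨⟨_, hx⟩, _, (bf_comm _ _).trans_ne hx⟩
    · rintro _ ⟨g, hg, rfl⟩ v
      exact (congrArg Q (mv ⟨g, hg⟩ v).symm).trans (k ⟨g, hg⟩ _)
  have hq' : R.st.NQ := Rep.nq_st nc fun X hX => by
    obtain ⟨c, e⟩ := h.absIrred.2 (X.submatrix eq4.symm eq4.symm) (by
      rintro _ ⟨g, hg, rfl⟩
      simpa [← submatrix_mul_equiv _ _ _ eq4.symm, R] using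
        congrArg (submatrix · eq4.symm eq4.symm) (hX ⟨g, hg⟩))
    exact ⟨c, by simpa [submatrix_smul] using congrArg (submatrix · eq4 eq4) e⟩
  obtain (k | ⟨σ, ⟨x, hx⟩, k⟩) | ⟨m, a, b, ⟨e⟩⟩ :=
    Rep.main nc (Nat.card_eq_fintype_card (α := F) ▸ h4) hi (Rep.irr_st hi hq) hq hq'
  · refine (hH.not_ge fun g hg => ?_).elim
    obtain ⟨x, e⟩ := k _ (mem_spGL.1 hg)
    exact (Units.ext ((reindex eq4.symm eq4.symm).injective e) : x.1 = g) ▸ h.le x.2
  · obtain ⟨B, hB⟩ := exists_rat_basis ir (genRing P)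
      (fun g hg x hx => cj_mem_genRing (fun x hx => mul_mem (mul_mem hg hx) (inv_mem hg)) hx)
      fun z hz => h.absIrred.2 z (by rintro _ ⟨g, hg, rfl⟩; exact hz _ (coe_mem_genRing hg))
    have t : scalField (genRing P) = ⊤ := by_contra fun n => h.no_subfield _ n ⟨B⁻¹, by
      rintro _ ⟨g, hg, rfl⟩
      exact mem_rat.1 ((hB _).1 (coe_mem_genRing hg))⟩
    have := genRing_induction (p := fun M => σ M.trace = M.trace) (fun g hg => by
        have : (R.ρ ⟨g, hg⟩).trace = g.1.trace := Equiv.sum_comp eq4 fun i => g.1 i i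
        exact this ▸ (k ⟨g, hg⟩).1) (by simp) (fun a b c d => by simp [c, d])
      (fun a c => by simp [c]) ((hB (single (.inl 0) (.inl 0) x)).2 (mem_rat.2 fun _ _ => t ▸ trivial))
    exact absurd (by simpa using this) hx
  · exact ⟨m, a, b, ⟨q.trans e⟩⟩

end CF.MaxSub.E4
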