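/-
Normalisers of `3^{1+4}`: pinned elements.
-/
import Cfsg.Agent.MaxSub.C6K
import Cfsg.Agent.Transfer.Frobenius
import Cfsg.Agent.Coprime.Abelian

set_option autoImplicit false
set_option linter.unusedSectionVars false

namespace CF.MaxSub.E9

open Subgroup CF.Transfer

variable {G : Type*} [Group G] [Finite G] {H M K Y R T : Subgroup G} {r : G}

/-- Only elements of `M` conjugate `r` into `M`. -/
def Pin (H M : Subgroup G) (r : G) : Prop := ∀ h ∈ H, h⁻¹ * r * h ∈ M → h ∈ M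

theorem Pin.conj (h : Pin H M r) {g : G} (hg : g ∈ H) (e : g * r * g⁻¹ ∈ M) : g ∈ M :=
  inv_mem_iff.1 (h _ (inv_mem hg) (by rwa [inv_inv]))

theorem Pin.le {p : ℕ} [Fact p.Prime] (h : Pin H M r) (hT : IsPGroup p T) (TH : T ≤ H)
    (rT : r ∈ T) (rM : r ∈ M) : T ≤ M := by
  by_contra hn
  obtain ⟨g, ⟨g1, g2⟩, g3⟩ := SetLike.exists_of_lt (lt_inf_normalizer_of_lt hT
    (H := T ⊓ M) (inf_le_left.lt_of_ne fun e => hn (inf_eq_left.1 e)))
  exact g3 ⟨g1, h.conj (TH g1) (Nm_conj g2 (show r ∈ T ⊓ M from ⟨rT, rM⟩)).2⟩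

instance fact3 : Fact (Nat.Prime 3) := ⟨Nat.prime_three⟩

theorem syl_of_pin (h : Pin H M r) (rH : r ∈ H) (rM : r ∈ M) (r3 : r ^ 3 = 1) (KH : K ≤ H)
    (YK : Y ≤ K) (hY : IsPGroup 3 Y) (rK : r ∈ Nm K) (rY : r ∈ Nm Y)
    (syl : ∀ g ∈ K, g ∈ M → g ∈ Nm Y → (∃ n, g ^ 3 ^ n = 1) → g ∈ Y) : IsSylowIn 3 Y K := by
  have hr : IsPGroup 3 (zpowers r) := fun ⟨_, k, hk⟩ => ⟨1, Subtype.ext (by
    simp only [← hk, pow_one, SubmonoidClass.mk_pow, OneMemClass.coe_one]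
    rw [← zpow_natCast, ← zpow_mul, mul_comm, zpow_mul, zpow_natCast, r3, one_zpow])⟩
  obtain ⟨T, h1, h2⟩ := exists_isSylowIn_ge (H := K ⊔ zpowers r)
    (hY.to_sup_of_normal_left' hr (zpowers_le.2 rY)) (sup_le_sup_right YK _)
  have h3 := h.le h2.isPGroup (h2.le.trans (sup_le KH (zpowers_le.2 rH)))
    (h1 (mem_sup_right (mem_zpowers r))) rM
  have h4 := h2.inf_of_normalized le_sup_left (sup_le le_normalizer (zpowers_le.2 rK))
  suffices T ⊓ K = Y from this ▸ h4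
  by_contra hn
  obtain ⟨g, ⟨g1, g2⟩, g3⟩ := SetLike.exists_of_lt (lt_inf_normalizer_of_lt h4.isPGroup
    (H := Y) ((le_inf (le_sup_left.trans h1) YK).lt_of_ne (Ne.symm hn)))
  obtain ⟨n, hn⟩ := h4.isPGroup ⟨g, g1⟩
  exact g3 (syl g g1.2 (h3 g1.1) g2 ⟨n, congrArg Subtype.val hn⟩)

theorem le_of_pin (hZ : center G ≤ M) (KH : K ≤ H) (hY : IsSylowIn 3 Y K) (YM : Y ≤ M)
    (ZY : K ⊓ center G ≤ Y)
    (cen : ∀ n ∈ K, n ∈ Nm Y → ∀ y ∈ Y, n * y * n⁻¹ * y⁻¹ ∈ center G)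
    (hR : IsPGroup 3 R) (RK : R ≤ Nm K) (RM : R ≤ M) (pin : ∀ r ∈ R, r ∉ center G → Pin H M r)
    (cm : ∀ a ∈ R, ∀ b ∈ R, a * b * a⁻¹ * b⁻¹ ∈ center G) {a b : G} (ha : a ∈ R) (hb : b ∈ R)
    (ab : a * b ≠ b * a) : K ≤ M := by
  let π := QuotientGroup.mk' (center G)
  have k0 : ∀ {a b}, π a = π b ↔ a * b⁻¹ ∈ center G := fun {a b} => by
    rw [← mul_inv_eq_one, ← map_inv, ← map_mul]; exact QuotientGroup.eq_one_iff _
  have k1 : ∀ a, π a ∈ M.map π → a ∈ M := by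
    rintro a ⟨b, hb, e⟩; simpa using mul_mem (hZ (k0.1 e.symm)) hb
  have hY' := hY.map π
  have npc := hY'.hasNPC_of_normalizer_le (by
    rintro _ ⟨⟨n, hn, rfl⟩, h2⟩ _ ⟨y, hy, rfl⟩
    have : n ∈ Nm Y := mem_normalizer_fintype fun y hy => by
      obtain ⟨y', hy', e⟩ := Nm_conj h2 (mem_map_of_mem π hy)
      rw [← map_inv, ← map_mul, ← map_mul, eq_comm, k0] at e
      simpa using mul_mem (ZY ⟨K.mul_mem (K.mul_mem (K.mul_mem hn (hY.le hy)) (K.inv_mem hn))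
        (K.inv_mem (hY.le hy')), e⟩) hy'
    rw [← map_mul, ← map_mul, eq_comm, k0, mul_inv_rev, ← mul_assoc]
    exact cen n hn this y hy)
  rw [hasNPC_subgroup_iff_coprime] at npc
  have : IsMulCommutative (R.map π) := ⟨⟨by
    rintro ⟨_, a, ha, rfl⟩ ⟨_, b, hb, rfl⟩
    refine Subtype.ext ?_
    change π a * π b = π b * π a
    rw [← map_mul, ← map_mul, k0, mul_inv_rev, ← mul_assoc]
    exact cm a ha b hb⟩⟩
  have hL := Coprime.le_of_forall_centralizer_le (R.map π) (pRes 3 (K.map π)) (fun hc => by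
      obtain ⟨⟨_, g, hg, rfl⟩, hc⟩ := hc.exists_zpow_surjective
      obtain ⟨i, hi⟩ := hc ⟨_, mem_map_of_mem π ha⟩
      obtain ⟨j, hj⟩ := hc ⟨_, mem_map_of_mem π hb⟩
      have e1 := k0.1 ((map_zpow π g i).trans (congrArg Subtype.val hi)).symm
      have e2 := k0.1 ((map_zpow π g j).trans (congrArg Subtype.val hj)).symm
      refine ab ?_
      obtain ⟨c, rfl⟩ : ∃ c, a = c * g ^ i := ⟨a * (g ^ i)⁻¹, by simp⟩
      obtain ⟨d, rfl⟩ : ∃ d, b = d * g ^ j := ⟨b * (g ^ j)⁻¹, by simp⟩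
      rw [mul_inv_cancel_right] at e1 e2
      exact (Commute.mul_left (mem_center_iff.1 e1 _).symm (Commute.mul_right (mem_center_iff.1 e2 _)
        ((Commute.refl g).zpow_zpow i j))).eq)
    ((map_mono RK).trans ((le_normalizer_map π).trans (normalizer_le_normalizer_pRes _)))
    (by
      obtain ⟨n, hn⟩ := (hR.map π).exists_card_eq
      rw [hn]
      exact (Nat.Coprime.pow_right n npc).symm) (M.map π) (by
      rintro _ ⟨r, hr, rfl⟩ r1 l ⟨l1, l2⟩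
      obtain ⟨k, hk, rfl⟩ := pRes_le _ l1
      have e := mem_centralizer_singleton_iff.1 l2
      rw [← map_mul, ← map_mul, k0, mul_inv_rev, ← mul_assoc] at e
      refine mem_map_of_mem π ((pin r hr fun c => r1 ((QuotientGroup.eq_one_iff r).2 c)).conj
        (KH hk) ?_)
      simpa using mul_mem (hZ e) (RM hr))
  intro k hk
  exact k1 k ((hY'.sup_pRes ▸ sup_le (map_mono YM) hL : K.map π ≤ M.map π) (mem_map_of_mem π hk))

end CF.MaxSub.E9
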