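/-
Normalisers of `3^{1+4}`: elements of order three and their gates.
-/
import Cfsg.Agent.MaxSub.E9A

set_option autoImplicit false
set_option linter.unusedSectionVars false

namespace CF.MaxSub.E9

open Module Subgroup Geom

section Pw

variable {G : Type*} [Group G] {x : G}

/-- Powers with exponents modulo three. -/
def pw (x : G) (k : ZMod 3) : G := x ^ k.val

@[simp] theorem pw_zero : pw x 0 = 1 := pow_zero x
@[simp] theorem pw_one : pw x 1 = x := pow_one x
theorem pw_two : pw x 2 = x * x := pow_two x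

theorem z3 (k : ZMod 3) : k = 0 ∨ k = 1 ∨ k = 2 := by revert k; decide

theorem pw_add (h : x ^ 3 = 1) (k l : ZMod 3) : pw x (k + l) = pw x k * pw x l := by
  rw [pw, ZMod.val_add, ← pow_eq_pow_mod _ h, pow_add]; rfl

theorem pw_neg (h : x ^ 3 = 1) (k : ZMod 3) : pw x (-k) = (pw x k)⁻¹ :=
  eq_inv_of_mul_eq_one_left (by rw [← pw_add h, neg_add_cancel, pw_zero])

theorem pw_two' (h : x ^ 3 = 1) : pw x 2 = x⁻¹ := by
  rw [show (2 : ZMod 3) = -1 from rfl, pw_neg h, pw_one]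

theorem pw_mem {K : Subgroup G} (h : x ∈ K) (k : ZMod 3) : pw x k ∈ K := pow_mem h _

theorem pw_comm {a : G} (h : a * x = x * a) (k : ZMod 3) : a * pw x k = pw x k * a :=
  (show Commute a x from h).pow_right _

theorem conj_cube (h : x ^ 3 = 1) (g : G) : (g * x * g⁻¹) ^ 3 = 1 := by
  rw [conj_pow, h, mul_one, mul_inv_cancel]

theorem conj_eq_of_comm {a : G} (h : a * x = x * a) : a * x * a⁻¹ = x := by
  rw [h, mul_inv_cancel_right]

theorem comm_of_conj {a : G} (h : a * x * a⁻¹ = x) : a * x = x * a :=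
  mul_inv_eq_iff_eq_mul.1 h

end Pw

variable {F V : Type*} [Field F] [AddCommGroup V] [Module F V] {w : Fˣ}

/-- A primitive cube root of unity. -/
structure Om3 (w : Fˣ) : Prop where
  eq : (w : F) * w + w + 1 = 0
  ne : (3 : F) ≠ 0

/-- Its powers. -/
def wq (w : Fˣ) (k : ZMod 3) : F := (pw w k : Fˣ)

@[simp] theorem wq_zero : wq w 0 = 1 := by simp [wq]
theorem wq_one : wq w 1 = w := by simp [wq]
theorem wq_two : wq w 2 = w * w := by simp [wq, pw_two]
theorem wq_ne (w : Fˣ) (k : ZMod 3) : wq w k ≠ 0 := Units.ne_zero _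

/-- The central elements. -/
def zz (V : Type*) [AddCommGroup V] [Module F V] (w : Fˣ) (k : ZMod 3) : V ≃ₗ[F] V :=
  sc V (wq_ne w k)

@[simp] theorem zz_apply (k : ZMod 3) (v : V) : zz V w k v = wq w k • v := rfl

theorem zz_cen (k : ZMod 3) : zz V w k ∈ center (V ≃ₗ[F] V) := sc_cen _

theorem zz_comm (k : ZMod 3) (a : V ≃ₗ[F] V) : a * zz V w k = zz V w k * a :=
  mem_center_iff.1 (zz_cen k) a

@[simp] theorem zz_zero : zz V w 0 = 1 := LinearEquiv.ext fun v => by simp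

theorem cube_apply {x : V ≃ₗ[F] V} (h : x ^ 3 = 1) (v : V) : x (x (x v)) = v :=
  LinearEquiv.congr_fun ((pow_three x).symm.trans h) v

theorem inv_smul_apply {x : V ≃ₗ[F] V} {v : V} {c d : F} (h : x v = c • v) (e : d * c = 1) :
    x⁻¹ v = d • v := by
  rw [← x.injective.eq_iff, apply_inv_apply, map_smul, h, smul_smul, e, one_smul]

/-- The projection onto the fixed space. -/
noncomputable def pe (x : V ≃ₗ[F] V) : End F V := (3 : F)⁻¹ • (1 + (x : End F V) + (x * x :))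

theorem pe_apply (x : V ≃ₗ[F] V) (v : V) : pe x v = (3 : F)⁻¹ • (v + x v + x (x v)) := rfl

theorem pe_fix {x : V ≃ₗ[F] V} (h : x ^ 3 = 1) (v : V) : x (pe x v) = pe x v := by
  simp only [pe_apply, map_smul, map_add, cube_apply h]; module

theorem pe_self (h3 : (3 : F) ≠ 0) {x : V ≃ₗ[F] V} {v : V} (h : x v = v) : pe x v = v := by
  simp only [pe_apply, h]; match_scalars; field_simp; ring

theorem pe_comm {x a : V ≃ₗ[F] V} (h : a * x = x * a) (v : V) : a (pe x v) = pe x (a v) := by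
  simp only [pe_apply, map_smul, map_add, comm_apply h]

theorem pe_mem {x : V ≃ₗ[F] V} {U : Submodule F V} (h : ∀ u ∈ U, x u ∈ U) {v : V} (hv : v ∈ U) :
    pe x v ∈ U := U.smul_mem _ (add_mem (add_mem hv (h _ hv)) (h _ (h _ hv)))

open scoped _root_.Classical in
/-- The map acting as `a` on the fixed space of `x` and trivially on the other eigenspaces. -/
noncomputable def bk (x a : V ≃ₗ[F] V) : V ≃ₗ[F] V :=
  if h : (3 : F) ≠ 0 ∧ x ^ 3 = 1 ∧ a * x = x * a then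
    LinearEquiv.ofLinearMap (1 + ((a : End F V) - 1) * pe x) (1 + ((a⁻¹ : V ≃ₗ[F] V) - 1) * pe x)
      (LinearMap.ext fun v => by
        simp [← pe_comm (comm_inv h.2.2), pe_self h.1 (pe_fix h.2.1 _), apply_inv_apply,
          -LinearEquiv.coe_inv]; abel)
      (LinearMap.ext fun v => by
        simp [← pe_comm h.2.2, pe_self h.1 (pe_fix h.2.1 _), inv_apply_apply, -LinearEquiv.coe_inv]
        abel)
  else 1

theorem bk_apply (h3 : (3 : F) ≠ 0) {x a : V ≃ₗ[F] V} (hx : x ^ 3 = 1) (h : a * x = x * a) (v : V) :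
    bk x a v = v + (a (pe x v) - pe x v) := by rw [bk, dif_pos ⟨h3, hx, h⟩]; rfl

theorem bk_fix (h3 : (3 : F) ≠ 0) {x a : V ≃ₗ[F] V} (hx : x ^ 3 = 1) (h : a * x = x * a) {v : V}
    (hv : x v = v) : bk x a v = a v := by rw [bk_apply h3 hx h, pe_self h3 hv]; abel

/-- The gate. -/
noncomputable def gt (w : Fˣ) (x : V ≃ₗ[F] V) : V ≃ₗ[F] V := zz V w 1 * bk x (zz V w 1)

/-- The commutation exponent. -/
noncomputable def be (w : Fˣ) (x y : V ≃ₗ[F] V) : ZMod 3 :=
  Classical.epsilon fun k => x * y = zz V w k * (y * x)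

namespace Om3

variable (o : Om3 w)
include o

theorem cube : w ^ 3 = 1 := Units.ext (by simp; linear_combination (w - 1 : F) * o.eq)

theorem wq_add (k l : ZMod 3) : wq w (k + l) = wq w k * wq w l := by
  simp [wq, pw_add o.cube]

theorem wq_neg (k : ZMod 3) : wq w (-k) * wq w k = 1 := by rw [← o.wq_add, neg_add_cancel, wq_zero]

theorem wq_eq_one {k : ZMod 3} (e : wq w k = 1) : k = 0 := by
  have := o.eq
  rcases z3 k with rfl | rfl | rfl
  · rfl
  · rw [wq_one] at e; exact absurd (by linear_combination this - (w + 2) * e) o.ne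
  · rw [wq_two] at e; exact absurd (by linear_combination (2 - w) * this + (w - 1) * e) o.ne

theorem wq_inj {k l : ZMod 3} (e : wq w k = wq w l) : k = l := by
  have := o.wq_eq_one (k := -l + k) (by rw [o.wq_add, e, o.wq_neg])
  linear_combination this

theorem exists_wq {c : F} (e : c * c * c = 1) : ∃ k, c = wq w k := by
  have : (c - 1) * ((c - w) * (c - w * w)) = 0 := by
    linear_combination e + (c - c * c + (c - 1) * (w - 1)) * o.eq
  simp only [mul_eq_zero, sub_eq_zero] at this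
  rcases this with e | e | e
  exacts [⟨0, by simp [e]⟩, ⟨1, e.trans wq_one.symm⟩, ⟨2, e.trans wq_two.symm⟩]

theorem wq_sum {k : ZMod 3} (h : k ≠ 0) : 1 + wq w k + wq w k * wq w k = 0 := by
  rcases z3 k with rfl | rfl | rfl
  · exact absurd rfl h
  · rw [wq_one]; linear_combination o.eq
  · rw [wq_two]; linear_combination (w * w - w + 1) * o.eq

theorem zz_add (k l : ZMod 3) : zz V w (k + l) = zz V w k * zz V w l :=
  LinearEquiv.ext fun v => by rw [zz_apply, o.wq_add, mul_smul]; rfl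

theorem zz_neg (k : ZMod 3) : zz V w (-k) = (zz V w k)⁻¹ :=
  eq_inv_of_mul_eq_one_left (by rw [← o.zz_add, neg_add_cancel, zz_zero])

theorem zz_cube (k : ZMod 3) : zz V w k ^ 3 = 1 := by
  rw [pow_three, ← o.zz_add, ← o.zz_add, show k + (k + k) = 0 by revert k; decide, zz_zero]

theorem zz_inj [Nontrivial V] {k l : ZMod 3} (e : zz V w k = zz V w l) : k = l := by
  obtain ⟨v, hv⟩ := exists_ne (0 : V)
  exact o.wq_inj (smul_left_injective F hv (LinearEquiv.congr_fun e v))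

theorem eig_zero {x : V ≃ₗ[F] V} {v : V} {k l : ZMod 3} (h : x v = wq w k • v)
    (h' : x v = wq w l • v) (e : k ≠ l) : v = 0 :=
  by_contra fun v0 => e (o.wq_inj (smul_left_injective F v0 (h.symm.trans h')))

theorem zz_mul_cube {x : V ≃ₗ[F] V} (hx : x ^ 3 = 1) (k : ZMod 3) : (zz V w k * x) ^ 3 = 1 := by
  rw [(show Commute _ x from (zz_comm k x).symm).mul_pow, hx, o.zz_cube, one_mul]

theorem zz_mul_eig {x : V ≃ₗ[F] V} {v : V} (k l : ZMod 3) :
    (zz V w k * x) v = wq w (k + l) • v ↔ x v = wq w l • v := by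
  rw [LinearEquiv.mul_apply, zz_apply, o.wq_add, mul_smul, smul_right_inj (wq_ne w k)]

theorem zz_mul_fix {x : V ≃ₗ[F] V} {v : V} (k : ZMod 3) :
    (zz V w (-k) * x) v = v ↔ x v = wq w k • v := by
  rw [← o.zz_mul_eig (-k), neg_add_cancel, wq_zero, one_smul]

theorem inv_eig {x : V ≃ₗ[F] V} {v : V} {k : ZMod 3} (h : x v = wq w k • v) :
    x⁻¹ v = wq w (-k) • v := inv_smul_apply h (o.wq_neg k)

theorem pw_eig {x : V ≃ₗ[F] V} {v : V} {k : ZMod 3} (h : x v = wq w k • v) (l : ZMod 3) :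
    pw x l v = wq w (l * k) • v := by
  rcases z3 l with rfl | rfl | rfl
  · simp
  · simpa
  · simp [pw_two, h, two_mul, o.wq_add, smul_smul]

theorem pe_zero {x : V ≃ₗ[F] V} {v : V} {k : ZMod 3} (k0 : k ≠ 0) (h : x v = wq w k • v) :
    pe x v = 0 := by
  simp only [pe_apply, h, map_smul]
  linear_combination (norm := module) ((3 : F)⁻¹ * o.wq_sum k0) • v

theorem pe_sum (x : V ≃ₗ[F] V) (v : V) :
    pe (zz V w (-0) * x) v + pe (zz V w (-1) * x) v + pe (zz V w (-2) * x) v = v := by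
  have := o.eq
  have := o.ne
  simp only [pe_apply, LinearEquiv.mul_apply, zz_apply, map_smul, neg_zero, wq_zero,
    show (-1 : ZMod 3) = 2 from rfl, show (-2 : ZMod 3) = 1 from rfl, wq_one, wq_two]
  match_scalars <;> field_simp <;> grind

theorem ind {x : V ≃ₗ[F] V} (hx : x ^ 3 = 1) {U S : Submodule F V} (hU : ∀ u ∈ U, x u ∈ U)
    (h : ∀ k, ∀ v ∈ U, x v = wq w k • v → v ∈ S) : U ≤ S := fun v hv => by
  have key := fun k => h k _ (pe_mem (x := zz V w (-k) * x) (fun u hu => U.smul_mem _ (hU u hu)) hv)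
    ((o.zz_mul_fix k).1 (pe_fix (o.zz_mul_cube hx _) v))
  rw [← o.pe_sum x v]
  exact add_mem (add_mem (key 0) (key 1)) (key 2)

theorem ext_on {W : Type*} [AddCommGroup W] [Module F W] {x : V ≃ₗ[F] V} (hx : x ^ 3 = 1)
    {U : Submodule F V} (hU : ∀ u ∈ U, x u ∈ U) (f g : V →ₗ[F] W)
    (h : ∀ k, ∀ v ∈ U, x v = wq w k • v → f v = g v) {v : V} (hv : v ∈ U) : f v = g v :=
  o.ind hx hU (S := LinearMap.eqLocus f g) h hv

theorem ext {x a b : V ≃ₗ[F] V} (hx : x ^ 3 = 1) (h : ∀ k v, x v = wq w k • v → a v = b v) :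
    a = b := LinearEquiv.ext fun _ =>
  o.ext_on hx (U := ⊤) (fun _ _ => trivial) (a : End F V) b (fun k v _ => h k v) trivial

theorem bk_other {x a : V ≃ₗ[F] V} (hx : x ^ 3 = 1) (h : a * x = x * a) {v : V} {k : ZMod 3}
    (k0 : k ≠ 0) (hv : x v = wq w k • v) : bk x a v = v := by
  simp [bk_apply o.ne hx h, o.pe_zero k0 hv]

theorem bk_ext {x a g : V ≃ₗ[F] V} (hx : x ^ 3 = 1) (h : a * x = x * a)
    (h0 : ∀ v, x v = v → g v = a v) (h1 : ∀ k v, k ≠ 0 → x v = wq w k • v → g v = v) :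
    g = bk x a := o.ext hx fun k v hv => by
  by_cases k0 : k = 0
  · rw [k0, wq_zero, one_smul] at hv
    rw [h0 v hv, bk_fix o.ne hx h hv]
  · rw [h1 k v k0 hv, o.bk_other hx h k0 hv]

theorem bk_conj {x a : V ≃ₗ[F] V} (hx : x ^ 3 = 1) (h : a * x = x * a) (n : V ≃ₗ[F] V) :
    n * bk x a * n⁻¹ = bk (n * x * n⁻¹) (n * a * n⁻¹) :=
  o.bk_ext (conj_cube hx n) (by rw [conj_mul, conj_mul, h]) (fun v hv => by
    simp only [LinearEquiv.mul_apply] at hv ⊢
    rw [bk_fix o.ne hx h (n.injective (by rw [hv, apply_inv_apply]))]) fun k v k0 hv => by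
    simp only [LinearEquiv.mul_apply] at hv ⊢
    rw [o.bk_other hx h k0 (n.injective (by rw [hv, map_smul, apply_inv_apply])), apply_inv_apply]

theorem bk_comm {x a b : V ≃ₗ[F] V} (hx : x ^ 3 = 1) (h : a * x = x * a) (h1 : b * x = x * b)
    (h2 : b * a = a * b) : b * bk x a = bk x a * b :=
  comm_of_conj (by rw [o.bk_conj hx h, conj_eq_of_comm h1, conj_eq_of_comm h2])

theorem bk_x {x a : V ≃ₗ[F] V} (hx : x ^ 3 = 1) (h : a * x = x * a) : bk x a * x = x * bk x a :=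
  (o.bk_comm hx h rfl h.symm).symm

theorem bk_mul {x a b : V ≃ₗ[F] V} (hx : x ^ 3 = 1) (h : a * x = x * a) (h' : b * x = x * b) :
    bk x a * bk x b = bk x (a * b) :=
  o.bk_ext hx (comm_mul h h') (fun v hv => by
    rw [LinearEquiv.mul_apply, bk_fix o.ne hx h' hv, bk_fix o.ne hx h
      (by rw [← comm_apply h', hv]), LinearEquiv.mul_apply]) fun k v k0 hv => by
    rw [LinearEquiv.mul_apply, o.bk_other hx h' k0 hv, o.bk_other hx h k0 hv]

theorem bk_one {x : V ≃ₗ[F] V} (hx : x ^ 3 = 1) : bk x 1 = 1 :=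
  (o.bk_ext hx (by simp) (fun _ _ => rfl) fun _ _ _ _ => rfl).symm

theorem bk_inv {x a : V ≃ₗ[F] V} (hx : x ^ 3 = 1) (h : a * x = x * a) : (bk x a)⁻¹ = bk x a⁻¹ :=
  inv_eq_of_mul_eq_one_right (by rw [o.bk_mul hx h (comm_inv h), mul_inv_cancel, o.bk_one hx])

theorem gt_eig {x : V ≃ₗ[F] V} (hx : x ^ 3 = 1) {v : V} {k : ZMod 3} (hv : x v = wq w k • v) :
    gt w x v = wq w (2 - k * k) • v := by
  rw [gt, LinearEquiv.mul_apply]
  by_cases k0 : k = 0
  · rw [k0, wq_zero, one_smul] at hv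
    rw [bk_fix o.ne hx (zz_comm 1 x).symm hv, zz_apply, zz_apply, smul_smul, ← o.wq_add, k0]; rfl
  · rw [o.bk_other hx (zz_comm 1 x).symm k0 hv, zz_apply,
      (by decide : ∀ k : ZMod 3, k ≠ 0 → 2 - k * k = 1) k k0]

theorem gt_conj {x : V ≃ₗ[F] V} (hx : x ^ 3 = 1) (n : V ≃ₗ[F] V) :
    n * gt w x * n⁻¹ = gt w (n * x * n⁻¹) := by
  rw [gt, ← conj_mul, o.bk_conj hx (zz_comm 1 x).symm, conj_eq_of_comm (zz_comm 1 n), gt]

theorem gt_comm {x a : V ≃ₗ[F] V} (hx : x ^ 3 = 1) (h : a * x = x * a) :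
    a * gt w x = gt w x * a := comm_of_conj (by rw [o.gt_conj hx, conj_eq_of_comm h])

theorem gt_inv {x : V ≃ₗ[F] V} (hx : x ^ 3 = 1) : gt w x⁻¹ = gt w x :=
  o.ext hx fun k v hv => by
    rw [o.gt_eig hx hv, o.gt_eig (by rw [inv_pow, hx, inv_one]) (o.inv_eig hv), neg_mul_neg]

theorem gt_cube {x : V ≃ₗ[F] V} (hx : x ^ 3 = 1) : gt w x ^ 3 = 1 :=
  o.ext hx fun k v hv => by
    simp only [pow_three, LinearEquiv.mul_apply, o.gt_eig hx hv, map_smul, smul_smul, ← o.wq_add]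
    rw [show ∀ a : ZMod 3, a + a + a = 0 by decide]; simp

theorem gt_fix {x : V ≃ₗ[F] V} (hx : x ^ 3 = 1) {v : V} : gt w x v = wq w 2 • v ↔ x v = v := by
  refine ⟨fun h => o.ext_on hx (U := Eg (gt w x) (wq w 2))
    (fun u hu => map_mem_Eg (o.gt_comm hx rfl) hu) (x : End F V) 1 (fun k v h1 h2 => ?_) h,
    fun h => by simpa using o.gt_eig hx (k := 0) (by simpa)⟩
  by_cases k0 : k = 0
  · simpa [k0] using h2
  · simp [o.eig_zero (o.gt_eig hx h2) h1 ((by decide : ∀ k : ZMod 3, k ≠ 0 → 2 - k * k ≠ 2) k k0)]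

theorem gt_ne_fix {x : V ≃ₗ[F] V} (hx : x ^ 3 = 1) {v : V} (h : gt w x v = v) : v = 0 :=
  o.ext_on hx (U := Eg (gt w x) 1) (fun u hu => map_mem_Eg (o.gt_comm hx rfl) hu) (1 : End F V) 0
    (fun k v h1 h2 => o.eig_zero (l := 0) (o.gt_eig hx h2) (by simpa [mem_Eg] using h1)
      ((by decide : ∀ k : ZMod 3, 2 - k * k ≠ 0) k)) (mem_Eg_one.2 h)

theorem gt_congr {x y : V ≃ₗ[F] V} (hx : x ^ 3 = 1) (hy : y ^ 3 = 1) {U : Submodule F V}
    (hU : ∀ u ∈ U, x u ∈ U) (h : ∀ u ∈ U, x u = y u) {v : V} (hv : v ∈ U) :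
    gt w x v = gt w y v :=
  o.ext_on hx hU (gt w x : End F V) (gt w y) (fun k v h1 h2 => by
    simp [o.gt_eig hx h2, o.gt_eig hy ((h v h1).symm.trans h2)]) hv

theorem be_eq [Nontrivial V] {x y : V ≃ₗ[F] V} {k : ZMod 3} (e : x * y = zz V w k * (y * x)) :
    be w x y = k :=
  o.zz_inj (V := V) (mul_right_cancel ((Classical.epsilon_spec
    (p := fun k => x * y = zz V w k * (y * x)) ⟨k, e⟩).symm.trans e))

end Om3

end CF.MaxSub.E9
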