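/-
Normalisers of `3^{1+4}`: absolutely irreducible groups of exponent three and class two.
-/
import Cfsg.Agent.MaxSub.E9B

set_option autoImplicit false
set_option linter.unusedSectionVars false

namespace CF.MaxSub.E9

open Module Subgroup Geom

variable {F V : Type*} [Field F] [AddCommGroup V] [Module F V] {w : Fˣ}
  {P : Subgroup (V ≃ₗ[F] V)}

/-- The restrictions to `U` of the elements of `C`. -/
def rG (U : Submodule F V) (C : Subgroup (V ≃ₗ[F] V)) : Subgroup (U ≃ₗ[F] U) where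
  carrier := {γ | ∃ g ∈ C, ∀ v : U, (γ v : V) = g v}
  mul_mem' := by
    rintro a b ⟨g, hg, e⟩ ⟨k, hk, e'⟩
    exact ⟨g * k, mul_mem hg hk, fun v => by rw [LinearEquiv.mul_apply, e, e']; rfl⟩
  one_mem' := ⟨1, one_mem _, fun _ => rfl⟩
  inv_mem' := by
    rintro a ⟨g, hg, e⟩
    exact ⟨g⁻¹, inv_mem hg, fun v => g.injective (by rw [← e, apply_inv_apply, apply_inv_apply])⟩

/-- The restriction of a map to an invariant subspace. -/
noncomputable def rE [Finite V] {U : Submodule F V} (g : V ≃ₗ[F] V) (h : ∀ v ∈ U, g v ∈ U) :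
    U ≃ₗ[F] U :=
  LinearEquiv.ofInjectiveEndo ((g : End F V).restrict h) fun _ _ e =>
    Subtype.ext (g.injective (congrArg Subtype.val e))

@[simp] theorem rE_apply [Finite V] {U : Submodule F V} (g : V ≃ₗ[F] V) (h : ∀ v ∈ U, g v ∈ U)
    (v : U) : (rE g h v : V) = g v := rfl

theorem rE_mem [Finite V] {U : Submodule F V} {C : Subgroup (V ≃ₗ[F] V)} {g : V ≃ₗ[F] V}
    (hg : g ∈ C) (h : ∀ v ∈ U, g v ∈ U) : rE g h ∈ rG U C := ⟨g, hg, fun _ => rfl⟩

theorem inv_mem_of [Finite V] {U : Submodule F V} {g : V ≃ₗ[F] V} (h : ∀ v ∈ U, g v ∈ U) {v : V}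
    (hv : v ∈ U) : g⁻¹ v ∈ U := by
  obtain ⟨u, hu⟩ := (rE g h).surjective ⟨v, hv⟩
  rw [← show g u = v from congrArg Subtype.val hu, inv_apply_apply]; exact u.2

theorem fix_mem {x g : V ≃ₗ[F] V} (e : g * x = x * g) : ∀ v ∈ Eg x 1, g v ∈ Eg x 1 :=
  fun _ => map_mem_Eg e

theorem eig0 {x : V ≃ₗ[F] V} {v : V} : x v = wq w 0 • v ↔ x v = v := by simp

/-- An absolutely irreducible group of exponent three with scalar commutators. -/
structure T3 (w : Fˣ) (P : Subgroup (V ≃ₗ[F] V)) : Prop extends Om3 w where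
  nt : Nontrivial V
  z : zz V w 1 ∈ P
  cub : ∀ x ∈ P, x ^ 3 = 1
  cm : ∀ x ∈ P, ∀ y ∈ P, x * y * x⁻¹ * y⁻¹ ∈ center (V ≃ₗ[F] V)
  span : ∀ S : Submodule F (End F V), (∀ x ∈ P, (x : End F V) ∈ S) → ∀ f, f ∈ S

namespace T3

variable (h : T3 w P) {x y u a b g : V ≃ₗ[F] V}
include h

theorem zz_mem (k : ZMod 3) : zz V w k ∈ P := by
  rcases z3 k with rfl | rfl | rfl
  exacts [zz_zero (V := V) (w := w) ▸ one_mem P, h.z, h.zz_add (V := V) 1 1 ▸ mul_mem h.z h.z]

theorem smul_inj {c d : F} (e : ∀ v : V, c • v = d • v) : c = d := by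
  obtain ⟨v, hv⟩ := @exists_ne V h.nt 0
  exact smul_left_injective F hv (e v)

theorem cen_eq (hx : x ∈ P) (hc : x ∈ center _) : ∃ k, x = zz V w k := by
  obtain ⟨c, hc⟩ := mem_center_iff_smul.1 hc
  obtain ⟨k, rfl⟩ := h.exists_wq (c := c) (h.smul_inj fun v => by
    rw [mul_smul, mul_smul, ← hc, ← hc, ← hc, cube_apply (h.cub x hx), one_smul])
  exact ⟨k, LinearEquiv.ext hc⟩

theorem be_eq' {k : ZMod 3} (e : x * y = zz V w k * (y * x)) : be w x y = k :=
  have := h.nt; h.be_eq e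

theorem be_spec (hx : x ∈ P) (hy : y ∈ P) : x * y = zz V w (be w x y) * (y * x) := by
  obtain ⟨k, hk⟩ := h.cen_eq (mul_mem (mul_mem (mul_mem hx hy) (inv_mem hx)) (inv_mem hy))
    (h.cm x hx y hy)
  have : x * y = zz V w k * (y * x) := by rw [← hk]; group
  rwa [h.be_eq' this]

theorem conj_eq (hx : x ∈ P) (hy : y ∈ P) : x * y * x⁻¹ = zz V w (be w x y) * y := by
  rw [h.be_spec hx hy]; group

theorem shift (hx : x ∈ P) (hy : y ∈ P) {v : V} {k : ZMod 3} (hv : x v = wq w k • v) :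
    x (y v) = wq w (be w x y + k) • y v := by
  have := LinearEquiv.congr_fun (h.be_spec hx hy) v
  simpa [hv, h.wq_add, smul_smul, mul_comm] using this

theorem be_of_comm (e : x * y = y * x) : be w x y = 0 := h.be_eq' (by simp [e])

theorem comm_of_be (hx : x ∈ P) (hy : y ∈ P) (e : be w x y = 0) : x * y = y * x := by
  simpa [e] using h.be_spec hx hy

@[simp] theorem be_self : be w x x = 0 := h.be_of_comm rfl

theorem be_comm (hx : x ∈ P) (hy : y ∈ P) : be w y x = -be w x y :=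
  h.be_eq' (by rw [h.be_spec hx hy, h.zz_neg, inv_mul_cancel_left])

theorem be_mul_left (hx : x ∈ P) (hy : y ∈ P) (hu : u ∈ P) :
    be w (x * y) u = be w x u + be w y u :=
  h.be_eq' (by
    rw [mul_assoc, h.be_spec hy hu, ← mul_assoc, zz_comm, mul_assoc, ← mul_assoc x, h.be_spec hx hu,
      add_comm, h.zz_add]; group)

theorem be_mul_right (hx : x ∈ P) (hy : y ∈ P) (hu : u ∈ P) :
    be w u (x * y) = be w u x + be w u y := by
  rw [h.be_comm (mul_mem hx hy) hu, h.be_mul_left hx hy hu, h.be_comm hx hu, h.be_comm hy hu]; ring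

theorem be_cen_left (hc : x ∈ center _) : be w x y = 0 := h.be_of_comm (mem_center_iff.1 hc y).symm

theorem be_cen_right (hc : x ∈ center _) : be w y x = 0 := h.be_of_comm (mem_center_iff.1 hc y)

theorem be_inv_left (hx : x ∈ P) (hu : u ∈ P) : be w x⁻¹ u = -be w x u := by
  have := h.be_mul_left (inv_mem hx) hx hu
  rw [inv_mul_cancel, h.be_cen_left (one_mem _)] at this
  linear_combination -this

theorem be_inv_right (hx : x ∈ P) (hu : u ∈ P) : be w u x⁻¹ = -be w u x := by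
  rw [h.be_comm (inv_mem hx) hu, h.be_inv_left hx hu, h.be_comm hx hu]

theorem be_pw_left (hx : x ∈ P) (hu : u ∈ P) (k : ZMod 3) : be w (pw x k) u = k * be w x u := by
  rcases z3 k with rfl | rfl | rfl
  · simp [h.be_cen_left (one_mem _)]
  · simp
  · rw [pw_two, h.be_mul_left hx hx hu, two_mul]

theorem be_pw_right (hx : x ∈ P) (hu : u ∈ P) (k : ZMod 3) : be w u (pw x k) = k * be w u x := by
  rw [h.be_comm (pw_mem hx k) hu, h.be_pw_left hx hu, h.be_comm hx hu, mul_neg]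

theorem be_zz_left (hx : x ∈ P) (hu : u ∈ P) (k : ZMod 3) : be w (zz V w k * x) u = be w x u := by
  rw [h.be_mul_left (h.zz_mem k) hx hu, h.be_cen_left (zz_cen k), zero_add]

theorem be_zz_right (hx : x ∈ P) (hu : u ∈ P) (k : ZMod 3) : be w u (zz V w k * x) = be w u x := by
  rw [h.be_mul_right (h.zz_mem k) hx hu, h.be_cen_right (zz_cen k), zero_add]

theorem be_conj (hx : x ∈ P) (hy : y ∈ P) (g : V ≃ₗ[F] V) :
    be w (g * x * g⁻¹) (g * y * g⁻¹) = be w x y :=
  h.be_eq' (by rw [conj_mul, conj_mul, h.be_spec hx hy, ← mul_assoc g, zz_comm]; group)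

theorem be_conj' (hg : g ∈ Nm P) (hx : x ∈ P) (hy : y ∈ P) :
    be w (g * x * g⁻¹) y = be w x (g⁻¹ * y * g) := by
  have := h.be_conj hx (Nm_conj (inv_mem hg) hy) g
  simpa [mul_assoc] using this

theorem notMem_of_be (e : be w x y ≠ 0) : x ∉ center _ := fun c => e (h.be_cen_left c)

theorem notMem_of_be' (e : be w x y ≠ 0) : y ∉ center _ := fun c => e (h.be_cen_right c)

theorem scalar {f : End F V} (e : ∀ x ∈ P, ∀ v, f (x v) = x (f v)) : ∃ c : F, ∀ v, f v = c • v := by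
  obtain ⟨c, hc⟩ := (Algebra.IsCentral.mem_center_iff F).1 (Subalgebra.mem_center_iff.2 fun g =>
    h.span (LinearMap.eqLocus (LinearMap.mulRight F f) (LinearMap.mulLeft F f))
      (fun x hx => LinearMap.ext fun v => (e x hx v).symm) g)
  exact ⟨c, fun v => by simp [hc]⟩

theorem schur (e : ∀ x ∈ P, g * x = x * g) : g ∈ center _ :=
  mem_center_iff_smul.2 (h.scalar (f := g) fun x hx => comm_apply (e x hx))

theorem irr {U : Submodule F V} (e : ∀ x ∈ P, ∀ v ∈ U, x v ∈ U) {v : V} (hv : v ∈ U) (v0 : v ≠ 0) :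
    U = ⊤ := Submodule.eq_top_iff'.2 fun w => by
  obtain ⟨φ, h1, -⟩ := Geom.exists_dual_one (W := (⊥ : Submodule F V)) v0
  simpa [h1] using h.span (U.comap (LinearMap.applyₗ v)) (fun x hx => e x hx v hv)
    (φ.smulRight w)

theorem partner (hx : x ∈ P) (x0 : x ∉ center _) (c : ZMod 3) : ∃ u ∈ P, be w x u = c := by
  obtain ⟨u, hu, e⟩ : ∃ u ∈ P, be w x u ≠ 0 := by
    by_contra! hn
    exact x0 (h.schur fun y hy => h.comm_of_be hx hy (hn y hy))
  exact ⟨pw u (c * be w x u), pw_mem hu _, by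
    rw [h.be_pw_right hu hx, mul_assoc, (by decide : ∀ k : ZMod 3, k ≠ 0 → k * k = 1) _ e, mul_one]⟩

theorem partner2 (hx : x ∈ P) (x0 : x ∉ center _) (hy : y ∈ P) (y0 : y ∉ center _) :
    ∃ u ∈ P, be w x u ≠ 0 ∧ be w y u ≠ 0 := by
  obtain ⟨u, hu, e⟩ := h.partner hx x0 1
  obtain ⟨u', hu', e'⟩ := h.partner hy y0 1
  by_cases h1 : be w y u = 0
  · by_cases h2 : be w x u' = 0
    · exact ⟨u * u', mul_mem hu hu', by simp [h.be_mul_right, *], by simp [h.be_mul_right, *]⟩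
    · exact ⟨u', hu', h2, by simp [e']⟩
  · exact ⟨u, hu, by simp [e], h1⟩

theorem gt_act (hu : u ∈ P) (ha : a ∈ P) :
    gt w u * a * (gt w u)⁻¹ = zz V w (-(be w u a * be w u a)) * a * pw u (be w u a) := by
  rw [mul_inv_eq_iff_eq_mul]
  refine h.ext (h.cub u hu) fun k v hv => ?_
  simp only [LinearEquiv.mul_apply, h.gt_eig (h.cub u hu) hv, map_smul, h.pw_eig hv, zz_apply,
    h.gt_eig (h.cub u hu) (h.shift hu ha hv), smul_smul, ← h.wq_add]
  congr 2
  generalize be w u a = c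
  clear hv
  revert c k; decide

theorem gt_act_mem (hu : u ∈ P) (ha : a ∈ P) : gt w u * a * (gt w u)⁻¹ ∈ P :=
  h.gt_act hu ha ▸ mul_mem (mul_mem (h.zz_mem _) ha) (pw_mem hu _)

theorem be_gt (hu : u ∈ P) (ha : a ∈ P) (hb : b ∈ P) :
    be w (gt w u * a * (gt w u)⁻¹) b = be w a b + be w u a * be w u b := by
  rw [h.gt_act hu ha, h.be_mul_left (mul_mem (h.zz_mem _) ha) (pw_mem hu _) hb, h.be_zz_left ha hb,
    h.be_pw_left hu hb]

theorem mv (hx : x ∈ P) (hy : y ∈ P) (e : be w y x = 1) :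
    gt w x * gt w y * x * (gt w x * gt w y)⁻¹ = y := by
  have e' : be w x y = -1 := by rw [h.be_comm hy hx, e]
  rw [mul_inv_rev, show ∀ a b c d e : V ≃ₗ[F] V, a * b * c * (d * e) = a * (b * c * d) * e from
    fun _ _ _ _ _ => by group, h.gt_act hy hx, e, ← conj_mul, ← conj_mul, pw_one, h.gt_act hx hy,
    e', conj_eq_of_comm (h.gt_comm (h.cub x hx) rfl).symm, conj_eq_of_comm (zz_comm _ _),
    pw_neg (h.cub x hx), pw_one, mul_assoc (zz V w _) y, ← mul_assoc, mul_assoc _ x, zz_comm,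
    mul_assoc, mul_assoc, ← mul_assoc x, h.conj_eq hx hy, e', ← mul_assoc, ← mul_assoc,
    ← h.zz_add, ← h.zz_add]
  exact (congrArg (zz V w · * y) (show _ = 0 by decide)).trans (by rw [zz_zero, one_mul])

theorem braid (hx : x ∈ P) (hy : y ∈ P) (e : be w y x ≠ 0) :
    gt w x * gt w y * gt w x = gt w y * gt w x * gt w y := by
  have key : ∀ y ∈ P, be w y x = 1 → gt w x * gt w y * gt w x = gt w y * gt w x * gt w y :=
    fun y hy e => by
      have := h.gt_conj (h.cub x hx) (gt w x * gt w y)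
      rw [h.mv hx hy e, mul_inv_eq_iff_eq_mul] at this
      rw [this, mul_assoc]
  rcases z3 (be w y x) with e' | e' | e'
  · exact absurd e' e
  · exact key y hy e'
  · have := key _ (inv_mem hy) (by rw [h.be_inv_left hy hx, e']; rfl)
    rwa [h.gt_inv (h.cub y hy)] at this

theorem conn {Γ : Subgroup (V ≃ₗ[F] V)} (hΓ : ∀ x ∈ P, gt w x ∈ Γ) (hx : x ∈ P)
    (x0 : x ∉ center _) (hy : y ∈ P) (y0 : y ∉ center _) : ∃ n ∈ Γ, n * x * n⁻¹ = y := by
  have key : ∀ x ∈ P, ∀ y ∈ P, be w y x ≠ 0 → ∃ n ∈ Γ, n * x * n⁻¹ = y := fun x hx y hy e => by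
    rcases z3 (be w y x) with e' | e' | e'
    · exact absurd e' e
    · exact ⟨_, mul_mem (hΓ x hx) (hΓ y hy), h.mv hx hy e'⟩
    · refine ⟨_, inv_mem (mul_mem (hΓ y hy) (hΓ x hx)), ?_⟩
      have := h.mv hy hx (by rw [h.be_comm hy hx, e']; rfl)
      generalize gt w y * gt w x = n at this ⊢
      rw [← this]; group
  obtain ⟨u, hu, e1, e2⟩ := h.partner2 hx x0 hy y0
  obtain ⟨n, hn, rfl⟩ := key u hu y hy e2
  obtain ⟨m, hm, rfl⟩ := key x hx u hu (by rwa [h.be_comm hx hu, neg_ne_zero])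
  exact ⟨n * m, mul_mem hn hm, by group⟩

theorem eig_pw (hx : x ∈ P) (hu : u ∈ P) (e : be w x u ≠ 0) {v : V} {k : ZMod 3} (l : ZMod 3)
    (hv : x v = wq w k • v) : ∃ m, x (pw u m v) = wq w l • pw u m v :=
  ⟨(l - k) * be w x u, by
    rw [h.shift hx (pw_mem hu _) hv, h.be_pw_right hu hx, mul_assoc,
      (by decide : ∀ k : ZMod 3, k ≠ 0 → k * k = 1) _ e, mul_one, sub_add_cancel]⟩

theorem transfer (hx : x ∈ P) (hu : u ∈ P) (e : be w x u ≠ 0) {U : Submodule F V}
    (xU : ∀ v ∈ U, x v ∈ U) (uU : ∀ v ∈ U, u v ∈ U) {f g : End F V}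
    (fu : ∀ v ∈ U, f (u v) = u (f v)) (gu : ∀ v ∈ U, g (u v) = u (g v)) {l : ZMod 3}
    (hf : ∀ v ∈ U, x v = wq w l • v → f v = g v) {v : V} (hv : v ∈ U) : f v = g v :=
  h.ext_on (h.cub x hx) xU f g (fun k v h1 h2 => by
    obtain ⟨m, hm⟩ := h.eig_pw hx hu e l h2
    rcases z3 m with rfl | rfl | rfl
    · exact hf v h1 hm
    · exact u.injective (by rw [← fu v h1, ← gu v h1]; exact hf _ (uU v h1) hm)
    · refine u.injective (u.injective ?_)
      rw [← fu v h1, ← gu v h1, ← fu _ (uU v h1), ← gu _ (uU v h1)]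
      exact hf _ (uU _ (uU v h1)) hm) hv

theorem transfer' (hx : x ∈ P) (hu : u ∈ P) (e : be w x u ≠ 0) (ua : a * u = u * a)
    (ub : b * u = u * b) {l : ZMod 3} (hf : ∀ v, x v = wq w l • v → a v = b v) : a = b :=
  LinearEquiv.ext fun _ => h.transfer hx hu e (U := ⊤) (fun _ _ => trivial) (fun _ _ => trivial)
    (f := a) (g := b) (fun v _ => comm_apply ua v) (fun v _ => comm_apply ub v)
    (fun v _ => hf v) trivial

theorem exists_eig (hx : x ∈ P) (x0 : x ∉ center _) (k : ZMod 3) :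
    ∃ v, v ≠ 0 ∧ x v = wq w k • v := by
  obtain ⟨u, hu, e⟩ := h.partner hx x0 1
  by_contra! hn
  obtain ⟨v, v0⟩ := @exists_ne V h.nt 0
  exact v0 (h.transfer hx hu (by simp [e]) (U := ⊤) (fun _ _ => trivial) (fun _ _ => trivial)
    (f := 1) (g := 0) (by simp) (by simp) (l := k) (fun v _ hv => by_contra fun v0 => hn v v0 hv)
    trivial)

theorem exists_fix (hx : x ∈ P) (x0 : x ∉ center _) : ∃ v, v ≠ 0 ∧ x v = v := by
  simpa using h.exists_eig hx x0 0

theorem comm_of_fix (hx : x ∈ P) (hy : y ∈ P) {v : V} (v0 : v ≠ 0) {k : ZMod 3}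
    (h1 : x v = wq w k • v) (h2 : x (y v) = wq w k • y v) : y * x = x * y := by
  refine (h.comm_of_be hx hy ?_).symm
  by_contra e
  exact v0 (y.map_eq_zero_iff.1 (h.eig_zero (h.shift hx hy h1) h2 (by simpa using e)))

theorem dep (hx : x ∈ P) (x0 : x ∉ center _) (hy : y ∈ P) {c : F} {l : ZMod 3}
    (e : ∀ v, x v = wq w l • v → y v = c • v) : ∃ k m, y = zz V w k * pw x m := by
  obtain ⟨u, hu, e1⟩ := h.partner hx x0 1
  obtain ⟨v, v0, hv⟩ := h.exists_eig hx x0 l
  obtain ⟨k, rfl⟩ := h.exists_wq (c := c) (smul_left_injective F v0 (by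
    have := cube_apply (h.cub y hy) v
    simpa [e v hv, mul_smul] using this))
  refine ⟨k - be w y u * l, be w y u, ?_⟩
  rw [← mul_inv_eq_iff_eq_mul]
  refine h.transfer' hx hu (by simp [e1]) (h.comm_of_be (mul_mem hy (inv_mem (pw_mem hx _))) hu ?_)
    (zz_comm _ _).symm (l := l) fun v hv => ?_
  · rw [h.be_mul_left hy (inv_mem (pw_mem hx _)) hu, h.be_inv_left (pw_mem hx _) hu,
      h.be_pw_left hx hu, e1]; ring
  · rw [LinearEquiv.mul_apply, h.inv_eig (h.pw_eig hv _), map_smul, e v hv, smul_smul, ← h.wq_add,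
      zz_apply, neg_add_eq_sub]

theorem fix_of_rG (hx : x ∈ P) (x0 : x ∉ center _) {γ : Eg x 1 ≃ₗ[F] Eg x 1} (hy : y ∈ P)
    (e : ∀ v : Eg x 1, (γ v : V) = y v) : y * x = x * y := by
  obtain ⟨v, v0, hv⟩ := h.exists_eig hx x0 0
  refine h.comm_of_fix hx hy v0 hv ?_
  rw [wq_zero] at hv ⊢
  rw [← e ⟨v, hv⟩]
  exact (γ _).2

variable [Finite V]

theorem gt_mem_Nm (hu : u ∈ P) : gt w u ∈ Nm P :=
  mem_normalizer_fintype fun _ ha => h.gt_act_mem hu ha

theorem res (hx : x ∈ P) (x0 : x ∉ center _) : T3 w (rG (Eg x 1) P) where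
  toOm3 := h.toOm3
  nt := by
    obtain ⟨v, v0, hv⟩ := h.exists_eig hx x0 0
    exact ⟨⟨v, by simpa [mem_Eg] using hv⟩, 0, fun e => v0 (congrArg Subtype.val e)⟩
  z := ⟨_, h.z, fun _ => rfl⟩
  cub := by
    rintro γ ⟨y, hy, e⟩
    exact LinearEquiv.ext fun v => Subtype.ext (by simp [pow_three, e, cube_apply (h.cub y hy)])
  cm := by
    rintro γ ⟨y, hy, e⟩ δ ⟨u, hu, e'⟩
    have : γ * δ = zz _ w (be w y u) * (δ * γ) := LinearEquiv.ext fun v => Subtype.ext (by
      simpa [e, e'] using LinearEquiv.congr_fun (h.be_spec hy hu) v)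
    rw [this, mul_assoc, mul_assoc, mul_assoc, mul_inv_cancel_left, mul_inv_cancel, mul_one]
    exact zz_cen _
  span S hS f := by
    let p : V →ₗ[F] Eg x 1 := LinearMap.codRestrict _ (pe x) fun v =>
      mem_Eg_one.2 (pe_fix (h.cub x hx) v)
    have p1 : ∀ v : Eg x 1, p v = v := fun v => Subtype.ext (pe_self h.ne (mem_Eg_one.1 v.2))
    have := h.span (S.comap (LinearMap.llcomp F (Eg x 1) V (Eg x 1) p ∘ₗ
      LinearMap.lcomp F V (Eg x 1).subtype)) (fun y hy => by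
        by_cases e : be w x y = 0
        · have c := fix_mem (h.comm_of_be hx hy e).symm
          exact (congrArg (· ∈ S) (LinearMap.ext fun v => p1 (rE y c v))).mpr (hS _ (rE_mem hy c))
        · refine (congrArg (· ∈ S) (LinearMap.ext fun v => Subtype.ext
            (h.pe_zero e ?_))).mpr S.zero_mem
          simpa using h.shift hx hy (k := 0) (v := v) (by simpa using mem_Eg_one.1 v.2))
      ((Eg x 1).subtype ∘ₗ f ∘ₗ p)
    exact (congrArg (· ∈ S) (LinearMap.ext fun v => by simp [p1])).mp this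

theorem finrank_fix (hx : x ∈ P) (x0 : x ∉ center _) : finrank F V = 3 * finrank F (Eg x 1) := by
  obtain ⟨u, hu, e⟩ := h.partner hx x0 1
  let f : (Eg x 1 × Eg x 1 × Eg x 1) →ₗ[F] V := (Eg x 1).subtype.coprod
    ((u.toLinearMap ∘ₗ (Eg x 1).subtype).coprod ((u * u).toLinearMap ∘ₗ (Eg x 1).subtype))
  have s0 : ∀ v : Eg x 1, x v = wq w 0 • v := fun v => by simpa using mem_Eg_one.1 v.2
  have s1 : ∀ v : Eg x 1, x (u v) = wq w 1 • u v := fun v => by
    simpa [e] using h.shift hx hu (s0 v)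
  have s2 : ∀ v : Eg x 1, x (u (u v)) = wq w 2 • u (u v) := fun v => by
    simpa [e, one_add_one_eq_two] using h.shift hx hu (s1 v)
  have : Function.Bijective f := ⟨(injective_iff_map_eq_zero _).2 fun ⟨a, b, c⟩ e0 => by
    change a + (u b + u (u c)) = 0 at e0
    have e1 := congrArg (pe x) e0
    simp only [map_add, pe_self h.ne (mem_Eg_one.1 a.2), h.pe_zero (by decide) (s1 b),
      h.pe_zero (by decide) (s2 c), add_zero, map_zero] at e1
    rw [e1, zero_add, add_eq_zero_iff_eq_neg] at e0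
    have e2 := h.eig_zero (s1 b) (l := 2) (by rw [e0, map_neg, s2, smul_neg]) (by decide)
    rw [e2, eq_comm] at e0
    simp at e0 e1 e2
    simp [*], LinearMap.range_eq_top.1 (eq_top_iff.2 (h.ind (h.cub x hx) (fun _ _ => trivial)
      fun k v _ hv => by
        have u3 := cube_apply (h.cub u hu) v
        have t1 := h.shift hx hu hv
        have t2 := h.shift hx hu t1
        rcases z3 k with rfl | rfl | rfl
        · exact ⟨(⟨v, by simpa [mem_Eg] using hv⟩, 0, 0), by simp [f]⟩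
        · exact ⟨(0, ⟨u (u v), by
            rw [mem_Eg, t2, e, show (1 + (1 + 1) : ZMod 3) = 0 from rfl, wq_zero]⟩, 0), by simp [f, u3]⟩
        · exact ⟨(0, 0, ⟨u v, by
            rw [mem_Eg, t1, e, show (1 + 2 : ZMod 3) = 0 from rfl, wq_zero]⟩), by simp [f, u3]⟩))⟩
  rw [← (LinearEquiv.ofBijective f this).finrank_eq]
  simp only [finrank_prod]; ring

end T3

end CF.MaxSub.E9
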