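/-
Normalisers of `3^{1+4}`: dimensions three and nine, forms and determinants.
-/
import Cfsg.Agent.MaxSub.E9C
import Cfsg.Agent.MaxSub.C6Q

set_option autoImplicit false
set_option linter.unusedSectionVars false

namespace CF.MaxSub.E9

open Module Subgroup Geom

variable {F V : Type*} [Field F] [AddCommGroup V] [Module F V] {w : Fˣ}
  {P : Subgroup (V ≃ₗ[F] V)} {σ : F →+* F} {B : V →ₛₗ[σ] V →ₗ[F] F}

theorem B_pe (h3 : (3 : F) ≠ 0) {x : V ≃ₗ[F] V} (hx : x ∈ UG B) {u : V} (hu : x u = u) (v : V) :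
    B u (pe x v) = B u v ∧ B (pe x v) u = B v u := by
  have e1 : ∀ v, B u (x v) = B u v := fun v => by rw [← mem_UG.1 hx u v, hu]
  have e2 : ∀ v, B (x v) u = B v u := fun v => by rw [← mem_UG.1 hx v u, hu]
  constructor
  · simp only [pe_apply, map_smul, map_add, e1, smul_eq_mul]; field_simp; ring
  · simp only [pe_apply, map_smulₛₗ, map_add, LinearMap.add_apply, LinearMap.smul_apply, e2,
      smul_eq_mul, map_inv₀, map_ofNat]; field_simp; ring

theorem bk_UG (h3 : (3 : F) ≠ 0) {x a : V ≃ₗ[F] V} (x3 : x ^ 3 = 1) (e : a * x = x * a)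
    (hx : x ∈ UG B) (ha : a ∈ UG B) : bk x a ∈ UG B := mem_UG.2 fun u v => by
  have f : ∀ u, x (a (pe x u)) = a (pe x u) := fun u => by rw [← comm_apply e, pe_fix x3]
  simp only [bk_apply h3 x3 e, map_add, map_sub, LinearMap.add_apply, LinearMap.sub_apply,
    mem_UG.1 ha]
  linear_combination (B_pe h3 hx (pe_fix x3 v) u).2 - (B_pe h3 hx (f v) u).2 -
    (B_pe h3 hx (f u) v).1 + (B_pe h3 hx (pe_fix x3 u) v).1

theorem nondeg_fix (h3 : (3 : F) ≠ 0) (hB : B.Nondegenerate) {x : V ≃ₗ[F] V} (x3 : x ^ 3 = 1)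
    (hx : x ∈ UG B) : (B.domRestrict₁₂ (Eg x 1) (Eg x 1)).Nondegenerate :=
  ⟨fun u hu => Subtype.ext (hB.1 _ fun v => (B_pe h3 hx (mem_Eg_one.1 u.2) v).1.symm.trans
    (hu ⟨_, mem_Eg_one.2 (pe_fix x3 v)⟩)), fun u hu => Subtype.ext (hB.2 _ fun v =>
      (B_pe h3 hx (mem_Eg_one.1 u.2) v).2.symm.trans (hu ⟨_, mem_Eg_one.2 (pe_fix x3 v)⟩))⟩

theorem rG_le_UG {U : Submodule F V} {C : Subgroup (V ≃ₗ[F] V)} (h : C ≤ UG B) :
    rG U C ≤ UG (B.domRestrict₁₂ U U) := by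
  rintro γ ⟨g, hg, e⟩
  exact mem_UG.2 fun u v => by
    rw [LinearMap.domRestrict₁₂_apply, e, e, mem_UG.1 (h hg)]; rfl

theorem det_zz (k : ZMod 3) :
    LinearMap.det (zz V w k : End F V) = wq w k ^ finrank F V := by
  rw [show (zz V w k : End F V) = wq w k • LinearMap.id from rfl, LinearMap.det_smul,
    LinearMap.det_id, mul_one]

theorem Om3.det_blk [Finite V] (o : Om3 w) {x g : V ≃ₗ[F] V} (x3 : x ^ 3 = 1)
    {γ : Eg x 1 ≃ₗ[F] Eg x 1} (h0 : ∀ v : Eg x 1, (γ v : V) = g v)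
    (h1 : ∀ k v, k ≠ 0 → x v = wq w k • v → g v = v) :
    LinearMap.det (g : End F V) = LinearMap.det (γ : End F (Eg x 1)) := by
  have he : Eg x 1 ≤ (Eg x 1).comap (g : End F V) := fun v hv =>
    show g v ∈ _ from h0 ⟨v, hv⟩ ▸ (γ _).2
  rw [LinearMap.det_eq_det_mul_det _ _ he, show (Eg x 1).mapQ _ _ he = LinearMap.id from
    Submodule.linearMap_qext _ (LinearMap.ext fun v => (Submodule.Quotient.eq _).2
      (o.ind x3 (U := ⊤) (S := (Eg x 1).comap ((g : End F V) - 1)) (fun _ _ => trivial)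
        (fun k v _ hv => by
          by_cases k0 : k = 0
          · have : v ∈ Eg x 1 := by simpa [k0, mem_Eg] using hv
            exact (Eg x 1).sub_mem (he this) this
          · simp [h1 k v k0 hv]) trivial)), LinearMap.det_id, mul_one]
  exact congrArg _ (LinearMap.ext fun v => Subtype.ext (h0 v).symm)

theorem Om3.det_bk_sc [Finite V] (o : Om3 w) {x : V ≃ₗ[F] V} (x3 : x ^ 3 = 1) {c : F} (hc : c ≠ 0) :
    LinearMap.det (bk x (sc V hc) : End F V) = c ^ finrank F (Eg x 1) := by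
  have e := (mem_center_iff.1 (sc_cen (V := V) hc) x).symm
  rw [o.det_blk x3 (γ := sc _ hc) (fun v => (bk_fix o.ne x3 e (mem_Eg_one.1 v.2)).symm)
    fun k v k0 hv => o.bk_other x3 e k0 hv,
    show (sc (Eg x 1) hc : End F (Eg x 1)) = c • LinearMap.id from rfl, LinearMap.det_smul,
    LinearMap.det_id, mul_one]

namespace T3

variable [Finite V] (h : T3 w P) {x y u a b g r : V ≃ₗ[F] V}
include h

theorem exists_nc (h2 : 2 ≤ finrank F V) : ∃ x ∈ P, x ∉ center _ := by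
  by_contra! hn
  have := finrank_le_one (R := F) (1 : End F V) fun f => Submodule.mem_span_singleton.1
    (h.span (F ∙ 1) (fun x hx => by
      obtain ⟨c, hc⟩ := mem_center_iff_smul.1 (hn x hx)
      exact Submodule.mem_span_singleton.2 ⟨c, (LinearMap.ext hc).symm⟩) f)
  rw [finrank_linearMap] at this
  nlinarith

theorem exists_pair (h2 : 2 ≤ finrank F V) : ∃ a ∈ P, ∃ b ∈ P, be w a b = 1 :=
  let ⟨a, ha, a0⟩ := h.exists_nc h2
  ⟨a, ha, h.partner ha a0 1⟩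

theorem zz_SLG (hx : x ∈ P) (x0 : x ∉ center _) (k : ZMod 3) : zz V w k ∈ SLG F V :=
  mem_SLG.2 (by rw [det_zz, h.finrank_fix hx x0, pow_mul, pow_three, ← h.wq_add, ← h.wq_add,
    (by decide : ∀ k : ZMod 3, k + (k + k) = 0), wq_zero, one_pow])

theorem le_SLG (h2 : 2 ≤ finrank F V) : P ≤ SLG F V := fun x hx => by
  by_cases x0 : x ∈ center _
  · obtain ⟨k, rfl⟩ := h.cen_eq hx x0
    obtain ⟨y, hy, y0⟩ := h.exists_nc h2
    exact h.zz_SLG hy y0 k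
  · obtain ⟨u, hu, e⟩ := h.partner hx x0 1
    have := congrArg LinearEquiv.det (h.gt_act hx hu)
    rw [e, pw_one, map_mul, map_mul, map_mul, map_mul, map_inv, mul_right_comm, mul_inv_cancel,
      h.zz_SLG hx x0 _, left_eq_mul] at this
    exact this

theorem gt_UG (hP : P ≤ UG B) (hx : x ∈ P) : gt w x ∈ UG B :=
  mul_mem (hP h.z) (bk_UG h.ne (h.cub x hx) (zz_comm 1 x).symm (hP hx) (hP h.z))

section Three

variable (h3 : finrank F V = 3)
include h3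

theorem line (hx : x ∈ P) (x0 : x ∉ center _) {v₀ v : V} (v0 : v₀ ≠ 0) (h0 : x v₀ = v₀)
    (hv : x v = v) : ∃ c : F, v = c • v₀ := by
  have := h.finrank_fix hx x0
  obtain ⟨c, hc⟩ := (finrank_eq_one_iff_of_nonzero' (⟨v₀, mem_Eg_one.2 h0⟩ : Eg x 1)
    fun e => v0 (congrArg Subtype.val e)).1 (show finrank F (Eg x 1) = 1 by omega)
    ⟨v, mem_Eg_one.2 hv⟩
  exact ⟨c, (congrArg Subtype.val hc).symm⟩

theorem scalar3 (ha : a ∈ P) (hb : b ∈ P) (e : be w a b ≠ 0) {f : End F V}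
    (fa : ∀ v, f (a v) = a (f v)) (fb : ∀ v, f (b v) = b (f v)) : ∃ c : F, ∀ v, f v = c • v := by
  obtain ⟨v₀, v0, h0⟩ := h.exists_fix ha (h.notMem_of_be e)
  obtain ⟨c, hc⟩ := h.line h3 ha (h.notMem_of_be e) v0 h0 (v := f v₀) (by rw [← fa, h0])
  refine ⟨c, fun v => h.transfer ha hb e (U := ⊤) (fun _ _ => trivial) (fun _ _ => trivial)
    (g := c • 1) (fun v _ => fb v) (by simp) (l := 0) (fun v _ hv => ?_) trivial⟩
  obtain ⟨d, rfl⟩ := h.line h3 ha (h.notMem_of_be e) v0 h0 (eig0.1 hv)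
  simp [hc, smul_comm c d]

theorem cen3 (ha : a ∈ P) (hb : b ∈ P) (e : be w a b ≠ 0) (ga : g * a = a * g)
    (gb : g * b = b * g) : g ∈ center _ :=
  mem_center_iff_smul.2 (h.scalar3 h3 ha hb e (f := g) (comm_apply ga) (comm_apply gb))

theorem triv3 (ha : a ∈ P) (hb : b ∈ P) (e : be w a b = 1) {k l : ZMod 3}
    (ga : g * a * g⁻¹ = zz V w k * a) (gb : g * b * g⁻¹ = zz V w l * b) :
    ∃ r ∈ P, r⁻¹ * g ∈ center _ := by
  have hr := mul_mem (pw_mem ha l) (pw_mem hb (-k))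
  have key : ∀ {c m}, c ∈ P → g * c * g⁻¹ = zz V w m * c → be w (pw a l * pw b (-k)) c = m →
      (pw a l * pw b (-k))⁻¹ * g * c = c * ((pw a l * pw b (-k))⁻¹ * g) := fun hc e1 e2 => by
    rw [← e2, ← h.conj_eq hr hc] at e1
    generalize pw a l * pw b (-k) = r at e1 ⊢
    rw [mul_assoc, mul_inv_eq_iff_eq_mul.1 e1]; group
  refine ⟨_, hr, h.cen3 h3 ha hb (by simp [e]) (key ha ga ?_) (key hb gb ?_)⟩ <;>
    simp [h.be_mul_left (pw_mem ha _) (pw_mem hb _), h.be_pw_left, h.be_comm ha hb, h.be_self, *]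

omit h3 in
theorem be_gt_pw (hu : u ∈ P) (ha : a ∈ P) (hb : b ∈ P) (k : ZMod 3) :
    be w (pw (gt w u) k * a * (pw (gt w u) k)⁻¹) b = be w a b + k * be w u a * be w u b := by
  rcases z3 k with rfl | rfl | rfl
  · simp
  · simp [h.be_gt hu ha hb]
  · rw [pw_two, mul_inv_rev, show ∀ a b c : V ≃ₗ[F] V, a * a * b * (c * c) = a * (a * b * c) * c from
      fun _ _ _ => by group, h.be_gt hu (h.gt_act_mem hu ha) hb, h.be_gt hu ha hb,
      h.be_comm (h.gt_act_mem hu ha) hu, h.be_gt hu ha hu, h.be_self, h.be_comm hu ha]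
    ring

theorem gen3 {Γ : Subgroup (V ≃ₗ[F] V)} (hP : P ≤ Γ) (hΓ : ∀ x ∈ P, gt w x ∈ Γ) (hg : g ∈ Nm P) :
    ∃ m ∈ Γ, m⁻¹ * g ∈ center _ := by
  obtain ⟨a, ha, b, hb, e⟩ := h.exists_pair (by omega)
  obtain ⟨n, hn, e1⟩ := h.conn (Γ := Γ ⊓ Nm P) (fun x hx => ⟨hΓ x hx, h.gt_mem_Nm hx⟩) ha
    (h.notMem_of_be (y := b) (by simp [e])) (Nm_conj hg ha)
    (h.notMem_of_be (y := g * b * g⁻¹) (by simp [h.be_conj ha hb, e]))
  obtain ⟨g, rfl⟩ : ∃ g', g = n * g' := ⟨n⁻¹ * g, by simp⟩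
  have hg' : g ∈ Nm P := ((Nm P).mul_mem_cancel_left hn.2).1 hg
  have ga : g * a * g⁻¹ = a := by
    rw [← mul_right_inj n, ← mul_left_inj n⁻¹, e1]; group
  have hb' := Nm_conj hg' hb
  obtain ⟨m, hm⟩ : ∃ m, m = pw (gt w a) (be w (g * b * g⁻¹) b) := ⟨_, rfl⟩
  have m1 : m ∈ Nm P := hm ▸ pw_mem (h.gt_mem_Nm ha) _
  have ma : m * a = a * m := hm ▸ (pw_comm (h.gt_comm (h.cub a ha) rfl) _).symm
  have hd := mul_mem hb' (inv_mem (Nm_conj m1 hb))
  obtain ⟨l, hl⟩ := h.cen_eq hd (h.cen3 h3 ha hb (by simp [e]) (h.comm_of_be hd ha (by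
      rw [h.be_mul_left hb' (inv_mem (Nm_conj m1 hb)) ha, h.be_inv_left (Nm_conj m1 hb) ha]
      nth_rw 1 [← ga]
      rw [← conj_eq_of_comm ma, h.be_conj hb ha, h.be_conj hb (by rwa [conj_eq_of_comm ma]),
        conj_eq_of_comm ma, add_neg_cancel])) (h.comm_of_be hd hb (by
      rw [h.be_mul_left hb' (inv_mem (Nm_conj m1 hb)) hb, h.be_inv_left (Nm_conj m1 hb) hb, hm,
        h.be_gt_pw ha hb hb, e, h.be_self]; ring)))
  obtain ⟨r, hr, e2⟩ := h.triv3 h3 ha hb e (g := m⁻¹ * g) (k := 0) (l := l) (by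
      rw [mul_inv_rev, mul_assoc, mul_assoc, ← mul_assoc a, ← mul_assoc g, ← mul_assoc g, ga,
        inv_inv, ← ma]; simp) (by
      rw [mul_inv_eq_iff_eq_mul] at hl
      rw [mul_inv_rev, mul_assoc, mul_assoc, ← mul_assoc b, ← mul_assoc g, ← mul_assoc g, hl,
        ← mul_assoc, ← mul_assoc, zz_comm]; group)
  exact ⟨n * m * r, mul_mem (mul_mem hn.1 (hm ▸ pw_mem (hΓ a ha) _)) (hP hr), by
    convert e2 using 1; group⟩

theorem card27 : Nat.card P = 27 := by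
  obtain ⟨a, ha, b, hb, e⟩ := h.exists_pair (by omega)
  have m := fun k i j => mul_mem (h.zz_mem k) (mul_mem (pw_mem ha i) (pw_mem hb j))
  have e1 : ∀ k i j, be w (zz V w k * (pw a i * pw b j)) b = i := fun k i j => by
    simp [h.be_zz_left (mul_mem (pw_mem ha i) (pw_mem hb j)), h.be_pw_left,
      h.be_mul_left (pw_mem ha _) (pw_mem hb _), h.be_self, *]
  have e2 : ∀ k i j, be w a (zz V w k * (pw a i * pw b j)) = j := fun k i j => by
    simp [h.be_zz_right (mul_mem (pw_mem ha i) (pw_mem hb j)), h.be_pw_right,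
      h.be_mul_right (pw_mem ha _) (pw_mem hb _), h.be_self, *]
  rw [← Nat.card_eq_of_bijective (fun p : ZMod 3 × ZMod 3 × ZMod 3 => (⟨_, m p.1 p.2.1 p.2.2⟩ : P))
    ⟨fun ⟨k, i, j⟩ ⟨k', i', j'⟩ e => ?_, fun ⟨c, hc⟩ => ?_⟩]
  · simp
  · replace e : zz V w k * (pw a i * pw b j) = zz V w k' * (pw a i' * pw b j') :=
      congrArg Subtype.val e
    obtain rfl : i = i' := by rw [← e1 k i j, e, e1]
    obtain rfl : j = j' := by rw [← e2 k i j, e, e2]
    have := h.nt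
    rw [h.zz_inj (mul_right_cancel e)]
  · have hr := m 0 (be w c b) (be w a c)
    have hd := mul_mem hc (inv_mem hr)
    obtain ⟨k, hk⟩ := h.cen_eq hd (h.cen3 h3 ha hb (by simp [e])
      (h.comm_of_be ha hd (by
        rw [h.be_mul_right hc (inv_mem hr) ha, h.be_inv_right hr ha, e2, add_neg_cancel])).symm
      (h.comm_of_be hd hb (by
        rw [h.be_mul_left hc (inv_mem hr) hb, h.be_inv_left hr hb, e1, add_neg_cancel])))
    exact ⟨(k, be w c b, be w a c), Subtype.ext (by simp [← hk, mul_assoc])⟩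

end Three

theorem be_res (hx : x ∈ P) (x0 : x ∉ center _) (ha : a ∈ P) (hb : b ∈ P)
    {α β : Eg x 1 ≃ₗ[F] Eg x 1} (e : ∀ v : Eg x 1, (α v : V) = a v)
    (e' : ∀ v : Eg x 1, (β v : V) = b v) : be w α β = be w a b :=
  (h.res hx x0).be_eq' (LinearEquiv.ext fun v => Subtype.ext (by
    simpa [e, e'] using LinearEquiv.congr_fun (h.be_spec ha hb) v))

theorem sc_or (hx : x ∈ P) (x0 : x ∉ center _) (hr : r ∈ P) (rx : r * x = x * r) :
    (∃ k, ∀ v, x v = v → r v = wq w k • v) ∨ ∃ s ∈ P, s * x = x * s ∧ be w r s = 1 := by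
  by_cases c : rE r (fix_mem rx) ∈ center _
  · obtain ⟨k, hk⟩ := (h.res hx x0).cen_eq (rE_mem hr _) c
    exact .inl ⟨k, fun v hv =>
      congrArg Subtype.val (LinearEquiv.congr_fun hk ⟨v, mem_Eg_one.2 hv⟩)⟩
  · obtain ⟨_, ⟨s, hs, e⟩, e'⟩ := (h.res hx x0).partner (rE_mem hr _) c 1
    exact .inr ⟨s, hs, h.fix_of_rG hx x0 hs e, (h.be_res hx x0 hr hs (fun _ => rfl) e).symm.trans e'⟩

theorem exists_eig2 (hx : x ∈ P) (x0 : x ∉ center _) (ha : a ∈ P) (hb : b ∈ P)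
    (ax : a * x = x * a) (bx : b * x = x * b) (e : be w a b ≠ 0) (k : ZMod 3) :
    ∃ v, v ≠ 0 ∧ x v = v ∧ a v = wq w k • v := by
  obtain ⟨v, v0, hv⟩ := (h.res hx x0).exists_eig (rE_mem ha (fix_mem ax))
    ((h.res hx x0).notMem_of_be (y := rE b (fix_mem bx))
      (by rwa [h.be_res hx x0 ha hb (fun _ => rfl) fun _ => rfl])) k
  exact ⟨v, fun e => v0 (Subtype.ext e), mem_Eg_one.1 v.2, congrArg Subtype.val hv⟩

section Nine

variable (h9 : finrank F V = 9)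
include h9

theorem fin3 (hx : x ∈ P) (x0 : x ∉ center _) : finrank F (Eg x 1) = 3 := by
  have := h.finrank_fix hx x0; omega

theorem gt_SLG (hx : x ∈ P) : gt w x ∈ SLG F V := by
  refine mul_mem (h.le_SLG (by omega) h.z) (mem_SLG.2 ?_)
  rw [zz, h.det_bk_sc (h.cub x hx)]
  have e : wq w 1 ^ 3 = 1 := by rw [wq_one, ← Units.val_pow_eq_pow_val, h.cube, Units.val_one]
  by_cases x0 : x ∈ center _
  · obtain ⟨k, rfl⟩ := h.cen_eq hx x0
    by_cases k0 : k = 0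
    · rw [show Eg (zz V w k) 1 = ⊤ from eq_top_iff.2 fun v _ => by simp [mem_Eg, k0], finrank_top,
        h9, show 9 = 3 * 3 from rfl, pow_mul, e, one_pow]
    · rw [show Eg (zz V w k) 1 = ⊥ from eq_bot_iff.2 fun v hv =>
        h.eig_zero (x := zz V w k) rfl (eig0.2 (mem_Eg_one.1 hv)) k0, finrank_bot, pow_zero]
  · rw [h.fin3 h9 hx x0, e]

theorem exists_ab (hx : x ∈ P) (x0 : x ∉ center _) :
    ∃ a ∈ P, ∃ b ∈ P, a * x = x * a ∧ b * x = x * b ∧ be w a b = 1 := by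
  obtain ⟨_, ⟨a, ha, e⟩, _, ⟨b, hb, e'⟩, e1⟩ := (h.res hx x0).exists_pair (by rw [h.fin3 h9 hx x0]; omega)
  exact ⟨a, ha, b, hb, h.fix_of_rG hx x0 ha e, h.fix_of_rG hx x0 hb e',
    (h.be_res hx x0 ha hb e e').symm.trans e1⟩

omit h9 in
theorem adjust (hx : x ∈ P) (hu : u ∈ P) (e : be w x u ≠ 0) (hr : r ∈ P) (rx : r * x = x * r) :
    ∃ r' ∈ P, r' * x = x * r' ∧ r' * u = u * r' ∧ (∀ v, x v = v → r' v = r v) ∧
      ∀ s ∈ P, s * x = x * s → be w r' s = be w r s := by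
  have hm := pw_mem hx (-(be w r u * be w x u))
  refine ⟨_, mul_mem hr hm, comm_mul rx (pw_comm rfl _).symm, h.comm_of_be (mul_mem hr hm) hu ?_,
    fun v hv => ?_, fun s hs sx => ?_⟩
  · rw [h.be_mul_left hr hm hu, h.be_pw_left hx hu, neg_mul, mul_assoc,
      (by decide : ∀ k : ZMod 3, k ≠ 0 → k * k = 1) _ e, mul_one, add_neg_cancel]
  · simp [h.pw_eig (eig0.2 hv)]
  · rw [h.be_mul_left hr hm hs, h.be_pw_left hx hs, h.be_of_comm sx.symm, mul_zero, add_zero]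

theorem exists_ab' (hx : x ∈ P) (hu : u ∈ P) (e : be w x u ≠ 0) : ∃ a ∈ P, ∃ b ∈ P,
    a * x = x * a ∧ b * x = x * b ∧ a * u = u * a ∧ b * u = u * b ∧ be w a b = 1 := by
  obtain ⟨a, ha, b, hb, ax, bx, e1⟩ := h.exists_ab h9 hx (h.notMem_of_be e)
  obtain ⟨a', ha', a1, a2, -, a3⟩ := h.adjust hx hu e ha ax
  obtain ⟨b', hb', b1, b2, -, b3⟩ := h.adjust hx hu e hb bx
  exact ⟨a', ha', b', hb', a1, b1, a2, b2, by
    rw [a3 b' hb' b1, h.be_comm hb' ha, b3 a ha ax, h.be_comm ha hb, neg_neg, e1]⟩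

theorem sc9 (hx : x ∈ P) (x0 : x ∉ center _) (ha : a ∈ P) (hb : b ∈ P) (ax : a * x = x * a)
    (bx : b * x = x * b) (e : be w a b ≠ 0) {f : End F V} (fx : ∀ v, x v = v → x (f v) = f v)
    (fa : ∀ v, x v = v → f (a v) = a (f v)) (fb : ∀ v, x v = v → f (b v) = b (f v)) :
    ∃ c : F, ∀ v, x v = v → f v = c • v := by
  obtain ⟨c, hc⟩ := (h.res hx x0).scalar3 (h.fin3 h9 hx x0) (rE_mem ha (fix_mem ax))
    (rE_mem hb (fix_mem bx)) (by rwa [h.be_res hx x0 ha hb (fun _ => rfl) fun _ => rfl])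
    (f := f.restrict fun v hv => mem_Eg_one.2 (fx v (mem_Eg_one.1 hv)))
    (fun v => Subtype.ext (fa v (mem_Eg_one.1 v.2))) fun v => Subtype.ext (fb v (mem_Eg_one.1 v.2))
  exact ⟨c, fun v hv => congrArg Subtype.val (hc ⟨v, mem_Eg_one.2 hv⟩)⟩

theorem cen4 (hx : x ∈ P) (hu : u ∈ P) (e : be w x u ≠ 0) (ha : a ∈ P) (hb : b ∈ P)
    (ax : a * x = x * a) (bx : b * x = x * b) (e' : be w a b ≠ 0) (gx : g * x = x * g)
    (gu : g * u = u * g) (ga : g * a = a * g) (gb : g * b = b * g) : g ∈ center _ := by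
  obtain ⟨c, hc⟩ := h.sc9 h9 hx (h.notMem_of_be e) ha hb ax bx e' (f := g)
    (fun v hv => by simp [← comm_apply gx, hv]) (fun v _ => comm_apply ga v)
    fun v _ => comm_apply gb v
  exact mem_center_of_smul (c := c) fun v => h.transfer hx hu e (U := ⊤) (fun _ _ => trivial)
    (fun _ _ => trivial) (f := g) (g := c • 1) (fun v _ => comm_apply gu v) (by simp) (l := 0)
    (fun v _ hv => hc v (eig0.1 hv)) trivial

theorem line9 (hx : x ∈ P) (x0 : x ∉ center _) (ha : a ∈ P) (hb : b ∈ P) (ax : a * x = x * a)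
    (bx : b * x = x * b) (e : be w a b ≠ 0) {v₀ v : V} (v0 : v₀ ≠ 0) (h0 : x v₀ = v₀)
    (h1 : a v₀ = v₀) (h2 : x v = v) (h3 : a v = v) : ∃ c : F, v = c • v₀ := by
  obtain ⟨c, hc⟩ := (h.res hx x0).line (h.fin3 h9 hx x0) (rE_mem ha (fix_mem ax))
    ((h.res hx x0).notMem_of_be (y := rE b (fix_mem bx))
      (by rwa [h.be_res hx x0 ha hb (fun _ => rfl) fun _ => rfl]))
    (v₀ := ⟨v₀, mem_Eg_one.2 h0⟩) (v := ⟨v, mem_Eg_one.2 h2⟩) (fun e => v0 (congrArg Subtype.val e))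
    (Subtype.ext h1) (Subtype.ext h3)
  exact ⟨c, congrArg Subtype.val hc⟩

end Nine

end T3

end CF.MaxSub.E9
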