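/-
Normalisers of `3^{1+4}`: non-central elements are pinned.
-/
import Cfsg.Agent.MaxSub.E9D

set_option autoImplicit false
set_option linter.unusedSectionVars false

namespace CF.MaxSub.E9

open Module Subgroup Geom

variable {F V : Type*} [Field F] [AddCommGroup V] [Module F V] {w : Fˣ}
  {P H : Subgroup (V ≃ₗ[F] V)} {σ : F →+* F} {B : V →ₛₗ[σ] V →ₗ[F] F}

/-- A commutator. -/
def cmt {G : Type*} [Group G] (g c : G) : G := g * c * g⁻¹ * c⁻¹

theorem conj_eq_cm {G : Type*} [Group G] (g c : G) : g * c * g⁻¹ = cmt g c * c := by simp [cmt]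

theorem cm_eq_one {G : Type*} [Group G] {g c : G} : cmt g c = 1 ↔ g * c = c * g := by
  rw [cmt, mul_inv_eq_one, mul_inv_eq_iff_eq_mul]

theorem cm_mem {G : Type*} [Group G] {P : Subgroup G} {g c : G} (hg : g ∈ Nm P) (hc : c ∈ P) :
    cmt g c ∈ P := mul_mem (Nm_conj hg hc) (inv_mem hc)

theorem finrank_fix_conj (x n : V ≃ₗ[F] V) :
    finrank F (Eg (n * x * n⁻¹) 1) = finrank F (Eg x 1) := by
  rw [← LinearEquiv.finrank_map_eq n (Eg x 1), show (Eg x 1).map (n : End F V) = Eg (n * x * n⁻¹) 1 from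
    Submodule.ext fun v => by
      obtain ⟨v, rfl⟩ := n.surjective v
      simp [mem_Eg, inv_apply_apply, -LinearEquiv.coe_inv]]

namespace T3

variable [Finite V] (h : T3 w P) {x y u a b c g r : V ≃ₗ[F] V}
include h

theorem cen_of_be (hx : x ∈ P) (e : ∀ y ∈ P, be w x y = 0) : x ∈ center _ :=
  h.schur fun y hy => h.comm_of_be hx hy (e y hy)

theorem be_cm (hg : g ∈ Nm P) (hc : c ∈ P) (hy : y ∈ P) :
    be w (cmt g c) y = be w c (g⁻¹ * y * g) - be w c y := by
  rw [cmt, h.be_mul_left (Nm_conj hg hc) (inv_mem hc) hy, h.be_conj' hg hc hy,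
    h.be_inv_left hc hy, sub_eq_add_neg]

theorem cm3 (hg : g ∈ Nm P) (g3 : g ^ 3 = 1) (hc : c ∈ P) : cmt g (cmt g (cmt g c)) ∈ center _ := by
  have m : ∀ {y}, y ∈ P → g⁻¹ * y * g ∈ P := fun hy => by simpa using Nm_conj (inv_mem hg) hy
  refine h.cen_of_be (cm_mem hg (cm_mem hg (cm_mem hg hc))) fun y hy => ?_
  rw [h.be_cm hg (cm_mem hg (cm_mem hg hc)) hy, h.be_cm hg (cm_mem hg hc) hy,
    h.be_cm hg (cm_mem hg hc) (m hy), h.be_cm hg hc hy, h.be_cm hg hc (m hy),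
    h.be_cm hg hc (m (m hy)), show g⁻¹ * (g⁻¹ * (g⁻¹ * y * g) * g) * g = (g ^ 3)⁻¹ * y * g ^ 3 by
      simp only [pow_three]; group, g3, inv_one, one_mul, mul_one]
  generalize be w c y = p, be w c (g⁻¹ * y * g) = q, be w c (g⁻¹ * (g⁻¹ * y * g) * g) = r
  revert p q r; decide

theorem gt_cen (x3 : x ^ 3 = 1) (d : finrank F V = 3 * finrank F (Eg x 1)) :
    gt w x ∉ center _ := fun hc => by
  obtain ⟨c, hc⟩ := mem_center_iff_smul.1 hc
  have := h.nt
  have p : 0 < finrank F V := finrank_pos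
  obtain ⟨v, v0⟩ := finrank_pos_iff_exists_ne_zero.1 (show 0 < finrank F (Eg x 1) by omega)
  obtain rfl : c = wq w 2 := smul_left_injective F (fun e => v0 (Subtype.ext e))
    ((hc v).symm.trans ((h.gt_fix x3).2 (mem_Eg_one.1 v.2)))
  rw [show Eg x 1 = ⊤ from eq_top_iff.2 fun v _ => mem_Eg_one.2 ((h.gt_fix x3).1 (hc v)),
    finrank_top] at d
  omega

/-- Recognition of gates. -/
theorem gate_rec (a3 : a ^ 3 = 1) (d : finrank F V = 3 * finrank F (Eg a 1))
    (hA : gt w a ∈ Nm P) : ∃ x ∈ P, x ∉ center _ ∧ gt w x = gt w a := by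
  have A3 := h.gt_cube a3
  obtain ⟨c, hc, c1, c2⟩ : ∃ c ∈ P, cmt (gt w a) c ≠ 1 ∧ cmt (gt w a) (cmt (gt w a) c) = 1 := by
    by_contra! hn
    refine h.gt_cen a3 d (h.schur fun c hc => by_contra fun e => ?_)
    exact hn _ (cm_mem hA (cm_mem hA hc)) (hn _ (cm_mem hA hc) (hn c hc (mt cm_eq_one.1 e)))
      (cm_eq_one.2 (mem_center_iff.1 (h.cm3 hA A3 hc) _))
  have hd := cm_mem hA hc
  have e : gt w (c * a * c⁻¹) * cmt (gt w a) c = gt w a := by
    rw [← h.gt_conj a3, show c * gt w a * c⁻¹ = (cmt (gt w a) c)⁻¹ * gt w a by rw [cmt]; group,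
      mul_assoc, cm_eq_one.1 c2, inv_mul_cancel_left]
  rw [cm_eq_one] at c2
  generalize cmt (gt w a) c = δ at *
  have key : ∀ k, k ≠ 0 → ∀ v, δ v = wq w k • v → gt w a v = wq w (-k) • v := fun k k0 v hv =>
    h.ext_on A3 (U := Eg δ (wq w k)) (fun u hu => map_mem_Eg c2 hu) (gt w a : End F V)
      (wq w (-k) • 1) (fun m v h1 h2 => by
        by_cases e1 : m = -k
        · simpa [e1] using h2
        by_cases m0 : m = 0
        · simp [h.gt_ne_fix a3 (eig0.1 (m0 ▸ h2))]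
        obtain rfl : m = k := (by decide : ∀ k m : ZMod 3, k ≠ 0 → m ≠ -k → m ≠ 0 → m = k) k m k0 e1 m0
        have := LinearEquiv.congr_fun e v
        rw [LinearEquiv.mul_apply, mem_Eg.1 h1, map_smul, h2, smul_right_inj (wq_ne w m)] at this
        simp [h.gt_ne_fix (conj_cube a3 c) this]) hv
  have d0 : δ ∉ center _ := fun hc => by
    obtain ⟨k, rfl⟩ := h.cen_eq hd hc
    exact h.gt_cen a3 d (mem_center_of_smul fun v => key k (by rintro rfl; simp at c1) v rfl)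
  have hx := mul_mem (h.zz_mem (-1)) hd
  have x0 : zz V w (-1) * δ ∉ center _ := by rwa [mul_mem_cancel_left (zz_cen _)]
  have e1 : Eg (zz V w (-1) * δ) 1 = Eg a 1 := Submodule.eq_of_le_of_finrank_le
    (fun v hv => mem_Eg_one.2 ((h.gt_fix a3).1
      (key 1 (by decide) v ((h.zz_mul_fix 1).1 (mem_Eg_one.1 hv)))))
    (by have := h.finrank_fix hx x0; omega)
  refine ⟨_, hx, x0, h.ext (h.cub _ hx) fun k v hv => ?_⟩
  rw [h.gt_eig (h.cub _ hx) hv]
  by_cases k0 : k = 0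
  · rw [k0] at hv ⊢
    exact ((h.gt_fix a3).2 (mem_Eg_one.1 (e1 ▸ mem_Eg_one.2 (eig0.1 hv)))).symm
  rw [(by decide : ∀ k : ZMod 3, k ≠ 0 → 2 - k * k = 1) k k0]
  refine h.ext_on A3 (U := Eg _ (wq w k)) (fun u hu => map_mem_Eg
    (comm_mul (zz_comm _ _).symm c2.symm).symm hu) (wq w 1 • 1) (gt w a : End F V)
      (fun m v h1 h2 => ?_) hv
  rcases z3 m with rfl | rfl | rfl
  · simp [h.gt_ne_fix a3 (eig0.1 h2)]
  · exact h2.symm
  · simp [h.eig_zero h1 (eig0.2 (mem_Eg_one.1 (e1 ▸ mem_Eg_one.2 ((h.gt_fix a3).1 h2)))) k0]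

theorem comm_of_gt (hx : x ∈ P) (hy : y ∈ P) {v : V} (v0 : v ≠ 0) (hv : x v = v)
    (e : gt w y v = wq w 1 • v) : x * y = y * x := by
  refine h.comm_of_be hx hy (by_contra fun e1 => v0 ?_)
  rw [gt, LinearEquiv.mul_apply, zz_apply, smul_right_inj (wq_ne w 1),
    bk_apply h.ne (h.cub y hy) (zz_comm 1 y).symm, add_eq_left, zz_apply, sub_eq_zero] at e
  have e2 := congrArg (pe x) (h.eig_zero (x := zz V w 1) (k := 1) rfl (eig0.2 e) (by decide))
  have s1 := h.shift hx hy (eig0.2 hv)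
  have s2 := h.shift hx hy s1
  rw [pe_apply y, map_smul, map_add, map_add, pe_self h.ne hv, h.pe_zero (by simpa) s1,
    h.pe_zero ((by decide : ∀ k : ZMod 3, k ≠ 0 → k + (k + 0) ≠ 0) _ e1) s2] at e2
  simpa [h.ne] using e2

theorem mem_of_gates (a3 : a ^ 3 = 1) (d : ∀ k, finrank F V = 3 * finrank F (Eg (zz V w k * a) 1))
    (hA : ∀ k, gt w (zz V w k * a) ∈ Nm P) : a ∈ P := by
  obtain ⟨x, hx, x0, e0⟩ := h.gate_rec (h.zz_mul_cube a3 0) (d 0) (hA 0)
  obtain ⟨y, hy, y0, e1⟩ := h.gate_rec (h.zz_mul_cube a3 (-1)) (d _) (hA _)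
  rw [zz_zero, one_mul] at e0
  have f0 : ∀ v, x v = v → a v = v := fun v hv =>
    (h.gt_fix a3).1 (e0 ▸ (h.gt_fix (h.cub x hx)).2 hv)
  have f1 : ∀ v, v ≠ 0 → x v = v → y v ≠ v := fun v v0 hv hv' => v0 (h.eig_zero (eig0.2 (f0 v hv))
    ((h.zz_mul_fix 1).1 ((h.gt_fix (h.zz_mul_cube a3 _)).1 (e1 ▸ (h.gt_fix (h.cub y hy)).2 hv')))
    (by decide))
  obtain ⟨v, v0, hv⟩ := h.exists_fix hx x0
  have xy := h.comm_of_gt hx hy v0 hv (e1 ▸ h.gt_eig (h.zz_mul_cube a3 _)
    ((h.zz_mul_eig (-1) 0).2 (eig0.2 (f0 v hv))))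
  rcases h.sc_or hx x0 hy xy.symm with ⟨k, e⟩ | ⟨s, hs, sx, e⟩
  · obtain ⟨k, m, rfl⟩ := h.dep hx x0 hy (l := 0) fun v hv => e v (eig0.1 hv)
    have k0 : k ≠ 0 := by
      rintro rfl
      exact f1 v v0 hv (by simp [h.pw_eig (eig0.2 hv)])
    have m0 : m ≠ 0 := by
      rintro rfl
      exact y0 (by simpa using zz_cen k)
    have e2 : zz V w 1 * a * gt w (zz V w k * pw x m) = gt w x := by
      rw [e0, e1]
      refine h.ext a3 fun l v hv => ?_
      simp only [LinearEquiv.mul_apply, h.gt_eig a3 hv, h.gt_eig (h.zz_mul_cube a3 _)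
        ((h.zz_mul_eig (-1) l).2 hv), map_smul, hv, zz_apply, smul_smul, ← h.wq_add]
      congr 2
      clear hv; revert l; decide
    suffices e3 : zz V w 1 * pw x (2 * k * m) * gt w (zz V w k * pw x m) = gt w x from
      mul_left_cancel (mul_right_cancel (e2.trans e3.symm)) ▸ pw_mem hx _
    refine h.ext (h.cub x hx) fun l v hv => ?_
    simp only [LinearEquiv.mul_apply, h.gt_eig (h.cub x hx) hv, h.gt_eig (h.cub _ hy)
      ((h.zz_mul_eig k _).2 (h.pw_eig hv m)), map_smul, h.pw_eig hv, zz_apply, smul_smul,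
      ← h.wq_add]
    congr 2
    exact (by decide : ∀ k m l : ZMod 3, k ≠ 0 → m ≠ 0 →
      2 - (k + m * l) * (k + m * l) + (2 * k * m * l + 1) = 2 - l * l) k m l k0 m0
  · obtain ⟨v, v0, h1, h2⟩ := h.exists_eig2 hx x0 hy hs xy.symm sx (by simp [e]) 0
    exact (f1 v v0 h1 (eig0.1 h2)).elim

theorem exists_comm (h9 : finrank F V = 9) (hg : g ∈ Nm P) (g3 : g ^ 3 = 1) :
    ∃ a ∈ P, a ∉ center _ ∧ g * a = a * g := by
  by_contra! hn
  have L : ∀ {a b k l}, a ∈ P → b ∈ P → cmt g a = zz V w k → cmt g b = zz V w l →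
      pw a l * pw b (-k) ∈ center _ := fun {a b k l} ha hb e1 e2 => by
    have p : ∀ {a k} m, cmt g a = zz V w k → g * pw a m * g⁻¹ = zz V w (m * k) * pw a m :=
      fun {a k} m e => by
        have := conj_eq_cm g a
        rw [e] at this
        rcases z3 m with rfl | rfl | rfl
        · simp
        · simpa
        · rw [pw_two, ← conj_mul, this, two_mul, h.zz_add, mul_assoc, ← mul_assoc a, zz_comm]; group
    by_contra c
    refine hn _ (mul_mem (pw_mem ha _) (pw_mem hb _)) c (comm_of_conj ?_)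
    rw [← conj_mul, p _ e1, p _ e2, mul_assoc, ← mul_assoc (pw a l), zz_comm, ← mul_assoc,
      ← mul_assoc, ← h.zz_add, show l * k + -k * l = 0 by ring, zz_zero, one_mul]
  have L2 : ∀ {a b}, a ∈ P → b ∈ P → cmt g a ∈ center _ → cmt g b ∈ center _ → be w a b ≠ 1 :=
    fun {a b} ha hb e1 e2 e => by
      obtain ⟨k, e1⟩ := h.cen_eq (cm_mem hg ha) e1
      obtain ⟨l, e2⟩ := h.cen_eq (cm_mem hg hb) e2
      have := h.be_cen_right (y := a) (L ha hb e1 e2)
      rw [h.be_mul_right (pw_mem ha _) (pw_mem hb _) ha, h.be_pw_right ha ha, h.be_pw_right hb ha,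
        h.be_self, e, mul_zero, zero_add, mul_one, neg_eq_zero] at this
      rw [this, zz_zero, cm_eq_one] at e1
      exact hn a ha (h.notMem_of_be (y := b) (by simp [e])) e1
  have L3 : ∀ c ∈ P, cmt g (cmt g c) ∈ center _ := fun c hc => by
    by_contra a0
    have hb := cm_mem hg hc
    have ha := cm_mem hg hb
    obtain ⟨k, hk⟩ := h.cen_eq (cm_mem hg ha) (h.cm3 hg g3 hc)
    have e1 := conj_eq_cm g c
    have e2 := conj_eq_cm g (cmt g c)
    have e3 := conj_eq_cm g (cmt g (cmt g c))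
    rw [hk] at e3
    generalize cmt g c = b at *
    generalize cmt g b = a at *
    have e4 := h.be_conj ha hc g
    rw [e1, e3, h.be_zz_left ha (mul_mem hb hc), h.be_mul_right hb hc ha, add_eq_right] at e4
    have ab := h.comm_of_be ha hb e4
    have e5 : g * (g * (g * c * g⁻¹) * g⁻¹) * g⁻¹ = c := by
      rw [show g * (g * (g * c * g⁻¹) * g⁻¹) * g⁻¹ = g ^ 3 * c * (g ^ 3)⁻¹ by
        simp only [pow_three]; group, g3]; simp
    rw [e1, ← conj_mul (a := b) (c := c), e1, e2, ← conj_mul (a := a * b), ← conj_mul (a := a),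
      ← conj_mul (a := b) (c := c), e1, e2, e3,
      show zz V w k * a * (a * b) * (a * b * (b * c)) = zz V w k * (a * a * (b * a) * b * b) * c by
        group, ← ab, show a * a * (a * b) * b * b = a ^ 3 * b ^ 3 by simp only [pow_three]; group,
      h.cub a ha, h.cub b hb, mul_one, mul_one, mul_eq_right] at e5
    rw [e5, one_mul] at e3
    exact hn a ha a0 (comm_of_conj e3)
  by_cases hb : ∃ b ∈ P, cmt g b ∉ center _
  swap
  · push Not at hb
    obtain ⟨a, ha, b, hb', e⟩ := h.exists_pair (by omega)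
    exact L2 ha hb' (hb a ha) (hb b hb') e
  obtain ⟨b, hb, a0⟩ := hb
  have ha := cm_mem hg hb
  obtain ⟨k, hk⟩ := h.cen_eq (cm_mem hg ha) (L3 b hb)
  have k0 : k ≠ 0 := fun e => hn _ ha a0 (cm_eq_one.1 (by rw [hk, e, zz_zero]))
  have e1 := conj_eq_cm g b
  generalize cmt g b = a at *
  have L4 : ∀ c ∈ P, ∃ i, (∀ y ∈ P, be w (cmt g c) y = i * be w a y) ∧
      be w a c = i * be w a b := fun c hc => by
    have hd := cm_mem hg hc
    obtain ⟨l, hl⟩ := h.cen_eq (cm_mem hg hd) (L3 c hc)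
    have e : ∀ y ∈ P, be w (cmt g c) y = l * k * be w a y := fun y hy => by
      have := h.be_cen_left (y := y) (L ha hd hk hl)
      rw [h.be_mul_left (pw_mem ha _) (pw_mem hd _) hy, h.be_pw_left ha hy, h.be_pw_left hd hy]
        at this
      exact (by decide : ∀ k l p q : ZMod 3, k ≠ 0 → l * p + -k * q = 0 → q = l * k * p)
        _ _ _ _ k0 this
    refine ⟨l * k, e, ?_⟩
    have := h.be_conj hc hb g
    rw [e1, conj_eq_cm g c, h.be_mul_left hd hc (mul_mem ha hb), e _ (mul_mem ha hb),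
      h.be_mul_right ha hb ha, h.be_mul_right ha hb hc, h.be_self, h.be_comm ha hc] at this
    linear_combination -this
  have ab : be w a b ≠ 0 := fun e => a0 (h.cen_of_be ha fun c hc => by
    obtain ⟨i, -, e'⟩ := L4 c hc
    rw [e', e, mul_zero])
  have L5 : ∀ c ∈ P, c * a = a * c → cmt g c ∈ center _ := fun c hc e => by
    obtain ⟨i, e1, e2⟩ := L4 c hc
    rw [h.be_of_comm e.symm, eq_comm, mul_eq_zero_iff_right ab] at e2
    exact h.cen_of_be (cm_mem hg hc) fun y hy => by rw [e1 y hy, e2, zero_mul]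
  obtain ⟨c, hc, d, hd, ca, da, e⟩ := h.exists_ab h9 ha a0
  exact L2 hc hd (L5 c hc ca) (L5 d hd da) e

theorem pin (h9 : finrank F V = 9) (gate : ∀ x ∈ P, gt w x ∈ H)
    (loc : ∀ x ∈ P, x ∉ center _ → ∀ g ∈ H, g * x = x * g → g ∈ Nm P) (hx : x ∈ P)
    (x0 : x ∉ center _) : Pin H (Nm P) x := fun g hg e => by
  obtain ⟨a, ha, a0, e1⟩ := h.exists_comm h9 e (by simpa using conj_cube (h.cub x hx) g⁻¹)
  have e2 : g * a * g⁻¹ * x = x * (g * a * g⁻¹) := by
    rw [← mul_right_inj g⁻¹, ← mul_left_inj g]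
    simpa [mul_assoc] using e1.symm
  have c : ∀ k, zz V w k * (g * a * g⁻¹) = g * (zz V w k * a) * g⁻¹ := fun k => by
    rw [← mul_assoc, ← mul_assoc, ← zz_comm]; group
  have m := fun k => mul_mem (h.zz_mem k) ha
  have ha' := h.mem_of_gates (conj_cube (h.cub a ha) g) (fun k => by
    rw [c, finrank_fix_conj]
    exact h.finrank_fix (m k) (by rwa [mul_mem_cancel_left (zz_cen _)])) fun k =>
      loc x hx x0 _ (by
        rw [c, ← h.gt_conj (h.cub _ (m k))]
        exact mul_mem (mul_mem hg (gate _ (m k))) (inv_mem hg))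
      (h.gt_comm (h.zz_mul_cube (conj_cube (h.cub a ha) g) k)
        (comm_mul (zz_comm k x).symm e2).symm).symm
  have a1 : g * a * g⁻¹ ∉ center _ := fun e => a0 (by
    simpa [mul_assoc] using (inferInstance : (center _).Normal).conj_mem _ e g⁻¹)
  obtain ⟨n, hn, e3⟩ := h.conn (Γ := H ⊓ Nm P) (fun x hx => ⟨gate x hx, h.gt_mem_Nm hx⟩) ha a0 ha' a1
  have := loc _ ha' a1 (g * n⁻¹) (H.mul_mem hg (H.inv_mem hn.1)) (comm_of_conj (by
    nth_rw 1 [← e3]; group))
  simpa using (Nm P).mul_mem this hn.2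

end T3

end CF.MaxSub.E9
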