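/-
Normalisers of `3^{1+4}`: involutions of the normaliser.
-/
import Cfsg.Agent.MaxSub.E9E
import Cfsg.Agent.Invol.Isolated

set_option autoImplicit false
set_option linter.unusedSectionVars false

namespace CF.MaxSub.E9

open Module Subgroup Geom

variable {F V : Type*} [Field F] [AddCommGroup V] [Module F V] {w : Fˣ}
  {P H : Subgroup (V ≃ₗ[F] V)} {σ : F →+* F} {B : V →ₛₗ[σ] V →ₗ[F] F}

theorem exists_pw {G : Type*} [Group G] {x g : G} (h : x ^ 3 = 1) (hg : g ∈ zpowers x) :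
    ∃ k, g = pw x k := by
  obtain ⟨n, rfl⟩ := hg
  induction n using Int.induction_on with
  | zero => exact ⟨0, by simp⟩
  | succ n ih => obtain ⟨k, hk⟩ := ih; exact ⟨k + 1, by rw [pw_add h, ← hk]; simp [zpow_add]⟩
  | pred n ih =>
    obtain ⟨k, hk⟩ := ih
    exact ⟨k + -1, by rw [pw_add h, ← hk, pw_neg h]; simp [zpow_sub]⟩

theorem eq_one_of_sq {G : Type*} [Group G] {x : G} (h : x ^ 3 = 1) (e : x * x = 1) : x = 1 := by
  rwa [pow_three, e, mul_one] at h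

theorem inv_cmt {G : Type*} [Group G] {j : G} (jj : j * j = 1) (c : G) :
    j * cmt j c * j⁻¹ = (cmt j c)⁻¹ := by
  rw [cmt, inv_eq_of_mul_eq_one_right jj, ← mul_assoc, ← mul_assoc, ← mul_assoc, jj, mul_inv_rev,
    mul_inv_rev, mul_inv_rev, inv_eq_of_mul_eq_one_right jj]; group

/-- The maps acting as scalars on `U`. -/
def ScOn (U : Submodule F V) : Subgroup (V ≃ₗ[F] V) where
  carrier := {g | ∃ c : F, ∀ v ∈ U, g v = c • v}
  mul_mem' := by
    rintro a b ⟨c, hc⟩ ⟨d, hd⟩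
    exact ⟨d * c, fun v hv => by rw [LinearEquiv.mul_apply, hd v hv, map_smul, hc v hv, mul_smul]⟩
  one_mem' := ⟨1, fun _ _ => by simp⟩
  inv_mem' := by
    rintro a ⟨c, hc⟩
    refine ⟨c⁻¹, fun v hv => ?_⟩
    by_cases c0 : c = 0
    · simp [a.map_eq_zero_iff.1 ((hc v hv).trans (by simp [c0]))]
    · exact inv_smul_apply (hc v hv) (inv_mul_cancel₀ c0)

theorem cen_le_ScOn (U : Submodule F V) : center _ ≤ ScOn U := fun _ hg =>
  let ⟨c, hc⟩ := mem_center_iff_smul.1 hg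
  ⟨c, fun v _ => hc v⟩

theorem cmt_triv [Finite V] {U : Submodule F V} {g r : V ≃ₗ[F] V} (hg : g ∈ ScOn U)
    (hr : ∀ v ∈ U, r v ∈ U) {v : V} (hv : v ∈ U) : cmt g r v = v := by
  obtain ⟨c, hc⟩ := hg
  have e : ∀ v ∈ U, g⁻¹ (r v) = r (g⁻¹ v) := fun v hv => by
    obtain ⟨d, hd⟩ := (ScOn U).inv_mem ⟨c, hc⟩
    rw [hd _ (hr v hv), hd v hv, map_smul]
  simp only [cmt, LinearEquiv.mul_apply]
  rw [← e _ (inv_mem_of hr hv), apply_inv_apply, apply_inv_apply]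

theorem mem_Nm_ScOn [Finite V] {U : Submodule F V} {D : Subgroup (V ≃ₗ[F] V)} {d : V ≃ₗ[F] V}
    (hd : d ∈ D) (h : ∀ v ∈ U, d v ∈ U) : d ∈ Nm (D ⊓ ScOn U) :=
  mem_normalizer_fintype fun g ⟨h1, c, hc⟩ => ⟨D.mul_mem (D.mul_mem hd h1) (D.inv_mem hd), c,
    fun v hv => by
      simp only [LinearEquiv.mul_apply]
      rw [hc _ (inv_mem_of h hv), map_smul, apply_inv_apply]⟩

theorem rG_Nm [Finite V] {U : Submodule F V} {c : V ≃ₗ[F] V} (hc : c ∈ Nm P) {d : U ≃ₗ[F] U}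
    (e : ∀ v : U, (d v : V) = c v) : d ∈ Nm (rG U P) :=
  mem_normalizer_fintype fun γ ⟨y, hy, e'⟩ => ⟨_, Nm_conj hc hy, fun v => by
    simp only [LinearEquiv.mul_apply, e, e']
    rw [show (d⁻¹ v : V) = c⁻¹ v from c.injective (by rw [← e, apply_inv_apply, apply_inv_apply])]⟩

theorem Om3.gt_res (o : Om3 w) {U : Submodule F V} {r : V ≃ₗ[F] V} (r3 : r ^ 3 = 1)
    {γ : U ≃ₗ[F] U} (e : ∀ v : U, (γ v : V) = r v) (v : U) : (gt w γ v : V) = gt w r v := by
  have g3 : γ ^ 3 = 1 :=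
    LinearEquiv.ext fun v => Subtype.ext (by simp [pow_three, e, cube_apply r3])
  exact o.ext_on g3 (U := ⊤) (fun _ _ => trivial) (U.subtype ∘ₗ (gt w γ : End F U))
    ((gt w r : End F V) ∘ₗ U.subtype) (fun k v _ hv => by
      simp [o.gt_eig g3 hv, o.gt_eig r3 ((e v).symm.trans (congrArg Subtype.val hv))]) trivial

/-- The overgroups of the normaliser in dimension three are known. -/
def L3 (w : Fˣ) (P : Subgroup (V ≃ₗ[F] V)) (B : V →ₛₗ[σ] V →ₗ[F] F) : Prop :=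
  ∀ M, P ≤ M → (∀ x ∈ P, gt w x ∈ M) → M ≤ UG B →
    M ≤ Nm P ∨ ((2 : F) ≠ 0 ∧ Cfsg.IsQuasisimple (SUG B) ∧ SUG B ≤ M)

/-- An involution minus a scalar has small rank. -/
def Z3 (j : V ≃ₗ[F] V) : Prop :=
  ∃ ε : F, finrank F (LinearMap.range ((j : End F V) - ε • 1)) ≤ 3

theorem Z3.conj {j : V ≃ₗ[F] V} (h : Z3 j) (g : V ≃ₗ[F] V) : Z3 (g * j * g⁻¹) := by
  obtain ⟨ε, h⟩ := h
  refine ⟨ε, ?_⟩
  rwa [show LinearMap.range (((g * j * g⁻¹ :) : End F V) - ε • 1) =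
    (LinearMap.range ((j : End F V) - ε • 1)).map (g : End F V) from Submodule.ext fun v =>
      ⟨fun ⟨u, e⟩ => ⟨_, ⟨g⁻¹ u, rfl⟩, by simpa [apply_inv_apply, -LinearEquiv.coe_inv] using e⟩,
      fun ⟨_, ⟨u, rfl⟩, e⟩ => ⟨g u, by simpa [inv_apply_apply, -LinearEquiv.coe_inv] using e⟩⟩,
    LinearEquiv.finrank_map_eq]

/-- An involution inverting `x, y` and centralising `a, b`. -/
structure TZ (w : Fˣ) (P : Subgroup (V ≃ₗ[F] V)) (j x y a b : V ≃ₗ[F] V) : Prop where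
  jN : j ∈ Nm P
  jj : j * j = 1
  hx : x ∈ P
  hy : y ∈ P
  ha : a ∈ P
  hb : b ∈ P
  jx : j * x * j⁻¹ = x⁻¹
  jy : j * y * j⁻¹ = y⁻¹
  ja : j * a = a * j
  jb : j * b = b * j
  xy : be w x y = 1
  ab : be w a b ≠ 0

namespace T3

variable [Finite V] (h : T3 w P) {x y u a b c g r j t : V ≃ₗ[F] V}
include h

theorem exists_d (h3 : finrank F V = 3) (h2 : (2 : F) ≠ 0) (hP : P ≤ UG B) (ha : a ∈ P)
    (a0 : a ∉ center _) : ∃ d ∈ SUG B, d * a = a * d ∧ d ∉ Nm P := by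
  have c0 : (-1 : F) ≠ 0 := by simp
  have e := (mem_center_iff.1 (sc_cen (V := V) c0) a).symm
  have u1 : sc V c0 ∈ UG B := mem_UG.2 fun u v => by simp
  have a3 := h.cub a ha
  refine ⟨sc V c0 * bk a (sc V c0), ⟨(UG B).mul_mem u1 (bk_UG h.ne a3 e (hP ha) u1), ?_⟩,
    comm_mul e (h.bk_x a3 e), fun hd => ?_⟩
  · have := h.finrank_fix ha a0
    refine mem_SLG.2 ?_
    rw [LinearEquiv.coe_toLinearMap_mul, map_mul, h.det_bk_sc a3,
      show (sc V c0 : End F V) = (-1 : F) • LinearMap.id from rfl, LinearMap.det_smul,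
      LinearMap.det_id, h3, show finrank F (Eg a 1) = 1 by omega]
    norm_num
  · obtain ⟨b, hb, e1⟩ := h.partner ha a0 1
    obtain ⟨v, v0, hv⟩ := h.exists_fix ha a0
    have e2 : (sc V c0 * bk a (sc V c0)) v = v := by simp [bk_fix h.ne a3 e hv]
    have e3 : (sc V c0 * bk a (sc V c0)) (b v) = -b v := by
      simp [h.bk_other a3 e (k := 1) (by decide) (by simpa [e1] using h.shift ha hb (eig0.2 hv))]
    generalize sc V c0 * bk a (sc V c0) = d at *
    have e4 : cmt d b (b v) = -b v := by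
      simp only [cmt, LinearEquiv.mul_apply, inv_apply_apply]
      rw [← e3]; nth_rw 1 [← e2]; rw [inv_apply_apply]
    have e5 := cube_apply (h.cub _ (cm_mem hd hb)) (b v)
    simp only [e4, map_neg, neg_neg] at e5
    exact v0 (b.map_eq_zero_iff.1 ((smul_eq_zero_iff_right h2).1 (by
      linear_combination (norm := module) -e5)))

theorem comm_of_cmt (jN : j ∈ Nm P) (jj : j * j = 1) (hc : c ∈ P) (e : cmt j c ∈ center _) :
    j * c = c * j := cm_eq_one.1 (eq_one_of_sq (h.cub _ (cm_mem jN hc)) (by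
  have := inv_cmt jj c
  rw [conj_eq_of_comm (mem_center_iff.1 e j)] at this
  exact mul_eq_one_iff_eq_inv.2 this))

theorem plus_comm (jN : j ∈ Nm P) (jj : j * j = 1) (hc : c ∈ P) :
    j * (j * c * j⁻¹ * c) = j * c * j⁻¹ * c * j :=
  h.comm_of_cmt jN jj (mul_mem (Nm_conj jN hc) hc) (by
    convert h.cm c hc _ (Nm_conj jN hc) using 1
    rw [cmt, ← conj_mul, show j * (j * c * j⁻¹) * j⁻¹ = (j * j) * c * (j * j)⁻¹ by group, jj]
    group)

theorem be_pm (hx : x ∈ P) (hr : r ∈ P) (jx : j * x * j⁻¹ = x⁻¹) (jr : j * r = r * j) :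
    r * x = x * r := (h.comm_of_be hx hr (by
  have := h.be_conj hx hr j
  rw [jx, conj_eq_of_comm jr, h.be_inv_left hx hr] at this
  exact (by decide : ∀ k : ZMod 3, -k = k → k = 0) _ this)).symm

theorem exists_TZ (jN : j ∈ Nm P) (jj : j * j = 1) (j0 : j ∉ center _) (ha : a ∈ P)
    (a0 : a ∉ center _) (ja : j * a = a * j) : ∃ x y b, TZ w P j x y a b := by
  obtain ⟨c, hc, e⟩ : ∃ c ∈ P, j * c ≠ c * j := by
    by_contra! hn; exact j0 (h.schur hn)
  have hx := cm_mem jN hc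
  obtain ⟨u, hu, e1⟩ := h.partner hx (fun c0 => e (h.comm_of_cmt jN jj hc c0)) 1
  obtain ⟨s, hs, e2⟩ := h.partner ha a0 1
  refine ⟨_, cmt j u, _, jN, jj, hx, cm_mem jN hu, ha, mul_mem (Nm_conj jN hs) hs, inv_cmt jj c,
    inv_cmt jj u, ja, h.plus_comm jN jj hs, ?_, ?_⟩
  · have := h.be_conj hx hu j
    rw [inv_cmt jj, h.be_inv_left hx (Nm_conj jN hu), e1, neg_eq_iff_eq_neg] at this
    refine (h.be_mul_right (Nm_conj jN hu) (inv_mem hu) hx).trans ?_
    rw [h.be_inv_right hu hx, e1, this]; rfl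
  · have := h.be_conj ha hs j
    rw [conj_eq_of_comm ja] at this
    rw [h.be_mul_right (Nm_conj jN hs) hs ha, this, e2]; decide

theorem gt_j (x3 : x ^ 3 = 1) (jx : j * x * j⁻¹ = x⁻¹) : j * gt w x = gt w x * j :=
  comm_of_conj (by rw [h.gt_conj x3, jx, h.gt_inv x3])

theorem inv_shift (jx : j * x * j⁻¹ = x⁻¹) {v : V} {k : ZMod 3} (hv : x v = wq w k • v) :
    x (j v) = wq w (-k) • j v := by
  have := LinearEquiv.congr_fun (show x * j = j * x⁻¹ by
    rw [eq_comm, ← mul_inv_eq_iff_eq_mul, ← conj_inv, jx, inv_inv]) v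
  rwa [LinearEquiv.mul_apply, LinearEquiv.mul_apply, h.inv_eig hv, map_smul] at this

variable (h9 : finrank F V = 9)
include h9

theorem not_Z3 (tN : t ∈ Nm P) (tt : t * t = 1) (e : ∀ c ∈ P, t * c * t⁻¹ * c ∈ center _) :
    ¬Z3 t := by
  rintro ⟨ε, hε⟩
  have key : ∀ c ∈ P, ∀ u ∈ P, be w (cmt t c) u = be w c u := fun c hc u hu => by
    have := h.be_cen_left (y := u) (e c hc)
    rw [h.be_mul_left (Nm_conj tN hc) hc hu] at this
    rw [cmt, h.be_mul_left (Nm_conj tN hc) (inv_mem hc) hu, h.be_inv_left hc hu]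
    exact (by decide : ∀ k l : ZMod 3, k + l = 0 → k + -l = l) _ _ this
  obtain ⟨c, hc, d, hd, e0⟩ := h.exists_pair (by omega)
  have hx := cm_mem tN hc
  have x0 := h.notMem_of_be (y := d) (x := cmt t c) (by simp [key c hc d hd, e0])
  have tx := inv_cmt tt c
  generalize cmt t c = x at *
  obtain ⟨a, ha, b, hb, ax, bx, e1⟩ := h.exists_ab h9 hx x0
  obtain ⟨v, v0, h1, h2⟩ := h.exists_eig2 hx x0 (cm_mem tN ha) hb (h.comm_of_be (cm_mem tN ha) hx
    (by rw [key a ha x hx, h.be_of_comm ax])) bx (by simp [key a ha b hb, e1]) 1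
  have hE := h.fin3 h9 (mul_mem (h.zz_mem (-1)) hx) (by rwa [mul_mem_cancel_left (zz_cen _)])
  have m : ∀ u : Eg (zz V w (-1) * x) 1, x u = wq w 1 • u := fun u =>
    (h.zz_mul_fix 1).1 (mem_Eg_one.1 u.2)
  have inj : Function.Injective (((t : End F V) - ε • 1) ∘ₗ (Eg (zz V w (-1) * x) 1).subtype) :=
    (injective_iff_map_eq_zero _).2 fun u hu => by
      have hu' : t u = ε • u := sub_eq_zero.1 hu
      exact Subtype.ext (t.map_eq_zero_iff.1 (h.eig_zero (h.inv_shift tx (m u)) (l := 1)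
        (by rw [hu', map_smul, m, smul_comm]) (by decide)))
  obtain ⟨u, hu⟩ := (Submodule.eq_of_le_of_finrank_le (LinearMap.range_comp_le_range _ _)
    (by rw [LinearMap.finrank_range_of_inj inj]; omega)).ge ⟨v, rfl⟩
  replace hu := congrArg (pe x) (show t u - ε • (u : V) = t v - ε • v from hu)
  rw [map_sub, map_smul, h.pe_zero (by decide) (m u), h.pe_zero (by decide) (h.inv_shift tx (m u)),
    pe_self h.ne (by rw [map_sub, map_smul, h1, eig0.1 (h.inv_shift tx (eig0.2 h1))]), smul_zero,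
    sub_zero, eq_comm, sub_eq_zero] at hu
  exact v0 (t.map_eq_zero_iff.1 (h.eig_zero (h.inv_shift (inv_cmt tt a) h2) (l := 1)
    (by rw [hu, map_smul, h2, smul_comm]) (by decide)))

variable (T : TZ w P j x y a b)
include T

omit h9 in
theorem x0 : x ∉ center _ := h.notMem_of_be (y := y) (by simp [T.xy])

theorem cen_be4 (hc : c ∈ P) (e1 : be w c x = 0) (e2 : be w c y = 0) (e3 : be w c a = 0)
    (e4 : be w c b = 0) : c ∈ center _ :=
  h.cen4 h9 T.hx T.hy (by simp [T.xy]) T.ha T.hb (h.be_pm T.hx T.ha T.jx T.ja)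
    (h.be_pm T.hx T.hb T.jx T.jb) T.ab (h.comm_of_be hc T.hx e1) (h.comm_of_be hc T.hy e2)
    (h.comm_of_be hc T.ha e3) (h.comm_of_be hc T.hb e4)

theorem comm_j (hr : r ∈ P) (rx : r * x = x * r) (ry : r * y = y * r) : j * r = r * j := by
  have i : j⁻¹ = j := inv_eq_of_mul_eq_one_right T.jj
  have k : ∀ c, j⁻¹ * c * j = j * c * j⁻¹ := fun c => by rw [i]
  refine h.comm_of_cmt T.jN T.jj hr (h.cen_be4 h9 T (cm_mem T.jN hr) ?_ ?_ ?_ ?_)
  · rw [h.be_cm T.jN hr T.hx, k, T.jx, h.be_inv_right T.hx hr, h.be_of_comm rx]; rfl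
  · rw [h.be_cm T.jN hr T.hy, k, T.jy, h.be_inv_right T.hy hr, h.be_of_comm ry]; rfl
  · rw [h.be_cm T.jN hr T.ha, k, conj_eq_of_comm T.ja, sub_self]
  · rw [h.be_cm T.jN hr T.hb, k, conj_eq_of_comm T.jb, sub_self]

theorem exists_eps : ∃ ε : F, ∀ v, x v = v → j v = ε • v :=
  h.sc9 h9 T.hx (h.x0 T) T.ha T.hb (h.be_pm T.hx T.ha T.jx T.ja) (h.be_pm T.hx T.hb T.jx T.jb) T.ab
    (f := j) (fun _ hv => eig0.1 (h.inv_shift T.jx (eig0.2 hv))) (fun v _ => comm_apply T.ja v)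
    fun v _ => comm_apply T.jb v

omit h9 in
theorem j_y {ε : F} (e : ∀ v, x v = v → j v = ε • v) {v : V} (hv : x v = v) :
    j (y v) = ε • y (y v) ∧ j (y (y v)) = ε • y v := by
  have e1 : ∀ v, j (y v) = y (y (j v)) := fun v => y.injective (by
    rw [cube_apply (h.cub y T.hy), ← LinearEquiv.mul_apply, ← LinearEquiv.mul_apply,
      mul_assoc, mul_inv_eq_iff_eq_mul.1 T.jy, mul_inv_cancel_left])
  simp [e1, e v hv, cube_apply (h.cub y T.hy)]

theorem Z3_of : Z3 j := by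
  obtain ⟨ε, e⟩ := h.exists_eps h9 T
  refine ⟨ε, (Submodule.finrank_mono (t := (Eg x 1).map ((y * y :) - y : End F V)) ?_).trans
    ((Submodule.finrank_map_le _ _).trans (h.fin3 h9 T.hx (h.x0 T)).le)⟩
  rw [LinearMap.range_eq_map, Submodule.map_le_iff_le_comap]
  refine h.ind (h.cub x T.hx) (fun _ _ => trivial) fun k v _ hv => ?_
  obtain ⟨m, hm⟩ := h.eig_pw T.hx T.hy (by simp [T.xy]) 0 hv
  rw [eig0] at hm
  have y3 := cube_apply (h.cub y T.hy) v
  rcases z3 m with rfl | rfl | rfl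
  · exact ⟨0, zero_mem _, by simp [e v hm]⟩
  · refine ⟨-ε • y v, Submodule.smul_mem _ _ (mem_Eg_one.2 hm), ?_⟩
    have := (h.j_y T e hm).2
    simp only [pw_one, y3] at this
    simp [this, y3, neg_add_eq_sub]
  · refine ⟨ε • y (y v), Submodule.smul_mem _ _ (mem_Eg_one.2 hm), ?_⟩
    have := (h.j_y T e hm).1
    simp only [pw_two, LinearEquiv.mul_apply, y3] at this
    simp [this, y3, smul_sub]

end T3

end CF.MaxSub.E9
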