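/-
Normalisers of `3^{1+4}`: centralisers of involutions.
-/
import Cfsg.Agent.MaxSub.E9F

set_option autoImplicit false
set_option linter.unusedSectionVars false

namespace CF.MaxSub.E9

open Module Subgroup Geom CF.Transfer

variable {F V : Type*} [Field F] [AddCommGroup V] [Module F V] {w : Fˣ}
  {P H : Subgroup (V ≃ₗ[F] V)} {σ : F →+* F} {B : V →ₛₗ[σ] V →ₗ[F] F}

/-- Scalar multiples of the powers of `A`. -/
def YG {G : Type*} [Group G] (H : Subgroup G) (A : G) : Subgroup G := H ⊓ (center G ⊔ zpowers A)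

theorem mem_YG {G : Type*} [Group G] {H : Subgroup G} {A g : G} (h : A ^ 3 = 1) :
    g ∈ YG H A ↔ g ∈ H ∧ ∃ c ∈ center G, ∃ k, g = c * pw A k :=
  and_congr_right fun _ => ⟨fun hg => by
    obtain ⟨c, hc, _, h1, rfl⟩ := mem_sup_of_normal_left.1 hg
    obtain ⟨k, rfl⟩ := exists_pw h h1
    exact ⟨c, hc, k, rfl⟩, by
    rintro ⟨c, hc, k, rfl⟩
    exact mul_mem (mem_sup_left hc) (mem_sup_right (pw_mem (mem_zpowers A) k))⟩

theorem YG_comm {G : Type*} [Group G] {H : Subgroup G} {A g n : G} (h : A ^ 3 = 1)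
    (hg : g ∈ YG H A) (e : n * A = A * n) : n * g = g * n := by
  obtain ⟨-, c, hc, k, rfl⟩ := (mem_YG h).1 hg
  exact (comm_mul (mem_center_iff.1 hc n).symm (pw_comm e k).symm).symm

theorem cen_conj {G : Type*} [Group G] {a : G} (n : G) (h : n * a * n⁻¹ ∈ center G) :
    a ∈ center G := by
  have := (inferInstance : (center G).Normal).conj_mem _ h n⁻¹
  rwa [show n⁻¹ * (n * a * n⁻¹) * n⁻¹⁻¹ = a by group] at this

/-- The standing hypotheses on an overgroup `H`. -/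
structure GH (w : Fˣ) (P H : Subgroup (V ≃ₗ[F] V)) (B : V →ₛₗ[σ] V →ₗ[F] F) : Prop
    extends T3 w P where
  h9 : finrank F V = 9
  le : P ≤ H
  gate : ∀ x ∈ P, gt w x ∈ H
  su : H ≤ SUG B
  l3 : ∀ x ∈ P, x ∉ center _ → L3 w (rG (Eg x 1) P) (B.domRestrict₁₂ (Eg x 1) (Eg x 1))

namespace GH

variable [Finite V] (h : GH w P H B) {x y u a b c g r j t : V ≃ₗ[F] V}
include h

theorem ug : H ≤ UG B := h.su.trans inf_le_left

theorem cen9 (hg : g ∈ H) (hc : g ∈ center _) : g ^ 9 = 1 := by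
  obtain ⟨c, hc⟩ := mem_center_iff_smul.1 hc
  have e := (mem_SUG.1 (h.su hg)).2
  rw [show (g : End F V) = c • LinearMap.id from LinearMap.ext hc, LinearMap.det_smul,
    LinearMap.det_id, mul_one, h.h9] at e
  refine LinearEquiv.ext fun v => ?_
  have : ∀ n : ℕ, (g ^ n) v = c ^ n • v := fun n => by
    induction n with
    | zero => simp
    | succ n ih => rw [pow_succ', LinearEquiv.mul_apply, ih, hc, smul_smul, pow_succ']
  rw [this, e, one_smul]; rfl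

theorem YG_pgroup (hx : x ∈ P) : IsPGroup 3 (YG H (gt w x)) := fun ⟨g, hg⟩ => ⟨2, Subtype.ext (by
  have A3 := h.gt_cube (h.cub x hx)
  obtain ⟨gH, c, hc, k, rfl⟩ := (mem_YG A3).1 hg
  change (c * pw (gt w x) k) ^ 9 = 1
  rw [(show Commute c _ from (mem_center_iff.1 hc _).symm).mul_pow,
    h.cen9 ((H.mul_mem_cancel_right (pw_mem (h.gate x hx) k)).1 gH) hc, one_mul, pw, ← pow_mul,
    mul_comm, show 9 = 3 * 3 from rfl, mul_assoc, pow_mul, A3, one_pow])⟩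

variable (T : TZ w P j x y a b)
include T

theorem mem_YG_of (gH : g ∈ H) (hg : g ∈ Nm P) (gj : g * j = j * g)
    (gA : g * gt w x = gt w x * g) (ga : g * a = a * g) (gb : g * b = b * g) {n : ℕ}
    (hn : g ^ 3 ^ n = 1) : g ∈ YG H (gt w x) := by
  have x3 := h.cub x T.hx
  have x0 := h.x0 T
  have gx : g * x * g⁻¹ = x := by
    have e := h.gt_conj x3 g
    rw [conj_eq_of_comm gA] at e
    have f : ∀ v, x v = v → (g * x * g⁻¹) v = v := fun v hv =>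
      (h.gt_fix (conj_cube x3 g)).1 (e ▸ (h.gt_fix x3).2 hv)
    obtain ⟨k, m, e1⟩ := h.dep T.hx x0 (Nm_conj hg T.hx) (c := 1) (l := 0) fun v hv => by
      rw [f v (eig0.1 hv), one_smul]
    obtain ⟨v, v0, hv⟩ := h.exists_fix T.hx x0
    obtain rfl : k = 0 := by_contra fun k0 => v0 (h.eig_zero (x := g * x * g⁻¹)
      (by simp [e1, h.pw_eig (eig0.2 hv)]) (eig0.2 (f v hv)) k0)
    rw [zz_zero, one_mul] at e1
    rcases z3 m with rfl | rfl | rfl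
    · exact (x0 (by rw [show x = 1 by simpa using e1]; exact one_mem _)).elim
    · exact e1
    · rw [pw_two' x3] at e1
      exact (x0 (by
        rw [eq_one_of_sq x3 (Invol.mul_self_eq_one_of_odd_inverts
          (Odd.of_dvd_nat (Odd.pow (by decide)) (orderOf_dvd_of_pow_eq_one hn)) e1)]
        exact one_mem _)).elim
  have hy' := Nm_conj hg T.hy
  obtain ⟨m, hm⟩ : ∃ m, m = pw (gt w x) (be w (g * y * g⁻¹) y) := ⟨_, rfl⟩
  have m1 : m ∈ Nm P := hm ▸ pw_mem (h.gt_mem_Nm T.hx) _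
  have mc : ∀ {c}, c * x = x * c → m * c = c * m := fun e => hm ▸ (pw_comm (h.gt_comm x3 e) _).symm
  have mj : j * m = m * j := hm ▸ pw_comm (h.gt_j x3 T.jx) _
  have ax := h.be_pm T.hx T.ha T.jx T.ja
  have bx := h.be_pm T.hx T.hb T.jx T.jb
  have hy'' := Nm_conj m1 T.hy
  have hd := mul_mem hy' (inv_mem hy'')
  have k : ∀ {c}, c ∈ P → g * c * g⁻¹ = c → c * x = x * c →
      be w (g * y * g⁻¹ * (m * y * m⁻¹)⁻¹) c = 0 := fun {c} hc e1 e2 => by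
    have e3 := h.be_conj T.hy hc g
    have e4 := h.be_conj T.hy hc m
    rw [e1] at e3
    rw [conj_eq_of_comm (mc e2)] at e4
    rw [h.be_mul_left hy' (inv_mem hy'') hc, h.be_inv_left hy'' hc, e3, e4, add_neg_cancel]
  have d0 := h.cen_be4 h.h9 T hd (k T.hx gx rfl) (by
    rw [h.be_mul_left hy' (inv_mem hy'') T.hy, h.be_inv_left hy'' T.hy, hm,
      h.be_gt_pw T.hx T.hy T.hy, T.xy, h.be_self]; ring) (k T.ha (conj_eq_of_comm ga) ax)
    (k T.hb (conj_eq_of_comm gb) bx)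
  have i : ∀ {n}, j * n = n * j → j * (n * y * n⁻¹) * j⁻¹ = (n * y * n⁻¹)⁻¹ := fun {n} e => by
    rw [← conj_mul, ← conj_mul, T.jy, conj_eq_of_comm e, conj_eq_of_comm (comm_inv e.symm).symm]
    group
  have d1 := eq_one_of_sq (h.cub _ hd) (by
    have := conj_eq_of_comm (mem_center_iff.1 d0 j)
    rw [← conj_mul, ← conj_inv (b := j), i gj.symm, i mj, inv_inv] at this
    nth_rw 1 [← this]
    rw [mul_assoc, mem_center_iff.1 d0]; group)
  rw [mul_inv_eq_one] at d1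
  have k2 : ∀ {c}, g * c = c * g → c * x = x * c → m⁻¹ * g * c = c * (m⁻¹ * g) := fun e1 e2 =>
    comm_mul (comm_inv (mc e2)) e1
  refine (mem_YG (h.gt_cube x3)).2 ⟨gH, m⁻¹ * g, h.cen4 h.h9 T.hx T.hy (by simp [T.xy]) T.ha T.hb
    ax bx T.ab (k2 (comm_of_conj gx) rfl) ?_ (k2 ga ax) (k2 gb bx), be w (g * y * g⁻¹) y, ?_⟩
  · rw [mul_assoc, mul_inv_eq_iff_eq_mul.1 d1]; group
  · rw [← hm, mul_assoc, show g * m = m * g from hm ▸ pw_comm gA _, inv_mul_cancel_left]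

variable (pin : ∀ x ∈ P, x ∉ center _ → Pin H (Nm P) x)
include pin

theorem KM {D : Subgroup (V ≃ₗ[F] V)} {U : Submodule F V} (D1 : D ≤ H) (D2 : D ≤ Cz j)
    (DU : ∀ d ∈ D, ∀ v ∈ U, d v ∈ U) (DR : P ⊓ Cz j ≤ D) (DY : YG H (gt w x) ≤ D ⊓ ScOn U)
    (tr : ∀ r ∈ P, r * j = j * r → (∀ v ∈ U, r v = v) → r = 1)
    (cen : ∀ n ∈ D, n ∈ Nm (YG H (gt w x)) → n * gt w x = gt w x * n) :
    IsSylowIn 3 (YG H (gt w x)) (D ⊓ ScOn U) ∧ D ⊓ ScOn U ≤ Nm P := by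
  have A3 := h.gt_cube (h.cub x T.hx)
  have RA : ∀ r ∈ P ⊓ Cz j, r * gt w x = gt w x * r := fun r hr =>
    h.gt_comm (h.cub x T.hx) (h.be_pm T.hx hr.1 T.jx (mem_Cz.1 hr.2).symm)
  have ha : a ∈ P ⊓ Cz j := ⟨T.ha, mem_Cz.2 T.ja.symm⟩
  have hb : b ∈ P ⊓ Cz j := ⟨T.hb, mem_Cz.2 T.jb.symm⟩
  have RK : P ⊓ Cz j ≤ Nm (D ⊓ ScOn U) := fun r hr => mem_Nm_ScOn (DR hr) (DU r (DR hr))
  have S := syl_of_pin (pin a T.ha (h.notMem_of_be T.ab)) (h.le T.ha) (le_normalizer T.ha)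
    (h.cub a T.ha) (inf_le_left.trans D1) DY (h.YG_pgroup T.hx) (RK ha)
    (mem_normalizer_fintype fun y hy => by rwa [conj_eq_of_comm (YG_comm A3 hy (RA a ha))])
    fun g hg g1 g2 ⟨n, hn⟩ => by
      have k : ∀ r ∈ P ⊓ Cz j, g * r = r * g := fun r hr => cm_eq_one.1 (tr _ (cm_mem g1 hr.1)
        (mem_Cz.1 ((Cz j).mul_mem ((Cz j).mul_mem ((Cz j).mul_mem (D2 hg.1) hr.2)
          ((Cz j).inv_mem (D2 hg.1))) ((Cz j).inv_mem hr.2)))
        fun v hv => cmt_triv hg.2 (DU r (DR hr)) hv)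
      exact h.mem_YG_of T (D1 hg.1) g1 (mem_Cz.1 (D2 hg.1)) (cen g hg.1 g2) (k a ha) (k b hb) hn
  refine ⟨S, le_of_pin (center_le_normalizer _) (inf_le_left.trans D1) S (fun g hg => ?_)
    (fun g hg => ⟨D1 hg.1.1, mem_sup_left hg.2⟩) (fun n hn n1 y hy => ?_)
    (fun ⟨r, hr⟩ => ⟨1, Subtype.ext (h.cub r hr.1)⟩) RK (inf_le_left.trans le_normalizer)
    (fun r hr => pin r hr.1) (fun a ha b hb => h.cm a ha.1 b hb.1) ha hb
    fun e => T.ab (h.be_of_comm e)⟩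
  · obtain ⟨-, c, hc, k, rfl⟩ := (mem_YG A3).1 hg
    exact mul_mem (center_le_normalizer _ hc) (pw_mem (h.gt_mem_Nm T.hx) k)
  · rw [conj_eq_of_comm (YG_comm A3 hy (cen n hn.1 n1)), mul_inv_cancel]; exact one_mem _

theorem cen_jA (jH : j ∈ H) : H ⊓ Cz j ⊓ Cz (gt w x) ≤ Nm P := by
  have x3 := h.cub x T.hx
  have A3 := h.gt_cube x3
  have x0 := h.x0 T
  have DU : ∀ d ∈ H ⊓ Cz j ⊓ Cz (gt w x), ∀ v ∈ Eg x 1, d v ∈ Eg x 1 := fun d hd v hv =>
    mem_Eg_one.2 ((h.gt_fix x3).1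
      (map_mem_Eg (mem_Cz.1 hd.2) ((h.gt_fix x3).2 (mem_Eg_one.1 hv))))
  have DR : P ⊓ Cz j ≤ H ⊓ Cz j ⊓ Cz (gt w x) := fun r hr => ⟨⟨h.le hr.1, hr.2⟩,
    mem_Cz.2 (h.gt_comm x3 (h.be_pm T.hx hr.1 T.jx (mem_Cz.1 hr.2).symm))⟩
  have K := (h.KM T pin (inf_le_left.trans inf_le_left) (inf_le_left.trans inf_le_right) DU DR
    (fun g hg => ⟨⟨⟨hg.1, mem_Cz.2 (YG_comm A3 hg (h.gt_j x3 T.jx)).symm⟩,
      mem_Cz.2 (YG_comm A3 hg rfl).symm⟩, (sup_le (cen_le_ScOn _) (zpowers_le.2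
        ⟨_, fun v hv => (h.gt_fix x3).2 (mem_Eg_one.1 hv)⟩) :) hg.2⟩)
    (fun r hr e hv => h.transfer' T.hx T.hy (by simp [T.xy]) (h.be_pm T.hy hr T.jy e.symm)
      (by simp) (l := 0) fun v e => hv v (mem_Eg_one.2 (eig0.1 e)))
    fun n hn _ => mem_Cz.1 hn.2).2
  generalize hD : H ⊓ Cz j ⊓ Cz (gt w x) = D at *
  have D1 : D ≤ H := hD ▸ inf_le_left.trans inf_le_left
  have k : ∀ γ ∈ rG (Eg x 1) P, γ ∈ rG (Eg x 1) (D ⊓ Nm P) ∧
      gt w γ ∈ rG (Eg x 1) (D ⊓ Nm P) := by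
    rintro γ ⟨r, hr, e⟩
    obtain ⟨s, hs, s1, s2, s3, -⟩ :=
      h.adjust T.hx T.hy (by simp [T.xy]) hr (h.fix_of_rG T.hx x0 hr e)
    have sj := h.comm_j h.h9 T hs s1 s2
    have e' : ∀ v : Eg x 1, (γ v : V) = s v := fun v => by rw [e, s3 _ (mem_Eg_one.1 v.2)]
    exact ⟨⟨s, ⟨DR ⟨hs, mem_Cz.2 sj.symm⟩, le_normalizer hs⟩, e'⟩, gt w s,
      ⟨hD ▸ ⟨⟨h.gate s hs, mem_Cz.2 (h.gt_comm (h.cub s hs) sj).symm⟩,
        mem_Cz.2 (h.gt_comm x3 (h.gt_comm (h.cub s hs) s1.symm).symm)⟩, h.gt_mem_Nm hs⟩,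
      h.gt_res (h.cub s hs) e'⟩
  have mono : rG (Eg x 1) (D ⊓ Nm P) ≤ rG (Eg x 1) D := fun γ ⟨g, hg, e⟩ => ⟨g, hg.1, e⟩
  have R := h.res T.hx x0
  have R3 := h.fin3 h.h9 T.hx x0
  rcases h.l3 x T.hx x0 (rG (Eg x 1) D) (fun γ hγ => mono (k γ hγ).1) (fun γ hγ => mono (k γ hγ).2)
    (rG_le_UG (D1.trans h.ug)) with hM | ⟨h2, -, hM⟩
  · intro c hc
    obtain ⟨m, ⟨n, hn, e⟩, hm⟩ := R.gen3 R3 (fun γ hγ => (k γ hγ).1) (fun γ hγ => (k γ hγ).2)
      (hM (rE_mem hc (DU c hc)))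
    obtain ⟨d, hd⟩ := mem_center_iff_smul.1 hm
    refine ((Nm P).mul_mem_cancel_left (inv_mem hn.2)).1
      (K ⟨D.mul_mem (D.inv_mem hn.1) hc, d, fun v hv => n.injective ?_⟩)
    have := congrArg (fun u => (m u : V)) (hd ⟨v, hv⟩)
    simp only [LinearEquiv.mul_apply, apply_inv_apply, rE_apply, e] at this ⊢
    exact this
  · have ax := fix_mem (h.be_pm T.hx T.ha T.jx T.ja)
    have bx := fix_mem (h.be_pm T.hx T.hb T.jx T.jb)
    obtain ⟨d, hd, d1, d2⟩ := R.exists_d R3 h2 (rG_le_UG (h.le.trans h.ug)) (rE_mem T.ha ax)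
      (R.notMem_of_be (y := rE b bx) (by
        rw [h.be_res T.hx x0 T.ha T.hb (fun _ => rfl) fun _ => rfl]; exact T.ab))
    obtain ⟨c, hc, e⟩ := hM hd
    have aD := DR (show a ∈ P ⊓ Cz j from ⟨T.ha, mem_Cz.2 T.ja.symm⟩)
    refine (d2 (rG_Nm ((pin a T.ha (h.notMem_of_be T.ab)).conj (D1 hc) ?_) e)).elim
    rw [conj_eq_cm]
    refine mul_mem (K ⟨D.mul_mem (D.mul_mem (D.mul_mem hc aD) (D.inv_mem hc)) (D.inv_mem aD), 1,
      fun v hv => ?_⟩) (le_normalizer T.ha)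
    obtain ⟨u, hu⟩ := (rE a ax * d).surjective ⟨v, hv⟩
    have e1 := congrArg Subtype.val (comm_apply d1 u)
    replace hu := congrArg Subtype.val hu
    simp only [LinearEquiv.mul_apply, rE_apply, e] at hu e1
    simp only [← hu, cmt, LinearEquiv.mul_apply, inv_apply_apply, e1, one_smul]

theorem cen_j (jH : j ∈ H) : H ⊓ Cz j ≤ Nm P := by
  have x3 := h.cub x T.hx
  have A3 := h.gt_cube x3
  have jA := h.gt_j x3 T.jx
  obtain ⟨ε, e⟩ := h.exists_eps h.h9 T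
  obtain ⟨W, hW⟩ : ∃ W, W = LinearMap.range ((j : End F V) - ε • 1) := ⟨_, rfl⟩
  have mW : ∀ {v}, v ∈ W ↔ ∃ u, j u - ε • u = v := hW ▸ Iff.rfl
  have DU : ∀ d ∈ H ⊓ Cz j, ∀ v ∈ W, d v ∈ W := fun d hd v hv => by
    obtain ⟨u, rfl⟩ := mW.1 hv
    exact mW.2 ⟨d u, by rw [map_sub, map_smul, comm_apply (mem_Cz.1 hd.2)]⟩
  have AW : ∀ v ∈ W, gt w x v = wq w 1 • v := fun v hv => by
    obtain ⟨u, rfl⟩ := mW.1 hv
    refine h.ext_on x3 (U := ⊤) (fun _ _ => trivial) ((gt w x : End F V) * ((j : End F V) - ε • 1))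
      (wq w 1 • ((j : End F V) - ε • 1)) (fun k v _ hv => ?_) (v := u) trivial
    by_cases k0 : k = 0
    · simp [e v (eig0.1 (k0 ▸ hv))]
    · simp [← comm_apply jA, h.gt_eig x3 hv, (by decide : ∀ k : ZMod 3, k ≠ 0 → 2 - k * k = 1) k k0,
        smul_sub, smul_comm ε]
  have cen : ∀ n ∈ H ⊓ Cz j, n ∈ Nm (YG H (gt w x)) → n * gt w x = gt w x * n := fun n hn n1 => by
    obtain ⟨-, c, hc, k, e1⟩ := (mem_YG A3).1
      (Nm_conj n1 (show gt w x ∈ YG H _ from ⟨h.gate x T.hx, mem_sup_right (mem_zpowers _)⟩))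
    obtain ⟨d, hd⟩ := mem_center_iff_smul.1 hc
    obtain ⟨v, hv, v0⟩ : ∃ v ∈ W, v ≠ 0 := by
      by_contra! hn
      have := T.jx
      rw [conj_eq_of_comm (mem_center_iff.1 (mem_center_of_smul (g := j) (c := ε) fun v =>
        sub_eq_zero.1 (hn _ (mW.2 ⟨v, rfl⟩))) x).symm] at this
      exact h.x0 T (by rw [eq_one_of_sq x3 (mul_eq_one_iff_eq_inv.2 this)]; exact one_mem _)
    have e2 := LinearEquiv.congr_fun e1 v
    simp only [LinearEquiv.mul_apply] at e2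
    rw [AW _ (inv_mem_of (DU n hn) hv), map_smul, apply_inv_apply, hd, h.pw_eig (AW v hv),
      smul_smul] at e2
    replace e2 := smul_left_injective F v0 e2
    obtain ⟨u, u0, hu⟩ := h.exists_fix T.hx (h.x0 T)
    rcases z3 k with rfl | rfl | rfl
    · rw [pw_zero, mul_one] at e1
      exact (h.gt_cen x3 (h.finrank_fix T.hx (h.x0 T)) (cen_conj n (e1 ▸ hc))).elim
    · rw [mul_one, right_eq_mul₀ (wq_ne w 1)] at e2
      rw [show c = 1 from LinearEquiv.ext fun v => by simp [hd, e2], one_mul] at e1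
      exact comm_of_conj e1
    · rw [h.gt_conj x3] at e1
      refine (u0 (h.gt_ne_fix (conj_cube x3 n) ?_)).elim
      rw [e1, LinearEquiv.mul_apply, hd, h.pw_eig ((h.gt_fix x3).2 hu), smul_smul,
        show (2 * 2 : ZMod 3) = 2 * 1 + -1 from rfl, h.wq_add, ← mul_assoc, ← e2, mul_comm,
        h.wq_neg, one_smul]
  obtain ⟨S, K⟩ := h.KM T pin inf_le_left inf_le_right DU (inf_le_inf_right _ h.le)
    (fun g hg => ⟨⟨hg.1, mem_Cz.2 (YG_comm A3 hg jA).symm⟩,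
      (sup_le (cen_le_ScOn _) (zpowers_le.2 ⟨_, AW⟩) :) hg.2⟩) (fun r hr rj hv => by
      have rx := h.be_pm T.hx hr T.jx rj.symm
      have ry := h.be_pm T.hy hr T.jy rj.symm
      refine h.transfer' T.hx T.hy (by simp [T.xy]) ry (by simp) (l := 0) fun v e1 => ?_
      rw [eig0] at e1
      have e2 := hv _ (mW.2 ⟨y v, rfl⟩)
      have e0 : ε ≠ 0 := by
        obtain ⟨u, u0, hu⟩ := h.exists_fix T.hx (h.x0 T)
        rintro rfl
        exact u0 (j.map_eq_zero_iff.1 (by simp [e u hu]))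
      rw [(h.j_y T e e1).1, ← smul_sub, map_smul, smul_right_inj e0, map_sub, comm_apply ry,
        comm_apply ry, ← map_sub, ← map_sub, y.injective.eq_iff, sub_eq_sub_iff_sub_eq_sub,
        ← map_sub] at e2
      have e3 : x (r v - v) = r v - v := by rw [map_sub, ← comm_apply rx, e1]
      have := h.shift T.hx T.hy (eig0.2 e3)
      rw [T.xy, e2] at this
      exact sub_eq_zero.1 (h.eig_zero this (eig0.2 e3) (by decide))) cen
  intro c hc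
  obtain ⟨k, hk, n, hn, rfl⟩ := S.frattini (mem_Nm_ScOn hc (DU c hc))
  have n1 := ((H ⊓ Cz j).mul_mem_cancel_left hk.1).1 hc
  exact mul_mem (K hk) (h.cen_jA T pin jH ⟨n1, mem_Cz.2 (cen n n1 hn)⟩)

end GH

end CF.MaxSub.E9
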