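/-
Normalisers of `3^{1+4}`: the global step.
-/
import Cfsg.Agent.MaxSub.E9G
import Cfsg.Agent.Hyp.Basic

set_option autoImplicit false
set_option linter.unusedSectionVars false

namespace CF.MaxSub.E9

open Module Subgroup Geom CF.Transfer

variable {F V : Type*} [Field F] [AddCommGroup V] [Module F V] {w : Fˣ}
  {P H : Subgroup (V ≃ₗ[F] V)} {σ : F →+* F} {B : V →ₛₗ[σ] V →ₗ[F] F}

namespace T3

variable [Finite V] (h : T3 w P) {x y u a b c g r j t : V ≃ₗ[F] V}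
include h

theorem cube_inv (hx : x ∈ P) (hy : y ∈ P) (e : be w x y = 1) :
    (gt w y * gt w x) ^ 3 * y * ((gt w y * gt w x) ^ 3)⁻¹ = y⁻¹ ∧
      (gt w y * gt w x) ^ 3 * x * ((gt w y * gt w x) ^ 3)⁻¹ = x⁻¹ := by
  have e1 := h.mv hy hx e
  have e2 : gt w y * gt w x * x * (gt w y * gt w x)⁻¹ = zz V w (-1) * x * y⁻¹ := by
    rw [mul_assoc (gt w y), ← h.gt_comm (h.cub x hx) rfl, show gt w y * (x * gt w x) *
      (gt w y * gt w x)⁻¹ = gt w y * x * (gt w y)⁻¹ by group, h.gt_act hy hx, h.be_comm hx hy, e,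
      pw_neg (h.cub y hy), pw_one]
    rfl
  generalize gt w y * gt w x = n at e1 e2 ⊢
  have e3 : n ^ 3 * y * (n ^ 3)⁻¹ = y⁻¹ := by
    rw [show n ^ 3 * y * (n ^ 3)⁻¹ = n * (n * (n * y * n⁻¹) * n⁻¹) * n⁻¹ by
      simp only [pow_three]; group, e1, e2, ← conj_mul, ← conj_mul, ← conj_inv (a := y), e1, e2,
      conj_eq_of_comm (zz_comm _ n), mul_assoc, mul_assoc _ x, mul_assoc _ (x * _),
      h.conj_eq hx (inv_mem hy),
      h.be_inv_right hy hx, e, ← mul_assoc, ← mul_assoc, ← h.zz_add, ← h.zz_add]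
    exact (congrArg (zz V w · * y⁻¹) (show _ = 0 by decide)).trans (by rw [zz_zero, one_mul])
  refine ⟨e3, ?_⟩
  rw [← e1, show n ^ 3 * (n * y * n⁻¹) * (n ^ 3)⁻¹ = n * (n ^ 3 * y * (n ^ 3)⁻¹) * n⁻¹ by group, e3,
    conj_inv]

theorem cen_of_odd (hg : g ∈ Nm P) (o : Odd (orderOf g)) (hc : c ∈ P)
    (e : g * c * g⁻¹ * c ∈ center _) : c ∈ center _ := by
  obtain ⟨k, hk⟩ := h.cen_eq (mul_mem (Nm_conj hg hc) hc) e
  have := eq_one_of_sq (h.zz_mul_cube (h.cub c hc) k) (Invol.mul_self_eq_one_of_odd_inverts o (by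
    rw [← conj_mul, conj_eq_of_comm (zz_comm k g), eq_mul_inv_of_mul_eq hk, mul_inv_rev,
      ← h.zz_neg, zz_comm, ← mul_assoc, ← h.zz_add,
      (by decide : ∀ k : ZMod 3, k + k = -k)]))
  rw [eq_inv_of_mul_eq_one_right this]
  exact inv_mem (zz_cen k)

theorem be_odd (hx : x ∈ P) (hy : y ∈ P) (o : Odd (orderOf (gt w y * (gt w x)⁻¹))) :
    be w y x = 0 := by
  by_contra e
  have m := mul_mem (h.gt_mem_Nm hy) (inv_mem (h.gt_mem_Nm hx))
  refine h.notMem_of_be' e (h.cen_of_odd (g := (gt w y * (gt w x)⁻¹) ^ 2) (pow_mem m _)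
    (Odd.of_dvd_nat o (orderOf_pow_dvd _)) hx (h.cen_of_be (mul_mem (Nm_conj (pow_mem m _) hx) hx)
      fun u hu => ?_))
  have h1 := h.gt_act_mem hy hx
  have h2 := Nm_conj (pw_mem (h.gt_mem_Nm hx) 2) h1
  rw [h.be_mul_left (Nm_conj (pow_mem m _) hx) hx hu, show (gt w y * (gt w x)⁻¹) ^ 2 * x *
    ((gt w y * (gt w x)⁻¹) ^ 2)⁻¹ = gt w y * ((gt w x)⁻¹ * (gt w y * ((gt w x)⁻¹ * x * (gt w x)⁻¹⁻¹) *
      (gt w y)⁻¹) * (gt w x)⁻¹⁻¹) * (gt w y)⁻¹ by simp only [pow_two]; group,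
    conj_eq_of_comm (comm_inv (h.gt_comm (h.cub x hx) rfl).symm), ← pw_two' (h.gt_cube (h.cub x hx)),
    h.be_gt hy h2 hu, h.be_comm h2 hy, h.be_gt_pw hx h1 hu, h.be_gt_pw hx h1 hy, h.be_comm h1 hx,
    h.be_gt hy hx hu, h.be_gt hy hx hy, h.be_gt hy hx hx, h.be_self, h.be_self, h.be_comm hy hx]
  generalize be w y x = p, be w x u = q, be w y u = r at e ⊢
  revert p q r; decide

theorem cmt_cen {O : Subgroup (V ≃ₗ[F] V)} (o : ∀ g ∈ O, Odd (orderOf g))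
    (hO : ∀ x ∈ P, gt w x ∈ Nm O) (gO : g ∈ O) (hg : g ∈ Nm P) (hc : c ∈ P) :
    cmt g c ∈ center _ := by
  have k : ∀ v ∈ P, be w (g * v * g⁻¹) v = 0 := fun v hv => h.be_odd hv (Nm_conj hg hv) (o _ (by
    rw [← h.gt_conj (h.cub v hv), mul_assoc, mul_assoc, ← mul_assoc (gt w v)]
    exact mul_mem gO (Nm_conj (hO v hv) (inv_mem gO))))
  have k2 : ∀ u ∈ P, ∀ v ∈ P, be w (g * u * g⁻¹) v = be w u (g * v * g⁻¹) := fun u hu v hv => by
    have := k _ (mul_mem hu hv)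
    rw [← conj_mul, h.be_mul_left (Nm_conj hg hu) (Nm_conj hg hv) (mul_mem hu hv),
      h.be_mul_right hu hv (Nm_conj hg hu), h.be_mul_right hu hv (Nm_conj hg hv), k u hu, k v hv,
      h.be_comm hu (Nm_conj hg hv)] at this
    linear_combination this
  have hd := cm_mem hg hc
  refine h.cen_of_odd hg (o g gO) hd (h.cen_of_be (mul_mem (Nm_conj hg hd) hd) fun u hu => ?_)
  have h1 := Nm_conj hg hc
  rw [show g * cmt g c * g⁻¹ * cmt g c = g * (g * c * g⁻¹) * g⁻¹ * c⁻¹ by rw [cmt]; group,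
    h.be_mul_left (Nm_conj hg h1) (inv_mem hc) hu, k2 _ h1 u hu, h.be_conj hc hu,
    h.be_inv_left hc hu, add_neg_cancel]

theorem conj_of_cmt (e : cmt g c ∈ center _) (n : ℕ) :
    g ^ n * c * (g ^ n)⁻¹ = cmt g c ^ n * c := by
  induction n with
  | zero => simp
  | succ n ih =>
    rw [pow_succ', show g * g ^ n * c * (g * g ^ n)⁻¹ = g * (g ^ n * c * (g ^ n)⁻¹) * g⁻¹ by group,
      ih, ← conj_mul, conj_eq_of_comm (mem_center_iff.1 (pow_mem e n) g), conj_eq_cm, pow_succ,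
      mul_assoc]

theorem type_t (h9 : finrank F V = 9) (tN : t ∈ Nm P) (tt : t * t = 1) (t0 : t ∉ center _)
    (e : ¬Z3 t) (hc : c ∈ P) : t * c * t⁻¹ * c ∈ center _ := by
  by_contra c0
  obtain ⟨x, y, b, T⟩ := h.exists_TZ tN tt t0 (mul_mem (Nm_conj tN hc) hc) c0 (h.plus_comm tN tt hc)
  exact e (h.Z3_of h9 T)

end T3

namespace GH

variable [Finite V] (h : GH w P H B) {x y u a b c g r j t : V ≃ₗ[F] V}
include h

theorem exists_j (hx : x ∈ P) (hy : y ∈ P) (ha : a ∈ P) (hb : b ∈ P) (ax : a * x = x * a)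
    (bx : b * x = x * b) (ay : a * y = y * a) (b1 : b * y = y * b) (xy : be w x y = 1)
    (ab : be w a b ≠ 0) : ∃ j ∈ H, TZ w P j x y a b ∧
      ∀ g, g * x = x * g → g * y = y * g → g * j = j * g := by
  obtain ⟨e1, e2⟩ := h.cube_inv hx hy xy
  have n1 := pow_mem (mul_mem (h.gate y hy) (h.gate x hx)) 3
  have n2 := pow_mem (mul_mem (h.gt_mem_Nm hy) (h.gt_mem_Nm hx)) 3
  have n3 : ∀ g, g * x = x * g → g * y = y * g → Commute g ((gt w y * gt w x) ^ 3) :=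
    fun g gx gy => (Commute.mul_right (h.gt_comm (h.cub y hy) gy) (h.gt_comm (h.cub x hx) gx)).pow_right 3
  generalize (gt w y * gt w x) ^ 3 = n at *
  have k : ∀ {c}, n * c * n⁻¹ = c⁻¹ → n * n * c = c * (n * n) := fun {c} e => comm_of_conj (by
    rw [show n * n * c * (n * n)⁻¹ = n * (n * c * n⁻¹) * n⁻¹ by group, e, ← conj_inv, e, inv_inv])
  have c0 := h.cen4 h.h9 hx hy (by simp [xy]) ha hb ax bx ab (k e2) (k e1)
    (comm_mul (n3 a ax ay).symm (n3 a ax ay).symm) (comm_mul (n3 b bx b1).symm (n3 b bx b1).symm)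
  have k2 : ∀ c, n ^ 9 * c * (n ^ 9)⁻¹ = n * c * n⁻¹ := fun c => by
    rw [show n ^ 9 * c * (n ^ 9)⁻¹ = n * ((n * n) ^ 4 * c * ((n * n) ^ 4)⁻¹) * n⁻¹ by
      rw [← pow_two, ← pow_mul]; group, conj_eq_of_comm (mem_center_iff.1 (pow_mem c0 4) c).symm]
  exact ⟨n ^ 9, pow_mem n1 _, ⟨pow_mem n2 _, by
    rw [← (Commute.refl n).mul_pow, h.cen9 (mul_mem n1 n1) c0], hx, hy, ha, hb, (k2 x).trans e2,
    (k2 y).trans e1, ((n3 a ax ay).pow_right 9).symm, ((n3 b bx b1).pow_right 9).symm, xy, ab⟩,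
    fun g gx gy => (n3 g gx gy).pow_right 9⟩

theorem eq_of_t (tH : t ∈ H) (uH : u ∈ H) (tN : t ∈ Nm P) (uN : u ∈ Nm P) (tt : t * t = 1)
    (uu : u * u = 1) (e : t * u = u * t) (e1 : ∀ c ∈ P, t * c * t⁻¹ * c ∈ center _)
    (e2 : ∀ c ∈ P, u * c * u⁻¹ * c ∈ center _) : t = u := by
  have ss : t * u * (t * u) = 1 := by
    rw [mul_assoc, ← mul_assoc u, ← e, mul_assoc, uu, mul_one, tt]
  have := h.cen9 (mul_mem tH uH) (h.schur fun c hc => h.comm_of_cmt (mul_mem tN uN) ss hc (by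
    rw [show cmt (t * u) c = t * (u * c * u⁻¹ * c) * t⁻¹ * (c * (t * c * t⁻¹ * c) * c⁻¹)⁻¹ by
      rw [cmt]; group]
    exact mul_mem ((inferInstance : (center _).Normal).conj_mem _ (e2 c hc) _)
      (inv_mem ((inferInstance : (center _).Normal).conj_mem _ (e1 c hc) _))))
  rw [show 9 = 2 * 4 + 1 from rfl, pow_succ, pow_mul, pow_two, ss, one_pow, one_mul] at this
  rw [eq_inv_of_mul_eq_one_left this, inv_eq_of_mul_eq_one_left uu]

variable (pin : ∀ x ∈ P, x ∉ center _ → Pin H (Nm P) x)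
include pin

theorem pin_j (T : TZ w P j x y a b) (jH : j ∈ H) : Pin H (Nm P) j := fun g hg e => by
  have jj : g⁻¹ * j * g * (g⁻¹ * j * g) = 1 := by
    rw [show g⁻¹ * j * g * (g⁻¹ * j * g) = g⁻¹ * (j * j) * g by group, T.jj]; group
  have j0 : g⁻¹ * j * g ∉ center _ := fun c => h.x0 T (by
    have := T.jx
    rw [conj_eq_of_comm (mem_center_iff.1 (cen_conj g⁻¹ (by rwa [inv_inv])) x).symm] at this
    rw [eq_one_of_sq (h.cub x T.hx) (mul_eq_one_iff_eq_inv.2 this)]; exact one_mem _)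
  obtain ⟨c, hc, c0⟩ : ∃ c ∈ P, g⁻¹ * j * g * c * (g⁻¹ * j * g)⁻¹ * c ∉ center _ := by
    by_contra! hn
    exact h.not_Z3 h.h9 e jj hn (by simpa using (h.Z3_of h.h9 T).conj g⁻¹)
  obtain ⟨x', y', b', T'⟩ :=
    h.exists_TZ e jj j0 (mul_mem (Nm_conj e hc) hc) c0 (h.plus_comm e jj hc)
  refine pin a T.ha (h.notMem_of_be T.ab) g hg (h.cen_j T' pin
    (H.mul_mem (H.mul_mem (H.inv_mem hg) jH) hg)
    ⟨H.mul_mem (H.mul_mem (H.inv_mem hg) (h.le T.ha)) hg, mem_Cz.2 ?_⟩)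
  rw [show ∀ a b, g⁻¹ * a * g * (g⁻¹ * b * g) = g⁻¹ * (a * b) * g from fun _ _ => by group,
    ← T.ja]; group

theorem le_of_odd {O : Subgroup (V ≃ₗ[F] V)} (OH : O ≤ H) (HO : H ≤ Nm O)
    (o : ∀ g ∈ O, Odd (orderOf g)) (hx : x ∈ P) (x0 : x ∉ center _) (xO : x ∈ O) : H ≤ Nm P := by
  have k : ∀ g ∈ O ⊓ Nm P, ∀ c ∈ P, cmt g c ∈ center _ := fun g hg c hc =>
    h.cmt_cen o (fun x hx => HO (h.gate x hx)) hg.1 hg.2 hc
  have S := syl_of_pin (K := O) (Y := O ⊓ Nm P) (pin x hx x0) (h.le hx) (le_normalizer hx)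
    (h.cub x hx) OH inf_le_left (fun ⟨g, hg⟩ => ⟨3, Subtype.ext (show g ^ 3 ^ 3 = 1 by
      rw [show 3 ^ 3 = 3 * 9 from rfl, pow_mul]
      exact h.cen9 (pow_mem (OH hg.1) 3) (h.schur fun c hc => comm_of_conj (by
        rw [h.conj_of_cmt (k g hg c hc), h.cub _ (cm_mem hg.2 hc), one_mul])))⟩) (HO (h.le hx))
    (le_normalizer (show x ∈ O ⊓ Nm P from ⟨xO, le_normalizer hx⟩)) fun g h1 h2 _ _ => ⟨h1, h2⟩
  obtain ⟨a, ha, b, hb, e⟩ := h.exists_pair (by rw [h.h9]; omega)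
  have := le_of_pin (center_le_normalizer _) OH S inf_le_right
    (fun g hg => ⟨hg.1, center_le_normalizer _ hg.2⟩) (fun n hn n1 y hy => ?_)
    (fun ⟨r, hr⟩ => ⟨1, Subtype.ext (h.cub r hr)⟩) (h.le.trans HO) le_normalizer pin h.cm ha hb
    fun e' => by simp [h.be_of_comm e'] at e
  · exact fun g hg => (pin x hx x0).conj hg (this (Nm_conj (HO hg) xO))
  have n2 : n ∈ O ⊓ Nm P := ⟨hn, (pin x hx x0).conj (OH hn)
    (Nm_conj n1 (show x ∈ O ⊓ Nm P from ⟨xO, le_normalizer hx⟩)).2⟩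
  refine cen_conj (y * n)⁻¹ (h.schur fun c hc => comm_of_conj ?_)
  have e1 := conj_eq_cm n c
  have e2 := conj_eq_cm y c
  have c1 := mem_center_iff.1 (k n n2 c hc)
  have c2 := mem_center_iff.1 (k y hy c hc)
  generalize cmt n c = d, cmt y c = d' at *
  rw [show ∀ c, (y * n)⁻¹ * (n * y * n⁻¹ * y⁻¹) * (y * n)⁻¹⁻¹ * c * ((y * n)⁻¹ * (n * y * n⁻¹ * y⁻¹) *
    (y * n)⁻¹⁻¹)⁻¹ = (y * n)⁻¹ * (n * (y * c * y⁻¹) * n⁻¹) * (y * n) from fun _ => by group, e2,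
    ← conj_mul, e1, conj_eq_of_comm (c2 n), ← mul_assoc d', ← c2 d, mul_assoc d, ← e2,
    ← conj_eq_of_comm (c1 y), conj_mul, ← e1]
  group

theorem global [Hyp.ZStar] : H ≤ Nm P := by
  obtain ⟨x, hx, y, hy, xy⟩ := h.exists_pair (by rw [h.h9]; omega)
  obtain ⟨a, ha, b, hb, ax, bx, ay, b1, ab⟩ := h.exists_ab' h.h9 hx hy (by simp [xy])
  obtain ⟨j, jH, T, jc⟩ := h.exists_j hx hy ha hb ax bx ay b1 xy (by simp [ab])
  obtain ⟨i, iH, T', -⟩ := h.exists_j ha hb hx hy ax.symm ay.symm bx.symm b1.symm ab (by simp [xy])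
  have ij := jc i T'.ja T'.jb
  obtain ⟨t, ht⟩ : ∃ t, t = j * i := ⟨_, rfl⟩
  have tH : t ∈ H := ht ▸ mul_mem jH iH
  have tN : t ∈ Nm P := ht ▸ mul_mem T.jN T'.jN
  have tt : t * t = 1 := by
    rw [ht, mul_assoc, ← mul_assoc i, ij, mul_assoc, T'.jj, mul_one, T.jj]
  have k1 : ∀ {c}, j * c * j⁻¹ = c⁻¹ → i * c = c * i → t * c * t⁻¹ = c⁻¹ := fun e1 e2 => by
    rw [ht, mul_assoc j, e2, ← e1]; group
  have k2 : ∀ {c}, i * c * i⁻¹ = c⁻¹ → j * c = c * j → t * c * t⁻¹ = c⁻¹ := fun e1 e2 => by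
    rw [ht, ← ij, mul_assoc i, e2, ← e1]; group
  have tx := k1 T.jx T'.ja
  have x0 := h.x0 T
  have xx : x⁻¹ * x⁻¹ = x := by
    rw [← mul_inv_rev, inv_eq_iff_mul_eq_one, mul_assoc, ← pow_three, h.cub x hx]
  have t0 : t ∉ center _ := fun c => x0 (by
    rw [conj_eq_of_comm (mem_center_iff.1 c x).symm] at tx
    rw [eq_one_of_sq (h.cub x hx) (mul_eq_one_iff_eq_inv.2 tx)]; exact one_mem _)
  have tZ : ¬Z3 t := h.not_Z3 h.h9 tN tt fun c hc => by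
    have k : ∀ {u}, u ∈ P → t * u * t⁻¹ = u⁻¹ → be w (t * c * t⁻¹ * c) u = 0 := fun {u} hu e => by
      have := h.be_conj hc (inv_mem hu) t
      rw [← conj_inv, e, inv_inv, h.be_inv_right hu hc] at this
      rw [h.be_mul_left (Nm_conj tN hc) hc hu, this, neg_add_cancel]
    exact h.cen_be4 h.h9 T (mul_mem (Nm_conj tN hc) hc) (k hx tx) (k hy (k1 T.jy T'.jb))
      (k ha (k2 T'.jx T.ja)) (k hb (k2 T'.jy T.jb))
  have o2 : ∀ {s : V ≃ₗ[F] V}, s * s = 1 → IsPGroup 2 (zpowers s) := fun {s} e ⟨_, n, hn⟩ =>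
    ⟨1, Subtype.ext (by
      simp only [← hn, pow_one, SubmonoidClass.mk_pow, OneMemClass.coe_one]
      rw [← zpow_natCast, ← zpow_mul, mul_comm, zpow_mul, zpow_natCast, pow_two, e, one_zpow])⟩
  have sq : ∀ g : V ≃ₗ[F] V, g * t * g⁻¹ * (g * t * g⁻¹) = 1 := fun g => by
    rw [conj_mul, tt, mul_one, mul_inv_cancel]
  obtain ⟨S, S1, S2⟩ := exists_isSylowIn_ge (o2 T.jj) (zpowers_le.2 jH)
  have SM := (h.pin_j pin T jH).le S2.isPGroup S2.le (S1 (mem_zpowers j)) T.jN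
  obtain ⟨N, hN, o, hz⟩ := Hyp.zstar (u := (⟨t, tH⟩ : H))
    (orderOf_eq_prime (Subtype.ext ((pow_two t).trans tt)) fun e =>
      t0 ((show t = 1 from congrArg Subtype.val e) ▸ one_mem _)) fun g e => Subtype.ext (by
      replace e : t * (g * t * g⁻¹) = g * t * g⁻¹ * t := congrArg Subtype.val e
      change g * t * g⁻¹ = t
      obtain ⟨n, -, hn⟩ := S2.exists_cj_le
        (Invol.isPGroup_sup_zpowers_of_commute (o2 tt) (o2 (sq g)) e) (sup_le (zpowers_le.2 tH)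
          (zpowers_le.2 (H.mul_mem (H.mul_mem g.2 tH) (H.inv_mem g.2))))
      have m1 := SM (hn (conj_mem_cj (mem_sup_left (mem_zpowers _))))
      have m2 := SM (hn (conj_mem_cj (mem_sup_right (mem_zpowers _))))
      have H1 := S2.le (hn (conj_mem_cj (mem_sup_left (mem_zpowers _))))
      have H2 := S2.le (hn (conj_mem_cj (mem_sup_right (mem_zpowers _))))
      have e' : n * t * n⁻¹ * (n * (g * t * (g : V ≃ₗ[F] V)⁻¹) * n⁻¹) =
          n * (g * t * (g : V ≃ₗ[F] V)⁻¹) * n⁻¹ * (n * t * n⁻¹) := by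
        rw [conj_mul, conj_mul]; exact congrArg (n * · * n⁻¹) e
      have z : ∀ g, g * t * g⁻¹ ∈ Nm P → ∀ c ∈ P, g * t * g⁻¹ * c * (g * t * g⁻¹)⁻¹ * c ∈ center _ :=
        fun g m c hc => h.type_t h.h9 m (sq g) (fun c => t0 (cen_conj g c))
          (fun e => tZ (by simpa [mul_assoc] using e.conj g⁻¹)) hc
      rw [show n * (g * t * (g : V ≃ₗ[F] V)⁻¹) * n⁻¹ = n * g * t * (n * g)⁻¹ by group] at m2 H2 e'
      have := h.eq_of_t H1 H2 m1 m2 (sq _) (sq _) e' (z _ m1) (z _ m2)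
      rw [show n * g * t * (n * g)⁻¹ = n * (g * t * (g : V ≃ₗ[F] V)⁻¹) * n⁻¹ by group,
        mul_left_inj, mul_right_inj] at this
      exact this.symm)
  refine h.le_of_odd pin (O := N.map H.subtype) (map_subtype_le N) (fun g hg => ?_) ?_ hx x0
    ⟨_, hz ⟨x, h.le hx⟩, ?_⟩
  · refine mem_normalizer_fintype ?_
    rintro _ ⟨u, hu, rfl⟩
    exact ⟨_, hN.conj_mem u hu ⟨g, hg⟩, rfl⟩
  · rintro _ ⟨u, hu, rfl⟩
    rw [orderOf_injective _ H.subtype_injective]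
    exact Odd.of_dvd_nat o (N.orderOf_dvd_natCard hu)
  · change t * x * t⁻¹ * x⁻¹ = x
    rw [tx, xx]

end GH

end CF.MaxSub.E9
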