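/-
Normalisers of `3^{1+4}`: centralisers of non-central elements.
-/
import Cfsg.Agent.MaxSub.E9H

set_option autoImplicit false
set_option linter.unusedSectionVars false

namespace CF.MaxSub.E9

open Module Subgroup Geom

variable {F V : Type*} [Field F] [AddCommGroup V] [Module F V] {w : Fˣ}
  {P H : Subgroup (V ≃ₗ[F] V)} {σ : F →+* F} {B : V →ₛₗ[σ] V →ₗ[F] F}

/-- The pointwise stabiliser. -/
def Fx (U : Submodule F V) : Subgroup (V ≃ₗ[F] V) where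
  carrier := {g | ∀ v ∈ U, g v = v}
  mul_mem' ha hb v hv := by rw [LinearEquiv.mul_apply, hb v hv, ha v hv]
  one_mem' _ _ := rfl
  inv_mem' {a} ha v hv := by rw [← ha v hv, inv_apply_apply, ha v hv]

theorem Fx_le_ScOn (U : Submodule F V) : Fx U ≤ ScOn U := fun _ hg =>
  ⟨1, fun v hv => by rw [hg v hv, one_smul]⟩

theorem cmt_Fx [Finite V] {U : Submodule F V} {g r : V ≃ₗ[F] V} (hg : g ∈ ScOn U)
    (hr : ∀ v ∈ U, r v ∈ U) : cmt g r ∈ Fx U := fun _ hv => cmt_triv hg hr hv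

theorem cmt_Fx' [Finite V] {U : Submodule F V} {g r : V ≃ₗ[F] V} (hg : g ∈ ScOn U)
    (hr : ∀ v ∈ U, r v ∈ U) : cmt r g ∈ Fx U := by
  rw [show cmt r g = (cmt g r)⁻¹ by simp only [cmt]; group]; exact inv_mem (cmt_Fx hg hr)

theorem conj_Fx [Finite V] {U : Submodule F V} {g r : V ≃ₗ[F] V} (hg : g ∈ Fx U)
    (hr : ∀ v ∈ U, r v ∈ U) : r * g * r⁻¹ ∈ Fx U :=
  conj_eq_cm r g ▸ mul_mem (cmt_Fx' (Fx_le_ScOn U hg) hr) hg

theorem cmt_mem {G : Type*} [Group G] {K : Subgroup G} {a b : G} (ha : a ∈ K) (hb : b ∈ K) :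
    cmt a b ∈ K := mul_mem (mul_mem (mul_mem ha hb) (inv_mem ha)) (inv_mem hb)

theorem eig_mem {x g : V ≃ₗ[F] V} (e : g * x = x * g) (c : F) : ∀ v ∈ Eg x c, g v ∈ Eg x c :=
  fun _ => map_mem_Eg e

/-- `γ` is the restriction of `g`. -/
def Rs {U : Submodule F V} (γ : U ≃ₗ[F] U) (g : V ≃ₗ[F] V) : Prop := ∀ v : U, (γ v : V) = g v

section Rs

variable {U : Submodule F V} {γ δ : U ≃ₗ[F] U} {g k : V ≃ₗ[F] V}

theorem Rs.mul (h : Rs γ g) (h' : Rs δ k) : Rs (γ * δ) (g * k) := fun v => by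
  rw [LinearEquiv.mul_apply, h, h']; rfl

theorem Rs.inv (h : Rs γ g) : Rs γ⁻¹ g⁻¹ := fun v =>
  g.injective (by rw [← h, apply_inv_apply, apply_inv_apply])

theorem Rs.cmt (h : Rs γ g) (h' : Rs δ k) : Rs (cmt γ δ) (cmt g k) :=
  ((h.mul h').mul h.inv).mul h'.inv

theorem Rs.eq (h : Rs γ g) (h' : Rs γ k) {v : V} (hv : v ∈ U) : g v = k v :=
  (h ⟨v, hv⟩).symm.trans (h' ⟨v, hv⟩)

theorem Rs.ext (h : Rs γ g) (h' : Rs δ g) : γ = δ :=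
  LinearEquiv.ext fun v => Subtype.ext ((h v).trans (h' v).symm)

theorem Rs.congr (h : Rs γ g) (e : ∀ v ∈ U, g v = k v) : Rs γ k := fun v => (h v).trans (e v v.2)

theorem Rs.sc (h : Rs γ g) (hc : γ ∈ center _) : g ∈ ScOn U :=
  let ⟨c, hc⟩ := mem_center_iff_smul.1 hc
  ⟨c, fun v hv => (h ⟨v, hv⟩).symm.trans (congrArg Subtype.val (hc _))⟩

theorem rs_rE [Finite V] (h : ∀ v ∈ U, g v ∈ U) : Rs (rE g h) g := fun _ => rfl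

end Rs

theorem Eg_zero (x : V ≃ₗ[F] V) : Eg x (wq w 0) = Eg x 1 := by rw [wq_zero]

theorem Om3.Eg_zz (o : Om3 w) (x : V ≃ₗ[F] V) (k l : ZMod 3) :
    Eg (zz V w k * x) (wq w (k + l)) = Eg x (wq w l) := Submodule.ext fun _ => o.zz_mul_eig k l

theorem Om3.Eg_zz' (o : Om3 w) (x : V ≃ₗ[F] V) (k : ZMod 3) :
    Eg (zz V w (-k) * x) 1 = Eg x (wq w k) := by rw [← o.Eg_zz x (-k), neg_add_cancel, wq_zero]

theorem Om3.bk_congr (o : Om3 w) {x a b : V ≃ₗ[F] V} (hx : x ^ 3 = 1) (h : a * x = x * a)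
    (h' : b * x = x * b) (e : ∀ v, x v = v → a v = b v) : bk x a = bk x b :=
  o.bk_ext hx h' (fun v hv => by rw [bk_fix o.ne hx h hv, e v hv])
    fun _ _ k0 hv => o.bk_other hx h k0 hv

/-- The elements supported on the fixed space. -/
def FxO (w : Fˣ) (x : V ≃ₗ[F] V) : Subgroup (V ≃ₗ[F] V) :=
  Cz x ⊓ Fx (Eg x (wq w 1)) ⊓ Fx (Eg x (wq w 2))

theorem FxO.comm {x g : V ≃ₗ[F] V} (h : g ∈ FxO w x) : g * x = x * g := mem_Cz.1 h.1.1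

theorem FxO.other {x g : V ≃ₗ[F] V} (h : g ∈ FxO w x) (k : ZMod 3) (v : V) (k0 : k ≠ 0)
    (hv : x v = wq w k • v) : g v = v := by
  rcases z3 k with rfl | rfl | rfl
  exacts [absurd rfl k0, h.1.2 v hv, h.2 v hv]

theorem FxO.conj [Finite V] {x g c : V ≃ₗ[F] V} (h : g ∈ FxO w x) (e : c * x = x * c) :
    c * g * c⁻¹ ∈ FxO w x :=
  ⟨⟨mem_Cz.2 (comm_mul (comm_mul e (FxO.comm h)) (comm_inv e)), conj_Fx h.1.2 (eig_mem e _)⟩,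
    conj_Fx h.2 (eig_mem e _)⟩

theorem Om3.bk_FxO (o : Om3 w) {x a : V ≃ₗ[F] V} (hx : x ^ 3 = 1) (h : a * x = x * a) :
    bk x a ∈ FxO w x :=
  ⟨⟨mem_Cz.2 (o.bk_x hx h), fun _ hv => o.bk_other hx h (by decide) hv⟩,
    fun _ hv => o.bk_other hx h (by decide) hv⟩

theorem Om3.ext_FxO (o : Om3 w) {x a b : V ≃ₗ[F] V} (hx : x ^ 3 = 1) (ha : a ∈ FxO w x)
    (hb : b ∈ FxO w x) (e : ∀ v ∈ Eg x 1, a v = b v) : a = b := o.ext hx fun k v hv => by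
  by_cases k0 : k = 0
  · exact e v (by rwa [k0, wq_zero] at hv)
  · rw [FxO.other ha k v k0 hv, FxO.other hb k v k0 hv]

/-- The centraliser normalises the restriction of `P`. -/
def NR (P H : Subgroup (V ≃ₗ[F] V)) (x : V ≃ₗ[F] V) : Prop :=
  rG (Eg x 1) (H ⊓ Cz x) ≤ Nm (rG (Eg x 1) P)

/-- A controlled element lies in `H`. -/
def BB (w : Fˣ) (P H : Subgroup (V ≃ₗ[F] V)) (x : V ≃ₗ[F] V) : Prop :=
  ∃ r ∈ P, ∃ s ∈ P, r * x = x * r ∧ s * x = x * s ∧ be w r s ≠ 0 ∧ bk x r ∈ H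

theorem zz_nc {x : V ≃ₗ[F] V} (x0 : x ∉ center _) (k : ZMod 3) : zz V w k * x ∉ center _ := by
  rwa [mul_mem_cancel_left (zz_cen _)]

theorem comm_zz {x g : V ≃ₗ[F] V} (e : g * x = x * g) (k : ZMod 3) :
    g * (zz V w k * x) = zz V w k * x * g := (comm_mul (zz_comm k g).symm e.symm).symm

theorem comm_of_zz {x g : V ≃ₗ[F] V} {k : ZMod 3} (e : g * (zz V w k * x) = zz V w k * x * g) :
    g * x = x * g := by rwa [← mul_assoc, zz_comm, mul_assoc, mul_assoc, mul_right_inj] at e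

namespace GH

variable [Finite V] (h : GH w P H B) {x y u a b c g r s : V ≃ₗ[F] V}
include h

theorem exists_ct (hx : x ∈ P) (hr : r ∈ P) (rx : r * x = x * r) (l : ZMod 3) :
    ∃ t ∈ H ⊓ Cz x ⊓ Nm P, ∀ k, ∀ v ∈ Eg x (wq w k), t v = pw r (k - l) v := by
  have hx' := mul_mem (h.zz_mem (-l)) hx
  have hs := mul_mem hr hx'
  have c : ∀ {s}, s ∈ P → x * s = s * x → gt w s ∈ H ⊓ Cz x ⊓ Nm P := fun hs e =>
    ⟨⟨h.gate _ hs, mem_Cz.2 (h.gt_comm (h.cub _ hs) e).symm⟩, h.gt_mem_Nm hs⟩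
  refine ⟨zz V w (-1) * gt w (r * (zz V w (-l) * x)) * (gt w r)⁻¹ * (gt w (zz V w (-l) * x))⁻¹,
    mul_mem (mul_mem (mul_mem ⟨⟨h.le (h.zz_mem _), mem_Cz.2 (zz_comm _ _).symm⟩,
      le_normalizer (h.zz_mem _)⟩ (c hs (comm_mul rx (comm_zz rfl _).symm).symm))
      (inv_mem (c hr rx.symm))) (inv_mem (c hx' (comm_zz rfl _))), fun k v hv => ?_⟩
  refine h.ext_on (h.cub r hr) (eig_mem rx _) (LinearEquiv.toLinearMap _)
    (LinearEquiv.toLinearMap (pw r (k - l))) (fun m v h1 h2 => ?_) hv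
  have e1 := (h.zz_mul_eig (-l) k).2 h1
  have e2 : (r * (zz V w (-l) * x)) v = wq w (-l + k + m) • v := by
    rw [LinearEquiv.mul_apply, e1, map_smul, h2, smul_smul, ← h.wq_add]
  simp only [LinearEquiv.coe_coe, LinearEquiv.mul_apply, h.inv_eig (h.gt_eig (h.cub _ hx') e1),
    h.inv_eig (h.gt_eig (h.cub _ hr) h2), h.gt_eig (h.cub _ hs) e2, map_smul, zz_apply, smul_smul,
    ← h.wq_add, h.pw_eig h2]
  congr 2
  clear e1 e2 h1 h2 hv c hs hx'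
  revert k l m; decide

theorem res_le (hx : x ∈ P) (x0 : x ∉ center _) : ∀ γ ∈ rG (Eg x 1) P,
    γ ∈ rG (Eg x 1) (H ⊓ Cz x ⊓ Nm P) ∧ gt w γ ∈ rG (Eg x 1) (H ⊓ Cz x ⊓ Nm P) := by
  rintro γ ⟨r, hr, e⟩
  have rx := h.fix_of_rG hx x0 hr e
  exact ⟨⟨r, ⟨⟨h.le hr, mem_Cz.2 rx⟩, le_normalizer hr⟩, e⟩, gt w r, ⟨⟨h.gate r hr,
    mem_Cz.2 (h.gt_comm (h.cub r hr) rx.symm).symm⟩, h.gt_mem_Nm hr⟩, h.gt_res (h.cub r hr) e⟩

theorem res_SUG (hx : x ∈ P) (x0 : x ∉ center _) :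
    rG (Eg x 1) P ≤ SUG (B.domRestrict₁₂ (Eg x 1) (Eg x 1)) :=
  le_inf (rG_le_UG (h.le.trans h.ug))
    ((h.res hx x0).le_SLG (by rw [h.fin3 h.h9 hx x0]; omega))

theorem res_FxO (hx : x ∈ P) (hg : g ∈ SUG B) (hf : g ∈ FxO w x) {γ : Eg x 1 ≃ₗ[F] Eg x 1}
    (e : Rs γ g) : γ ∈ SUG (B.domRestrict₁₂ (Eg x 1) (Eg x 1)) :=
  ⟨rG_le_UG (C := SUG B) inf_le_left ⟨g, hg, e⟩,
    mem_SLG.2 ((h.det_blk (h.cub x hx) e (FxO.other hf)).symm.trans (mem_SUG.1 hg).2)⟩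

theorem gd_of_not (hx : x ∈ P) (x0 : x ∉ center _) (hn : ¬NR P H x) : SUG B ⊓ FxO w x ≤ H := by
  have mono : rG (Eg x 1) (H ⊓ Cz x ⊓ Nm P) ≤ rG (Eg x 1) (H ⊓ Cz x) :=
    fun γ ⟨g, hg, e⟩ => ⟨g, hg.1, e⟩
  obtain ⟨-, hS, hM⟩ := (h.l3 x hx x0 (rG (Eg x 1) (H ⊓ Cz x))
    (fun γ hγ => mono (h.res_le hx x0 γ hγ).1) (fun γ hγ => mono (h.res_le hx x0 γ hγ).2)
    (rG_le_UG (inf_le_left.trans h.ug))).resolve_left hn
  have P1 := h.res_SUG hx x0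
  have P2 := fun g hg hf γ => h.res_FxO (g := g) hx hg hf (γ := γ)
  generalize SUG (B.domRestrict₁₂ (Eg x 1) (Eg x 1)) = S at *
  obtain ⟨a, ha, b, hb, ax, bx, ab⟩ := h.exists_ab h.h9 hx x0
  have key : ∀ k, k ≠ 0 → S ≤ rG (Eg x 1) (H ⊓ Cz x ⊓ Fx (Eg x (wq w k))) := fun k k0 => by
    rcases Sig.qs_eq_or_le_centralizer hS (N := rG (Eg x 1) (H ⊓ Cz x ⊓ Fx (Eg x (wq w k))) ⊓ S)
      inf_le_right (fun s hs => mem_normalizer_fintype fun a ⟨⟨g, hg, e⟩, ha⟩ => by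
        obtain ⟨c, hc, e'⟩ := hM hs
        exact ⟨⟨c * g * c⁻¹, ⟨(H ⊓ Cz x).mul_mem ((H ⊓ Cz x).mul_mem hc hg.1) ((H ⊓ Cz x).inv_mem hc),
          conj_Fx hg.2 (eig_mem (mem_Cz.1 hc.2) _)⟩, (Rs.mul e' e).mul (Rs.inv e')⟩,
          S.mul_mem (S.mul_mem hs ha) (S.inv_mem hs)⟩) with e | e
    · exact e.ge.trans inf_le_left
    obtain ⟨t, ht, e1⟩ := h.exists_ct hx ha ax k
    have c := fix_mem (pw_comm ax.symm (0 - k)).symm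
    have hp := rE_mem (pw_mem ha _) c
    have := (h.res hx x0).be_of_comm (e ⟨⟨t, ⟨ht.1, fun v hv => by rw [e1 k v hv, sub_self]; rfl⟩,
      fun v => (e1 0 v (by rw [Eg_zero]; exact v.2)).symm⟩, P1 hp⟩ _ (P1 (rE_mem hb (fix_mem bx))))
    rw [h.be_res hx x0 hb (pw_mem ha _) (fun _ => rfl) fun _ => rfl, h.be_pw_right ha hb,
      h.be_comm ha hb, ab] at this
    exact absurd (by linear_combination this) k0
  have : S ≤ rG (Eg x 1) (H ⊓ FxO w x) := by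
    rw [← Subgroup.isPerfect_iff.1 hS.1, commutator_le]
    intro α h1 β h2
    obtain ⟨g, hg, e⟩ := key 1 (by decide) h1
    obtain ⟨k, hk, e'⟩ := key 2 (by decide) h2
    exact ⟨cmt g k, ⟨cmt_mem hg.1.1 hk.1.1, ⟨cmt_mem hg.1.2 hk.1.2,
      cmt_Fx (Fx_le_ScOn _ hg.2) (eig_mem (mem_Cz.1 hk.1.2) _)⟩,
      cmt_Fx' (Fx_le_ScOn _ hk.2) (eig_mem (mem_Cz.1 hg.1.2) _)⟩, Rs.cmt e e'⟩
  rintro g ⟨hg, hf⟩
  obtain ⟨k, hk, e⟩ := this (P2 g hg hf _ (rs_rE (fix_mem (FxO.comm hf))))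
  rw [h.ext_FxO (h.cub x hx) hf hk.2 fun v hv => e ⟨v, hv⟩]
  exact hk.1

theorem step1 (hx : x ∈ P) (x0 : x ∉ center _) (hN : NR P H x) (hB : ¬BB w P H x) (gH : g ∈ H)
    (gx : g * x = x * g) {l : ZMod 3} (l0 : l ≠ 0) (hg : g ∈ ScOn (Eg x (wq w l))) :
    ∃ s ∈ P, s * x = x * s ∧ s⁻¹ * g ∈ ScOn (Eg x 1) := by
  have R := h.res hx x0
  have hγ := hN (rE_mem (show g ∈ H ⊓ Cz x from ⟨gH, mem_Cz.2 gx⟩) (fix_mem gx))
  have key : ∀ α ∈ rG (Eg x 1) P, ∃ k,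
      rE g (fix_mem gx) * α * (rE g (fix_mem gx))⁻¹ = zz _ w k * α := fun α hα => by
    obtain ⟨r, hr, e⟩ := cm_mem hγ hα
    obtain ⟨c, hc, e'⟩ := hα
    have cx := h.fix_of_rG hx x0 hc e'
    have rx := h.fix_of_rG hx x0 hr e
    obtain ⟨t, ht, e1⟩ := h.exists_ct hx (pw_mem hc l) (pw_comm cx.symm l).symm (-l)
    have f1 := cmt_Fx hg (eig_mem (mem_Cz.1 ht.1.2) _)
    have f2 : cmt g t ∈ Fx (Eg x (wq w (-l))) :=
      cmt_Fx' (Fx_le_ScOn _ fun v hv => by rw [e1 _ v hv, sub_self]; rfl) (eig_mem gx _)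
    have f3 : cmt g t ∈ FxO w x := by
      have := cmt_mem (mem_Cz.2 gx) ht.1.2
      rcases z3 l with rfl | rfl | rfl
      exacts [absurd rfl l0, ⟨⟨this, f1⟩, f2⟩, ⟨⟨this, f2⟩, f1⟩]
    have f4 : Rs α t := Rs.congr e' fun v hv => by
      rw [e1 0 v (by rwa [Eg_zero])]
      rcases z3 l with rfl | rfl | rfl
      · exact absurd rfl l0
      · rfl
      · simp [show (0 - -2 : ZMod 3) = 2 from rfl, pw_two, cube_apply (h.cub c hc)]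
    have f5 : cmt g t = bk x r := h.bk_ext (h.cub x hx) rx (fun v hv =>
      ((rs_rE (fix_mem gx)).cmt f4).eq e (mem_Eg_one.2 hv)) (FxO.other f3)
    rcases h.sc_or hx x0 hr rx with ⟨k, hk⟩ | ⟨s, hs, sx, e2⟩
    · exact ⟨k, by
        rw [conj_eq_cm, show cmt (rE g (fix_mem gx)) α = zz _ w k from LinearEquiv.ext fun v =>
          Subtype.ext ((e v).trans (hk _ (mem_Eg_one.1 v.2)))]⟩
    · exact (hB ⟨r, hr, s, hs, rx, sx, by simp [e2], f5 ▸ cmt_mem gH ht.1.1⟩).elim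
  obtain ⟨α, hα, β, hβ, e⟩ := R.exists_pair (by rw [h.fin3 h.h9 hx x0]; omega)
  obtain ⟨k, e1⟩ := key α hα
  obtain ⟨m, e2⟩ := key β hβ
  obtain ⟨ρ, ⟨s, hs, e3⟩, e4⟩ := R.triv3 (h.fin3 h.h9 hx x0) hα hβ e e1 e2
  exact ⟨s, hs, h.fix_of_rG hx x0 hs e3, ((Rs.inv e3).mul (rs_rE _)).sc e4⟩

theorem step0 (hx : x ∈ P) (x0 : x ∉ center _) (hB : ¬BB w P H x) (gH : g ∈ H)
    (gx : g * x = x * g) (g1 : g ∈ ScOn (Eg x (wq w 1))) (g2 : g ∈ ScOn (Eg x (wq w 2)))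
    (hu : u ∈ P) (ux : u * x = x * u) (e : u⁻¹ * g ∈ ScOn (Eg x 1)) : g ∈ ScOn (Eg x 1) := by
  rcases h.sc_or hx x0 hu ux with ⟨k, hk⟩ | ⟨s, hs, sx, e2⟩
  · exact ((ScOn _).mul_mem_cancel_left ((ScOn _).inv_mem
      ⟨_, fun v hv => hk v (mem_Eg_one.1 hv)⟩)).1 e
  have Ax := (h.gt_comm (h.cub s hs) sx.symm).symm
  have h1 := h.gt_act_mem hs (inv_mem hu)
  have rx : cmt u (gt w s) * x = x * cmt u (gt w s) :=
    mem_Cz.1 (cmt_mem (mem_Cz.2 ux) (mem_Cz.2 Ax))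
  have e3 : cmt u (gt w s) = u * (gt w s * u⁻¹ * (gt w s)⁻¹) := by rw [cmt]; group
  refine (hB ⟨_, e3 ▸ mul_mem hu h1, u, hu, rx, ux, ?_, ?_⟩).elim
  · rw [e3, h.be_mul_left hu h1 hu, h.be_gt hs (inv_mem hu) hu, h.be_inv_left hu hu,
      h.be_inv_right hu hs, h.be_self, h.be_comm hu hs, e2]; decide
  · rw [← h.bk_ext (g := cmt g (gt w s)) (h.cub x hx) rx (fun v hv => ?_) (FxO.other
      ⟨⟨cmt_mem (mem_Cz.2 gx) (mem_Cz.2 Ax), cmt_Fx g1 (eig_mem Ax _)⟩, cmt_Fx g2 (eig_mem Ax _)⟩)]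
    · exact cmt_mem gH (h.gate s hs)
    rw [show cmt g (gt w s) = u * cmt (u⁻¹ * g) (gt w s) * u⁻¹ * cmt u (gt w s) by
      simp only [cmt]; group]
    exact conj_Fx (cmt_Fx e (fix_mem Ax)) (fix_mem ux) _ (fix_mem rx v (mem_Eg_one.2 hv))

theorem block (hN : ∀ x ∈ P, x ∉ center _ → NR P H x) (hB : ∀ x ∈ P, x ∉ center _ → ¬BB w P H x)
    (hx : x ∈ P) (x0 : x ∉ center _) (gH : g ∈ H) (gx : g * x = x * g) :
    ∃ n ∈ H ⊓ Nm P, ∀ r ∈ P, r * x = x * r → n⁻¹ * g * r = r * (n⁻¹ * g) := by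
  obtain ⟨μ, ⟨m, hm, e⟩, e1⟩ := (h.res hx x0).gen3 (h.fin3 h.h9 hx x0)
    (fun γ hγ => (h.res_le hx x0 γ hγ).1) (fun γ hγ => (h.res_le hx x0 γ hγ).2)
    (hN x hx x0 (rE_mem (show g ∈ H ⊓ Cz x from ⟨gH, mem_Cz.2 gx⟩) (fix_mem gx)))
  have s0 := ((Rs.inv e).mul (rs_rE _)).sc e1
  have m1 := fun k => mul_mem (h.zz_mem k) hx
  have c1 := comm_mul (comm_inv (mem_Cz.1 hm.1.2)) gx
  have H1 := H.mul_mem (H.inv_mem hm.1.1) gH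
  obtain ⟨s, hs, sx, s1⟩ := h.step1 (m1 (-1)) (zz_nc x0 _) (hN _ (m1 _) (zz_nc x0 _))
    (hB _ (m1 _) (zz_nc x0 _)) H1 (comm_zz c1 _) (l := -1 + 0) (by decide)
    (by rwa [h.Eg_zz, Eg_zero])
  obtain ⟨t, ht, e2⟩ := h.exists_ct hx hs (comm_of_zz sx) 0
  have c2 := comm_mul (comm_inv (mem_Cz.1 ht.1.2)) c1
  have H2 := H.mul_mem (H.inv_mem ht.1.1) H1
  have t0 : t⁻¹ * (m⁻¹ * g) ∈ ScOn (Eg x (wq w 0)) := mul_mem (inv_mem (Fx_le_ScOn _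
    fun v hv => by rw [e2 0 v hv]; rfl)) (by rwa [Eg_zero])
  have t1 : t⁻¹ * (m⁻¹ * g) ∈ ScOn (Eg x (wq w 1)) := by
    rw [h.Eg_zz'] at s1
    simpa [mul_assoc] using mul_mem (Fx_le_ScOn _ (show t⁻¹ * s ∈ Fx (Eg x (wq w 1)) from
      fun v hv => by
        rw [LinearEquiv.mul_apply, show s v = t v from (e2 1 v hv).symm, inv_apply_apply])) s1
  obtain ⟨u, hu, ux, u1⟩ := h.step1 (m1 (-2)) (zz_nc x0 _) (hN _ (m1 _) (zz_nc x0 _))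
    (hB _ (m1 _) (zz_nc x0 _)) H2 (comm_zz c2 _) (l := -2 + 0) (by decide) (by rwa [h.Eg_zz])
  have t2 := h.step0 (m1 (-2)) (zz_nc x0 _) (hB _ (m1 _) (zz_nc x0 _)) H2 (comm_zz c2 _)
    (h.Eg_zz x (-2) 0 ▸ t0) (h.Eg_zz x (-2) 1 ▸ t1) hu ux u1
  rw [h.Eg_zz'] at t2
  refine ⟨m * t, ⟨H.mul_mem hm.1.1 ht.1.1, (Nm P).mul_mem hm.2 ht.2⟩, fun r _ rx => ?_⟩
  rw [mul_inv_rev, mul_assoc t⁻¹]
  refine cm_eq_one.1 (h.ext (h.cub x hx) fun k v hv => cmt_triv ?_ (eig_mem rx _) hv)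
  rcases z3 k with rfl | rfl | rfl
  exacts [t0, t1, t2]

theorem loc (hN : ∀ x ∈ P, x ∉ center _ → NR P H x) (hB : ∀ x ∈ P, x ∉ center _ → ¬BB w P H x)
    (hx : x ∈ P) (x0 : x ∉ center _) (gH : g ∈ H) (gx : g * x = x * g) : g ∈ Nm P := by
  obtain ⟨n, hn, e⟩ := h.block hN hB hx x0 gH gx
  have dH := H.mul_mem (H.inv_mem hn.1) gH
  refine ((Nm P).mul_mem_cancel_left ((Nm P).inv_mem hn.2)).1 ?_
  generalize n⁻¹ * g = d at *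
  obtain ⟨u, hu, e1⟩ := h.partner hx x0 1
  obtain ⟨a, ha, b, -, ax, -, au, -, ab⟩ := h.exists_ab' h.h9 hx hu (by simp [e1])
  obtain ⟨m, hm, e2⟩ := h.block hN hB ha (h.notMem_of_be (y := b) (by simp [ab])) dH (e a ha ax)
  refine mem_normalizer_fintype fun c hc => ?_
  have hp := pw_mem hu (be w x c)
  have h1 := mul_mem hc (inv_mem hp)
  rw [← inv_mul_cancel_right c (pw u (be w x c)), ← conj_mul, conj_eq_of_comm (e _ h1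
    (h.comm_of_be hx h1 (by
      rw [h.be_mul_right hc (inv_mem hp) hx, h.be_inv_right hp hx, h.be_pw_right hu hx, e1]
      ring)).symm)]
  refine mul_mem h1 ?_
  have := Nm_conj hm.2 hp
  rwa [← conj_eq_of_comm (e2 _ hp (pw_comm au _).symm), show ∀ p, m * (m⁻¹ * d * p * (m⁻¹ * d)⁻¹) * m⁻¹ =
    d * p * d⁻¹ from fun _ => by group] at this

end GH

end CF.MaxSub.E9
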