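/-
Normalisers of `3^{1+4}`: controlled elements and generation.
-/
import Cfsg.Agent.MaxSub.E9I

set_option autoImplicit false
set_option linter.unusedSectionVars false

namespace CF.MaxSub.E9

open Module Subgroup Geom

variable {F V : Type*} [Field F] [AddCommGroup V] [Module F V] {w : Fˣ}
  {P H : Subgroup (V ≃ₗ[F] V)} {σ : F →+* F} {B : V →ₛₗ[σ] V →ₗ[F] F}

theorem cube_congr {U : Submodule F V} {a b : V ≃ₗ[F] V} (hb : ∀ v ∈ U, b v ∈ U)
    (e : ∀ v ∈ U, a v = b v) {v : V} (hv : v ∈ U) : (a ^ 3) v = (b ^ 3) v := by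
  simp only [pow_three, LinearEquiv.mul_apply]
  rw [e v hv, e _ (hb v hv), e _ (hb _ (hb v hv))]

theorem Om3.pe_of_gt (o : Om3 w) {x : V ≃ₗ[F] V} (x3 : x ^ 3 = 1) {v : V}
    (e : gt w x v = wq w 1 • v) : pe x v = 0 := by
  rw [gt, LinearEquiv.mul_apply, zz_apply, smul_right_inj (wq_ne w 1),
    bk_apply o.ne x3 (zz_comm 1 x).symm, add_eq_left, zz_apply, sub_eq_zero] at e
  exact o.eig_zero (x := zz V w 1) (k := 1) rfl (eig0.2 e) (by decide)

theorem Om3.bk_eig (o : Om3 w) {x y v : _} (x3 : x ^ 3 = 1) (e : y * x = x * y) {k : ZMod 3}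
    (hv : y v = wq w k • v) (l : ZMod 3) : bk x (zz V w l * y) v = bk x (zz V w (l + k)) v := by
  rw [bk_apply o.ne x3 (comm_zz e.symm l).symm, bk_apply o.ne x3 (zz_comm _ _).symm,
    LinearEquiv.mul_apply, pe_comm e, hv, map_smul, zz_apply, zz_apply,
    smul_smul, o.wq_add]

theorem Om3.pe_eig (o : Om3 w) {x : V ≃ₗ[F] V} {v : V} {k : ZMod 3} (hv : x v = wq w k • v) :
    pe x v = if k = 0 then v else 0 := by
  split_ifs with k0
  exacts [pe_self o.ne (eig0.1 (k0 ▸ hv)), o.pe_zero k0 hv]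

theorem gd_conj [Finite V] {x n : V ≃ₗ[F] V} (h : SUG B ⊓ FxO w x ≤ H) (hn : n ∈ H)
    (hK : n ∈ Nm (SUG B)) : SUG B ⊓ FxO w (n * x * n⁻¹) ≤ H := fun g ⟨hg, hf⟩ => by
  have k : ∀ c, g ∈ Fx (Eg (n * x * n⁻¹) c) → n⁻¹ * g * n⁻¹⁻¹ ∈ Fx (Eg x c) := fun c e v hv => by
    simp only [inv_inv, LinearEquiv.mul_apply]
    rw [e (n v) (by simp [mem_Eg, mem_Eg.1 hv, inv_apply_apply, -LinearEquiv.coe_inv]),
      inv_apply_apply]
  have := h ⟨Nm_conj (inv_mem hK) hg, ⟨mem_Cz.2 (by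
    rw [inv_inv, ← mul_left_inj n⁻¹, ← mul_right_inj n]
    simpa [mul_assoc] using FxO.comm hf), k _ hf.1.2⟩, k _ hf.2⟩
  rwa [mul_mem_cancel_right (inv_mem (inv_mem hn)), mul_mem_cancel_left (inv_mem hn)] at this

namespace T3

variable [Finite V] (h : T3 w P) {x y u : V ≃ₗ[F] V}
include h

theorem gt_neg (hx : x ∈ P) (hy : y ∈ P) (e : be w x y ≠ 0) {v : V} (hv : x v = v) :
    ((bk x (zz V w 1) * bk y (zz V w 1)) ^ 3) v = -v := by
  have s1 := h.shift hx hy (eig0.2 hv)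
  have e1 : pe x (pe y v) = (3 : F)⁻¹ • v := by
    rw [pe_apply y, map_smul, map_add, map_add, pe_self h.ne hv, h.pe_zero (by simpa) s1,
      h.pe_zero ((by decide : ∀ k : ZMod 3, k ≠ 0 → k + (k + 0) ≠ 0) _ e) (h.shift hx hy s1),
      add_zero, add_zero]
  have e2 := pe_self h.ne (pe_fix (h.cub y hy) v)
  have := h.eq
  have := h.ne
  simp only [pow_three, LinearEquiv.mul_apply, bk_apply h.ne (h.cub x hx) (zz_comm 1 x).symm,
    bk_apply h.ne (h.cub y hy) (zz_comm 1 y).symm, zz_apply, map_add, map_sub, map_smul, e1, e2,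
    pe_self h.ne hv, wq_one]
  match_scalars <;> field_simp <;> grind

theorem gt_cube_eq (x y : V ≃ₗ[F] V) :
    (gt w x * gt w y) ^ 3 = (bk x (zz V w 1) * bk y (zz V w 1)) ^ 3 := by
  rw [gt, gt, mul_assoc, ← mul_assoc (bk x _), zz_comm, mul_assoc, ← mul_assoc, ← h.zz_add,
    (show Commute _ _ from (zz_comm _ _).symm).mul_pow, h.zz_cube, one_mul]

end T3

namespace GH

variable [Finite V] (h : GH w P H B) {x y u a b c g r s : V ≃ₗ[F] V}
include h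

theorem bk_zz (hx : x ∈ P) (k : ZMod 3) : bk x (zz V w k) ∈ H := by
  have := (H.mul_mem_cancel_left (h.le h.z)).1 (h.gate x hx)
  rcases z3 k with rfl | rfl | rfl
  · rw [zz_zero, h.bk_one (h.cub x hx)]; exact one_mem _
  · exact this
  · rw [show (2 : ZMod 3) = 1 + 1 from rfl, h.zz_add,
      ← h.bk_mul (h.cub x hx) (zz_comm _ _).symm (zz_comm _ _).symm]
    exact mul_mem this this

theorem bk_all (hx : x ∈ P) (x0 : x ∉ center _) (hB : BB w P H x) (hy : y ∈ P) (y0 : y ∉ center _)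
    (hr : r ∈ P) (ry : r * y = y * r) : bk y r ∈ H := by
  have x3 := h.cub x hx
  have R := h.res hx x0
  obtain ⟨n, hn, rfl⟩ := h.conn (Γ := H ⊓ Nm P) (fun x hx => ⟨h.gate x hx, h.gt_mem_Nm hx⟩) hx x0 hy y0
  obtain ⟨r, rfl⟩ : ∃ r', r = n * r' * n⁻¹ := ⟨n⁻¹ * r * n, by group⟩
  replace hr : r ∈ P := by simpa [mul_assoc] using Nm_conj ((Nm P).inv_mem hn.2) hr
  rw [conj_mul, conj_mul, mul_left_inj, mul_right_inj] at ry
  rw [← h.bk_conj x3 ry]
  refine mul_mem (mul_mem hn.1 ?_) (H.inv_mem hn.1)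
  rcases h.sc_or hx x0 hr ry with ⟨k, hk⟩ | ⟨s, hs, sx, e⟩
  · rw [h.bk_congr x3 ry (zz_comm k x).symm hk]; exact h.bk_zz hx k
  obtain ⟨a, ha, b, hb, ax, bx, ab, hB⟩ := hB
  obtain ⟨ν, ⟨m, hm, e1⟩, e2⟩ := R.conn (fun γ hγ => (h.res_le hx x0 γ hγ).2) (rE_mem ha (fix_mem ax))
    (R.notMem_of_be (y := rE b (fix_mem bx)) (by
      rwa [h.be_res hx x0 ha hb (fun _ => rfl) fun _ => rfl])) (rE_mem hr (fix_mem ry))
    (R.notMem_of_be (y := rE s (fix_mem sx)) (by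
      rw [h.be_res hx x0 hr hs (fun _ => rfl) fun _ => rfl, e]; decide))
  have mx := mem_Cz.1 hm.1.2
  have := mul_mem (mul_mem hm.1.1 hB) (H.inv_mem hm.1.1)
  rwa [h.bk_conj x3 ax, conj_eq_of_comm mx, h.bk_congr x3 (comm_mul (comm_mul mx ax) (comm_inv mx))
    ry fun v hv => ((Rs.mul e1 (rs_rE _)).mul (Rs.inv e1)).eq (e2 ▸ rs_rE _) (mem_Eg_one.2 hv)] at this

variable (hB : ∀ y ∈ P, y ∉ center _ → ∀ r ∈ P, r * y = y * r → bk y r ∈ H)
include hB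

theorem two_eq_zero (hx : x ∈ P) (x0 : x ∉ center _) (hN : NR P H x) : (2 : F) = 0 := by
  have x3 := h.cub x hx
  obtain ⟨t, ht, e⟩ := h.partner hx x0 2
  obtain ⟨y, hy, u, hu, yx, ux, yt, -, yu⟩ := h.exists_ab' h.h9 hx ht (by simp [e]; decide)
  have t3 := h.cub t ht
  have c1 := (comm_zz (w := w) yx.symm 1).symm
  have c2 := (comm_zz (w := w) (comm_inv yt).symm 1).symm
  have y1 := h.bk_comm x3 c1 yx (comm_zz rfl 1)
  have y2 := h.bk_comm t3 c2 yt (comm_zz (comm_inv (b := y) rfl).symm 1)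
  obtain ⟨z, hz⟩ : ∃ z, z = (bk x (zz V w 1 * y) * bk t (zz V w 1 * y⁻¹)) ^ 3 := ⟨_, rfl⟩
  have zH : z ∈ H := hz ▸ pow_mem (mul_mem (hB x hx x0 _ (mul_mem h.z hy) c1)
    (hB t ht (h.notMem_of_be' (x := x) (by simp [e]; decide)) _ (mul_mem h.z (inv_mem hy)) c2)) 3
  have z0 : ∀ v, y v = v → z v = ((bk x (zz V w 1) * bk t (zz V w 1)) ^ 3) v := fun v hv => by
    have f := (h.bk_comm t3 (zz_comm (w := w) 1 t).symm yt (zz_comm _ _)).symm
    refine hz ▸ cube_congr (fix_mem (comm_mul (h.bk_comm x3 (zz_comm 1 x).symm yx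
      (zz_comm _ _)).symm f)) (fun v hv => ?_) (mem_Eg_one.2 hv)
    rw [LinearEquiv.mul_apply, h.bk_eig t3 (comm_inv yt) (h.inv_eig (eig0.2 (mem_Eg_one.1 hv))),
      neg_zero, add_zero, h.bk_eig x3 yx (eig0.2 (mem_Eg_one.1 (fix_mem f v hv)))]
    rfl
  have z1 : ∀ k v, k ≠ 0 → y v = wq w k • v → z v = v := fun k v k0 hv => by
    rcases z3 k with rfl | rfl | rfl
    · exact absurd rfl k0
    · rw [hz, cube_congr (eig_mem y1.symm _) (fun v hv => by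
        rw [LinearEquiv.mul_apply, h.bk_eig t3 (comm_inv yt) (h.inv_eig hv), add_neg_cancel,
          zz_zero, h.bk_one t3]; rfl) hv, pow_three, h.bk_mul x3 c1 c1,
        h.bk_mul x3 c1 (comm_mul c1 c1), ← pow_three, h.zz_mul_cube (h.cub y hy), h.bk_one x3]; rfl
    · rw [hz, cube_congr (eig_mem y2.symm _) (fun v hv => by
        rw [LinearEquiv.mul_apply, h.bk_eig x3 yx (eig_mem y2.symm _ v hv),
          show (1 + 2 : ZMod 3) = 0 from rfl, zz_zero, h.bk_one x3]; rfl) hv, pow_three,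
        h.bk_mul t3 c2 c2, h.bk_mul t3 c2 (comm_mul c2 c2), ← pow_three,
        h.zz_mul_cube (h.cub _ (inv_mem hy)), h.bk_one t3]; rfl
  have Ay := h.gt_comm x3 yx
  have zA : z * gt w x = gt w x * z := h.ext (h.cub y hy) fun k v hv => by
    simp only [LinearEquiv.mul_apply]
    by_cases k0 : k = 0
    · rw [k0, eig0] at hv
      rw [z0 v hv, z0 _ (by rw [comm_apply Ay, hv]), ← h.gt_cube_eq]
      exact comm_apply (h.gt_j x3 (h.cube_inv ht hx (by rw [h.be_comm hx ht, e]; rfl)).1) v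
    · rw [z1 k v k0 hv, z1 k _ k0 (eig_mem Ay.symm _ v hv)]
  have f0 : ∀ {n}, n * gt w x = gt w x * n → ∀ v, x v = v → x (n v) = n v := fun e v hv =>
    (h.gt_fix x3).1 (eig_mem e _ v ((h.gt_fix x3).2 hv))
  have c0 : ∀ v, x v = v → (z * bk x u * z⁻¹) v = z (u (z⁻¹ v)) := fun v hv => by
    rw [LinearEquiv.mul_apply, LinearEquiv.mul_apply, bk_fix h.ne x3 ux (f0 (comm_inv zA) v hv)]
  have cx : z * bk x u * z⁻¹ * x = x * (z * bk x u * z⁻¹) := h.ext x3 fun k v hv => by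
    rw [LinearEquiv.mul_apply, LinearEquiv.mul_apply x, hv, map_smul]
    by_cases k0 : k = 0
    · rw [k0, eig0] at hv
      rw [c0 v hv, f0 zA _ (by rw [← comm_apply ux, f0 (comm_inv zA) v hv]), k0, wq_zero, one_smul]
    · have := h.gt_eig x3 hv
      rw [(by decide : ∀ k : ZMod 3, k ≠ 0 → 2 - k * k = 1) k k0] at this
      rw [LinearEquiv.mul_apply, LinearEquiv.mul_apply, bk_apply h.ne x3 ux,
        h.pe_of_gt x3 (eig_mem (comm_inv zA) _ v this), map_zero, sub_zero, add_zero,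
        apply_inv_apply, hv]
  have cH : z * bk x u * z⁻¹ ∈ H ⊓ Cz x :=
    ⟨H.mul_mem (H.mul_mem zH (hB x hx x0 u hu ux)) (H.inv_mem zH), mem_Cz.2 cx⟩
  obtain ⟨δ, hδ, e1⟩ := cm_mem (hN (rE_mem cH (fix_mem cx))) (rE_mem hu (fix_mem ux))
  obtain ⟨v, v0, hv, hv'⟩ := h.exists_eig2 hx x0 hy hu yx ux (by simp [yu]) 0
  have s1 := h.shift hy hu hv'
  have s2 := h.shift hy hu s1
  rw [yu] at s1 s2
  have x1 : x (u v) = u v := by rw [← comm_apply ux, hv]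
  have x2 : x (u (u v)) = u (u v) := by rw [← comm_apply ux, x1]
  have i : ∀ {k v}, k ≠ 0 → y v = wq w k • v → z⁻¹ v = v := fun k0 hv =>
    z.injective (by rw [apply_inv_apply, z1 _ _ k0 hv])
  have e2 := c0 _ x1
  have e3 := c0 _ x2
  rw [i (by decide) s1, z1 _ _ (by decide) s2] at e2
  rw [i (by decide) s2, cube_apply (h.cub u hu), z0 v (eig0.1 hv'),
    h.gt_neg hx ht (by simp [e]; decide) hv] at e3
  have e4 : δ v = -v := by
    rw [← ((rs_rE _).cmt (rs_rE _)).eq e1 (mem_Eg_one.2 hv)]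
    generalize z * bk x u * z⁻¹ = c at *
    simp only [cmt, LinearEquiv.mul_apply]
    rw [← e3, ← cube_apply (h.cub u hu) v, inv_apply_apply, ← e2, inv_apply_apply, e2,
      cube_apply (h.cub u hu)]
  have e5 := cube_apply (h.cub δ hδ) v
  simp only [e4, map_neg, neg_neg] at e5
  exact (smul_eq_zero_iff_left v0).1 (by linear_combination (norm := module) -e5)

theorem gd_two (hB0 : B.Nondegenerate) (h2 : (2 : F) = 0) (f4 : ∀ c : F, c ≠ 0 → c ^ 3 = 1)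
    (hy : y ∈ P) (y0 : y ∉ center _) : SUG B ⊓ FxO w y ≤ H := by
  have y3 := h.cub y hy
  have R := h.res hy y0
  have R3 := h.fin3 h.h9 hy y0
  obtain ⟨K, hK⟩ : ∃ K, K = rG (Eg y 1) (H ⊓ FxO w y) := ⟨_, rfl⟩
  have K1 : rG (Eg y 1) P ≤ K := hK ▸ fun γ ⟨r, hr, e⟩ => by
    have ry := h.fix_of_rG hy y0 hr e
    exact ⟨bk y r, ⟨hB y hy y0 r hr ry, h.bk_FxO y3 ry⟩,
      Rs.congr e fun v hv => (bk_fix h.ne y3 ry (mem_Eg_one.1 hv)).symm⟩
  have E : ∀ γ ∈ rG (Eg y 1) P, γ ∉ center _ → ∀ k, k ≠ 0 → ∃ g ∈ H ⊓ Cz y, Rs (gt w γ) g ∧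
      g ∈ ScOn (Eg y (wq w k)) := by
    rintro γ ⟨r, hr, e⟩ γ0 k k0
    have ry := h.fix_of_rG hy y0 hr e
    have r3 := h.cub r hr
    have c := pw_comm ry (-k)
    refine ⟨zz V w 1 * bk r (zz V w 1 * pw y (-k)), ⟨H.mul_mem (h.le h.z) (hB r hr (fun c0 => γ0 ?_) _
      (mul_mem h.z (pw_mem hy _)) (comm_zz c 1).symm), mem_Cz.2 (comm_mul (zz_comm _ _).symm
      (h.bk_comm r3 (comm_zz c 1).symm ry.symm (comm_zz (pw_comm rfl _) 1)).symm)⟩,
      Rs.congr (h.gt_res r3 e) fun v hv => ?_, wq w 1, fun v hv => ?_⟩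
    · obtain ⟨c, hc⟩ := mem_center_iff_smul.1 c0
      exact mem_center_of_smul (c := c) fun v => Subtype.ext ((e v).trans (hc v))
    · rw [LinearEquiv.mul_apply, h.bk_eig r3 c.symm (h.pw_eig (eig0.2 (mem_Eg_one.1 hv)) _),
        mul_zero, add_zero]; rfl
    · rw [LinearEquiv.mul_apply, h.bk_eig r3 c.symm (h.pw_eig hv _),
        (by decide : ∀ k : ZMod 3, k ≠ 0 → 1 + -k * k = 0) k k0, zz_zero, h.bk_one r3]; rfl
  have step : ∀ {Γ}, K ≤ Γ → ∀ α ∈ rG (Eg y 1) P, ∀ β ∈ rG (Eg y 1) P, be w β α ≠ 0 →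
      gt w α ∈ Γ → gt w β ∈ Γ := fun {Γ} hΓ α hα β hβ e hA => by
    obtain ⟨a, ha, a1, a2⟩ := E α hα (R.notMem_of_be' e) 2 (by decide)
    obtain ⟨b, hb, b1, b2⟩ := E β hβ (R.notMem_of_be e) 1 (by decide)
    have : cmt (gt w β) (gt w α) ∈ K := hK ▸ ⟨cmt b a, ⟨cmt_mem hb.1 ha.1, ⟨cmt_mem hb.2 ha.2,
      cmt_Fx b2 (eig_mem (mem_Cz.1 ha.2) _)⟩, cmt_Fx' a2 (eig_mem (mem_Cz.1 hb.2) _)⟩, b1.cmt a1⟩
    rw [show gt w β = gt w α * (cmt (gt w β) (gt w α) * gt w α) * (gt w α)⁻¹ by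
      rw [← conj_eq_cm, ← mul_assoc, ← mul_assoc, R.braid hα hβ e]; group]
    exact mul_mem (mul_mem hA (mul_mem (hΓ this) hA)) (inv_mem hA)
  obtain ⟨α, hα, α0⟩ := R.exists_nc (by omega)
  have A3 := h.gt_cube (R.cub α hα)
  rintro g ⟨hg, hf⟩
  have hγ := h.res_FxO hy hg hf (rs_rE (fix_mem (FxO.comm hf)))
  obtain ⟨m, hm, e⟩ := R.gen3 R3 (Γ := K ⊔ zpowers (gt w α)) (K1.trans le_sup_left) (fun β hβ => by
      by_cases β0 : β ∈ center _
      · obtain ⟨k, rfl⟩ := R.cen_eq hβ β0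
        rw [show gt w (zz (Eg y 1) w k) = zz _ w (2 - k * k) from
          LinearEquiv.ext fun v => h.gt_eig (h.zz_cube k) rfl]
        exact mem_sup_left (K1 (R.zz_mem _))
      obtain ⟨u, hu, e1, e2⟩ := R.partner2 hα α0 hβ β0
      exact step le_sup_left u hu β hβ e2 (step le_sup_left α hα u hu
        (by rwa [R.be_comm hα hu, neg_ne_zero]) (mem_sup_right (mem_zpowers _))))
    (((h.l3 y hy y0 _ (rG_le_UG (h.le.trans h.ug)) (fun β hβ =>
      R.gt_UG (rG_le_UG (h.le.trans h.ug)) hβ) le_rfl).resolve_right fun e => e.1 h2) hγ.1)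
  obtain ⟨κ, hκ, _, h1, rfl⟩ := (coe_mul_of_right_le_normalizer_left K _ (zpowers_le.2 (by
    obtain ⟨a, ha, a1, -⟩ := E α hα α0 1 (by decide)
    exact hK ▸ mem_normalizer_fintype fun κ ⟨k, hk, e⟩ => ⟨a * k * a⁻¹,
      ⟨H.mul_mem (H.mul_mem ha.1 hk.1) (H.inv_mem ha.1), FxO.conj hk.2 (mem_Cz.1 ha.2)⟩,
      (a1.mul e).mul a1.inv⟩))).le hm
  obtain ⟨k, rfl⟩ := exists_pw A3 h1
  obtain ⟨c, hc⟩ := mem_center_iff_smul.1 e
  have c0 : c ≠ 0 := by
    obtain ⟨v, v0⟩ := @exists_ne _ R.nt 0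
    exact fun e => v0 ((LinearEquiv.map_eq_zero_iff _).1 ((hc v).trans (by rw [e, zero_smul])))
  obtain ⟨i, rfl⟩ := h.exists_wq (c := c) (by rw [← f4 c c0]; ring)
  have e1 : rE g (fix_mem (FxO.comm hf)) = κ * pw (gt w α) k * zz _ w i := by
    rw [← inv_mul_eq_iff_eq_mul]; exact LinearEquiv.ext hc
  have d1 : κ ∈ SLG F _ := by
    obtain ⟨k, hk, e⟩ := hK ▸ hκ
    exact (h.res_FxO hy (h.su hk.1) hk.2 e).2
  have d2 : LinearEquiv.det (gt w α) = w := by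
    have := R.finrank_fix hα α0
    rw [gt, map_mul, R.zz_SLG hα α0, one_mul, Units.ext_iff, LinearEquiv.coe_det, zz,
      h.det_bk_sc (R.cub α hα), show finrank F (Eg α 1) = 1 by omega, pow_one, wq_one]
  have d3 : LinearEquiv.det (rE g (fix_mem (FxO.comm hf))) = 1 := hγ.2
  rw [e1, map_mul, map_mul, d1, R.zz_SLG hα α0, one_mul,
    mul_one, pw, map_pow, d2] at d3
  obtain rfl := h.wq_eq_one (k := k) (congrArg Units.val d3)
  obtain ⟨n, hn, e2⟩ := hK ▸ K.mul_mem hκ (K1 (R.zz_mem i))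
  rw [pw_zero, mul_one] at e1
  rw [h.ext_FxO y3 hf hn.2 fun v hv => (rs_rE _).eq (e1 ▸ e2) hv]
  exact hn.1

omit hB

variable (hG : ∀ x ∈ P, x ∉ center _ → SUG B ⊓ FxO w x ≤ H)
include hG

theorem le_of_gd_lin (hB : B = 0) : SUG B ≤ H := by
  subst hB
  rw [SUG_zero] at hG ⊢
  obtain ⟨x, hx, x0⟩ := h.exists_nc (by rw [h.h9]; omega)
  obtain ⟨y, hy, u, hu, yx, ux, yu⟩ := h.exists_ab h.h9 hx x0
  obtain ⟨v, v0, v1, v2⟩ := h.exists_eig2 hx x0 hy hu yx ux (by simp [yu]) 0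
  rw [eig0] at v2
  refine SLG_le_of_cenSub (h.irr (fun a ha _ => subStab_apply (le_subStab_cenSub (h.le ha)))
    (v := v) (fun φ h0 => ?_) v0)
  have key : ∀ s ∈ P, s ∉ center _ → s v = v → ∃ e : (φ ∘ₗ pe s) v = 0, tvE e ∈ H :=
    fun s hs s0 sv => ⟨by simp [pe_self h.ne sv, h0], hG s hs s0 ⟨tvE_mem_SLG _, ⟨mem_Cz.2
      (h.ext (h.cub s hs) fun k u hu => by
        by_cases k0 : k = 0 <;> simp [tvE_apply, hu, sv, h.pe_eig hu, k0]),
      fun u hu => by simp [tvE_apply, h.pe_zero (by decide) hu]⟩,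
      fun u hu => by simp [tvE_apply, h.pe_zero (by decide) hu]⟩⟩
  have nc : ∀ k, k ≠ 0 → x * pw y k ∉ center _ := fun k k0 => h.notMem_of_be (y := u) (by
    rwa [h.be_mul_left hx (pw_mem hy k) hu, h.be_pw_left hy hu, yu, h.be_of_comm ux.symm,
      zero_add, mul_one])
  obtain ⟨e1, g1⟩ := key x hx x0 v1
  obtain ⟨e2, g2⟩ := key y hy (h.notMem_of_be (y := u) (by simp [yu])) v2
  obtain ⟨e3, g3⟩ := key _ (mul_mem hx (pw_mem hy 1)) (nc 1 (by decide)) (by simp [v1, v2])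
  obtain ⟨e4, g4⟩ := key _ (mul_mem hx (pw_mem hy 2)) (nc 2 (by decide)) (by simp [pw_two, v1, v2])
  have := mul_mem (mul_mem (mul_mem g1 g2) g3) g4
  rw [← tvE_mul_right _ _ (by simp only [LinearMap.add_apply, e1, e2, add_zero]),
    ← tvE_mul_right _ _ (by simp only [LinearMap.add_apply, e1, e2, e3, add_zero]),
    ← tvE_mul_right _ _ (by simp only [LinearMap.add_apply, e1, e2, e3, e4, add_zero])] at this
  convert this using 2
  refine LinearMap.ext fun t => h.ext_on (h.cub x hx) (U := ⊤) (fun _ _ => trivial) _ _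
    (fun k t _ ht => h.ext_on (h.cub y hy) (eig_mem yx _) _ _ (fun l t h1 h2 => ?_) ht) trivial
  have f : ∀ m, (x * pw y m) t = wq w (m * l + k) • t := fun m => by
    rw [LinearEquiv.mul_apply, h.pw_eig h2, map_smul, mem_Eg.1 h1, smul_smul, h.wq_add]
  simp only [LinearMap.add_apply, LinearMap.comp_apply, h.pe_eig (mem_Eg.1 h1), h.pe_eig h2,
    h.pe_eig (f _)]
  rcases z3 k with rfl | rfl | rfl <;> rcases z3 l with rfl | rfl | rfl <;> try simp +decide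
  obtain ⟨c, rfl⟩ := h.line9 h.h9 hx x0 hy hu yx ux (by simp [yu]) v0 v1 v2
    (eig0.1 (mem_Eg.1 h1)) (eig0.1 h2)
  simp [h0]

theorem le_of_gd_uni [Finite F] (hH : IsHerm B) (hB : B.Nondegenerate) : SUG B ≤ H := by
  have hK := polarG_su' hH hB (by rw [h.h9]; omega)
  have PU := h.le.trans h.ug
  obtain ⟨x, hx, x0⟩ := h.exists_nc (by rw [h.h9]; omega)
  have x3 := h.cub x hx
  obtain ⟨t, ht, xt⟩ := h.partner hx x0 1
  obtain ⟨y, hy, u, hu, yx, ux, yt, -, yu⟩ := h.exists_ab' h.h9 hx ht (by simp [xt])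
  have pair : ∀ y ∈ P, y * x = x * y → be w y u = 1 → ∃ e f, x e = e ∧ x f = f ∧ pe y e = 0 ∧
      pe y f = 0 ∧ B e e = B 0 0 ∧ B f f = B 0 0 ∧ B e f ≠ 0 := fun y hy yx yu => by
    obtain ⟨v, v0, v1, v2⟩ := h.exists_eig2 hx x0 hy hu yx ux (by simp [yu]) 1
    have s := h.shift hy hu v2
    rw [yu] at s
    have hy' := mul_mem (h.zz_mem (-1)) hy
    have f1 := (h.zz_mul_fix 1).2 v2
    have p := B_pe h.ne (PU hy') f1 (u v)
    rw [h.pe_zero (k := -1 + (1 + 1)) (by decide) ((h.zz_mul_eig _ _).2 s), map_zero, map_zero,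
      LinearMap.zero_apply] at p
    have b0 : B v v ≠ 0 := fun e => v0 (hB.1 v fun r => by
      obtain ⟨c, hc⟩ := h.line9 h.h9 hx x0 hy' hu (comm_zz yx.symm _).symm ux
        (by simp [h.be_zz_left hy hu, yu]) v0 v1 f1 (pe_fix x3 (pe (zz V w (-1) * y) r))
        (by rw [pe_comm (comm_zz yx.symm _).symm, pe_fix (h.cub _ hy')])
      rw [← (B_pe h.ne (PU hy') f1 r).1, ← (B_pe h.ne (PU hx) v1 _).1, hc, map_smul, e, smul_zero])
    obtain ⟨c, hc⟩ := exists_norm_eq hH.ne_id hH.invol (c := -1) (by simp)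
    have ee : B (v + c • u v) (v + c • u v) = B 0 0 := by
      simp [← p.1, ← p.2, mem_UG.1 (PU hu)]; linear_combination B v v * hc
    refine ⟨v + c • u v, y (v + c • u v), by simp [v1, ← comm_apply ux],
      by simp [v1, ← comm_apply ux, ← comm_apply yx], ?_, ?_, ee, by rw [mem_UG.1 (PU hy), ee],
      fun e => ?_⟩
    · simp [h.pe_zero (by decide) v2, h.pe_zero (by decide) s]
    · simp [v2, s, h.pe_zero (by decide) v2, h.pe_zero (by decide) s]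
    · simp only [map_add, map_smul, v2, s, LinearMap.add_apply, map_smulₛₗ, LinearMap.smul_apply,
        ← p.1, ← p.2, mem_UG.1 (PU hu), smul_eq_mul, RingHom.id_apply] at e
      refine absurd (h.wq_inj (k := 1) (l := 1 + 1) (mul_right_cancel₀ b0 ?_)) (by decide)
      linear_combination e - wq w (1 + 1) * B v v * hc
  have good : Good B (fun x => B x x) H (Eg x 1) := hK.good_of_fix fun g hg h1 h3 => by
    have hf : ∀ k, k ≠ 0 → g ∈ Fx (Eg x (wq w k)) := fun k k0 v hv => h3 v fun u hu => by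
      rw [← (B_pe h.ne (PU hx) (mem_Eg_one.1 hu) v).1, h.pe_zero k0 hv, map_zero]
    refine hG x hx x0 ⟨hg, ⟨mem_Cz.2 (h.ext x3 fun k v hv => ?_), hf 1 (by decide)⟩, hf 2 (by decide)⟩
    by_cases k0 : k = 0
    · rw [k0, eig0] at hv
      simp [hv, mem_Eg_one.1 (subStab_apply h1 (mem_Eg_one.2 hv))]
    · simp [hv, hf k k0 v hv]
  obtain ⟨e, f, e1, f1, -, -, ee, ff, ef⟩ := pair y hy yx yu
  obtain ⟨X, X1, X2, X3⟩ := hK.witt.exists_max_good good (mem_Eg_one.2 e1) (mem_Eg_one.2 f1) ee ff ef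
  refine hK.le_of_good_top (top_le_iff.1 (h.ind (h.cub y hy) (U := ⊤) (S := X) (fun _ _ => trivial)
    fun k v _ hv => ?_) ▸ X2)
  have hz := mul_mem (h.zz_mem (-k)) hy
  have zu : be w (zz V w (-k) * y) u = 1 := by rw [h.be_zz_left hy hu, yu]
  have zx := (comm_zz (w := w) yx.symm (-k)).symm
  have zt := (comm_zz (w := w) yt.symm (-k)).symm
  replace hv := (h.zz_mul_fix k).2 hv
  generalize zz V w (-k) * y = z at *
  have z0 := h.notMem_of_be (x := z) (y := u) (by simp [zu])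
  have z3 := h.cub z hz
  obtain ⟨e, f, e1, f1, e2, f2, ee, ff, ef⟩ := pair z hz zx zu
  refine h.ind x3 (U := Eg z 1) (fix_mem zx.symm) (fun l v h1 h2 => ?_) (mem_Eg_one.2 hv)
  obtain ⟨m, hm⟩ := h.eig_pw hx ht (by simp [xt]) 0 h2
  have hs := inv_mem (pw_mem ht m)
  have sz := comm_inv (pw_comm zt m).symm
  have b1 := bk_UG h.ne z3 sz (PU hz) (PU hs)
  have b2 : bk z (pw t m)⁻¹ ∈ H := hG z hz z0 ⟨⟨b1, mem_SLG.2 ((h.det_blk z3 (γ := rE _ (fix_mem sz))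
    (fun v => (bk_fix h.ne z3 sz (mem_Eg_one.1 v.2)).symm) fun k v k0 hv =>
      h.bk_other z3 sz k0 hv).trans (mem_SUG.1 (h.res_SUG hz z0 (rE_mem hs _))).2)⟩, h.bk_FxO z3 sz⟩
  refine X3 _ (X2.map b1 b2) ⟨e, X1 (mem_Eg_one.2 e1), f, X1 (mem_Eg_one.2 f1),
    ⟨e, X1 (mem_Eg_one.2 e1), by simp [bk_apply h.ne z3 sz, e2]⟩,
    ⟨f, X1 (mem_Eg_one.2 f1), by simp [bk_apply h.ne z3 sz, f2]⟩, ee, ff, ef⟩
    ⟨pw t m v, X1 (mem_Eg_one.2 (eig0.1 hm)), ?_⟩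
  rw [LinearEquiv.coe_coe, bk_fix h.ne z3 sz (by rw [comm_apply (pw_comm zt m), mem_Eg_one.1 h1]),
    inv_apply_apply]

omit hG in
theorem main [Finite F] [Hyp.ZStar] (alt : B = 0 ∧ (2 : F) ≠ 0 ∨ IsHerm B ∧ B.Nondegenerate)
    (f4 : (2 : F) = 0 → ∀ c : F, c ≠ 0 → c ^ 3 = 1) : H ≤ Nm P ∨ SUG B ≤ H := by
  have fin : (∀ x ∈ P, x ∉ center _ → SUG B ⊓ FxO w x ≤ H) → SUG B ≤ H := fun hG =>
    alt.elim (fun e => h.le_of_gd_lin hG e.1) fun e => h.le_of_gd_uni hG e.1 e.2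
  by_cases hN : ∀ x ∈ P, x ∉ center _ → NR P H x
  · by_cases hB : ∀ x ∈ P, x ∉ center _ → ¬BB w P H x
    · exact .inl (h.global fun x hx x0 => h.pin h.h9 h.gate
        (fun x hx x0 g => h.loc hN hB hx x0) hx x0)
    push Not at hB
    obtain ⟨x, hx, x0, hB⟩ := hB
    have h1 := fun y hy y0 r => h.bk_all (y := y) (r := r) hx x0 hB hy y0
    have h2 := h.two_eq_zero h1 hx x0 (hN x hx x0)
    exact .inr (fin fun y hy y0 =>
      h.gd_two h1 (alt.resolve_left fun e => e.2 h2).2 h2 (f4 h2) hy y0)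
  push Not at hN
  obtain ⟨x, hx, x0, hN⟩ := hN
  refine .inr (fin fun y hy y0 => ?_)
  obtain ⟨n, hn, rfl⟩ := h.conn h.gate hx x0 hy y0
  exact gd_conj (h.gd_of_not hx x0 hN) hn (le_Nm_SUG h.ug hn)

end GH

end CF.MaxSub.E9
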