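/-
Normalisers of `3^{1+2}`: reduction to the special group.
-/
import Cfsg.Agent.MaxSub.E9J
import Cfsg.Agent.Solv.Cores
import Cfsg.Agent.Invol.Dihedral

set_option autoImplicit false
set_option linter.unusedSectionVars false

namespace CF.MaxSub.E9

open Module Subgroup Geom

theorem noQ8 {n : ℕ} (hn : n ≤ 7) {a b : Equiv.Perm (Fin n)} (a4 : a ^ (2 * 2) = 1)
    (bb : b * b = a ^ 2) (e : b * a * b⁻¹ = a⁻¹) : a ^ 2 = 1 := by
  by_contra h
  obtain ⟨i, hi⟩ : ∃ i, (a ^ 2) i ≠ i := by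
    by_contra! hn; exact h (Equiv.ext hn)
  have := Fintype.card_le_of_injective (fun q => Invol.quaternionHom a b a4 bb e q i)
    fun q q' h1 => by
      have h2 : Invol.quaternionHom a b a4 bb e (q'⁻¹ * q) i = i := by
        rw [map_mul, map_inv, Equiv.Perm.mul_apply, Equiv.Perm.inv_eq_iff_eq]; exact h1
      rcases (by decide : ∀ x : QuaternionGroup 2, x = 1 ∨ x = .a 2 ∨ x * x = .a 2) (q'⁻¹ * q) with
        h3 | h3 | h3
      · exact (inv_mul_eq_one.1 h3).symm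
      · rw [h3] at h2; exact (hi h2).elim
      · have := congrArg (fun x => Invol.quaternionHom a b a4 bb e x i) h3
        simp only [map_mul _ (q'⁻¹ * q), Equiv.Perm.mul_apply, h2] at this
        exact (hi this.symm).elim
  rw [QuaternionGroup.card, Fintype.card_fin] at this
  omega

variable {F V : Type*} [Field F] [AddCommGroup V] [Module F V] {w : Fˣ}
  {P : Subgroup (V ≃ₗ[F] V)} {σ : F →+* F} {B : V →ₛₗ[σ] V →ₗ[F] F}

theorem qs_SUG3 [Finite F] [Finite V] (hH : IsHerm B) (hB : B.Nondegenerate)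
    (h3 : 3 ≤ finrank F V) (h2 : (2 : F) ≠ 0) : Cfsg.IsQuasisimple (SUG B) := by
  have h1 := uTransSub_eq_suSub hH hB (by omega)
    (.inl ⟨-1, by simp, by simp, fun e => h2 (by linear_combination -e)⟩)
  have h2 : Group.IsPerfect (suSub B) := isPerfect_iff.2 (le_antisymm (commutator_le_left _ _) (by
    nth_rw 1 [← h1]
    rw [closure_le]
    rintro _ ⟨v, s, hv, hs, rfl⟩
    obtain ⟨a, ha, b, hb, e⟩ := uTrans_eq_commutator hH hB h3 hv hs
    exact e ▸ commutator_mem_commutator (uEichSub_le_suSub hH ha) (uEichSub_le_suSub hH hb)))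
  exact Sig.qs_of_mulEquiv ⟨h2, isSimpleGroup_su hH hB (by omega) (suSub B).subtype_injective
    (range_subtype _) h1 h2.1⟩ ((MulEquiv.subgroupCongr (Subgroup.ext fun _ =>
      mem_SUG_iff.symm)).trans (subgroupOfEquivOfLe inf_le_left))

namespace T3

variable [Finite V] (h : T3 w P) (h3 : finrank F V = 3)
include h h3

theorem le_Nm_of {N S : Subgroup (V ≃ₗ[F] V)} (hP : P ≤ S) (gate : ∀ x ∈ P, gt w x ∈ N)
    (hN : N ≤ Nm S) (hS : S ≤ Nm P) : N ≤ Nm P := fun m hm => mem_normalizer_fintype fun r hr => by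
  have n := hN.trans (Solv.normalizer_le_normalizer_map_subtype (Cfsg.pCore 3 S))
  have hy := Nm_conj (n hm) (Solv.le_map_pCore hP hS (fun ⟨r, hr⟩ => ⟨1, Subtype.ext (h.cub r hr)⟩) hr)
  have c := fun c => h.cmt_cen (c := c) (fun g hg => by
    obtain ⟨k, hk⟩ := Solv.isPGroup_map_pCore (p := 3) S ⟨g, hg⟩
    exact Odd.of_dvd_nat (Odd.pow (by decide)) (orderOf_dvd_of_pow_eq_one (congrArg Subtype.val hk)))
    (fun x hx => n (gate x hx)) hy (hS (map_subtype_le _ hy))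
  have y3 := conj_cube (h.cub r hr) m
  have yN := hS (map_subtype_le _ hy)
  generalize m * r * m⁻¹ = y at *
  obtain ⟨a, ha, b, hb, e⟩ := h.exists_pair (by omega)
  obtain ⟨k, hk⟩ := h.cen_eq (cm_mem yN ha) (c a ha)
  obtain ⟨l, hl⟩ := h.cen_eq (cm_mem yN hb) (c b hb)
  obtain ⟨s, hs, e1⟩ := h.triv3 h3 ha hb e (hk ▸ conj_eq_cm y a) (hl ▸ conj_eq_cm y b)
  obtain ⟨z, rfl⟩ : ∃ z, y = s * z := ⟨s⁻¹ * y, by simp⟩
  rw [inv_mul_cancel_left] at e1
  rw [(show Commute s z from mem_center_iff.1 e1 s).mul_pow, h.cub s hs, one_mul] at y3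
  obtain ⟨d, hd⟩ := mem_center_iff_smul.1 e1
  obtain ⟨i, rfl⟩ := h.exists_wq (c := d) (h.smul_inj fun v => by
    rw [mul_smul, mul_smul, ← hd, ← hd, ← hd, cube_apply y3, one_smul])
  exact mul_mem hs ((show z = zz V w i from LinearEquiv.ext hd) ▸ h.zz_mem i)

theorem L3_of (qs : (2 : F) ≠ 0 → Cfsg.IsQuasisimple (SUG B)) (two : (2 : F) = 0 → SUG B ≤ Nm P)
    (bx : ∀ M, SUG B ⊓ Nm P ≤ M → M ≤ SUG B → UG B ⊓ Nm P ≤ Nm M → M ≤ Nm P ∨ SUG B ≤ M) :
    L3 w P B := fun M hP gate hM => by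
  have hN : M ⊔ center _ ⊓ UG B ≤ UG B := sup_le hM inf_le_right
  have a : UG B ⊓ Nm P ≤ M ⊔ center _ ⊓ UG B := fun g hg => by
    obtain ⟨m, hm, e⟩ := h.gen3 h3 hP gate hg.2
    simpa using mul_mem (mem_sup_left hm) (mem_sup_right (show m⁻¹ * g ∈ center _ ⊓ UG B from
      ⟨e, (UG B).mul_mem ((UG B).inv_mem (hM hm)) hg.1⟩))
  have b : M ⊔ center _ ⊓ UG B ≤ Nm ((M ⊔ center _ ⊓ UG B) ⊓ SUG B) := fun g hg =>
    mem_normalizer_fintype fun x hx => ⟨Nm_conj (le_normalizer hg) hx.1,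
      Nm_conj (le_Nm_SUG hN hg) hx.2⟩
  have c := fun hS => h.le_Nm_of h3 (le_inf (hP.trans le_sup_left)
    (le_inf (hP.trans hM) (h.le_SLG (by omega)))) gate (le_sup_left.trans b) hS
  by_cases h2 : (2 : F) = 0
  · exact .inl (c (inf_le_right.trans (two h2)))
  refine (bx _ (le_inf ((inf_le_inf_right _ inf_le_left).trans a) inf_le_left) inf_le_right
    (a.trans b)).imp c fun hS => ⟨h2, qs h2, ?_⟩
  rw [← isPerfect_iff.1 (qs h2).1, commutator_le]
  intro x hx y hy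
  have n : center _ ⊓ UG B ≤ Nm M := inf_le_left.trans (center_le_normalizer _)
  obtain ⟨x, mx, c, hc, rfl⟩ := (coe_mul_of_right_le_normalizer_left M _ n).le (hS hx).1
  obtain ⟨y, my, d, hd, rfl⟩ := (coe_mul_of_right_le_normalizer_left M _ n).le (hS hy).1
  have e1 := mem_center_iff.1 hc.1
  have e2 := mem_center_iff.1 hd.1
  change x * c * (y * d) * (x * c)⁻¹ * (y * d)⁻¹ ∈ M
  rw [show x * c * (y * d) * (x * c)⁻¹ * (y * d)⁻¹ =
    x * (c * (y * d) * c⁻¹) * x⁻¹ * d⁻¹ * y⁻¹ by group, conj_eq_of_comm (e1 _).symm,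
    show x * (y * d) * x⁻¹ * d⁻¹ = x * y * (d * x⁻¹ * d⁻¹) by group, conj_eq_of_comm (e2 _).symm]
  exact mul_mem (mul_mem (mul_mem mx my) (inv_mem mx)) (inv_mem my)

end T3

end CF.MaxSub.E9
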