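/-
Overgroups of `ΓO_d(q^r) ∩ Ω_{dr}(q)` in `Ω_{dr}(q)`, `q` odd, `d ≥ 4`.
-/
import Cfsg.Agent.MaxSub.F3P
import Cfsg.Agent.Geom.C8S

set_option autoImplicit false

namespace CF.MaxSub

open Module Geom QuadraticMap

variable {F K V : Type*} [Field F] [Field K] [Algebra F K]
  [AddCommGroup V] [Module F V] [Module K V] [IsScalarTower F K V]

namespace OF

variable {Q : QuadraticForm F V} {Qk : QuadraticForm K V} {ν : Dual F K}
  {X : Subgroup (V ≃ₗ[F] V)} (h : OF Q Qk ν X) [Finite K]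
include h

theorem mem_of_perp (hd : 4 ≤ finrank K V) {Y : Submodule F V} {x y : V} (hx : Qk x ≠ 0)
    (hY : ∀ g ∈ X, g x = x → ∀ y ∈ Y, g y ∈ Y) (hy : y ∈ Y) (hn : y ∉ K ∙ x) {v : V}
    (hv : polar Qk x v = 0) : v ∈ Y := by
  have := h.fin
  have x2 : polar Qk x x ≠ 0 := by rw [polar_self']; exact mul_ne_zero h.two' hx
  obtain ⟨A, -, a1, a2, a3⟩ := exists_vec_compl h.ndk h.witt.disjoint_top (a := x) trivial x2
  simp only [Submodule.mem_top, true_and, finrank_top] at a2 a3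
  have h1 : ∀ s w y, Qk s = 0 → s ∈ A → w ∈ A → polar Qk s w = 0 → y ∈ Y → polar Qk s y = 1 →
      w - polar Qk w y • s ∈ Y ∧ Qk w • s ∈ Y := fun s w y hs b1 b2 b3 hy b4 => by
    have : ∀ w ∈ A, polar Qk s w = 0 → w - polar Qk w y • s - Qk w • s ∈ Y := fun w b2 b3 => by
      obtain ⟨e, e1, -, -, e2⟩ := h.eich hs b3
      convert sub_mem (hY e e1 (by simp [e2, polar_comm Qk _ x, (a3 _).1 b1, (a3 _).1 b2]) y hy) hy
        using 1
      rw [e2, b4]
      module
    have c1 := this w b2 b3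
    have c2 := this (-w) (neg_mem b2) (by simp [b3])
    rw [QuadraticMap.map_neg, polar_neg_left] at c2
    have c3 : Qk w • s ∈ Y := (Y.smul_mem_iff h.two).1 (by
      convert neg_mem (add_mem c1 c2) using 1
      rw [two_smul]
      module)
    exact ⟨by simpa using add_mem c1 c3, c3⟩
  obtain ⟨s, b1, b2, b3⟩ : ∃ s ∈ A, Qk s = 0 ∧ polar Qk s y ≠ 0 := by
    by_contra! hc
    obtain ⟨s, b1, b2, b3⟩ := exists_singular_mem Qk (U := A) (by omega)
    obtain ⟨f, c1, c2, c3, W, c4, c5, -, c6⟩ := exists_hyp_compl h.ndk a1 b1 b2 b3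
    have d1 : ∀ w ∈ A, polar Qk w (y - (polar Qk x y / polar Qk x x) • x) = polar Qk w y :=
      fun w hw => by rw [polar_sub_right, polar_smul_right, polar_comm Qk w x, (a3 w).1 hw]; simp
    refine hn (Submodule.mem_span_singleton.2 ⟨_, (sub_eq_zero.1 (Submodule.disjoint_def.1 c5 _
      ((c6 _).2 ⟨(a3 _).2 ?_, (d1 s b1).trans (hc s b1 b3), (d1 f c1).trans (hc f c1 c2)⟩)
      (mem_perp.2 fun w hw => (d1 w (c4 hw)).trans ?_))).symm⟩)
    · rw [polar_sub_right, polar_smul_right, smul_eq_mul, div_mul_cancel₀ _ x2, sub_self]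
    obtain ⟨-, d2, d3⟩ := (c6 w).1 hw
    simpa [hc s b1 b3, hc f c1 c2] using hc (s + w - Qk w • f)
      (sub_mem (add_mem b1 (c4 hw)) (A.smul_mem _ c1))
      (by simp [quad_sub, quad_add, quad_smul, b3, c2, c3, d2, d3, polar_comm Qk w f])
  obtain ⟨s, b1, b2, b3⟩ : ∃ s ∈ A, Qk s = 0 ∧ polar Qk s y = 1 :=
    ⟨(polar Qk s y)⁻¹ • s, A.smul_mem _ b1, by simp [quad_smul, b2], by simp [b3]⟩
  obtain ⟨f, c1, c2, c3, W, c4, c5, c7, c6⟩ := exists_hyp_compl h.ndk a1 b1
    (by rintro rfl; simp at b3) b2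
  obtain ⟨w, w1, w0⟩ := exists_nonsingular_mem c5 (by rintro rfl; rw [finrank_bot] at c7; omega)
  obtain ⟨-, w2, w3⟩ := (c6 w).1 w1
  have h2 : ∀ k : K, k • s ∈ Y := smul_mem_of_sq h.two' w0 fun k => by
    simpa only [quad_smul] using
      (h1 s (k • w) y b2 b1 (A.smul_mem _ (c4 w1)) (by simp [w2]) hy b3).2
  have c8 : polar Qk f s = 1 := (polar_comm _ _ _).trans c3
  have h3 : ∀ k : K, k • f ∈ Y := smul_mem_of_sq h.two' w0 fun k => by
    simpa only [quad_smul] using (h1 f (k • w) s c2 c1 (A.smul_mem _ (c4 w1)) (by simp [w3])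
      (by simpa using h2 1) c8).2
  have := (h1 s (v - polar Qk s v • f) y b2 b1 (sub_mem ((a3 v).2 hv) (A.smul_mem _ c1))
    (by simp [c3]) hy b3).1
  simpa only [sub_add_cancel] using
    add_mem (add_mem this (h2 (polar Qk (v - polar Qk s v • f) y))) (h3 (polar Qk s v))

omit h [Finite K] in
theorem zm_wg' {u : V} (c : K) (x : V) : wg Q u (c • u) x ∈ kl F K u :=
  sub_mem ((kl F K u).smul_mem _ (smul_mem_kl c u)) ((kl F K u).smul_mem _ (self_mem_kl u))

theorem le_of_two (hr : finrank F K = 2) (hd : 4 ≤ finrank K V)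
    (hZ : ∀ u, u ≠ 0 → Qk u = 0 → ∃ N, ZM X Qk u N ∧ N ≠ 0) : OmG Q ≤ X := by
  have := h.finF
  have := h.fin
  have := h.finite
  obtain ⟨ω, hω⟩ := exists_notMem_base hr.ge
  have h1 : ∀ b, ν b = 0 → ν (ω * b) = 0 → b = 0 := fun b e e' => eq_zero_of_nu h.nu fun k => by
    obtain ⟨s, t, rfl⟩ := exists_coord_two hr hω k
    simp [add_mul, e, e']
  obtain ⟨e₁, b1, b2⟩ : ∃ e, ν e = 0 ∧ ν (ω * e) = 1 := by
    obtain ⟨e, e0, e1⟩ := exists_ne_zero_mem_ker hr.ge ν
    exact ⟨(ν (ω * e))⁻¹ • e, by simp [e1], by simp [mt (h1 e e1) e0]⟩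
  obtain ⟨e₀, b3, b4⟩ : ∃ e, ν e = 1 ∧ ν (ω * e) = 0 := by
    obtain ⟨e, e1⟩ := exists_nu_eq h.nu 1
    exact ⟨e - ν (ω * e) • e₁, by simp [e1, b1], by simp [mul_sub, b2]⟩
  have h2 : ∀ b, b = ν b • e₀ + ν (ω * b) • e₁ := fun b =>
    sub_eq_zero.1 (h1 _ (by simp [b1, b3]) (by simp [mul_sub, mul_add, b2, b4]))
  have H : ∀ u, u ≠ 0 → Qk u = 0 → ∀ c : F, Un X (c • wg Q u (ω • u)) := fun u u0 hu => by
    obtain ⟨f, hf, a1⟩ := h.exists_hyp u0 hu
    obtain ⟨N, hN, N0⟩ := hZ u u0 hu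
    have h3 : N = polar Q (e₁ • f) (N (e₀ • f)) • wg Q u (ω • u) := LinearMap.ext fun x => by
      have c1 := h.skew hu hN (e₀ • f + e₁ • f)
      simp only [map_add, polar_add_left, polar_add_right, h.skew hu hN, zero_add, add_zero] at c1
      obtain ⟨s, hs⟩ := Submodule.mem_span_singleton.1 (hN.im (e₀ • f))
      obtain ⟨t, ht⟩ := Submodule.mem_span_singleton.1 (hN.im (e₁ • f))
      have c2 := h.skew hu hN (e₀ • f)
      have c3 := h.skew hu hN (e₁ • f)
      have c4 := hN.ker (x - polar Qk u x • f) (by simp [a1])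
      rw [map_sub, sub_eq_zero, h2 (polar Qk u x), add_smul, smul_assoc, smul_assoc, map_add,
        N.map_smul, N.map_smul, ← hs, ← ht] at c4
      simp only [← hs, ← ht, h.eq, polar_smul_left, polar_smul_right, polar_comm Qk f u, a1,
        smul_eq_mul, mul_one] at c1 c2 c3 ⊢
      obtain ⟨s₁, s₂, rfl⟩ := exists_coord_two hr hω s
      obtain ⟨t₁, t₂, rfl⟩ := exists_coord_two hr hω t
      simp [add_mul, b1, b2, b3, b4] at c1 c2 c3
      simp only [c4, c2, c3, add_mul, map_add, smul_mul_assoc, map_smul, one_mul, b1, b2,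
        eq_neg_of_add_eq_zero_left c1]
      simp only [LinearMap.smul_apply, LinearMap.add_apply, wg_apply, h.eq, polar_smul_left,
        smul_eq_mul, add_smul, smul_assoc, one_smul]
      generalize ω • u = z
      module
    generalize polar Q (e₁ • f) (N (e₀ • f)) = c₀ at h3
    subst h3
    have c0 : c₀ ≠ 0 := by rintro rfl; simp at N0
    have h4 : ∀ t : F, ZM X Qk u ((t ^ 2 * c₀) • wg Q u (ω • u)) := fun t => by
      by_cases t0 : t = 0
      · exact ⟨by simpa [t0] using Un.zero, by simp [t0], by simp [t0]⟩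
      obtain ⟨μ, hμ⟩ := isSquare_algebraMap (K := K) h.two hr t
      obtain ⟨b, b1, b2, b3, -⟩ := h.exists_dil hu hf a1 (μ := μ) (by rintro rfl; simp [t0] at hμ)
      rw [pow_two, ← hμ, algebraMap_smul] at b3
      have b4 : ∀ x y, polar Q (b x) (b y) = polar Q x y := h.isom b2
      have b5 : ∀ (c : F) x, b (c • x) = c • b x := (b.restrictScalars F).map_smul
      refine ⟨hN.un.of_conj b2 fun x => ?_, fun x => ?_, fun x hx => ?_⟩
      · simp only [LinearEquiv.restrictScalars_apply, LinearMap.smul_apply, wg_apply, map_sub, b5,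
          ← b4 u x, ← b4 (ω • u) x, b.map_smul, b3, smul_comm ω t, polar_smul_left, smul_eq_mul]
        module
      · exact (kl F K u).smul_mem _ (zm_wg' ω x)
      · simp [wg_apply, h.eq, hx]
    intro c
    have h5 := h4 ((c / c₀ + 1) / 2)
    have h6 := h4 ((c / c₀ - 1) / 2)
    refine (h5.add hu ⟨h6.un.neg, fun x => neg_mem (h6.im x), fun x hx => by
      simp [h6.ker x hx]⟩).un.congr fun x => ?_
    simp only [LinearMap.add_apply, LinearMap.neg_apply, LinearMap.smul_apply]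
    match_scalars
    field_simp [h.two]
    ring
  have H' : ∀ u, u ≠ 0 → Qk u = 0 → ∀ c : F, EM Q X u (c • ω • u) := fun u u0 hu c => by
    rw [← smul_assoc]
    refine em_of_un ((H u u0 hu c).congr fun x => ?_) (by simp [h.q, hu]) (h.sing hu _)
      (by simp [h.eq, hu])
    simp [wg_apply, smul_sub, smul_smul, mul_comm]
  obtain ⟨u, u0, hu⟩ := exists_singular_of_three_le Qk h.dim
  obtain ⟨f, hf, a1⟩ := h.exists_hyp u0 hu
  have a2 : polar Qk f u = 1 := (polar_comm _ _ _).trans a1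
  have e0 : e₁ ≠ 0 := by rintro rfl; simp at b2
  obtain ⟨c1, c2, c3⟩ := H' (e₁ • f) (smul_ne_zero e0 (by rintro rfl; simp at a1))
    (by simp [quad_smul, hf]) 1
  have c4 : (eichler c1 c2).1 u = u - e₁ • f := by
    simp [eichler_apply, h.eq, a2, b1, mul_comm, b2]
  have c5 : Qk (u - e₁ • f) = -e₁ := by simp [quad_sub, quad_smul, hu, hf, a1]
  have c6 : Q (u - e₁ • f) = 0 := by simp [h.q, c5, b1]
  have c7 := fun v => h.mem_of_perp hd (v := v) (Y := Ysub X c6) (x := u - e₁ • f) (by simpa [c5] using e0)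
    (fun g hg e y hy => Ysub.map hy (h.ogX hg) hg e) (y := (eichler c1 c2).1 (ω • u))
    (fun c => by simpa only [c4, map_smul] using (H' u u0 hu c).map (eichler c1 c2).2 c3) fun e => by
      obtain ⟨k, hk⟩ := Submodule.mem_span_singleton.1 e
      have d1 := congrArg (polar Qk f) hk
      have d2 := congrArg (fun x => ν (polar Qk u x)) hk
      simp [eichler_apply, h.eq, h.q, quad_smul, a1, a2, hf, hu, mul_comm, b2,
        polar_smul_right_of_tower] at d1 d2
      rw [d1, b1, mul_comm, b2] at d2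
      exact h.two (by linear_combination -d2)
  obtain ⟨w, w0, w1, w2⟩ := h.exists_nu_ns hu hf a1 (pow_ne_zero 2 e0)
  obtain ⟨e, e1, -, -, e2⟩ := h.eich hu w1
  refine le_of_Ysub h.nd h.five (fun e => by simp [e, e0] at c5) (hu := c6) (fun v hv => ?_) e1
    (h.ogX e1) ?_
  · obtain ⟨s, t, e⟩ := exists_coord_two hr hω (polar Qk (u - e₁ • f) v / (-2 * e₁))
    rw [div_eq_iff (by simp [h.two', e0])] at e
    have d1 : t = 0 := by
      rw [h.eq, e, show (s • (1 : K) + t • ω) * (-2 * e₁) = (-2 * s) • e₁ + (-2 * t) • (ω * e₁) by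
        simp only [Algebra.smul_def, map_mul, map_neg, map_ofNat]; ring] at hv
      simpa [b1, b2, h.two] using hv
    have := c7 (v - s • (u - e₁ • f)) (by
      rw [polar_sub_right, ← algebraMap_smul K s, polar_smul_right, polar_self', c5, e, d1]
      simp [Algebra.smul_def])
    simpa using add_mem this (b := s • (u - e₁ • f))
      fun c => by simpa only [smul_smul] using EM.self c6 (c * s)
  · simp only [h.eq, e2, polar_add_right, polar_sub_right, polar_sub_left, polar_smul_left,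
      polar_smul_right, polar_self', hu, hf, a1, a2, w1, w2, smul_eq_mul, c5, polar_comm Qk w]
    intro e
    refine w0 ?_
    rw [show Qk w * e₁ ^ 2 = (-2 : F) • e₁ - _ from ?_, map_sub, e, map_smul, b1]
    · simp
    · simp only [Algebra.smul_def, map_neg, map_ofNat]
      ring

theorem le_of_zm (hd : finrank F K = 2 → 4 ≤ finrank K V) {u : V} (u0 : u ≠ 0) (hu : Qk u = 0)
    {N : End F V} (hN : ZM X Qk u N) (N0 : N ≠ 0) : OmG Q ≤ X := by
  have H : ∀ u, u ≠ 0 → Qk u = 0 → ∃ N, ZM X Qk u N ∧ N ≠ 0 := fun v v0 hv => by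
    obtain ⟨b, b1, b2, c, -, b3⟩ := h.exists_move u0 v0 hu hv
    obtain ⟨N', hN', e⟩ := h.zm_move hN b1 b2 b3
    exact ⟨N', hN', fun e' => N0 (LinearMap.ext fun x => by simpa [e'] using (e x).symm)⟩
  rcases h.prime.eq_two_or_odd' with hr | hr
  · exact h.le_of_two hr (hd hr) H
  · exact h.le_of_am fun v v0 hv => let ⟨_, a, b⟩ := H v v0 hv; h.am_of_odd hr v0 hv a b

omit h [Finite K] in
theorem _root_.CF.MaxSub.MP2.normal [FiniteDimensional F V] {P : V → Prop}
    (hP : ∀ (k : K) v, P v → P (k • v)) {A U : Submodule F V} (h : MP2 (SOrb K X P) A U)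
    (h0 : A ⊓ U ≠ ⊥) : ∃ g ∈ X, ∃ u, u ≠ 0 ∧ P u ∧ A = (kl F K u).map (g : V →ₗ[F] V) ∧ g u ∈ U ∧
      MP2 (SOrb K X P) (kl F K u) (U.map (g⁻¹ : V ≃ₗ[F] V).toLinearMap) := by
  obtain ⟨a, ha, v, hv, h1, rfl⟩ := h.mA
  have h2 := h.map (map_mem_SOrb (inv_mem ha))
  rw [map_inv_map] at h2
  obtain ⟨_, ⟨⟨w, hw, rfl⟩, h3⟩, h4⟩ := Submodule.exists_mem_ne_zero_of_ne_bot h0
  have h5 : w ≠ 0 := by rintro rfl; simp at h4
  refine ⟨a, ha, w, h5, ?_, by rw [kl_eq_of_mem hw h5], h3, by rwa [kl_eq_of_mem hw h5]⟩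
  obtain ⟨k, rfl⟩ := mem_kl.1 hw
  exact hP k v h1

omit [Finite K] in
theorem sorb_ts {U : Submodule F V} (hU : U ∈ SOrb K X fun v => Qk v = 0) {x y : V} (hx : x ∈ U)
    (hy : y ∈ U) : polar Q x y = 0 := by
  obtain ⟨g, hg, v, -, hv, rfl⟩ := hU
  obtain ⟨_, ⟨a, rfl⟩, rfl⟩ := by simpa only [Submodule.mem_map, mem_kl] using hx
  obtain ⟨_, ⟨b, rfl⟩, rfl⟩ := by simpa only [Submodule.mem_map, mem_kl] using hy
  exact (h.isom hg _ _).trans (h.sing' hv a b)

omit [Finite K] in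
theorem exists_rot (hd : 4 ≤ finrank K V) {u f t : V} (hu : Qk u = 0) (hf : Qk f = 0)
    (e : polar Qk u f = 1) (h1 : polar Qk u t = 0) (h2 : polar Qk f t = 0) (t0 : t ≠ 0) :
    ∃ g ∈ X, (∀ c : K, g (c • u) = c • u) ∧ (∀ c : K, g (c • f) = c • f) ∧ g t ≠ t := by
  have := h.fin
  have hW := h.witt
  have h3 := hW.disjoint_perp_perp (hW.disjoint_hyperbolic (e := u) (f := f) (by simp [hu])
    (by simp [hf]) (by simp [e]))
  have h4 := hW.finrank_perp (Submodule.span K {u, f})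
  have h5 := IsWittPair.finrank_span_pair_le (F := K) u f
  obtain ⟨a, a1, a2, a3, a4⟩ : ∃ a, polar Qk u a = 0 ∧ polar Qk f a = 0 ∧ Qk a ≠ 0 ∧
      polar Qk a t ≠ 0 := by
    obtain ⟨w, hw, e⟩ : ∃ w ∈ perp (polarBilin Qk) (Submodule.span K {u, f}), polar Qk w t ≠ 0 := by
      by_contra! hc
      exact t0 (Submodule.disjoint_def.1 h3 t (mem_perp_pair.2 ⟨h1, h2⟩) (mem_perp.2 hc))
    obtain ⟨w1, w2⟩ : polar Qk u w = 0 ∧ polar Qk f w = 0 := mem_perp_pair.1 hw
    by_cases qw : Qk w = 0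
    · by_cases qt : Qk t = 0
      · exact ⟨w + t, by simp [w1, h1], by simp [w2, h2], by simp [quad_add, qw, qt, e],
          by simp [qt, e]⟩
      · exact ⟨t, h1, h2, qt, by simp [h.two', qt]⟩
    · exact ⟨w, w1, w2, qw, e⟩
  obtain ⟨⟨c, hc⟩, c0, c3⟩ := exists_ne_zero_mem_ker
    (V := perp (polarBilin Qk) (Submodule.span K {u, f})) (by omega)
    (polarBilin Qk a ∘ₗ Submodule.subtype _)
  obtain ⟨c1, c2⟩ : polar Qk u c = 0 ∧ polar Qk f c = 0 := mem_perp_pair.1 hc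
  replace c3 : polar Qk a c = 0 := c3
  replace c0 : c ≠ 0 := fun e => c0 (Subtype.ext e)
  obtain ⟨s, s0, hs⟩ : ∃ s : K, s ≠ 0 ∧ Qk a + s ^ 2 * Qk c ≠ 0 := by
    by_contra! hc
    obtain ⟨ω, hω⟩ := exists_notMem_base h.prime.two_le
    have e1 := hc 1 one_ne_zero
    have e2 := hc ω (by simpa using hω 0)
    refine mul_ne_zero a3 (mul_ne_zero (sub_ne_zero.2 (hω 1)) (sub_ne_zero.2 (hω (-1)))) ?_
    simp only [map_one, map_neg]
    linear_combination ω ^ 2 * e1 - e2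
  have b3 : Qk (a + s • c) ≠ 0 := by simpa [quad_add, quad_smul, c3] using hs
  have b4 : ∀ x, polar Qk x a = 0 → polar Qk x c = 0 → ∀ k : K,
      ((oRefl Qk a).1 * (oRefl Qk (a + s • c)).1) (k • x) = k • x := fun x x1 x2 k => by
    simp [oRefl_apply, polar_comm Qk _ x, x1, x2]
  refine ⟨_, h.sq_mem (mul_mem (oRefl Qk a).2 (oRefl Qk (a + s • c)).2), fun k => ?_, fun k => ?_,
    fun e => ?_⟩
  · exact (congrArg _ (b4 u a1 c1 k)).trans (b4 u a1 c1 k)
  · exact (congrArg _ (b4 f a2 c2 k)).trans (b4 f a2 c2 k)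
  have e1 : (oRefl Qk a).1 ((oRefl Qk (a + s • c)).1 t) =
      (oRefl Qk (a + s • c)).1 ((oRefl Qk a).1 t) := by
    have := congrArg (fun x => (oRefl Qk (a + s • c)).1⁻¹ ((oRefl Qk a).1⁻¹ x)) e
    simp only [LinearEquiv.restrictScalars_apply, LinearEquiv.mul_apply, inv_apply_apply] at this
    rwa [oRefl_inv', oRefl_inv'] at this
  generalize hb : a + s • c = b at *
  have b5 : polar Qk a b = 2 * Qk a := by simp [← hb, c3]
  have e2 : polar Qk b t • a = polar Qk a t • b := by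
    simp only [oRefl_apply, map_sub, map_smul, polar_comm Qk b a, b5] at e1
    refine smul_right_injective V (mul_ne_zero h.two' (inv_ne_zero b3)) ?_
    have : (Qk a)⁻¹ * Qk a = 1 := inv_mul_cancel₀ a3
    linear_combination (norm := skip) e1
    match_scalars <;> field_simp <;> ring
  have e3 := congrArg (polar Qk a) e2
  rw [polar_smul_right, polar_smul_right, b5, polar_self', smul_eq_mul, smul_eq_mul,
    mul_left_inj' (mul_ne_zero h.two' a3)] at e3
  rw [e3, ← hb] at e2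
  simpa [a4, s0, c0] using e2

section NoZ

variable (hd : 4 ≤ finrank K V) (hZ : ∀ u, u ≠ 0 → Qk u = 0 → ∀ N, ZM X Qk u N → N = 0)
include hd hZ

theorem not_perp {u z : V} {U : Submodule F V} (u0 : u ≠ 0) (hu : Qk u = 0) (hu' : u ∈ U)
    (hm : MP2 (SOrb K X fun v => Qk v = 0) (kl F K u) U) (hz : z ∈ U) (hz' : z ∉ K ∙ u) :
    polar Qk u z ≠ 0 := fun e => by
  have := h.finF
  have := h.fin
  have hdi : ∀ w, polar Qk u w = 0 → ∀ y ∈ U, y ∉ K ∙ u → polar Qk u y = 0 → polar Qk w y • u ∈ U →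
      ∀ z ∈ U, polar Qk u z • w - polar Qk w z • u - (Qk w * polar Qk u z) • u ∈ U :=
    fun w hw y hy hy' e h1 z hz => by
    obtain ⟨t, t1, t2, -, t3⟩ := h.eich hu hw
    convert sub_mem (hm.dich (map_mem_SOrb t1 _ hm.mU) (fun w hw _ => t2.fix' hw) hy hy'
      (by simpa [t3, e] using sub_mem hy h1) hz) hz using 1
    rw [t3]
    abel
  have hc : ∀ y ∈ U, polar Qk u y = 0 := fun y hy => by
    by_contra h0
    have h1 := h.witt.finrank_perp (K ∙ u)
    rw [finrank_span_singleton u0] at h1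
    obtain ⟨⟨w, w1⟩, w0, w2, w3⟩ := exists_ne_zero_mem_ker_two
      (V := perp (polarBilin Qk) (K ∙ u)) (by omega) (polarBilin Qk z ∘ₗ Submodule.subtype _)
      (polarBilin Qk y ∘ₗ Submodule.subtype _)
    replace w1 : polar Qk u w = 0 := mem_perp_singleton.1 w1
    replace w2 : polar Qk w z = 0 := (polar_comm _ _ _).trans w2
    replace w3 : polar Qk w y = 0 := (polar_comm _ _ _).trans w3
    replace w0 : w ≠ 0 := fun e => w0 (Subtype.ext e)
    have h2 := fun k : K => hdi (k • w) (by simp [w1]) z hz hz' e (by simp [w2]) y hy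
    have h3 : kl F K w = U := Submodule.eq_of_le_of_finrank_eq (fun x hx => by
      obtain ⟨k, rfl⟩ := mem_kl.1 hx
      refine (U.smul_mem_iff h.two).1 ?_
      convert sub_mem (h2 (k / polar Qk u y)) (h2 (-(k / polar Qk u y))) using 1
      simp only [polar_smul_left, w3, quad_smul, two_smul]
      match_scalars <;> field_simp <;> ring) (by rw [finrank_kl w0, finrank_of_SOrb hm.mU])
    obtain ⟨k, rfl⟩ := mem_kl.1 (h3.ge hu')
    simp [w3] at h0
  have hdi' : ∀ w, polar Qk u w = 0 → ∀ y ∈ U, y ∉ K ∙ u → polar Qk w y • u ∈ U →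
      ∀ z ∈ U, polar Qk w z • u ∈ U := fun w hw y hy hy' h1 z hz => by
    simpa [hc z hz] using hdi w hw y hy hy' (hc y hy) h1 z hz
  obtain ⟨_, ⟨x, rfl⟩, hx⟩ := by simpa only [mem_kl] using hm.symm.exists_notMem
  have hL : ∀ b : K, (∀ δ : K, δ • u ∈ U → (δ * b) • u ∈ U) → ∃ c : F, b = algebraMap F K c := by
    intro b hb
    by_contra! hc
    let L : Subalgebra F K :=
      { carrier := {b | ∀ δ : K, δ • u ∈ U → (δ * b) • u ∈ U}
        mul_mem' := fun {a b} ha hb δ hδ => by rw [← mul_assoc]; exact hb _ (ha δ hδ)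
        add_mem' := fun {a b} ha hb δ hδ => by
          rw [mul_add, add_smul]; exact add_mem (ha δ hδ) (hb δ hδ)
        algebraMap_mem' := fun a δ hδ => by
          rw [mul_comm, mul_smul, algebraMap_smul]; exact U.smul_mem a hδ }
    have := (subalgebra_top_of_prime h.prime L (c := b) hb hc).ge (Algebra.mem_top (x := x)) 1
      (by simpa using hu')
    exact hx (by simpa using this)
  obtain ⟨w, w1, w2⟩ := h.exists_dual hz'
  obtain ⟨μ, x, m1, hμ⟩ := hm.exists_mu u0 hz fun y hy => by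
    obtain ⟨c, e⟩ := hL (polar Qk w y) fun δ hδ => by
      simpa using hdi' (δ • w) (by simp [w1]) z hz hz' (by simpa [w2] using hδ) y hy
    refine ⟨c, by_contra fun h6 => hx ?_⟩
    simpa [w2] using hdi' (x • w) (by simp [w1]) _ (sub_mem hy (U.smul_mem c hz)) h6
      (by simp [e, w2, polar_smul_right_of_tower, Algebra.smul_def, mul_comm]) z hz
  have m0 : μ 1 = 0 := (hμ 1).1 (by simpa using hu')
  obtain ⟨g, hg, v, v0, hv, rfl⟩ := hm.mU
  have h1 : ∀ δ : K, μ δ = 0 ↔ g⁻¹ (δ • u) ∈ K ∙ v := fun δ => by rw [← hμ, mem_map_equiv']; rfl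
  obtain ⟨k, hk⟩ := Submodule.mem_span_singleton.1 ((h1 1).1 m0)
  obtain ⟨s, s1, s2⟩ := h.exists_dual (u := v) (y := g⁻¹ (x • u)) (by rw [← h1, m1]; simp)
  obtain ⟨t, t1, t2, -, t3⟩ := h.eich hv (w := -k • s) (by simp [s1])
  have h2 : polar Qk v (g⁻¹ (x • u)) = 0 := h.perp_iff.1 fun c => by
    rw [← h.isom hg, apply_inv_apply, polar_comm]
    exact h.perp_iff.2 (hc _ ⟨_, smul_mem_kl c v, rfl⟩) x
  have h3 : ∀ c : K, (g * t * g⁻¹) (c • u) = (c + algebraMap F K (μ c)) • u := fun c => by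
    have a1 := t2.fix' ((h1 (c - μ c • x)).1 (by simp [m1]))
    rw [sub_smul, smul_assoc, map_sub, (g⁻¹).map_smul, map_sub, t.map_smul, t3 (g⁻¹ (x • u)), h2,
      polar_smul_left, s2] at a1
    simp only [LinearEquiv.mul_apply]
    rw [sub_eq_iff_eq_add.1 a1]
    simp [hk, add_smul, apply_inv_apply, ← add_assoc]
  obtain ⟨κ, h4, -⟩ := h.semi u0 hu (hZ u u0 hu) (mul_mem (mul_mem hg t1) (inv_mem hg))
    (fun c => h3 c ▸ smul_mem_kl (F := F) _ u) x
  have h5 := h4 _ (smul_mem_kl (F := F) 1 u)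
  have h6 := h4 _ (smul_mem_kl (F := F) x u)
  rw [smul_smul, h3, h3, smul_smul] at h5 h6
  replace h5 := smul_left_injective K u0 h5
  replace h6 := smul_left_injective K u0 h6
  simp only [mul_one, m0, m1, map_zero, map_one, add_zero] at h5 h6
  have h7 : (2 : F) • x + 1 = μ (x * x) • (1 : K) := by
    rw [two_smul, ← Algebra.algebraMap_eq_smul_one]
    linear_combination -h6 + (x + 1) * h5
  simpa [m0, m1, h.two] using congrArg μ h7

theorem mem_semiG_of_four {m : V ≃ₗ[F] V} (hm : m ∈ X) : m ∈ SemiG F K V := by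
  have := h.finF
  have := h.fin
  have hP : ∀ (k : K) v, Qk v = 0 → Qk (k • v) = 0 := fun k v e => by simp [quad_smul, e]
  by_contra hm'
  obtain ⟨A, U, hA, hU, hne, h0⟩ : ∃ A U, A ∈ SOrb K X (fun v => Qk v = 0) ∧
      U ∈ SOrb K X (fun v => Qk v = 0) ∧ A ≠ U ∧ A ⊓ U ≠ ⊥ := by
    by_contra! hc
    obtain ⟨u, u0, hu⟩ := exists_singular_of_three_le Qk h.dim
    refine hm' (mem_semiG_of_sing (B := polarBilin Q) h.witt h.nu h.eq h.dim u0 (by simpa using hu)
      (h.ogX hm).1 fun v v0 hv => by_contra fun e => ?_)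
    have hU := map_mem_SOrb hm _ (kl_mem_SOrb (F := F) (K := K) (X := X) (P := fun v => Qk v = 0) v0
      (by simpa using hv))
    have x0 : m v ≠ 0 := by simpa using v0
    have hx : m v ∈ (kl F K v).map (m : V →ₗ[F] V) := ⟨v, self_mem_kl v, rfl⟩
    generalize (kl F K v).map (m : V →ₗ[F] V) = U at *
    generalize m v = x at *
    have h1 : ∀ A ∈ SOrb K X (fun v => Qk v = 0), x ∈ A → A = U := fun A hA hx' =>
      by_contra fun e => x0 (by simpa using (hc A U hA hU e).le ⟨hx', hx⟩)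
    have h2 : Qk x ≠ 0 := fun q => e (h1 _ (kl_mem_SOrb x0 q) (self_mem_kl x)).symm
    obtain ⟨y, hy, hy'⟩ := SetLike.not_le_iff_exists.1 fun e' : U ≤ kl F K x => e
      (Submodule.eq_of_le_of_finrank_eq e' (by rw [finrank_kl x0, finrank_of_SOrb hU]))
    have h3 := fun v => h.mem_of_perp hd (v := v) h2 (fun g hg e y hy =>
      (h1 _ (map_mem_SOrb hg _ hU) ⟨x, hx, e⟩).le ⟨y, hy, rfl⟩) hy hy'
    obtain ⟨w, w0, w1⟩ := exists_nonsingular_perp h.ndk h.dim x
    refine mul_ne_zero h.two' w0 (eq_zero_of_nu h.nu fun k => ?_)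
    simpa [h.eq] using h.sorb_ts hU (h3 (k • w) (by simp [w1])) (h3 w w1)
  obtain ⟨u, U, u0, hu, hu', hM⟩ := exists_MP2_kl hP hA hU hne h0
  have h1 := fun z => h.not_perp hd hZ u0 hu hu' hM (z := z)
  obtain ⟨y, hy, hy'⟩ := hM.exists_notMem
  have b0 := h1 y hy hy'
  obtain ⟨f, hf, a1, a, a2⟩ : ∃ f, Qk f = 0 ∧ polar Qk u f = 1 ∧ ∃ a : K,
      y = a • u + polar Qk u y • f :=
    ⟨(polar Qk u y)⁻¹ • (y - (Qk y / polar Qk u y) • u), by
      simp [quad_smul, quad_sub, hu, polar_comm Qk y, b0], by simp [hu, b0],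
      Qk y / polar Qk u y, by simp [smul_smul, b0]⟩
  have a3 : polar Qk f u = 1 := (polar_comm _ _ _).trans a1
  have h2 : ∀ z ∈ U, z - polar Qk f z • u - polar Qk u z • f = 0 := fun z hz => by_contra fun t0 => by
    obtain ⟨g, hg, g1, g2, g3⟩ := h.exists_rot hd hu hf a1 (by simp [hu, a1]) (by simp [hf, a3]) t0
    have h3 := sub_mem (hM.dich (map_mem_SOrb hg _ hM.mU) (fun w hw _ => by
      obtain ⟨k, rfl⟩ := mem_kl.1 hw
      exact g1 k) hy hy' (by rwa [a2, map_add, g1, g2, ← a2]) hz) hz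
    refine h1 _ h3 (fun e => g3 ?_) (by
      rw [polar_sub_right, h.polar_fix (h.ogX hg) g1, sub_self])
    obtain ⟨k, hk⟩ := Submodule.mem_span_singleton.1 e
    have := congrArg (polar Qk f) hk
    rw [polar_sub_right, h.polar_fix (h.ogX hg) g2, sub_self, polar_smul_right, a3] at this
    rw [show k = 0 by simpa using this, zero_smul, eq_comm, sub_eq_zero] at hk
    rw [map_sub, map_sub, g1, g2, hk]
  have hW := h.witt
  have h4 := hW.finrank_perp (Submodule.span K {u, f})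
  have h5 := IsWittPair.finrank_span_pair_le (F := K) u f
  obtain ⟨w, hw, w0⟩ := exists_quad_eq_mem (hW.disjoint_perp_perp (hW.disjoint_hyperbolic (e := u)
    (f := f) (by simp [hu]) (by simp [hf]) (by simp [a1]))) (by omega) (inv_ne_zero b0)
  obtain ⟨w1, w2⟩ : polar Qk u w = 0 ∧ polar Qk f w = 0 := mem_perp_pair.1 hw
  have w3 : ∀ z ∈ U, polar Qk w z = 0 := fun z hz => by
    simpa [polar_comm Qk w u, polar_comm Qk w f, w1, w2] using congrArg (polar Qk w) (h2 z hz)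
  obtain ⟨t, t1, t2, -, t3⟩ := h.eich hu w1
  have h6 : t y = y + polar Qk u y • w - u := by simp [t3, w0, w3 y hy, b0]
  have h7 : t y ∉ U := fun e => h1 _ (sub_mem e hy) (fun e => by
    obtain ⟨k, hk⟩ := Submodule.mem_span_singleton.1 e
    simpa [h6, polar_comm Qk w u, w1, w0, b0, h.two'] using congrArg (polar Qk w) hk)
    (by simp [h6, hu, w1])
  have h8 : t y ∈ U.map (t : V →ₗ[F] V) := ⟨y, hy, rfl⟩
  obtain ⟨g, hg, v, v0, hv, e1, e2, e3⟩ := (hM.symm.of_le hM.mU (map_mem_SOrb t1 _ hM.mU)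
    (fun e => h7 (e ▸ h8)) fun x hx => ⟨hx.1, x, hx.1, t2.fix' hx.2⟩).normal hP fun e => u0 (by
      simpa using e.le ⟨hu', u, hu', by simpa using t2.fix 1⟩)
  refine h.not_perp hd hZ v0 hv (Submodule.mem_map.2 ⟨_, e2, inv_apply_apply g v⟩) e3
    (Submodule.mem_map.2 ⟨_, h8, rfl⟩)
    (fun e => h7 (e1 ▸ mem_map_equiv'.2 e)) (h.perp_iff.1 fun c => ?_)
  have h9 : g (c • v) ∈ U := e1 ▸ ⟨_, smul_mem_kl c v, rfl⟩
  rw [← h.isom hg]
  change polar Q _ (g (g⁻¹ (t y))) = 0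
  rw [apply_inv_apply, h6, polar_sub_right, polar_add_right, h.sorb_ts hM.mU h9 hy,
    h.sorb_ts hM.mU h9 hu', h.eq, polar_smul_right, polar_comm _ (g _), w3 _ h9]
  simp

end NoZ

end OF

end CF.MaxSub
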