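/-
Maximality of `ΓO_d(q^r) ∩ Ω_{dr}(q)` in `Ω_{dr}(q)`, `q` odd, `d ≥ 4`.
-/
import Cfsg.Agent.MaxSub.F3Q

set_option autoImplicit false

namespace CF.MaxSub

open Module Geom QuadraticMap

universe u

variable {F K V : Type*} [Field F] [Field K] [Algebra F K]
  [AddCommGroup V] [Module F V] [Module K V] [IsScalarTower F K V]

theorem omega_maxIn_of_OF [Finite K] {Q : QuadraticForm F V}
    (hQ : (polarBilin Q).Nondegenerate) (h2 : (2 : F) ≠ 0) (hr : (finrank F K).Prime)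
    (hd : 3 ≤ finrank K V) (hd' : finrank F K = 2 → 4 ≤ finrank K V)
    (hs : ∀ (k : K) x y, polar Q (k • x) y = polar Q x (k • y))
    (H : ∀ (Qk : QuadraticForm K V) ν X, OF Q Qk ν X →
      (∀ u, u ≠ 0 → Qk u = 0 → ∀ N, ZM X Qk u N → N = 0) → X ≤ SemiG F K V) :
    MaxIn (OmG Q) (SemiG F K V) := by
  have : FiniteDimensional F K := .of_finrank_pos hr.pos
  have : FiniteDimensional K V := .of_finrank_pos (by omega)
  have : Finite F := .of_injective _ (algebraMap F K).injective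
  obtain ⟨ν, hν⟩ := exists_ne (0 : Dual F K)
  obtain ⟨Bk, e⟩ := exists_kform (σ := RingHom.id F) (τ := RingHom.id K) (polarBilin Q) hs hν
  simp only [polarBilin_apply_apply] at e
  have hS : ∀ x y, Bk x y = Bk y x := fun x y => sub_eq_zero.1 (eq_zero_of_nu hν fun k => by
    have := polar_comm Q x (k • y)
    rw [e, e] at this
    simpa [mul_sub, sub_eq_zero] using this)
  have h2' : (2 : K) ≠ 0 := by simpa [map_ofNat] using (map_ne_zero (algebraMap F K)).2 h2
  obtain ⟨Qk, rfl⟩ := exists_quad h2' hS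
  have hB : ∀ x, (∀ y, polarBilin Qk x y = 0) → x = 0 := fun x h =>
    hQ.1 x fun y => by simp [e, h]
  refine ⟨omega_not_le_semiG hr hd hQ, fun M a1 a2 m hm hm' => ?_⟩
  have h : OF Q Qk ν M := ⟨hQ, ⟨hB, fun y h => hB y fun x => (hS _ _).trans (h x)⟩, hν, fun x =>
    mul_left_cancel₀ h2 (by
      rw [← polar_self', e, polarBilin_apply_apply, polar_self', two_mul, two_mul, map_add]),
    h2, hr, hd, a2, a1⟩
  by_contra hc
  exact hm' (H Qk ν M h (fun u u0 hu N hN => by_contra fun N0 =>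
    hc (h.le_of_zm hd' u0 hu hN N0)) hm)

theorem omega_maxIn_orth_four [Finite K] {Q : QuadraticForm F V}
    (hQ : (polarBilin Q).Nondegenerate) (h2 : (2 : F) ≠ 0) (hr : (finrank F K).Prime)
    (hd : 4 ≤ finrank K V) (hs : ∀ (k : K) x y, polar Q (k • x) y = polar Q x (k • y)) :
    MaxIn (OmG Q) (SemiG F K V) :=
  omega_maxIn_of_OF hQ h2 hr (by omega) (fun _ => hd) hs fun _ _ _ h hZ _ =>
    h.mem_semiG_of_four hd hZ

open Matrix Cfsg Cfsg.Geo in
theorem isMaximalIn_omega_of_field {F : Type u} [Field F] [Fintype F] {ι : Type} [Fintype ι]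
    [DecidableEq ι] [Nonempty ι] {Q : (ι → F) → F} (hQ : IsNondegenerateQuadraticForm Q) {r : ℕ}
    {K : Subalgebra F (Matrix ι ι F)} (hK : IsFieldSubalgebra r K)
    (hs : IsSelfAdjointFor (polar Q) K)
    (h : ∀ (Q : QuadraticForm F (ι → F)) (L : Type u) [Field L] [Finite L] [Algebra F L]
      [Module L (ι → F)] [IsScalarTower F L (ι → F)], (polarBilin Q).Nondegenerate →
      finrank F L = r → r * finrank L (ι → F) = Fintype.card ι →
      (∀ (k : L) x y, polar Q (k • x) y = polar Q x (k • y)) → MaxIn (OmG Q) (SemiG F L (ι → F))) :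
    IsMaximalIn (omegaGL Q) (subalgebraNormalizer K ⊓ omegaGL Q) := by
  obtain ⟨Q, rfl, hQ'⟩ := exists_quadraticForm hQ
  refine isMaximalIn_field hK (mem_omegaGL_iff Q) fun L _ _ _ _ _ _ h1 h3 h4 _ =>
    h Q L hQ' h1 h3 fun k x y => ?_
  obtain ⟨z, hz, e⟩ := h4 k
  rw [e, e, hs z hz]

open Matrix Cfsg Cfsg.Geo in
theorem isMaximalIn_omega_orth_four {F : Type*} [Field F] [Fintype F]
    (hodd : Odd (Fintype.card F)) {ι : Type} [Fintype ι] [DecidableEq ι] {Q : (ι → F) → F}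
    (hQ : IsNondegenerateQuadraticForm Q) {r : ℕ} (hr : r.Prime) (hn : 3 * r < Fintype.card ι)
    {K : Subalgebra F (Matrix ι ι F)} (hK : IsFieldSubalgebra r K)
    (hs : IsSelfAdjointFor (polar Q) K) :
    IsMaximalIn (omegaGL Q) (subalgebraNormalizer K ⊓ omegaGL Q) :=
  have : Nonempty ι := Fintype.card_pos_iff.1 (by omega)
  isMaximalIn_omega_of_field hQ hK hs fun _ _ _ _ _ _ _ hQ h1 h3 =>
    omega_maxIn_orth_four hQ (Geom.two_ne_zero_of_odd_card hodd) (h1 ▸ hr) (by nlinarith)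

end CF.MaxSub
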