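/-
A trace argument: a `p`-subgroup acting freely on the non-trivial cosets of a stabiliser.
-/
import Cfsg.Agent.MaxSub.F3B
import Mathlib.FieldTheory.ChevalleyWarning
import Mathlib.RepresentationTheory.Basic

set_option autoImplicit false

namespace CF.MaxSub

open Module

section Orbit

variable {F G M A : Type*} [Field F] [Group G] [AddCommGroup M] [Module F M] [AddCommGroup A]
  [Fintype A]

theorem rep_fix (ρ : Representation F G M) {X : Subgroup G} [Finite X] {Γ : M} {e : A → G}
    (he : ∀ a b, e (a + b) = e a * e b) (hX : ∀ a, e a ∈ X) (h0 : ∀ a, ρ (e a) Γ = Γ)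
    (hs : ∀ x ∈ X, ∑ a, ρ (e a) (ρ x Γ) = 0)
    (hf : ∀ x ∈ X, ∀ a, ρ (e a) (ρ x Γ) = ρ x Γ → a = 0 ∨ ρ x Γ = Γ) {x : G} (hx : x ∈ X) :
    ρ x Γ = Γ := by
  classical
  have := Fintype.ofFinite X
  have e0 : e 0 = 1 := by simpa using he 0 0
  have e1 : ∀ a b γ, ρ (e a) (ρ (e b) γ) = ρ (e (a + b)) γ := fun a b γ => by simp [he]
  have e2 : ∀ a γ, ρ (e (-a)) (ρ (e a) γ) = γ := fun a γ => by simp [e1, e0]
  let O : Finset M := Finset.univ.image fun y : X => ρ y Γ
  have hO : ∀ γ, γ ∈ O ↔ ∃ y ∈ X, ρ y Γ = γ := fun γ => by simp [O]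
  have h1 : ∀ y ∈ X, ∀ γ ∈ O, ρ y γ ∈ O := fun y hy γ h => by
    obtain ⟨z, hz, rfl⟩ := (hO γ).1 h
    exact (hO _).2 ⟨y * z, mul_mem hy hz, by simp⟩
  let R : Setoid M := ⟨fun γ δ => ∃ a, γ = ρ (e a) δ, fun γ => ⟨0, by simp [e0]⟩,
    by rintro _ δ ⟨a, rfl⟩; exact ⟨-a, (e2 a δ).symm⟩,
    by rintro _ _ δ ⟨a, rfl⟩ ⟨b, rfl⟩; exact ⟨a + b, e1 a b δ⟩⟩
  have h2 : ∑ γ ∈ O.erase Γ, γ = 0 := Finset.sum_cancels_of_partition_cancels R fun γ h => by
    obtain ⟨h3, h4⟩ := Finset.mem_erase.1 h
    obtain ⟨y, hy, rfl⟩ := (hO γ).1 h4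
    rw [← hs y hy, eq_comm]
    refine Finset.sum_bij (fun a _ => ρ (e a) (ρ y Γ)) (fun a _ => Finset.mem_filter.2
      ⟨Finset.mem_erase.2 ⟨fun e' => h3 ?_, h1 _ (hX a) _ h4⟩, a, rfl⟩) (fun a _ b _ e' => ?_)
      (fun δ hδ => ?_) fun _ _ => rfl
    · rw [← e2 a (ρ y Γ), e', h0]
    · refine (neg_add_eq_zero.1 ((hf y hy (-b + a) ?_).resolve_right h3)).symm
      rw [← e1, e', e2]
    · obtain ⟨a, rfl⟩ := (Finset.mem_filter.1 hδ).2
      exact ⟨a, Finset.mem_univ a, rfl⟩
  have h3 : ∑ γ ∈ O, γ = Γ := by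
    rw [← Finset.add_sum_erase O _ ((hO Γ).2 ⟨1, one_mem X, by simp⟩), h2, add_zero]
  conv_lhs => rw [← h3, map_sum]
  refine (Finset.sum_bij (fun γ _ => ρ x γ) (h1 x hx) (fun a _ b _ e' => ?_) (fun δ hδ => ?_)
    fun _ _ => rfl).trans h3
  · simpa using congrArg (ρ x⁻¹) e'
  · exact ⟨ρ x⁻¹ δ, h1 _ (inv_mem hx) δ hδ, by simp⟩

end Orbit

section Poly

variable {F A M N P : Type*} [Field F] [AddCommGroup A] [Module F A] [AddCommGroup M] [Module F M]
  [AddCommGroup N] [Module F N] [AddCommGroup P] [Module F P] {ι : Type*} (b : A ≃ₗ[F] (ι → F))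

/-- Polynomial maps of degree at most `d`. -/
inductive PD (d : ℕ) : (A → M) → Prop
  | mono (p : MvPolynomial ι F) (m : M) :
    p.totalDegree ≤ d → PD d fun a => MvPolynomial.eval (b a) p • m
  | add {f g : A → M} : PD d f → PD d g → PD d fun a => f a + g a

variable {b} {d e : ℕ}

theorem PD.const (m : M) : PD b d fun _ => m := by
  simpa using PD.mono (b := b) (d := d) 1 m (by simp)

theorem PD.le {f : A → M} (h : PD b d f) (he : d ≤ e) : PD b e f := by
  induction h with
  | mono p m h => exact .mono p m (h.trans he)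
  | add _ _ h1 h2 => exact h1.add h2

theorem PD.map {f : A → M} (h : PD b d f) (l : M →ₗ[F] N) : PD b d fun a => l (f a) := by
  induction h with
  | mono p m h => simpa using PD.mono (b := b) p (l m) h
  | add _ _ h1 h2 => simpa using h1.add h2

theorem PD.bilin (β : M →ₗ[F] N →ₗ[F] P) {f : A → M} {g : A → N} (hf : PD b d f) (hg : PD b e g) :
    PD b (d + e) fun a => β (f a) (g a) := by
  induction hf with
  | add _ _ h1 h2 => simpa using h1.add h2
  | mono p m h =>
    induction hg with
    | add _ _ h1 h2 => simpa only [map_add] using h1.add h2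
    | mono p' m' h' =>
      simpa [smul_smul, mul_comm] using PD.mono (b := b) (p * p') (β m m')
        ((MvPolynomial.totalDegree_mul p p').trans (add_le_add h h'))

theorem PD.sum {κ : Type*} (s : Finset κ) {f : κ → A → M} (h : ∀ i, PD b d (f i)) :
    PD b d fun a => ∑ i ∈ s, f i a := by
  classical
  induction s using Finset.induction_on with
  | empty => simpa using PD.const 0
  | insert i s hi ih => simpa [Finset.sum_insert hi] using (h i).add ih

variable [Fintype ι]

theorem PD.lin (l : A →ₗ[F] M) : PD b 1 l := by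
  classical
  convert PD.sum (b := b) Finset.univ fun i => PD.mono (MvPolynomial.X i)
    (l (b.symm (Pi.single i 1))) (MvPolynomial.totalDegree_X i).le with a
  simp only [MvPolynomial.eval_X, ← map_smul, ← map_sum]
  rw [← pi_eq_sum_univ', b.symm_apply_apply]

theorem PD.sum_eq_zero [Fintype F] [Fintype A] {f : A → M} (h : PD b d f)
    (hd : d < (Fintype.card F - 1) * Fintype.card ι) : ∑ a, f a = 0 := by
  classical
  induction h with
  | add _ _ h1 h2 => rw [Finset.sum_add_distrib, h1, h2, add_zero]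
  | mono p m h =>
    have : ∑ i, MvPolynomial.eval (b i) p = 0 := (b.toEquiv.sum_comp fun x =>
      MvPolynomial.eval x p).trans (MvPolynomial.sum_eval_eq_zero p (h.trans_lt hd))
    rw [← Finset.sum_smul, this, zero_smul]

omit [Fintype ι] in
theorem PD.linHom {G : Type*} [Group G] {ρ : Representation F G M} {e : A → G}
    (h : PD b d fun a => ρ (e a)) (h' : PD b d fun a => ρ (e a)⁻¹) :
    PD b (d + d) fun a => ρ.linHom ρ (e a) :=
  PD.bilin (LinearMap.mul F (End F (End F M))) (h.map (LinearMap.mul F (End F M)))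
    (h'.map (LinearMap.mul F (End F M)).flip)

omit [Fintype ι] in
theorem PD.linHom' {G : Type*} [Group G] {ρ : Representation F G M} {e : A → G}
    (h : PD b d fun a => ρ (e a)) (h' : PD b d fun a => ρ (e a)⁻¹) :
    PD b (d + d) fun a => ρ.linHom ρ (e a)⁻¹ :=
  PD.linHom (e := fun a => (e a)⁻¹) h' (by simpa using h)

end Poly

section Gam

variable (F V : Type*) [Field F] [AddCommGroup V] [Module F V]

/-- The natural representation. -/
abbrev r1 : Representation F (V ≃ₗ[F] V) V := LinearEquiv.automorphismGroup.toLinearMapMonoidHom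

/-- Conjugation on endomorphisms. -/
abbrev r2 : Representation F (V ≃ₗ[F] V) (End F V) := (r1 F V).linHom (r1 F V)

/-- Conjugation on endomorphisms of endomorphisms. -/
abbrev r4 : Representation F (V ≃ₗ[F] V) (End F (End F V)) := (r2 F V).linHom (r2 F V)

variable {F V}

theorem r2_apply (g : V ≃ₗ[F] V) (a : End F V) (v : V) : r2 F V g a v = g (a (g⁻¹ v)) := rfl

theorem sum_r4 [Fintype F] {A ι : Type*} [AddCommGroup A] [Module F A] [Fintype A] [Fintype ι]
    {b : A ≃ₗ[F] (ι → F)} {d : ℕ} {e : A → V ≃ₗ[F] V} (h : PD b d fun a => (e a : End F V))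
    (h' : PD b d fun a => ((e a)⁻¹ : V ≃ₗ[F] V).toLinearMap)
    (hd : 4 * d < (Fintype.card F - 1) * Fintype.card ι) (γ : End F (End F V)) :
    ∑ a, r4 F V (e a) γ = 0 :=
  (((PD.linHom (ρ := r1 F V) h h').linHom (PD.linHom' (ρ := r1 F V) h h')).map
    (LinearMap.applyₗ γ)).sum_eq_zero (by omega)

variable (F V) (K : Type*) [Field K] [Algebra F K] [Module K V] [IsScalarTower F K V] [Fintype K]
  [DecidableEq K]

/-- Averaging over the multiplicative group of `K`. -/
noncomputable def gam : End F (End F V) := ∑ k : Kˣ, r2 F V (DistribMulAction.toLinearEquiv F V k)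

variable {F V K}

theorem gam_apply (a : End F V) (v : V) : gam F V K a v = ∑ k : Kˣ, k • a (k⁻¹ • v) := by
  simp only [gam, LinearMap.sum_apply]
  rfl

theorem r4_gam_iff [Nontrivial V] {g : V ≃ₗ[F] V} :
    r4 F V g (gam F V K) = gam F V K ↔ g ∈ SemiG F K V := by
  constructor
  · intro h
    have h1 : ∀ a, r2 F V g (gam F V K a) = gam F V K (r2 F V g a) := fun a => by
      conv_rhs => rw [← h]
      exact congrArg (fun x => r2 F V g (gam F V K x)) ((r2 F V).inv_self_apply g a).symm
    have h2 : ∀ (a : End F V) (k : K) v, gam F V K a (k • v) = k • gam F V K a v := fun a k v => by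
      by_cases k0 : k = 0
      · simp [k0]
      lift k to Kˣ using Ne.isUnit k0
      rw [gam_apply, gam_apply, Finset.smul_sum]
      exact (Equiv.sum_comp (Equiv.mulLeft k) _).symm.trans <| Finset.sum_congr rfl fun l _ => by
        simp only [Equiv.coe_mulLeft, ← Units.smul_def, mul_smul, mul_inv_rev, inv_smul_smul]
    have h3 : ∀ (a : End K V) v, gam F V K (a.restrictScalars F) v = -a v := fun a v => by
      simp only [gam_apply, LinearMap.restrictScalars_apply, Units.smul_def, map_smul, smul_smul,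
        Units.mul_inv, one_smul, Finset.sum_const, Finset.card_univ, Fintype.card_units]
      rw [← Nat.cast_smul_eq_nsmul K, Nat.cast_pred Fintype.card_pos, FiniteField.cast_card_eq_zero]
      simp
    obtain ⟨v, hv⟩ := exists_ne (0 : V)
    obtain ⟨φ, hφ⟩ := Projective.exists_dual_eq_one K hv
    refine (SemiG F K V).inv_mem_iff.1 (mem_semiG fun k => ⟨φ (g⁻¹ (k • g v)), fun w => ?_⟩)
    have h4 := fun x => LinearMap.congr_fun (h1 ((φ.smulRight (g⁻¹ w)).restrictScalars F)) x
    have h5 := h4 (k • g v)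
    rw [h2, ← h4, r2_apply, r2_apply, h3, h3] at h5
    simp only [LinearMap.smulRight_apply, Geom.inv_apply_apply, hφ, one_smul, map_neg, smul_neg,
      neg_inj, Geom.apply_inv_apply] at h5
    rw [← h5, Geom.inv_apply_apply]
  · intro h
    choose s hs using h.1
    obtain ⟨v, hv⟩ := exists_ne (0 : V)
    have h1 : ∀ k : Kˣ, s k ≠ 0 := fun k e => by simpa [e, hv] using hs k v
    have h2 : ∀ k : Kˣ, g * DistribMulAction.toLinearEquiv F V k * g⁻¹ =
        DistribMulAction.toLinearEquiv F V (Units.mk0 _ (h1 k)) := fun k => LinearEquiv.ext fun v =>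
      (hs k _).trans (congrArg (s k • ·) (Geom.apply_inv_apply g v))
    rw [gam, map_sum]
    refine Fintype.sum_bijective (fun k => Units.mk0 _ (h1 k)) (Finite.injective_iff_bijective.1
      fun k l e => Units.ext (smul_left_injective K hv (g.injective ?_))) _ _ fun k => ?_
    · simp only [hs]
      rw [show s k = s l from congrArg Units.val e]
    · rw [← h2, map_mul, map_mul]
      rfl

end Gam

end CF.MaxSub
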