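/-
Maximality of `ΓO_3(q^r) ∩ Ω_{3r}(q)` in `Ω_{3r}(q)`, `q` odd.
-/
import Cfsg.Agent.MaxSub.F3R
import Cfsg.Agent.MaxSub.Tr

set_option autoImplicit false

namespace CF.MaxSub

open Module Geom QuadraticMap

variable {F K V : Type*} [Field F] [Field K] [Algebra F K]
  [AddCommGroup V] [Module F V] [Module K V] [IsScalarTower F K V]

theorem le_semiG_of_free [Fintype F] [Finite K] [Finite V] [Nontrivial V] {A ι : Type*}
    [AddCommGroup A] [Module F A] [Finite A] [Fintype ι] {b : A ≃ₗ[F] (ι → F)} {d : ℕ}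
    {X : Subgroup (V ≃ₗ[F] V)} {e : A → V ≃ₗ[F] V} (he : ∀ a b, e (a + b) = e a * e b)
    (hX : ∀ a, e a ∈ X) (h0 : ∀ a, e a ∈ SemiG F K V) (h : PD b d fun a => (e a : End F V))
    (h' : PD b d fun a => ((e a)⁻¹ : V ≃ₗ[F] V).toLinearMap)
    (hd : 4 * d < (Fintype.card F - 1) * Fintype.card ι)
    (hf : ∀ x ∈ X, ∀ a, a ≠ 0 → x⁻¹ * e a * x ∈ SemiG F K V → x ∈ SemiG F K V) :
    X ≤ SemiG F K V := fun x hx => by
  classical
  have := Fintype.ofFinite K
  have := Fintype.ofFinite A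
  have : Finite (V ≃ₗ[F] V) := .of_injective _ DFunLike.coe_injective
  refine r4_gam_iff.1 (rep_fix (r4 F V) he hX (fun a => r4_gam_iff.2 (h0 a))
    (fun x _ => sum_r4 h h' hd _) (fun y hy a e => or_iff_not_imp_left.2 fun a0 =>
      r4_gam_iff.2 (hf y hy a a0 (r4_gam_iff.1 ?_))) hx)
  simp only [map_mul, Module.End.mul_apply, e, Representation.inv_self_apply]

namespace OF

variable {Q : QuadraticForm F V} {Qk : QuadraticForm K V} {ν : Dual F K}
  {X : Subgroup (V ≃ₗ[F] V)} (h : OF Q Qk ν X) [Finite K]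
include h

theorem mem_semiG_of_line (hZ : ∀ u, u ≠ 0 → Qk u = 0 → ∀ N, ZM X Qk u N → N = 0) {u : V}
    (u0 : u ≠ 0) (hu : Qk u = 0) {x : V ≃ₗ[F] V} (hx : x ∈ X)
    (e : ∀ k : K, x (k • x⁻¹ u) ∈ K ∙ u) : x ∈ SemiG F K V := by
  have h1 : Qk (x⁻¹ u) = 0 := by_contra fun q => by
    obtain ⟨k, hk⟩ := exists_nu_sq h.nu h.two' q
    obtain ⟨c, hc⟩ := Submodule.mem_span_singleton.1 (e k)
    rw [← quad_smul, ← h.q, ← mem_OG.1 (h.ogX hx), ← hc] at hk
    exact hk (h.sing hu c)
  obtain ⟨b, -, b2, c, -, b3⟩ := h.exists_move u0 (u' := x⁻¹ u) (by simpa using u0) hu h1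
  simpa using mul_mem (h.stab u0 hu (hZ u u0 hu) (mul_mem hx b2) fun k => by
    simpa [b3, smul_smul] using e (k * c)) (inv_mem (restrict_mem_semiG b))

theorem le_semiG_of_small (hZ : ∀ u, u ≠ 0 → Qk u = 0 → ∀ N, ZM X Qk u N → N = 0)
    (hc : 8 < (Nat.card F - 1) * finrank F K)
    (hl : ∀ g ∈ SemiG F K V, ∀ u, u ≠ 0 → Qk u = 0 → ∀ x ∈ X, RM Qk u (x * g * x⁻¹) →
      ∀ (k : K) v, g (k • v) = k • g v) : X ≤ SemiG F K V := by
  have := h.finK
  have := h.fin
  have := h.finite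
  have := Fintype.ofFinite F
  have : Finite V := Module.finite_of_finite K
  obtain ⟨u, u0, hu⟩ := exists_singular_of_three_le Qk h.dim
  have : Nontrivial V := nontrivial_of_ne _ _ u0
  obtain ⟨f, hf, a1⟩ := h.exists_hyp u0 hu
  obtain ⟨w, w0, w1, -⟩ := h.exists_ns hu hf a1
  have w2 := (polar_comm _ _ _).trans w1
  choose e e1 e2 e3 e4 using fun c : K => h.eich hu (w := c • w) (by simp [w1])
  have e5 : ∀ a b, e (a + b) = e a * e b := fun a b => LinearEquiv.ext fun x => by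
    simp only [LinearEquiv.mul_apply, e4, quad_smul, polar_add_right, polar_sub_right,
      polar_smul_left, polar_smul_right, polar_self', hu, w1, w2, smul_eq_mul]
    module
  have e6 : ∀ a, (e a)⁻¹ = e (-a) := fun a => inv_eq_of_mul_eq_one_right (by
    rw [← e5, add_neg_cancel]
    simpa using e5 0 0)
  let l : End K V →ₗ[F] End F V := LinearMap.restrictScalarsₗ F K V V F
  let s : End K V → K →ₗ[F] End K V := fun a =>
    (LinearMap.toSpanSingleton K _ a).restrictScalars F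
  have e7 : ∀ ε : K, PD (finBasis F K).equivFun 2 fun a => (e (ε * a) : End F V) := fun ε => by
    have := PD.lin (b := (finBasis F K).equivFun) .id
    convert (((PD.const 1).add ((this.map (s (ε • ((polarBilin Qk u).smulRight w -
      (polarBilin Qk w).smulRight u)))).le one_le_two)).add ((PD.bilin (LinearMap.mul F K)
      this this).map (s (-(ε ^ 2 * Qk w) • (polarBilin Qk u).smulRight u)))).map l with a
    ext x
    simp [l, s, e4, quad_smul]
    module
  refine le_semiG_of_free e5 e1 (fun a => lin_mem_semiG (e3 a)) (by simpa using e7 1)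
    (by simpa [e6] using e7 (-1)) (by simpa using hc) fun x hx a a0 hs => ?_
  have h1 := hl _ hs u u0 hu x hx (by simpa [mul_assoc] using e2 a)
  have h2 : ∀ y, e a (e a y - y) - (e a y - y) = (-2 * a ^ 2 * Qk w * polar Qk u y) • u := fun y => by
    simp only [e4, quad_smul, polar_add_right, polar_sub_right, polar_smul_left, polar_smul_right,
      polar_self', hu, w1, w2, smul_eq_mul]
    module
  have h3 : ∀ y, (x⁻¹ * e a * x) ((x⁻¹ * e a * x) y - y) - ((x⁻¹ * e a * x) y - y) =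
      x⁻¹ ((-2 * a ^ 2 * Qk w * polar Qk u (x y)) • u) := fun y => by
    simp only [← h2, LinearEquiv.mul_apply, map_sub, apply_inv_apply, inv_apply_apply]
  have h4 : -2 * a ^ 2 * Qk w ≠ 0 := by simp [h.two', a0, w0]
  refine h.mem_semiG_of_line hZ u0 hu hx fun k => ?_
  have h5 := h3 (x⁻¹ ((-2 * a ^ 2 * Qk w)⁻¹ • f))
  rw [apply_inv_apply, polar_smul_right, a1, smul_eq_mul, mul_one, mul_inv_cancel₀ h4,
    one_smul] at h5
  rw [← h5, smul_sub, ← h1, smul_sub, ← h1, h3, apply_inv_apply]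
  exact smul_mem_kl (F := F) _ u

end OF

theorem omega_maxIn_orth_three [Finite K] {Q : QuadraticForm F V}
    (hQ : (polarBilin Q).Nondegenerate) (h2 : (2 : F) ≠ 0) (hr : (finrank F K).Prime)
    (hd : finrank K V = 3) (h5 : 5 ≤ finrank F K)
    (hs : ∀ (k : K) x y, polar Q (k • x) y = polar Q x (k • y)) : MaxIn (OmG Q) (SemiG F K V) := by
  refine omega_maxIn_of_OF hQ h2 hr hd.ge (by omega) hs fun Qk ν X h hZ =>
    h.le_semiG_of_small hZ ?_ fun g hg u u0 _ x _ e => ?_
  · have := h.finite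
    have := Fintype.ofFinite F
    have h3 : 3 ≤ Nat.card F := by
      rw [Nat.card_eq_fintype_card]
      exact Fintype.two_lt_card_iff.2 ⟨0, 1, -1, zero_ne_one, by simp,
        (exists_ne_zero_one h2).2.symm⟩
    exact lt_of_lt_of_le (by norm_num) (Nat.mul_le_mul (show 2 ≤ _ by omega) h5)
  have := h.fin
  have := h.finF
  refine (semiG_lin_or hr hg).resolve_right fun e' => ?_
  have := Submodule.finrank_mono (s := (kl F K u).map (x⁻¹ : V ≃ₗ[F] V).toLinearMap) (t := fixSp g)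
    (by rintro _ ⟨m, hm, rfl⟩; exact mem_fixSp.2 (x.injective ((e.fix' hm).trans
      (apply_inv_apply x m).symm)))
  rw [LinearEquiv.finrank_map_eq, finrank_kl u0] at this
  omega

open Matrix Cfsg Cfsg.Geo in
theorem isMaximalIn_omega_orth {F : Type*} [Field F] [Fintype F]
    (hodd : Odd (Fintype.card F)) {ι : Type} [Fintype ι] [DecidableEq ι] {Q : (ι → F) → F}
    (hQ : IsNondegenerateQuadraticForm Q) {r : ℕ} (hr : r.Prime) (h : 10 ≤ Fintype.card ι)
    (hn : r ≠ Fintype.card ι) (hn' : 2 * r ≠ Fintype.card ι)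
    {K : Subalgebra F (Matrix ι ι F)} (hK : IsFieldSubalgebra r K)
    (hs : IsSelfAdjointFor (polar Q) K) :
    IsMaximalIn (omegaGL Q) (subalgebraNormalizer K ⊓ omegaGL Q) := by
  have : Nonempty ι := Fintype.card_pos_iff.1 (by omega)
  refine isMaximalIn_omega_of_field hQ hK hs fun _ L _ _ _ _ _ hQ h1 h3 h4 => ?_
  have h2 := Geom.two_ne_zero_of_odd_card hodd
  by_cases hd : 4 ≤ finrank L (ι → F)
  · exact omega_maxIn_orth_four hQ h2 (h1 ▸ hr) hd h4
  have h5 : finrank L (ι → F) = 3 := by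
    generalize finrank L (ι → F) = d at *
    interval_cases d <;> omega
  refine omega_maxIn_orth_three hQ h2 (h1 ▸ hr) h5 (h1 ▸ hr.five_le_of_ne_two_of_ne_three ?_ ?_) h4
  all_goals rintro rfl; omega

end CF.MaxSub
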