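/-
Reflections in the five-dimensional orthogonal space: frames, root systems of finite groups.
-/
import Cfsg.Agent.MaxSub.O4A
import Cfsg.Agent.PG.Basic
import Cfsg.Agent.Ab2.Z

set_option autoImplicit false

namespace CF.MaxSub.O4

open Matrix
open CF.MaxSub.E4 (M4 subOf)

/-- The five-dimensional space. -/
abbrev W5 (F : Type*) := Fin 5 → F

variable {F : Type*} [Field F] {u v w x y z x' y' z' c : W5 F} {a b p q : F}

@[simp] theorem bw_add_left (x y z : W5 F) : bw (x + y) z = bw x z + bw y z := by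
  simp only [bw, Pi.add_apply]; ring

@[simp] theorem bw_add_right (x y z : W5 F) : bw z (x + y) = bw z x + bw z y := by
  simp only [bw, Pi.add_apply]; ring

@[simp] theorem bw_sub_left (x y z : W5 F) : bw (x - y) z = bw x z - bw y z := by
  simp only [bw, Pi.sub_apply]; ring

@[simp] theorem bw_sub_right (x y z : W5 F) : bw z (x - y) = bw z x - bw z y := by
  simp only [bw, Pi.sub_apply]; ring

@[simp] theorem bw_smul_left (a : F) (x y : W5 F) : bw (a • x) y = a * bw x y := by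
  simp only [bw, Pi.smul_apply, smul_eq_mul]; ring

@[simp] theorem bw_smul_right (a : F) (x y : W5 F) : bw y (a • x) = a * bw y x := by
  simp only [bw, Pi.smul_apply, smul_eq_mul]; ring

@[simp] theorem bw_neg_left (x y : W5 F) : bw (-x) y = -bw x y := by
  simp only [bw, Pi.neg_apply]; ring

@[simp] theorem bw_neg_right (x y : W5 F) : bw y (-x) = -bw y x := by
  simp only [bw, Pi.neg_apply]; ring

@[simp] theorem bw_zero_left (x : W5 F) : bw 0 x = 0 := by simp [bw]

@[simp] theorem bw_zero_right (x : W5 F) : bw x 0 = 0 := by simp [bw]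

theorem bw_sum (f : Fin 5 → W5 F) (x : W5 F) : bw (∑ i, f i) x = ∑ i, bw (f i) x := by
  simp [Fin.sum_univ_five]

theorem bw_symm (h : bw x y = a) : bw y x = a := (bw_comm _ _).trans h

theorem pm_of_smul (h2 : (2 : F) ≠ 0) (h : bw x x ≠ 0) (k : bw y y = bw x x) (e : (2 : F) • y = a • x) :
    y = x ∨ y = -x := by
  have := congrArg₂ bw e e
  simp only [bw_smul_left, bw_smul_right, k] at this
  obtain rfl | rfl : a = 2 ∨ a = -2 := by grind
  · exact .inl (smul_right_injective _ h2 e)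
  · exact .inr (smul_right_injective _ h2 (by simpa using e))

theorem parseval (h2 : (2 : F) ≠ 0) {f : Fin 5 → W5 F}
    (h : ∀ i j, bw (f i) (f j) = if i = j then 2 else 0) (v : W5 F) :
    (2 : F) • v = ∑ i, bw v (f i) • f i := by
  have li : LinearIndependent F f := Fintype.linearIndependent_iff.2 fun g e i => by
    simpa [bw_sum, h, h2] using congrArg (bw · (f i)) e
  rw [← sub_eq_zero]
  by_contra n
  obtain ⟨y, e⟩ := exists_bw h2 n
  obtain ⟨g, rfl⟩ := (Submodule.mem_span_range_iff_exists_fun F).1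
    (li.span_eq_top_of_card_eq_finrank' (by simp) ▸ Submodule.mem_top : y ∈ _)
  rw [bw_comm, bw_sum, Finset.sum_eq_zero] at e
  · exact zero_ne_one e
  intro i _
  rw [bw_comm]; simp [bw_sum, h, mul_comm]

theorem wm_an0 (h : bw x y = 0) : wm y * wm x = -(wm x * wm y) := by
  rw [wm_mul, bw_symm h, zero_smul, zero_sub]

theorem wm_an (h : bw x y = 0) (M : M4 F) : wm y * (wm x * M) = -(wm x * (wm y * M)) := by
  rw [← mul_assoc, wm_an0 h, neg_mul, mul_assoc]

theorem wm_sq0 (h2 : (2 : F) ≠ 0) (h : bw x x = 2) : wm x * wm x = 1 := by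
  rw [wm_sq h2, h, div_self h2, one_smul]

theorem wm_sq' (h2 : (2 : F) ≠ 0) (h : bw x x = 2) (M : M4 F) : wm x * (wm x * M) = M := by
  rw [← mul_assoc, wm_sq0 h2 h, one_mul]

theorem exists_fifth (h2 : (2 : F) ≠ 0) (h1 : bw x x = 2) (h3 : bw y y = 2) (h4 : bw z z = 2)
    (h5 : bw w w = 2) (a : bw x y = 0) (b : bw x z = 0) (c : bw x w = 0) (d : bw y z = 0)
    (e : bw y w = 0) (f : bw z w = 0) :
    ∃ u, bw u u = 2 ∧ bw u x = 0 ∧ bw u y = 0 ∧ bw u z = 0 ∧ bw u w = 0 := by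
  obtain ⟨M, hM⟩ : ∃ M, M = wm x * (wm y * (wm z * wm w)) := ⟨_, rfl⟩
  have an {v} (h : M * wm v = -(wm v * M)) (u) (e : M = wm u) : bw u v = 0 := by
    have := wm_anti u v
    rw [← e, h, neg_add_cancel] at this
    simpa using congrFun₂ this.symm 0 0
  have t : M.trace = 0 := mul_left_cancel₀ h2 (by
    have := trace_mul_comm (wm x) (wm y * (wm z * wm w))
    simp only [mul_assoc, wm_an a, wm_an b, wm_an0 c, mul_neg, neg_neg, ← hM, trace_neg] at this
    linear_combination this)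
  have := eq_wm h2 (M := M) (by
    simp only [hM, adj_mul, adj_wm, mul_assoc, wm_an a, wm_an b, wm_an0 c, wm_an d, wm_an0 e,
      wm_an0 f, wm_an0 a, wm_an0 b, wm_an c, wm_an e, wm_an f, mul_neg, neg_mul, neg_neg])
  rw [t, zero_div, zero_smul, zero_add] at this
  refine ⟨_, ?_, an ?_ _ this, an ?_ _ this, an ?_ _ this, an ?_ _ this⟩
  · have l := wm_sq h2 (wv M)
    rw [← this, show M * M = 1 by
      simp only [hM, mul_assoc, wm_an a, wm_an b, wm_an c, wm_an d, wm_an e, wm_an f,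
        mul_neg, neg_neg, wm_sq' h2 h1, wm_sq' h2 h3, wm_sq' h2 h4, wm_sq0 h2 h5]] at l
    have := congrFun₂ l 0 0
    simp at this
    field_simp at this; exact this.symm
  all_goals simp only [hM, mul_assoc, wm_an a, wm_an b, wm_an c, wm_an d, wm_an e, wm_an f,
    wm_an0 c, wm_an0 e, wm_an0 f, mul_neg, neg_neg, wm_sq' h2 h1, wm_sq' h2 h3, wm_sq' h2 h4,
    wm_sq0 h2 h5, mul_one]

theorem f0 [Finite F] (h2 : (2 : F) ≠ 0) {H : Type*} [Group H] (hH : IsPGroup 2 H)
    (β : H →* Module.End F (W5 F)) (hβ : ∀ g u v, bw (β g u) (β g v) = bw u v) :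
    ∃ w, bw w w = 2 ∧ ∀ g, β g w = w ∨ β g w = -w := by
  classical
  let Y := {s : Set (W5 F) // ∃ x, bw x x = 2 ∧ s = {x, -x}}
  have im (f : Module.End F (W5 F)) (x) : f '' {x, -x} = {f x, -f x} := by simp [Set.image_pair]
  have fx {x y : W5 F} (e : ({y, -y} : Set _) = {x, -x}) : y = x ∨ y = -x := e.le (.inl rfl)
  let m (f : Module.End F (W5 F)) (h : ∀ x, bw (f x) (f x) = bw x x) (s : Y) : Y :=
    ⟨f '' s.1, s.2.elim fun x k => ⟨f x, (h x).trans k.1, k.2 ▸ im f x⟩⟩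
  let _ : MulAction H Y :=
    { smul g := m (β g) fun x => hβ g x x
      one_smul s := Subtype.ext (show β 1 '' _ = _ by simp)
      mul_smul g h s := Subtype.ext (show β (g * h) '' _ = β g '' (β h '' _) by
        simp [Set.image_image]) }
  let φ : Module.End F (W5 F) :=
    { toFun x := ![x 0, -x 2, x 1, -x 4, x 3]
      map_add' x y := by apply ext5 <;> simp [add_comm]
      map_smul' c x := by apply ext5 <;> simp }
  let f : Function.End Y := m φ fun x => by simp [φ, bw]; ring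
  have := Fintype.ofFinite Y
  have k := Equiv.Perm.card_fixedPoints_modEq (f := f) (p := 2) (n := 2) (funext fun s =>
    Subtype.ext (show φ '' (φ '' (φ '' (φ '' _))) = _ by
      simp only [Set.image_image]
      exact (Set.image_congr fun x _ => by apply ext5 <;> simp [φ]).trans (Set.image_id _)))
  rw [show Fintype.card f.fixedPoints = 1 from Fintype.card_eq_one_iff.2 ⟨⟨⟨_, ![1, 0, 0, 0, 0],
    by simp [bw], rfl⟩, Subtype.ext ((im ..).trans (by simp [φ]))⟩, by
      rintro ⟨⟨_, x, hx, rfl⟩, e⟩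
      have := fx ((im ..).symm.trans (congrArg Subtype.val e))
      have : x 1 = 0 ∧ x 2 = 0 ∧ x 3 = 0 ∧ x 4 = 0 := by
        rcases this with e | e <;> have e1 := congrFun e 1 <;> have e2 := congrFun e 2 <;>
          have e3 := congrFun e 3 <;> have e4 := congrFun e 4 <;> simp [φ] at e1 e2 e3 e4 <;> grind
      have e : x = x 0 • ![1, 0, 0, 0, 0] := by apply ext5 <;> simp [this]
      obtain k | k : x 0 = 1 ∨ x 0 = -1 := by simp [bw, this] at hx; grind
      all_goals rw [k] at e; subst e; simp [Set.pair_comm]⟩] at k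
  obtain ⟨⟨_, w, hw, rfl⟩, e⟩ := hH.nonempty_fixed_point_of_prime_not_dvd_card Y (by
    rw [Nat.card_eq_fintype_card]; unfold Nat.ModEq at k; omega)
  exact ⟨w, hw, fun g => fx ((im ..).symm.trans (congrArg Subtype.val (e g)))⟩

/-- The admissible pairs of squares of inner products. -/
def Pair (u v : F) : Prop := u = 1 ∨ v = 1 ∨ (u + v = 3 ∧ u * v = 1 ∧ (5 : F) ≠ 0)

/-- The plane spanned by two vectors. -/
def Pl (x y z : W5 F) : Prop := ∃ p q : F, z = p • x + q • y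

/-- A faithful orthogonal representation. -/
structure RS (G F : Type*) [Group G] [Field F] where
  /-- the homomorphism -/
  α : G →* Module.End F (W5 F)
  inj : Function.Injective α
  iso : ∀ g u v, bw (α g u) (α g v) = bw u v

namespace RS

variable {G : Type*} [Group G] (S : RS G F) {g h r s t : G}

/-- `g` is the negative of the reflection in `x`. -/
def IsR (g : G) (x : W5 F) : Prop := bw x x = 2 ∧ ∀ v, S.α g v = bw v x • x - v

/-- Roots. -/
def Rt (x : W5 F) : Prop := ∃ g, S.IsR g x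

/-- The restrictions on the roots. -/
structure Ax : Prop where
  two : (2 : F) ≠ 0
  tf : ∀ {x y z}, S.Rt x → S.Rt y → bw x y = 0 → S.Rt z → bw z x ≠ 0 → bw z y ≠ 0 → ¬ Pl x y z →
    Pair (bw z x ^ 2) (bw z y ^ 2)
  tf2 : ∀ {x y z u}, S.Rt x → S.Rt y → bw x y = 0 → S.Rt z → bw z x ≠ 0 → bw z y ≠ 0 → Pl x y z →
    S.Rt u → ¬ Pl x y u → (bw u x ≠ 0 ∨ bw u y ≠ 0) → bw z x ^ 2 = 2
  n2 : ∀ {x y m}, S.Rt x → S.Rt y → bw x y = 0 → bw m x = 0 → bw m y = 0 → bw m m = 0 →
    S.Rt (m - x) → S.Rt (m - y) → m = 0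

theorem mul_ap (g h : G) (v : W5 F) : S.α (g * h) v = S.α g (S.α h v) := by simp

theorem inv_ap (g : G) (v : W5 F) : S.α g⁻¹ (S.α g v) = v := by simp [← mul_ap]

theorem ap_inv (g : G) (v : W5 F) : S.α g (S.α g⁻¹ v) = v := by simp [← mul_ap]

theorem adj_ap (g : G) (u v : W5 F) : bw (S.α g⁻¹ u) v = bw u (S.α g v) := by
  rw [← S.iso g, ap_inv]

theorem ext (e : ∀ v, S.α g v = S.α h v) : g = h := S.inj (LinearMap.ext e)

variable {S}

theorem IsR.conj (k : S.IsR r x) (g : G) : S.IsR (g * r * g⁻¹) (S.α g x) :=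
  ⟨(S.iso ..).trans k.1, fun v => by simp [k.2, adj_ap, ap_inv]⟩

theorem IsR.neg (k : S.IsR r x) : S.IsR r (-x) := ⟨by simp [k.1], fun v => by simp [k.2]⟩

theorem IsR.uniq (k : S.IsR r x) (l : S.IsR s x) : r = s := S.ext fun v => by rw [k.2, l.2]

theorem IsR.self (k : S.IsR r x) : S.α r x = x := by rw [k.2, k.1]; module

theorem IsR.sq (k : S.IsR r x) : r * r = 1 := S.ext fun v => by
  simp [k.2, k.1]; module

theorem IsR.inv (k : S.IsR r x) : r⁻¹ = r := inv_eq_of_mul_eq_one_right k.sq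

theorem IsR.pm (h2 : (2 : F) ≠ 0) (k : S.IsR r x) (hy : bw y y = 2) (e : S.α r y = y) :
    y = x ∨ y = -x :=
  pm_of_smul h2 (k.1 ▸ h2) (hy.trans k.1.symm) (a := bw y x) (by
    rw [k.2] at e; rw [two_smul, eq_add_of_sub_eq e])

theorem IsR.ne (h2 : (2 : F) ≠ 0) (k : S.IsR r x) : r ≠ 1 := by
  rintro rfl
  have a := k.pm h2 (y := ![0, 1, 0, 1, 0]) (by simp [bw]; norm_num) (by simp)
  have b := k.pm h2 (y := ![1, 0, 0, 0, 0]) (by simp [bw]) (by simp)
  rcases a with a | a <;> rcases b with b | b <;> have a := congrFun a 0 <;>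
    have b := congrFun b 0 <;> simp at a b <;> grind

theorem IsR.comm (k : S.IsR r x) (e : S.α g x = x ∨ S.α g x = -x) : g * r * g⁻¹ = r :=
  e.elim (fun e => (e ▸ k.conj g).uniq k) fun e => (e ▸ k.conj g).uniq k.neg

theorem IsR.of_comm (h2 : (2 : F) ≠ 0) (k : S.IsR r x) (e : g * r * g⁻¹ = r) :
    S.α g x = x ∨ S.α g x = -x := k.pm h2 (k.conj g).1 (e ▸ k.conj g).self

theorem Rt.act (k : S.Rt x) (g : G) : S.Rt (S.α g x) := k.elim fun _ k => ⟨_, k.conj g⟩

theorem Rt.neg (k : S.Rt x) : S.Rt (-x) := k.imp fun _ k => k.neg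

theorem Rt.nrm (k : S.Rt x) : bw x x = 2 := k.elim fun _ k => k.1

theorem Rt.refl (k : S.Rt x) (l : S.Rt y) : S.Rt (bw y x • x - y) :=
  k.elim fun g k => k.2 y ▸ l.act g

theorem IsR.perp (k : S.IsR r x) (e : bw v x = 0) : S.α r v = -v := by simp [k.2, e]

theorem IsR.mul_ap (k : S.IsR r x) (l : S.IsR s y) (e : bw x y = 0) (v : W5 F) :
    S.α (r * s) v = v - (bw v x • x + bw v y • y) := by
  simp [k.2, l.2, bw_symm e]; module

theorem pl_eq (h2 : (2 : F) ≠ 0) (hx : bw x x = 2) (hy : bw y y = 2) (e : bw x y = 0) :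
    Pl x y z ↔ (2 : F) • z = bw z x • x + bw z y • y :=
  ⟨by rintro ⟨p, q, rfl⟩; simp [hx, hy, e, bw_symm e]; module, fun k => ⟨bw z x / 2, bw z y / 2,
    smul_right_injective _ h2 (by simp only [k]; match_scalars <;> field_simp)⟩⟩

theorem pl_frame (hx : bw x x = 2) (hy : bw y y = 2) (e : bw x y = 0) (hx' : bw x' x' = 2)
    (hy' : bw y' y' = 2) (e' : bw x' y' = 0) (h2 : (2 : F) ≠ 0) (k : Pl x y x') (l : Pl x y y')
    (v : W5 F) : bw v x' • x' + bw v y' • y' = bw v x • x + bw v y • y := by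
  obtain ⟨a, b, rfl⟩ := k
  obtain ⟨c, d, rfl⟩ := l
  simp [hx, hy, e, bw_symm e] at hx' hy' e' ⊢
  have h1 : a ^ 2 + c ^ 2 = 1 ∧ b ^ 2 + d ^ 2 = 1 ∧ a * b + c * d = 0 := by grind
  match_scalars
  · linear_combination bw v x * h1.1 + bw v y * h1.2.2
  · linear_combination bw v y * h1.2.1 + bw v x * h1.2.2

theorem IsR.rot (h2 : (2 : F) ≠ 0) (k : S.IsR r x) (l : S.IsR s y) (e : bw x y = 0)
    (m : S.IsR t (p • x + q • y)) : S.IsR (r * s * t) (-q • x + p • y) := by
  have n : bw (-q • x + p • y) (-q • x + p • y) = 2 := by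
    simpa [k.1, l.1, e, bw_symm e, add_comm] using m.1
  refine ⟨n, fun v => ?_⟩
  have := pl_frame k.1 l.1 e m.1 n (by simp [k.1, l.1, e, bw_symm e]; ring) h2 ⟨_, _, rfl⟩ ⟨_, _, rfl⟩
  rw [S.mul_ap, k.mul_ap l e, ← this, m.2]
  have o : bw (p • x + q • y) (-q • x + p • y) = 0 := by simp [k.1, l.1, e, bw_symm e]; ring
  generalize p • x + q • y = z, -q • x + p • y = z' at *
  simp [m.1, o]; module

theorem dh {T : Subgroup G} {U : W5 F → Prop} {κ : F} (h2 : (2 : F) ≠ 0)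
    (hU : ∀ g ∈ T, ∀ v, U v → U (S.α g v)) (Rf : G → W5 F → Prop) (hR : ∀ t c, Rf t c ↔ t ∈ T ∧
      t * t = 1 ∧ U c ∧ κ * bw c c = 2 ∧ ∀ v, U v → S.α t v = (κ * bw v c) • c - v) (k : Rf t c)
    (n : ℕ) : ∀ {s d}, Rf s d → d ≠ c → d ≠ -c → (t * s) ^ 2 ^ n = 1 → ∃ s' d', Rf s' d' ∧
      bw c d' = 0 ∧ (d' = d ∨ ∃ g ∈ T, d' = S.α g c) ∧ Pl c d' d := by
  obtain ⟨k1, k2, k3, k4, k5⟩ := (hR ..).1 k
  have pm {s d} (l : Rf s d) (e : S.α s c = c) : d = c ∨ d = -c := by
    obtain ⟨-, -, -, l4, l5⟩ := (hR ..).1 l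
    have κ0 : κ ≠ 0 := by rintro rfl; simp [h2.symm] at l4
    rw [l5 c k3] at e
    have := pm_of_smul h2 (x := d) (y := c) (by rintro e; simp [e, h2.symm] at l4)
      (mul_left_cancel₀ κ0 (k4.trans l4.symm)) (by rw [two_smul, eq_add_of_sub_eq e])
    exact this.imp .symm fun e => by rw [e, neg_neg]
  induction n with
  | zero =>
    intro s d l n1 n2 e
    rw [pow_zero, pow_one, ← k2, mul_left_cancel_iff] at e
    exact ((pm l (by rw [e, k5 c k3, k4]; module)).elim n1 n2).elim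
  | succ n ih =>
    intro s d l n1 n2 e
    obtain ⟨l1, l2, l3, l4, l5⟩ := (hR ..).1 l
    by_cases b0 : bw c d = 0
    · exact ⟨s, d, l, b0, .inl rfl, 0, 1, by simp⟩
    have κ0 : κ ≠ 0 := by rintro rfl; simp [h2.symm] at l4
    have d0 : d ≠ 0 := by rintro rfl; simp at b0
    obtain ⟨s', d', a, b, c', p, q, e⟩ := ih (s := s * t * s⁻¹) (d := S.α s c) ((hR ..).2
      ⟨mul_mem (mul_mem l1 k1) (inv_mem l1), by rw [conj_mul, k2]; simp, hU s l1 c k3,
        by rw [S.iso, k4], fun v hv => by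
          simp [k5 _ (hU _ (inv_mem l1) v hv), adj_ap, ap_inv]⟩) (fun e => (pm l e).elim n1 n2)
      (fun e => by rw [l5 c k3] at e; simp [κ0, b0, d0] at e) (by
        rw [inv_eq_of_mul_eq_one_right l2, ← e, pow_succ', pow_mul, pow_two]; simp [mul_assoc])
    refine ⟨s', d', a, b, .inr (c'.elim (fun e => ⟨s, l1, e⟩) id), (p + 1) / (κ * bw c d),
      q / (κ * bw c d), smul_right_injective _ (mul_ne_zero κ0 b0) ?_⟩
    rw [l5 c k3] at e
    simp only [eq_add_of_sub_eq e]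
    match_scalars <;> field_simp

variable [Finite G] [IsSimpleGroup G]

theorem ind (h2 : (2 : F) ≠ 0) (k : S.Rt x) (p : G → Prop) (h1 : p 1)
    (hm : ∀ r y g, S.IsR r y → p g → p (r * g)) (g : G) : p g := by
  obtain ⟨r, k⟩ := k
  have : Subgroup.normalClosure {r} ≤ subOf (fun x => ∀ y, p y → p (x * y)) (by simp)
      fun a b c d y e => mul_assoc a b y ▸ c _ (d y e) := (Subgroup.closure_le _).2 fun x hx => by
    obtain ⟨_, rfl, l⟩ := Group.mem_conjugatesOfSet_iff.1 hx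
    obtain ⟨g, rfl⟩ := isConj_iff.1 l
    exact fun y => hm _ _ y (k.conj g)
  rw [(Subgroup.normalClosure_normal.eq_bot_or_eq_top).resolve_left fun e => k.ne h2
    (e.le (Subgroup.subset_normalClosure (Set.mem_singleton r)))] at this
  simpa using this (Subgroup.mem_top g) 1 h1

variable (nc : ¬ IsMulCommutative G)
include nc

theorem cen (h2 : (2 : F) ≠ 0) (k : S.Rt x) (e : ∀ r y, S.IsR r y → g * r * g⁻¹ = r) : g = 1 :=
  (CF.Ab2.ns_top nc).eq_one trivial fun h _ => ind h2 k (fun h => h * g = g * h) (by simp)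
    (fun r y h l m => by rw [mul_assoc, m, ← mul_assoc, ← mul_assoc, ← mul_inv_eq_iff_eq_mul.1 (e r y l)]) h

theorem cross (h2 : (2 : F) ≠ 0) (k : S.Rt x) (l : S.Rt y) (e : bw x y = 0) :
    ∃ u, S.Rt u ∧ ¬ Pl x y u ∧ (bw u x ≠ 0 ∨ bw u y ≠ 0) := by
  by_contra! n
  obtain ⟨r, k⟩ := k
  obtain ⟨s, l⟩ := l
  have := k.mul_ap l e x
  rw [cen nc h2 ⟨r, k⟩ (g := r * s) fun t u m => m.comm (by
    rw [k.mul_ap l e]
    by_cases h : Pl x y u
    · rw [← (pl_eq h2 k.1 l.1 e).1 h]; right; module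
    · simp [n u ⟨t, m⟩ h])] at this
  have := congrArg (bw · x) this
  simp [k.1, bw_symm e, four_ne h2] at this
  exact four_ne h2 (by linear_combination this)

theorem Ax.tf2' (h : S.Ax) (k : S.Rt x) (l : S.Rt y) (e : bw x y = 0) (m : S.Rt z)
    (a : bw z x ≠ 0) (b : bw z y ≠ 0) (c : Pl x y z) : bw z x ^ 2 = 2 :=
  (cross nc h.two k l e).elim fun _ n => h.tf2 k l e m a b c n.1 n.2.1 n.2.2

end RS

end CF.MaxSub.O4
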