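/-
Root systems of simple groups in dimension five contain four orthogonal roots.
-/
import Cfsg.Agent.MaxSub.O4E

set_option autoImplicit false

namespace CF.MaxSub.O4.RS

open Subgroup CF.BG CF.PG CF.Bender

variable {F : Type*} [Field F] {u v w x y z x' y' z' c : W5 F} {p q : F}
variable {G : Type*} [Group G] {S : RS G F} {g h r s t a b b' : G} {T : Subgroup G}

theorem pl_trans (h2 : (2 : F) ≠ 0) (hx : bw x x = 2) (hy : bw y y = 2) (e : bw x y = 0)
    (hx' : bw x' x' = 2) (hy' : bw y' y' = 2) (e' : bw x' y' = 0) (k : Pl x y x') (l : Pl x y y')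
    (m : Pl x y z) : Pl x' y' z :=
  (pl_eq h2 hx' hy' e').2 (((pl_eq h2 hx hy e).1 m).trans (pl_frame hx hy e hx' hy' e' h2 k l z).symm)

theorem _root_.CF.MaxSub.O4.Pl.perp (k : Pl x y z) (h1 : bw x w = 0) (h2 : bw y w = 0) : bw z w = 0 := by
  obtain ⟨p, q, rfl⟩ := k; simp [h1, h2]

theorem _root_.CF.MaxSub.O4.Pl.symm (k : Pl x y z) : Pl y x z := by
  obtain ⟨p, q, rfl⟩ := k; exact ⟨q, p, add_comm _ _⟩

theorem pair_self (h : Pair p p) : p = 1 := by unfold Pair at h; grind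

theorem pair_two (h : Pair (2 : F) 2) : False := by unfold Pair at h; grind

variable (S) in
/-- There are no four orthogonal roots. -/
def No4 : Prop := ∀ ⦃x y z w⦄, S.Rt x → S.Rt y → S.Rt z → S.Rt w → bw y x = 0 → bw z x = 0 →
  bw w x = 0 → bw y z = 0 → bw w y = 0 → bw w z = 0 → False

variable [Finite G]

theorem dh1 (h2 : (2 : F) ≠ 0) (hT : PiGrp {2} T) (k : S.IsR r x) (hr : r ∈ T) (l : S.IsR s y)
    (hs : s ∈ T) (n : r ≠ s) : ∃ s' ∈ T, ∃ y', S.IsR s' y' ∧ bw x y' = 0 ∧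
      (y' = y ∨ ∃ g ∈ T, y' = S.α g x) ∧ Pl x y' y := by
  obtain ⟨m, e⟩ := hT.isPGroup ⟨r * s, mul_mem hr hs⟩
  obtain ⟨s', y', ⟨a, b⟩, c⟩ := dh (S := S) (T := T) (U := fun _ => True) (κ := 1) h2 (by simp)
    (fun t c => t ∈ T ∧ S.IsR t c) (fun t c => ⟨fun ⟨a, b⟩ => ⟨a, b.sq, trivial, by simp [b.1],
      by simp [b.2]⟩, fun ⟨a, _, _, b, c⟩ => ⟨a, by simpa using b, by simpa using c⟩⟩) ⟨hr, k⟩ m
    ⟨hs, l⟩ (by rintro rfl; exact n (k.uniq l)) (by rintro rfl; exact n (k.neg.uniq l))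
    (congrArg Subtype.val e)
  exact ⟨s', a, y', b, c⟩

variable [IsSimpleGroup G] (nc : ¬ IsMulCommutative G)

include nc in
theorem th (h2 : (2 : F) ≠ 0) (hT : Syl 2 T ⊤) (hc : ∀ t ∈ T, S.α t c = c ∨ S.α t c = -c)
    (k : S.IsR r y) : ∃ g, g * r * g⁻¹ ∈ T ∧ S.α (g * r * g⁻¹) c = c := by
  let X : Subgroup G :=
    { carrier := {g | S.α g c = c}
      one_mem' := by simp
      mul_mem' {a b} (ha : _ = _) (hb : _ = _) := by simp [ha, hb]
      inv_mem' {a} (ha : _ = _) := by simpa [ha] using S.inv_ap a c }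
  obtain ⟨g, -, e⟩ := NoTwo.thompson (Y := ⊤) (X := X ⊓ T) (fun X e => by
    rw [relIndex_top_right] at e
    obtain rfl | rfl := (normal_of_index_eq_two e).eq_bot_or_eq_top
    · rw [index_bot] at e
      have := isCyclic_of_prime_card (p := 2) e
      exact nc inferInstance
    · simp at e) hT (by
      rw [inf_relIndex_right]
      by_cases n : ∃ t ∈ T, S.α t c = -c
      · obtain ⟨t, ht, e⟩ := n
        exact index_dvd_two_iff.2 ⟨⟨t, ht⟩, fun b => (hc b b.2).symm.imp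
          (fun k => show S.α (b * t) c = c by simp [e, k]) id⟩
      · exact index_dvd_two_iff.2 ⟨1, fun b => .inr ((hc b b.2).resolve_right fun k =>
          n ⟨b, b.2, k⟩)⟩) ⟨k.ne h2, k.sq⟩ trivial
  exact ⟨g, e.2, e.1⟩

variable (S) in
/-- The configuration of three orthogonal roots in a Sylow subgroup. -/
structure C3 (T : Subgroup G) (a b b' : G) (w x x' : W5 F) : Prop where
  ax : S.Ax
  no4 : S.No4
  syl : Syl 2 T ⊤
  ha : S.IsR a w
  hb : S.IsR b x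
  hb' : S.IsR b' x'
  ma : a ∈ T
  mb : b ∈ T
  mb' : b' ∈ T
  fix : ∀ t ∈ T, S.α t w = w ∨ S.α t w = -w
  xw : bw x w = 0
  xw' : bw x' w = 0
  xx : bw x x' = 0
  conj : ∃ g, g * b * g⁻¹ = a

omit [Finite G] [IsSimpleGroup G] in
theorem perp_of (h2 : (2 : F) ≠ 0) (ha : S.IsR a w) (e : S.α r w = w ∨ S.α r w = -w)
    (k : S.IsR r y) (n : r ≠ a) : bw y w = 0 := by
  rcases e with e | e
  · exact ((k.pm h2 ha.1 e).elim (fun e => n (k.uniq (e ▸ ha))) fun e => n (k.neg.uniq (e ▸ ha))).elim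
  · rw [k.2, sub_eq_neg_self] at e
    exact bw_symm (by simpa [k.1, h2] using congrArg (bw · y) e)

include nc in
theorem exists_c3 [Finite F] (h : S.Ax) (no4 : S.No4) (k : S.Rt u) :
    ∃ T a b b' w x x', S.C3 T a b b' w x x' := by
  have h2 := h.two
  obtain ⟨T, hT⟩ := exists_syl 2 (⊤ : Subgroup G)
  obtain ⟨w, hw, fix⟩ := f0 h2 hT.pi.isPGroup (S.α.comp T.subtype) fun g => S.iso g
  replace fix (t) (ht : t ∈ T) : S.α t w = w ∨ S.α t w = -w := fix ⟨t, ht⟩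
  have all {r y} (k : S.IsR r y) : ∃ g, g * r * g⁻¹ ∈ T ∧ S.IsR (g * r * g⁻¹) w := by
    obtain ⟨g, m, e⟩ := th nc h2 hT fix k
    exact ⟨g, m, ((k.conj g).pm h2 hw e).elim (fun e => e ▸ k.conj g) fun e => e ▸ (k.conj g).neg⟩
  obtain ⟨r, k⟩ := k
  obtain ⟨g, ma, ha⟩ := all k
  generalize g * r * g⁻¹ = a at ma ha
  have pp {r y} (k : S.IsR r y) (m : r ∈ T) := perp_of h2 ha (fix r m) k
  obtain ⟨g, -, ms, ns⟩ := (CF.Ab2.ns_top nc).exists_conj hT ma (ha.ne h2)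
  have hs := ha.conj g
  generalize es : g * a * g⁻¹ = s at *
  by_contra n
  have two {r y} (k : S.IsR r y) (m : r ∈ T) : r = a ∨ r = s := by
    by_contra! l
    obtain ⟨s', m', y', k', o, e, -⟩ := dh1 h2 hT.pi hs ms k m l.2.symm
    refine n ⟨T, a, s, s', w, _, y', h, no4, hT, ha, hs, k', ma, ms, m', fix, pp hs ms ns, ?_, o,
      (all hs).imp fun _ e => e.2.uniq ha⟩
    obtain rfl | ⟨t, ht, rfl⟩ := e
    · exact pp k m l.1
    · rw [← inv_inv t, adj_ap]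
      rcases fix _ (inv_mem ht) with e | e <;> simp [e, pp hs ms ns]
  have ca : a ∈ 𝐂 T := fun t ht => mul_inv_eq_iff_eq_mul.1 (ha.comm (fix t ht))
  obtain ⟨n, -, hn, e⟩ := burnside_fus hT ca (fun t ht => mul_inv_eq_iff_eq_mul.1
    ((two (hs.conj t) (mul_mem (mul_mem ht ms) (inv_mem ht))).resolve_left fun e => ns (by
      rw [mul_inv_eq_iff_eq_mul, ← ca t ht] at e; exact mul_left_cancel e))) trivial es
  have e' := (two (hs.conj n) (conj_mem_of_norm hn ms)).resolve_right fun l =>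
    ns (by simpa using l.trans e.symm)
  have := no_swap hT ca trivial hn (mem_cent1.2 (by
    rw [← mul_inv_eq_iff_eq_mul]; nth_rw 2 [← e']; rw [← e]; group))
  exact ns (by rw [← e, mem_cent1.1 this]; simp)

namespace C3

variable (H : S.C3 T a b b' w x x')
include H nc

theorem pl (k : S.IsR r y) (m : r ∈ T) (e : bw y w = 0) : Pl x x' y := by
  have h2 := H.ax.two
  by_contra n
  have one {b b' x x'} (hb : S.IsR b x) (mb : b ∈ T) (hb' : S.IsR b' x') (xw : bw x w = 0)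
      (xw' : bw x' w = 0) (xx : bw x x' = 0) (n : ¬ Pl x x' y) (a0 : bw y x ≠ 0) :
      bw y x' ≠ 0 ∧ bw y x ^ 2 = 2 := by
    obtain ⟨s, ms, z, l, o, e', p, q, rfl⟩ := dh1 h2 H.syl.pi hb mb k m (by
      rintro rfl
      rcases hb.pm h2 k.1 k.self with rfl | rfl
      exacts [n ⟨1, 0, by simp⟩, n ⟨-1, 0, by simp⟩])
    have q0 : q ≠ 0 := by rintro rfl; exact n ⟨p, 0, by simp⟩
    refine ⟨fun b0 => H.no4 ⟨_, H.ha⟩ ⟨_, hb⟩ ⟨_, hb'⟩ ⟨_, l⟩ xw xw' (by simpa [xw, q0] using e) xx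
      (bw_symm o) (by simpa [xx, q0] using b0), H.ax.tf2' nc ⟨_, hb⟩ ⟨_, l⟩ o ⟨_, k⟩ a0
        (by simp [o, l.1, q0, h2]) ⟨_, _, rfl⟩⟩
  have o1 := one H.hb H.mb H.hb' H.xw H.xw' H.xx n
  have o2 := one H.hb' H.mb' H.hb H.xw' H.xw (bw_symm H.xx) (mt Pl.symm n)
  have : bw y x ≠ 0 ∧ bw y x' ≠ 0 := by
    have := H.no4 ⟨_, H.ha⟩ ⟨_, H.hb⟩ ⟨_, H.hb'⟩ ⟨_, k⟩ H.xw H.xw' e H.xx
    tauto
  have l := H.ax.tf ⟨_, H.hb⟩ ⟨_, H.hb'⟩ H.xx ⟨_, k⟩ this.1 this.2 n
  rw [(o1 this.1).2, (o2 this.2).2] at l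
  exact pair_two l

omit nc [Finite G] [IsSimpleGroup G] in
theorem wt (ht : t ∈ T) (e : bw y w = 0) : bw (S.α t y) w = 0 := by
  rw [← inv_inv t, adj_ap]
  rcases H.fix _ (inv_mem ht) with l | l <;> simp [l, e]

theorem plt (ht : t ∈ T) : Pl x x' (S.α t x) ∧ Pl x x' (S.α t x') :=
  ⟨H.pl nc (H.hb.conj t) (mul_mem (mul_mem ht H.mb) (inv_mem ht)) (H.wt ht H.xw),
    H.pl nc (H.hb'.conj t) (mul_mem (mul_mem ht H.mb') (inv_mem ht)) (H.wt ht H.xw')⟩

theorem cb (ht : t ∈ T) : t * (b * b') = b * b' * t := by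
  rw [← mul_inv_eq_iff_eq_mul, ← conj_mul]
  refine S.ext fun v => ?_
  rw [(H.hb.conj t).mul_ap (H.hb'.conj t) ((S.iso ..).trans H.xx), H.hb.mul_ap H.hb' H.xx,
    pl_frame H.hb.1 H.hb'.1 H.xx (H.hb.conj t).1 (H.hb'.conj t).1 ((S.iso ..).trans H.xx) H.ax.two
      (H.plt nc ht).1 (H.plt nc ht).2]

omit nc [Finite G] [IsSimpleGroup G] in
theorem ap3 (v : W5 F) : S.α (a * (b * b')) v = bw v w • w + (bw v x • x + bw v x' • x') - v := by
  rw [S.mul_ap, H.hb.mul_ap H.hb' H.xx, H.ha.2]; simp [H.xw, H.xw']; module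

theorem exv : ∃ t ∈ T, t ≠ a * (b * b') ∧ ∃ z z', S.Rt z ∧ S.Rt z' ∧ bw z w = 0 ∧ bw z' w = 0 ∧
    bw z z' = 0 ∧ ∀ v, S.α t v = bw v w • w + (bw v z • z + bw v z' • z') - v := by
  have h2 := H.ax.two
  have mu := mul_mem H.ma (mul_mem H.mb H.mb')
  have ca (t) (ht : t ∈ T) : t * a = a * t := mul_inv_eq_iff_eq_mul.1 (H.ha.comm (H.fix t ht))
  obtain ⟨g, -, m, n⟩ := (CF.Ab2.ns_top nc).exists_conj H.syl mu (fun e => by
    have := finrank_le_of_span_eq_top (R := F) (v := ![w, x, x']) (eq_top_iff.2 fun v _ =>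
      (Submodule.mem_span_range_iff_exists_fun F).2 ⟨![bw v w / 2, bw v x / 2, bw v x' / 2],
        smul_right_injective _ h2 (by
          have := H.ap3 v
          simp only [e, map_one, Module.End.one_apply, eq_sub_iff_add_eq, ← two_smul F] at this
          simp only [this, Fin.sum_univ_three]
          simp; match_scalars <;> field_simp)⟩)
    simp at this)
  obtain ⟨k, -, e, l⟩ := extremal (Y := ⊤) (g := g⁻¹) (s := g * (a * (b * b')) * g⁻¹)
    (x := a * (b * b')) (R := T ⊓ 𝐂₁ (g * (a * (b * b')) * g⁻¹)) trivial (by group)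
    (inf_le_inf_right _ le_top) (H.syl.pi.le inf_le_left) (H.syl.of_le (le_inf le_top fun t ht =>
      mem_cent1.2 (by rw [← mul_assoc, ca t ht, mul_assoc, H.cb nc ht, ← mul_assoc])) le_top)
  generalize g * (a * (b * b')) * g⁻¹ = t at *
  have ht (v) : S.α t v = bw v (S.α k⁻¹ w) • S.α k⁻¹ w + (bw v (S.α k⁻¹ x) • S.α k⁻¹ x +
      bw v (S.α k⁻¹ x') • S.α k⁻¹ x') - v := by
    rw [show t = k⁻¹ * (a * (b * b')) * k by rw [← e]; group, S.mul_ap, S.mul_ap, H.ap3]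
    simp [← adj_ap, inv_ap]
  have ma := l (conj_mem_cj.2 ⟨H.ma, mem_cent1.2 (ca t m).symm⟩)
  refine ⟨t, m, n, ?_⟩
  by_cases c : k * a * k⁻¹ = a
  · have : S.α k⁻¹ w = w ∨ S.α k⁻¹ w = -w := H.ha.of_comm h2 (by nth_rw 1 [← c]; group)
    have p {y} (e : bw y w = 0) : bw (S.α k⁻¹ y) w = 0 := by
      rw [← S.iso k⁻¹] at e; rcases this with l | l <;> simpa [l] using e
    exact ⟨_, _, Rt.act ⟨_, H.hb⟩ k⁻¹, Rt.act ⟨_, H.hb'⟩ k⁻¹, p H.xw, p H.xw', (S.iso ..).trans H.xx,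
      fun v => by rw [ht]; rcases this with l | l <;> simp [l]⟩
  have o := perp_of h2 H.ha (H.fix _ ma) (H.ha.conj k) c
  obtain ⟨p, q, e'⟩ := H.pl nc (H.ha.conj k) ma o
  have r' := H.hb.rot h2 H.hb' H.xx (e' ▸ H.ha.conj k)
  have o' : bw (S.α k w) (-q • x + p • x') = 0 := by
    simp [e', H.hb.1, H.hb'.1, H.xx, bw_symm H.xx]; ring
  have o'' : bw w (-q • x + p • x') = 0 := by simp [bw_symm H.xw, bw_symm H.xw']
  have pl : Pl x x' (-q • x + p • x') := ⟨_, _, rfl⟩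
  generalize -q • x + p • x' = y at *
  refine ⟨_, _, Rt.act ⟨_, H.ha⟩ k⁻¹, Rt.act ⟨_, r'⟩ k⁻¹, by rw [adj_ap, bw_comm, o],
    by rw [adj_ap, bw_comm, o'], by rw [S.iso, o''], fun v => ?_⟩
  have := congrArg (S.α k⁻¹) (pl_frame H.hb.1 H.hb'.1 H.xx (H.ha.conj k).1 r'.1 o' h2 ⟨_, _, e'⟩
    pl (S.α k v))
  simp only [map_add, map_smul, S.iso, inv_ap] at this
  rw [ht]
  simp only [bw_comm v (S.α _ _), adj_ap, bw_comm _ (S.α k v)]
  linear_combination (exp := 1) -this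

set_option maxHeartbeats 1600000 in
theorem false : False := by
  have h2 := H.ax.two
  obtain ⟨t, ht, n, z, z', hz, hz', zw, zw', zz, e⟩ := H.exv nc
  have rw' : S.Rt w := ⟨_, H.ha⟩
  have rx : S.Rt x := ⟨_, H.hb⟩
  have rx' : S.Rt x' := ⟨_, H.hb'⟩
  have x1 := H.hb.1
  have x2 := H.hb'.1
  have xx := H.xx
  have tz : S.α t z = z := by simp [e, zw, hz.nrm, zz]; module
  have tt (v) : S.α t (S.α t v) = v := by
    simp [e, zw, zw', hz.nrm, hz'.nrm, zz, bw_symm zz, bw_symm zw, bw_symm zw', H.ha.1]; module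
  have ta (u v) : bw (S.α t u) v = bw u (S.α t v) := by rw [← S.iso t, tt]
  have tp {y} (k : Pl x x' y) : Pl x x' (S.α t y) := by
    obtain ⟨p, q, rfl⟩ := k
    obtain ⟨⟨_, _, e1⟩, _, _, e2⟩ := H.plt nc ht
    exact ⟨_, _, by rw [map_add, map_smul, map_smul, e1, e2, smul_add, smul_add, add_add_add_comm,
      smul_smul, smul_smul, smul_smul, smul_smul, ← add_smul, ← add_smul]⟩
  have K1 {y} (k : S.Rt y) : S.α t y ≠ -y := fun l => by
    rw [e, sub_eq_neg_self] at l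
    have l1 := congrArg (bw · w) l
    have l2 := congrArg (bw · z) l
    have l3 := congrArg (bw · z') l
    simp [zw, zw', hz.nrm, hz'.nrm, zz, bw_symm zz, bw_symm zw, bw_symm zw', H.ha.1, h2] at l1 l2 l3
    exact H.no4 rw' hz hz' k zw zw' l1 zz l2 l3
  have fz {y} (l : S.α t y = y) (o : bw y w = 0) : Pl z z' y := (pl_eq h2 hz.nrm hz'.nrm zz).2 (by
    rw [e, o, zero_smul, zero_add] at l; rw [two_smul, eq_add_of_sub_eq l])
  have K2 {y} (k : S.Rt y) (m : Pl x x' y) : S.α t y ≠ y := fun l => by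
    obtain ⟨r, k⟩ := k
    have yw := m.perp H.xw H.xw'
    obtain ⟨y', k', m', o⟩ : ∃ y', S.Rt y' ∧ Pl x x' y' ∧ bw y y' = 0 := by
      obtain ⟨p, q, rfl⟩ := m
      exact ⟨_, ⟨_, H.hb.rot h2 H.hb' xx k⟩, ⟨_, _, rfl⟩, by simp [x1, x2, xx, bw_symm xx]; ring⟩
    have := (pl_eq h2 k.1 k'.nrm o).1 (pl_trans h2 x1 x2 xx k.1 k'.nrm o m m' (tp m'))
    rw [ta, l, bw_symm o, zero_smul, zero_add] at this
    have l' := (pm_of_smul h2 (k'.nrm ▸ h2) (S.iso ..) this).resolve_right (K1 k')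
    refine n (S.ext fun v => ?_)
    rw [e, H.ap3, ← pl_frame x1 x2 xx k.1 k'.nrm o h2 m m', pl_frame hz.nrm hz'.nrm zz k.1 k'.nrm o h2
      (fz l yw) (fz l' (m'.perp H.xw H.xw'))]
  have tm : S.α t (bw z x • x + bw z x' • x') = bw z x • x + bw z x' • x' := by
    have := congrArg (S.α · z) (H.cb nc ht)
    simp only [S.mul_ap t, S.mul_ap _ t, H.hb.mul_ap H.hb' xx, tz, map_sub] at this
    exact sub_right_injective this
  have zc {y y'} (k : S.Rt y) (k' : S.Rt y') (m : Pl x x' y) (m' : Pl x x' y') (o : bw y y' = 0) :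
      bw z y ≠ 0 := fun l => by
    have := pl_frame x1 x2 xx k.nrm k'.nrm o h2 m m' z
    rw [l, zero_smul, zero_add] at this
    by_cases l' : bw z y' = 0
    · exact H.no4 rw' k k' hz (m.perp H.xw H.xw') (m'.perp H.xw H.xw') zw o l l'
    · rw [← this, map_smul] at tm
      exact K2 k' m' (smul_right_injective _ l' tm)
  have zn : ¬ Pl x x' z := fun m => K2 hz m tz
  have px : Pl x x' x := ⟨1, 0, by simp⟩
  have px' : Pl x x' x' := ⟨0, 1, by simp⟩
  have pm {y y' u} (k : S.Rt y) (k' : S.Rt y') (o : bw y y' = 0) (l : S.Rt u) (m : Pl y y' u)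
      (e : bw u y' = 0) : u = y ∨ u = -y := by
    have := (pl_eq h2 k.nrm k'.nrm o).1 m
    rw [e, zero_smul, add_zero] at this
    exact pm_of_smul h2 (k.nrm ▸ h2) (l.nrm.trans k.nrm.symm) this
  have n45 {y} (k : S.Rt y) (m : Pl x x' y) : bw y x = 0 ∨ bw y x' = 0 := by
    by_contra! l
    obtain ⟨g, hg⟩ := H.conj
    obtain ⟨g, -, hg, le⟩ := extremal (Y := ⊤) (R := T ⊓ 𝐂₁ b) trivial hg
      (inf_le_inf_right _ le_top) (H.syl.pi.le inf_le_left) (H.syl.of_le (le_inf le_top fun t ht =>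
        mem_cent1.2 (mul_inv_eq_iff_eq_mul.1 (H.ha.comm (H.fix t ht)))) le_top)
    have gx := H.ha.pm h2 (H.hb.conj g).1 (hg ▸ H.hb.conj g).self
    have gw {y} (e : bw x y = 0) : bw (S.α g y) w = 0 := by
      rw [← S.iso g] at e; rcases gx with l | l <;> simpa [l, bw_comm w] using e
    have pg {r y} (k : S.IsR r y) (m : r ∈ T) (e : bw x y = 0) := H.pl nc (k.conj g)
      (le (conj_mem_cj.2 ⟨m, mem_cent1.2 (mul_inv_eq_iff_eq_mul.1 (H.hb.comm (.inr (k.perp e))))⟩))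
      (gw e)
    have p1 := pg H.hb' H.mb' xx
    have p2 := pg H.ha H.ma H.xw
    have o : bw (S.α g x') (S.α g w) = 0 := (S.iso ..).trans H.xw'
    have r1 := rx'.act g
    have r2 := rw'.act g
    have M {y y'} {p q : F} (k : S.Rt y) (k' : S.Rt y') (m : Pl x x' y) (m' : Pl x x' y') (o : bw y y' = 0)
        (p0 : p ≠ 0) (q0 : q ≠ 0) (l : S.Rt (p • w + q • y)) : bw z y ^ 2 = 2 := by
      have yw := m.perp H.xw H.xw'
      have e1 := H.ax.tf2' nc rw' k (bw_symm yw) l (by simp [*, H.ha.1]) (by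
        simp [bw_symm yw, k.nrm, *]) ⟨_, _, rfl⟩
      have e2 := l.nrm
      have l' : S.Rt (p • w - q • y) := by
        convert rw'.refl l using 1; simp [H.ha.1, yw]; module
      simp [H.ha.1, yw, bw_symm yw, k.nrm] at e1 e2
      have z0 := zc k k' m m' o
      have := H.ax.tf l l' (by simp [H.ha.1, yw, bw_symm yw, k.nrm]; grind) hz (by simp [*])
        (by simp [*]) (by
          rintro ⟨c, d, e⟩
          have := congrArg (bw · w) e
          simp [zw, H.ha.1, yw] at this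
          obtain ⟨i, j, rfl⟩ := m
          refine zn ⟨(c - d) * q * i, (c - d) * q * j, e.trans ?_⟩
          match_scalars <;> grind)
      simp only [bw_add_right, bw_sub_right, bw_smul_right, zw, mul_zero, zero_add, zero_sub,
        neg_sq] at this
      have := pair_self this
      grind
    obtain ⟨p, q, rfl⟩ := m
    simp [x1, x2, xx, bw_symm xx, h2] at l
    obtain ⟨p', p0, A⟩ : ∃ p' ≠ (0 : F), S.Rt (p' • w + q • S.α g x') := by
      have := k.act g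
      rw [map_add, map_smul, map_smul] at this
      rcases gx with e | e <;> rw [e] at this
      exacts [⟨p, l.1, this⟩, ⟨-p, by simp [l.1], by simpa using this⟩]
    have a1 := M r1 r2 p1 p2 o p0 l.2 A
    generalize S.α g x' = y1, S.α g w = y2 at *
    have m := pl_trans h2 x1 x2 xx r1.nrm r2.nrm o p1 p2 (tp p1)
    have a2 : bw z y2 ^ 2 = 2 := by
      by_cases c1 : bw (S.α t y1) y2 = 0
      · exact ((pm r1 r2 o (r1.act t) m c1).elim (K2 r1 p1) (K1 r1)).elim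
      by_cases c2 : bw (S.α t y1) y1 = 0
      · rw [← tz, ta] at a1
        rcases pm r2 r1 (bw_symm o) (r1.act t) m.symm c2 with e | e <;> simpa [e] using a1
      have c3 := H.ax.tf2' nc r1 r2 o (r1.act t) c2 c1 m
      have := (r1.act t).refl A
      obtain ⟨i, j, e⟩ := m
      rw [e] at this c1 c2 c3
      simp [r1.nrm, r2.nrm, o, bw_symm o, h2] at c1 c2 c3
      refine M r2 r1 p2 p1 (bw_symm o) (p := -p') (q := q * (2 * i * j)) (by simpa) (by simp [*]) ?_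
      convert this using 1
      simp [r1.nrm, r2.nrm, o, bw_symm (p1.perp H.xw H.xw'), bw_symm (p2.perp H.xw H.xw')]
      match_scalars <;> grind
    have := H.ax.tf r1 r2 o hz (zc r1 r2 p1 p2 o) (zc r2 r1 p2 p1 (bw_symm o)) (by
      rintro ⟨i, j, e⟩
      obtain ⟨_, _, rfl⟩ := p1
      obtain ⟨_, _, rfl⟩ := p2
      exact zn ⟨_, _, by rw [e, smul_add, smul_add, add_add_add_comm,
        smul_smul, smul_smul, smul_smul, smul_smul, ← add_smul, ← add_smul]⟩)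
    rw [a1, a2] at this
    exact pair_two this
  have four {y} (k : S.Rt y) (m : Pl x x' y) : (y = x ∨ y = -x) ∨ y = x' ∨ y = -x' :=
    (n45 k m).symm.imp (pm rx rx' xx k m) (pm rx' rx (bw_symm xx) k m.symm)
  have α0 := zc rx rx' px px' xx
  have β0 := zc rx' rx px' px (bw_symm xx)
  have s1 : bw z x ^ 2 = 1 ∧ bw z x' ^ 2 = 1 := by
    have l := H.ax.tf rx rx' xx hz α0 β0 zn
    have : bw z x ^ 2 = bw z x' ^ 2 := by
      rw [← tz, ta, tz]
      rcases four (rx.act t) (tp px) with (e | e) | e | e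
      exacts [(K2 rx px e).elim, (K1 rx e).elim, by rw [e], by simp [e]]
    rw [this] at l ⊢
    simp [pair_self l]
  have s2 {g} (hg : g ∈ T) : bw (S.α g z) x ^ 2 = 1 ∧ bw (S.α g z) x' ^ 2 = 1 := by
    rw [← inv_inv g, adj_ap, adj_ap]
    have := H.plt nc (inv_mem hg)
    constructor
    · rcases four (rx.act _) this.1 with (e | e) | e | e <;> simp [e, s1]
    · rcases four (rx'.act _) this.2 with (e | e) | e | e <;> simp [e, s1]
  obtain ⟨c, hc⟩ : ∃ c, c = z - (2 : F)⁻¹ • (bw z x • x + bw z x' • x') := ⟨_, rfl⟩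
  have U {g} (hg : g ∈ T) {v} (k : bw v w = 0 ∧ bw v x = 0 ∧ bw v x' = 0) :
      bw (S.α g v) w = 0 ∧ bw (S.α g v) x = 0 ∧ bw (S.α g v) x' = 0 := by
    refine ⟨H.wt hg k.1, ?_⟩
    rw [← inv_inv g, adj_ap, adj_ap, bw_comm, bw_comm v]
    have := H.plt nc (inv_mem hg)
    exact ⟨this.1.perp (bw_symm k.2.1) (bw_symm k.2.2), this.2.perp (bw_symm k.2.1) (bw_symm k.2.2)⟩
  have Uc : bw c w = 0 ∧ bw c x = 0 ∧ bw c x' = 0 := by
    simp [hc, zw, H.xw, H.xw', x1, x2, xx, bw_symm xx, h2, mul_comm _ (2 : F)]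
  have cc : 2 * bw c c = 2 := by
    simp [hc, hz.nrm, x1, x2, xx, bw_symm xx, bw_comm x z, bw_comm x' z]
    field_simp; linear_combination -s1.1 - s1.2
  have tc (v) (k : bw v w = 0 ∧ bw v x = 0 ∧ bw v x' = 0) : S.α t v = (2 * bw v c) • c - v := by
    have r : S.Rt (z - (bw z x • x + bw z x' • x')) := H.hb.mul_ap H.hb' xx z ▸ hz.act _
    have := pl_frame hz.nrm hz'.nrm zz hz.nrm r.nrm (by
      simp [hz.nrm, bw_comm x z, bw_comm x' z]; linear_combination -s1.1 - s1.2) h2 ⟨1, 0, by simp⟩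
      (fz (by rw [map_sub, tz, tm]) (by simp [zw, H.xw, H.xw'])) v
    rw [e, ← this, hc]
    simp [k]; match_scalars <;> field_simp <;> ring
  by_cases fc : ∀ g ∈ T, S.α g c = c ∨ S.α g c = -c
  · obtain ⟨g, m, l⟩ := th nc h2 H.syl fc H.ha
    have : bw c (S.α g w) = 0 := by
      by_cases k : g * a * g⁻¹ = a
      · rcases H.ha.of_comm h2 k with k | k <;> simp [k, Uc]
      · exact bw_symm ((H.pl nc (H.ha.conj g) m (perp_of h2 H.ha (H.fix _ m) (H.ha.conj g) k)).perp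
          (bw_symm Uc.2.1) (bw_symm Uc.2.2))
    have := congrArg (bw · c) (l.symm.trans ((H.ha.conj g).perp this))
    simp only [bw_neg_left] at this
    exact h2 (by linear_combination this - cc)
  push Not at fc
  obtain ⟨g, hg, n1, n2⟩ := fc
  have t2 : t * t = 1 := S.ext fun v => by simp [tt]
  obtain ⟨m, l⟩ := H.syl.pi.isPGroup ⟨t * (g * t * g⁻¹), mul_mem ht (mul_mem (mul_mem hg ht) (inv_mem hg))⟩
  obtain ⟨s, d, -, o, l, -⟩ := dh (S := S) (T := T) (κ := 2) h2 (fun _ h _ => U h) _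
    (fun _ _ => Iff.rfl) ⟨ht, t2, Uc, cc, tc⟩ m ⟨mul_mem (mul_mem hg ht) (inv_mem hg),
      by rw [conj_mul, t2]; simp, U hg Uc, by rw [S.iso, cc], fun v hv => by
        simp [tc _ (U (inv_mem hg) hv), adj_ap, ap_inv]⟩ n1 n2 (congrArg Subtype.val l)
  obtain ⟨g, hg, rfl⟩ : ∃ g ∈ T, d = S.α g c := l.elim (fun e => ⟨g, hg, e⟩) id
  have r1 := hz.act g
  have gc : S.α g c = S.α g z - (2 : F)⁻¹ • (bw (S.α g z) x • x + bw (S.α g z) x' • x') := by
    have := congrArg (S.α · z) (H.cb nc hg)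
    simp only [S.mul_ap g, S.mul_ap _ g, H.hb.mul_ap H.hb' xx, map_sub] at this
    rw [hc, map_sub, map_smul, sub_right_injective this]
  have r2 : S.Rt (c + (2 : F)⁻¹ • (bw (S.α g z) x • x + bw (S.α g z) x' • x')) := by
    have a1 := (rx.refl hz).neg
    have a2 := (rx'.refl hz).neg
    have a3 := (rx'.refl a1).neg
    rcases sq_eq_sq_iff_eq_or_eq_neg.1 ((s2 hg).1.trans s1.1.symm) with e | e <;>
      rcases sq_eq_sq_iff_eq_or_eq_neg.1 ((s2 hg).2.trans s1.2.symm) with e' | e' <;> rw [e, e', hc]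
    · simpa using hz
    · convert a2 using 1; match_scalars <;> field_simp <;> ring
    · convert a1 using 1; match_scalars <;> field_simp <;> ring
    · convert a3 using 1; simp [xx]; match_scalars <;> field_simp <;> ring
  have Ud := U hg Uc
  have s3 := s2 hg
  generalize bw (S.α g z) x = p, bw (S.α g z) x' = q, S.α g c = d at *
  have := r2.refl (eq_add_of_sub_eq gc.symm ▸ r1)
  have l : bw (d + (2 : F)⁻¹ • (p • x + q • x')) (c + (2 : F)⁻¹ • (p • x + q • x')) = 1 := by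
    simp [bw_symm o, Ud, bw_symm Uc.2.1, bw_symm Uc.2.2, x1, x2, xx, bw_symm xx]
    field_simp; linear_combination s3.1 + s3.2
  rw [l] at this
  exact H.no4 rw' rx rx' this H.xw H.xw' (by simp [Uc, Ud]) xx (by simp [Uc, Ud]) (by simp [Uc, Ud])

end C3

include nc in
theorem Ax.four [Finite F] (h : S.Ax) (k : S.Rt u) : ¬ S.No4 := fun n => by
  obtain ⟨T, a, b, b', w, x, x', H⟩ := exists_c3 nc h n k
  exact H.false nc

end CF.MaxSub.O4.RS
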