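/-
Root systems of simple groups in dimension five: the case of five orthogonal roots.
-/
import Cfsg.Agent.MaxSub.O4F

set_option autoImplicit false

namespace CF.MaxSub.O4.RS

variable {F : Type*} [Field F] {a b c d e p q a' b' c' d' e' β : F}

section sort
variable {α : Type*} [Zero α] {a b c d e : α}

theorem sort2 (Q : α → α → Prop) (s1 : ∀ {a b}, Q a b → Q b a) (h : Q a b) :
    ∃ a b, Q a b ∧ (a = 0 → b = 0) := by
  by_cases k : a = 0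
  exacts [⟨_, _, s1 h, fun _ => k⟩, ⟨_, _, h, fun l => (k l).elim⟩]

theorem sort3 (Q : α → α → α → Prop) (s1 : ∀ {a b c}, Q a b c → Q b a c)
    (s2 : ∀ {a b c}, Q a b c → Q a c b) (h : Q a b c) :
    ∃ a b c, Q a b c ∧ (a = 0 → b = 0) ∧ (b = 0 → c = 0) := by
  obtain ⟨a, b, c, h⟩ : ∃ a b c, Q a b c ∧ (a = 0 ∨ b = 0 → c = 0) := by
    by_cases k : a = 0
    · exact ⟨_, _, _, s2 (s1 h), fun _ => k⟩
    by_cases l : b = 0
    exacts [⟨_, _, _, s2 h, fun _ => l⟩, ⟨_, _, _, h, by tauto⟩]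
  obtain ⟨a, b, h, k⟩ := sort2 (fun a b => Q a b c ∧ (a = 0 ∨ b = 0 → c = 0))
    (fun h => ⟨s1 h.1, by tauto⟩) h
  exact ⟨a, b, c, h.1, k, by tauto⟩

theorem sort4 (Q : α → α → α → α → Prop) (s1 : ∀ {a b c d}, Q a b c d → Q b a c d)
    (s2 : ∀ {a b c d}, Q a b c d → Q a c b d) (s3 : ∀ {a b c d}, Q a b c d → Q a b d c)
    (h : Q a b c d) : ∃ a b c d, Q a b c d ∧ (a = 0 → b = 0) ∧ (b = 0 → c = 0) ∧ (c = 0 → d = 0) := by
  obtain ⟨a, b, c, d, h⟩ : ∃ a b c d, Q a b c d ∧ (a = 0 ∨ b = 0 ∨ c = 0 → d = 0) := by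
    by_cases k : a = 0
    · exact ⟨_, _, _, _, s3 (s2 (s1 h)), fun _ => k⟩
    by_cases l : b = 0
    · exact ⟨_, _, _, _, s3 (s2 h), fun _ => l⟩
    by_cases m : c = 0
    exacts [⟨_, _, _, _, s3 h, fun _ => m⟩, ⟨_, _, _, _, h, by tauto⟩]
  obtain ⟨a, b, c, h, k⟩ := sort3 (fun a b c => Q a b c d ∧ (a = 0 ∨ b = 0 ∨ c = 0 → d = 0))
    (fun h => ⟨s1 h.1, by tauto⟩) (fun h => ⟨s2 h.1, by tauto⟩) h
  exact ⟨a, b, c, d, h.1, k.1, k.2, by tauto⟩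

theorem sort5 (Q : α → α → α → α → α → Prop) (s1 : ∀ {a b c d e}, Q a b c d e → Q b a c d e)
    (s2 : ∀ {a b c d e}, Q a b c d e → Q a c b d e) (s3 : ∀ {a b c d e}, Q a b c d e → Q a b d c e)
    (s4 : ∀ {a b c d e}, Q a b c d e → Q a b c e d) (h : Q a b c d e) : ∃ a b c d e, Q a b c d e ∧
      (a = 0 → b = 0) ∧ (b = 0 → c = 0) ∧ (c = 0 → d = 0) ∧ (d = 0 → e = 0) := by
  obtain ⟨a, b, c, d, e, h⟩ : ∃ a b c d e, Q a b c d e ∧ (a = 0 ∨ b = 0 ∨ c = 0 ∨ d = 0 → e = 0) := by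
    by_cases k : a = 0
    · exact ⟨_, _, _, _, _, s4 (s3 (s2 (s1 h))), fun _ => k⟩
    by_cases l : b = 0
    · exact ⟨_, _, _, _, _, s4 (s3 (s2 h)), fun _ => l⟩
    by_cases m : c = 0
    · exact ⟨_, _, _, _, _, s4 (s3 h), fun _ => m⟩
    by_cases n : d = 0
    exacts [⟨_, _, _, _, _, s4 h, fun _ => n⟩, ⟨_, _, _, _, _, h, by tauto⟩]
  obtain ⟨a, b, c, d, h, k⟩ := sort4 (fun a b c d => Q a b c d e ∧ (a = 0 ∨ b = 0 ∨ c = 0 ∨ d = 0 → e = 0))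
    (fun h => ⟨s1 h.1, by tauto⟩) (fun h => ⟨s2 h.1, by tauto⟩) (fun h => ⟨s3 h.1, by tauto⟩) h
  exact ⟨a, b, c, d, e, h.1, k.1, k.2.1, k.2.2, by tauto⟩

end sort

variable {G : Type*} [Group G] {S : RS G F} {R : F → F → F → F → F → Prop} {f : Fin 5 → W5 F}

/-- At least three nonzero coordinates. -/
def T3 (a b c d e : F) : Prop := ¬ (a = 0 ∧ b = 0 ∧ c = 0 ∨ a = 0 ∧ b = 0 ∧ d = 0 ∨
  a = 0 ∧ b = 0 ∧ e = 0 ∨ a = 0 ∧ c = 0 ∧ d = 0 ∨ a = 0 ∧ c = 0 ∧ e = 0 ∨ a = 0 ∧ d = 0 ∧ e = 0 ∨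
  b = 0 ∧ c = 0 ∧ d = 0 ∨ b = 0 ∧ c = 0 ∧ e = 0 ∨ b = 0 ∧ d = 0 ∧ e = 0 ∨ c = 0 ∧ d = 0 ∧ e = 0)

theorem T3.sw (h : T3 a b c d e) : T3 b a c d e ∧ T3 a c b d e ∧ T3 a b d c e ∧ T3 a b c e d := by
  simp only [T3, not_or] at *
  refine ⟨?_, ?_, ?_, ?_⟩ <;> grind

theorem T3.ne (h : T3 a b c d e) (m : (a = 0 → b = 0) ∧ (b = 0 → c = 0) ∧ (c = 0 → d = 0) ∧
    (d = 0 → e = 0)) : a ≠ 0 ∧ b ≠ 0 ∧ c ≠ 0 := by unfold T3 at *; grind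

set_option synthInstance.maxSize 2000 in
theorem t3_aux (v : Fin 5 → F) (h : ¬ T3 (v 0) (v 1) (v 2) (v 3) (v 4)) {i j : Fin 5} (ij : i ≠ j)
    (hi : v i ≠ 0) (hj : v j ≠ 0) (l : Fin 5) (e : l ≠ i ∧ l ≠ j) : v l = 0 := by
  have : ∀ s : Fin 5 → Bool, (s 0 ∧ s 1 ∧ s 2 ∨ s 0 ∧ s 1 ∧ s 3 ∨ s 0 ∧ s 1 ∧ s 4 ∨ s 0 ∧ s 2 ∧ s 3 ∨
    s 0 ∧ s 2 ∧ s 4 ∨ s 0 ∧ s 3 ∧ s 4 ∨ s 1 ∧ s 2 ∧ s 3 ∨ s 1 ∧ s 2 ∧ s 4 ∨ s 1 ∧ s 3 ∧ s 4 ∨
    s 2 ∧ s 3 ∧ s 4) → ∀ i j l, i ≠ j → ¬ s i → ¬ s j → l ≠ i ∧ l ≠ j → s l := by decide +kernel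
  classical
  simpa using this (fun i => decide (v i = 0)) (by simpa only [T3, not_not, decide_eq_true_eq] using h)
    i j l ij (by simpa) (by simpa) e

variable (S) in
/-- Frames. -/
def Fr (f : Fin 5 → W5 F) : Prop :=
  (∀ i, S.Rt (f i)) ∧ ∀ i j, bw (f i) (f j) = if i = j then 2 else 0

variable (S) in
/-- Coordinates of roots. -/
def Co (f : Fin 5 → W5 F) (a b c d e : F) : Prop :=
  ∃ z, S.Rt z ∧ bw z (f 0) = a ∧ bw z (f 1) = b ∧ bw z (f 2) = c ∧ bw z (f 3) = d ∧ bw z (f 4) = e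

variable (S) in
/-- The coordinates of the roots with respect to some frame. -/
def St (R : F → F → F → F → F → Prop) : Prop := S.Ax ∧ ∃ f, S.Fr f ∧ R = S.Co f

theorem Fr.bw2 (h : S.Fr f) (h2 : (2 : F) ≠ 0) (u v : W5 F) : 2 * bw u v =
    bw u (f 0) * bw v (f 0) + bw u (f 1) * bw v (f 1) + bw u (f 2) * bw v (f 2) +
      bw u (f 3) * bw v (f 3) + bw u (f 4) * bw v (f 4) := by
  simpa [Fin.sum_univ_five, bw_comm (f _) v] using congrArg (bw · v) (parseval h2 h.2 u)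

theorem Fr.mk' {x y z u v : W5 F} (h1 : S.Rt x) (h2 : S.Rt y) (h3 : S.Rt z) (h4 : S.Rt u)
    (h5 : S.Rt v) (k1 : bw x y = 0) (k2 : bw x z = 0) (k3 : bw x u = 0) (k4 : bw x v = 0)
    (k5 : bw y z = 0) (k6 : bw y u = 0) (k7 : bw y v = 0) (k8 : bw z u = 0) (k9 : bw z v = 0)
    (k0 : bw u v = 0) : S.Fr ![x, y, z, u, v] := by
  constructor
  · intro i; fin_cases i <;> assumption
  intro i j
  fin_cases i <;> fin_cases j <;> simp [h1.nrm, h2.nrm, h3.nrm, h4.nrm, h5.nrm, bw_symm k1,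
    bw_symm k2, bw_symm k3, bw_symm k4, bw_symm k5, bw_symm k6, bw_symm k7, bw_symm k8, bw_symm k9,
    bw_symm k0, *]

theorem Fr.perm (h : S.Fr f) (σ : Equiv.Perm (Fin 5)) : S.Fr (f ∘ σ) :=
  ⟨fun _ => h.1 _, fun i j => by simp [h.2]⟩

theorem Fr.pl (h : S.Fr f) (h2 : (2 : F) ≠ 0) {i j : Fin 5} (n : i ≠ j) {z : W5 F}
    (k : ∀ k, k ≠ i ∧ k ≠ j → bw z (f k) = 0) : Pl (f i) (f j) z :=
  (pl_eq h2 (h.1 i).nrm (h.1 j).nrm (by simp [h.2, n])).2 ((parseval h2 h.2 z).trans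
    (Fintype.sum_eq_add i j n fun l hl => by simp [k l hl]))

theorem Fr.one (h : S.Fr f) (h2 : (2 : F) ≠ 0) {i : Fin 5} {z : W5 F} (hz : S.Rt z)
    (k : ∀ k, k ≠ i → bw z (f k) = 0) : z = f i ∨ z = -f i :=
  pm_of_smul h2 ((h.1 i).nrm ▸ h2) (hz.nrm.trans (h.1 i).nrm.symm) ((parseval h2 h.2 z).trans
    (Fintype.sum_eq_single i fun l hl => by simp [k l hl]))

namespace St

variable (h : S.St R)
include h

theorem two : (2 : F) ≠ 0 := h.1.two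

theorem s12 : S.St fun a b c d e => R b a c d e := by
  obtain ⟨h, f, k, rfl⟩ := h
  exact ⟨h, _, k.perm (Equiv.swap 0 1), by ext; exact exists_congr fun _ => by simp; tauto⟩

theorem s23 : S.St fun a b c d e => R a c b d e := by
  obtain ⟨h, f, k, rfl⟩ := h
  exact ⟨h, _, k.perm (Equiv.swap 1 2), by ext; exact exists_congr fun _ => by simp; tauto⟩

theorem s34 : S.St fun a b c d e => R a b d c e := by
  obtain ⟨h, f, k, rfl⟩ := h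
  exact ⟨h, _, k.perm (Equiv.swap 2 3), by ext; exact exists_congr fun _ => by simp; tauto⟩

theorem s45 : S.St fun a b c d e => R a b c e d := by
  obtain ⟨h, f, k, rfl⟩ := h
  exact ⟨h, _, k.perm (Equiv.swap 3 4), by ext; exact exists_congr fun _ => by simp; tauto⟩

theorem p3 : S.St fun a b c d e => R b c a d e := h.s23.s12

theorem p4 : S.St fun a b c d e => R b c d a e := h.s34.p3

theorem p5 : S.St fun a b c d e => R b c d e a := h.s45.p4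

theorem nrm (k : R a b c d e) : a ^ 2 + b ^ 2 + c ^ 2 + d ^ 2 + e ^ 2 = 4 := by
  obtain ⟨h, f, l, rfl⟩ := h
  obtain ⟨z, hz, rfl, rfl, rfl, rfl, rfl⟩ := k
  linear_combination 2 * hz.nrm - l.bw2 h.two z z

theorem refl (k : R a b c d e) (l : R a' b' c' d' e') (β : F)
    (m : a * a' + b * b' + c * c' + d * d' + e * e' = 2 * β) :
    R (β * a - a') (β * b - b') (β * c - c') (β * d - d') (β * e - e') := by
  obtain ⟨h, f, n, rfl⟩ := h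
  obtain ⟨z, hz, rfl, rfl, rfl, rfl, rfl⟩ := k
  obtain ⟨y, hy, rfl, rfl, rfl, rfl, rfl⟩ := l
  obtain rfl : bw y z = β := mul_left_cancel₀ h.two (by rw [bw_comm, n.bw2 h.two, m])
  exact ⟨_, hz.refl hy, by simp⟩

theorem neg (k : R a b c d e) : R (-a) (-b) (-c) (-d) (-e) := by
  obtain ⟨h, f, n, rfl⟩ := h
  obtain ⟨z, hz, rfl, rfl, rfl, rfl, rfl⟩ := k
  exact ⟨_, hz.neg, by simp⟩

theorem fr : R 2 0 0 0 0 := by
  obtain ⟨h, f, n, rfl⟩ := h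
  exact ⟨_, n.1 0, by simp [n.2]⟩

theorem tf (k : R a b c d e) (a0 : a ≠ 0) (b0 : b ≠ 0) (c0 : c ≠ 0) : Pair (a ^ 2) (b ^ 2) := by
  obtain ⟨h, f, n, rfl⟩ := h
  obtain ⟨z, hz, rfl, rfl, rfl, rfl, rfl⟩ := k
  exact h.tf (n.1 0) (n.1 1) (by simp [n.2]) hz a0 b0 fun l => c0 (l.perp (by simp [n.2]) (by simp [n.2]))

theorem n2 (h3 : (3 : F) = 0) (k : R 1 1 1 1 0) (l : R 1 1 1 0 1) : False := by
  obtain ⟨h, f, n, rfl⟩ := h
  obtain ⟨z, hz, k⟩ := k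
  obtain ⟨y, hy, l⟩ := l
  have := h.n2 (m := z + f 3) (n.1 3) (n.1 4) (by simp [n.2]) (by simp [n.2, k]; grind)
    (by simp [n.2, k]) (by simp [n.2, k, hz.nrm, bw_comm (f 3)]; grind) (by simpa) (by
      convert hy
      refine smul_right_injective _ h.two ?_
      simp only [parseval h.two n.2 y, parseval h.two n.2 (_ - _), Fin.sum_univ_five]
      simp [n.2, k, l]; match_scalars <;> grind)
  simpa [n.2, k] using congrArg (bw · (f 0)) this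

theorem new {a₁ a₂ a₃ a₄ a₅ b₁ b₂ b₃ b₄ b₅ c₁ c₂ c₃ c₄ c₅ d₁ d₂ d₃ d₄ d₅ : F}
    (ha : R a₁ a₂ a₃ a₄ a₅) (hb : R b₁ b₂ b₃ b₄ b₅) (hc : R c₁ c₂ c₃ c₄ c₅) (hd : R d₁ d₂ d₃ d₄ d₅)
    (k0 : a₅ = 0 ∧ b₅ = 0 ∧ c₅ = 0 ∧ d₅ = 0)
    (k1 : a₁ * b₁ + a₂ * b₂ + a₃ * b₃ + a₄ * b₄ = 0) (k2 : a₁ * c₁ + a₂ * c₂ + a₃ * c₃ + a₄ * c₄ = 0)
    (k3 : a₁ * d₁ + a₂ * d₂ + a₃ * d₃ + a₄ * d₄ = 0) (k4 : b₁ * c₁ + b₂ * c₂ + b₃ * c₃ + b₄ * c₄ = 0)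
    (k5 : b₁ * d₁ + b₂ * d₂ + b₃ * d₃ + b₄ * d₄ = 0) (k6 : c₁ * d₁ + c₂ * d₂ + c₃ * d₃ + c₄ * d₄ = 0) :
    ∃ R', S.St R' ∧ ∀ {a b c d e a' b' c' d' : F}, R a b c d e →
      a * a₁ + b * a₂ + c * a₃ + d * a₄ = 2 * a' → a * b₁ + b * b₂ + c * b₃ + d * b₄ = 2 * b' →
      a * c₁ + b * c₂ + c * c₃ + d * c₄ = 2 * c' → a * d₁ + b * d₂ + c * d₃ + d * d₄ = 2 * d' →
      R' a' b' c' d' e := by
  obtain ⟨h, f, n, rfl⟩ := h
  obtain ⟨x, hx, rfl, rfl, rfl, rfl, rfl⟩ := ha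
  obtain ⟨y, hy, rfl, rfl, rfl, rfl, rfl⟩ := hb
  obtain ⟨z, hz, rfl, rfl, rfl, rfl, rfl⟩ := hc
  obtain ⟨u, hu, rfl, rfl, rfl, rfl, rfl⟩ := hd
  have o {x y a} (k : bw y (f 4) = 0) (l : bw x (f 0) * bw y (f 0) + bw x (f 1) * bw y (f 1) +
      bw x (f 2) * bw y (f 2) + bw x (f 3) * bw y (f 3) = 2 * a) : bw x y = a :=
    mul_left_cancel₀ h.two (by rw [n.bw2 h.two, l, k]; ring)
  refine ⟨_, ⟨h, _, .mk' hx hy hz hu (n.1 4) (o k0.2.1 (by simp [k1])) (o k0.2.2.1 (by simp [k2]))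
    (o k0.2.2.2 (by simp [k3])) k0.1 (o k0.2.2.1 (by simp [k4])) (o k0.2.2.2 (by simp [k5])) k0.2.1
    (o k0.2.2.2 (by simp [k6])) k0.2.2.1 k0.2.2.2, rfl⟩, ?_⟩
  rintro a b c d e a' b' c' d' ⟨v, hv, rfl, rfl, rfl, rfl, rfl⟩ l1 l2 l3 l4
  exact ⟨v, hv, o k0.1 l1, o k0.2.1 l2, o k0.2.2.1 l3, o k0.2.2.2 l4, rfl⟩

variable [Finite G] [IsSimpleGroup G] (nc : ¬ IsMulCommutative G)
include nc

theorem tf2 (k : R a b 0 0 0) (a0 : a ≠ 0) (b0 : b ≠ 0) : a ^ 2 = 2 := by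
  obtain ⟨h, f, n, rfl⟩ := h
  obtain ⟨z, hz, rfl, rfl, k⟩ := k
  exact h.tf2' nc (n.1 0) (n.1 1) (by simp [n.2]) hz a0 b0 (n.pl h.two (by simp) fun i => by
    fin_cases i <;> simp [k])

theorem cross1 : ∃ a b c d e, R a b c d e ∧ e ≠ 0 ∧ ¬ (a = 0 ∧ b = 0 ∧ c = 0 ∧ d = 0) := by
  obtain ⟨h, f, n, rfl⟩ := h
  by_contra! k
  obtain ⟨r, l⟩ := n.1 4
  refine l.ne h.two (cen nc h.two ⟨r, l⟩ fun s z m => m.comm ?_)
  by_cases e : bw z (f 4) = 0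
  · exact .inr (l.perp e)
  have := k _ _ _ _ _ ⟨z, ⟨s, m⟩, rfl, rfl, rfl, rfl, rfl⟩ e
  rcases n.one h.two (i := 4) ⟨s, m⟩ (fun i => by fin_cases i <;> simp [this]) with rfl | rfl <;>
    simp [l.self]

theorem cross2 : ∃ a b c d e, R a b c d e ∧ ¬ (d = 0 ∧ e = 0) ∧ ¬ (a = 0 ∧ b = 0 ∧ c = 0) := by
  obtain ⟨h, f, n, rfl⟩ := h
  obtain ⟨u, k, l, m⟩ := cross nc h.two (n.1 3) (n.1 4) (by simp [n.2])
  exact ⟨_, _, _, _, _, ⟨u, k, rfl, rfl, rfl, rfl, rfl⟩, by tauto, fun e =>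
    l (n.pl h.two (by simp) fun i => by fin_cases i <;> simp [e])⟩

theorem np : ∃ a b c d e, R a b c d e ∧ T3 a b c d e := by
  obtain ⟨h, f, n, rfl⟩ := h
  have h2 := h.two
  by_contra! k
  have H {z} (hz : S.Rt z) {i j} := t3_aux (fun i => bw z (f i))
    (k _ _ _ _ _ ⟨z, hz, rfl, rfl, rfl, rfl, rfl⟩) (i := i) (j := j)
  have all := ind h2 (n.1 0) (fun g => ∀ i, ∃ j, S.α g (f i) = f j ∨ S.α g (f i) = -f j)
    (fun i => ⟨i, by simp⟩) fun r z g hz hg i => by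
      obtain ⟨i, e⟩ := hg i
      suffices ∃ j, S.α r (f i) = f j ∨ S.α r (f i) = -f j by
        obtain ⟨j, l⟩ := this
        exact ⟨j, by rcases e with e | e <;> rcases l with l | l <;> simp [e, l]⟩
      by_cases hi : bw z (f i) = 0
      · exact ⟨i, .inr (hz.perp (bw_symm hi))⟩
      by_cases l : ∃ j ≠ i, bw z (f j) ≠ 0
      · obtain ⟨j, ij, hj⟩ := l
        have := h.tf2' nc (n.1 i) (n.1 j) (by simp [n.2, ij.symm]) ⟨r, hz⟩ hi hj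
          (n.pl h2 ij.symm (H ⟨r, hz⟩ ij.symm hi hj))
        refine ⟨j, n.one h2 ((n.1 i).act r) fun l lj => ?_⟩
        by_cases li : l = i
        · simp [hz.2, li, n.2, bw_comm _ z, ← this, pow_two]
        · simp [hz.2, n.2, H ⟨r, hz⟩ ij.symm hi hj l ⟨li, lj⟩, Ne.symm li]
      push Not at l
      rcases n.one h2 ⟨r, hz⟩ l with rfl | rfl
      exacts [⟨i, .inl hz.self⟩, ⟨i, .inl (neg_neg (f i) ▸ hz.neg).self⟩]
  let N : Subgroup G := CF.MaxSub.E4.subOf (fun g => ∀ i, S.α g (f i) = f i ∨ S.α g (f i) = -f i)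
    (by simp) fun a b k l i => by rcases k i with k | k <;> rcases l i with l | l <;> simp [k, l]
  have : N.Normal := ⟨fun x hx g i => by
    obtain ⟨j, e⟩ := all g⁻¹ i
    have := S.ap_inv g (f i)
    rcases e with e | e <;> rcases hx j with l | l <;> simp [e] at this <;> simp [e, l, ← this]⟩
  obtain ⟨r, l⟩ := n.1 0
  refine l.ne h2 (cen nc h2 ⟨r, l⟩ fun s z m => ?_)
  have := l.comm ((this.eq_bot_or_eq_top.resolve_left fun e => l.ne h2 (e.le fun i => by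
    by_cases e : i = 0
    exacts [.inl (e ▸ l.self), .inr (l.perp (by simp [n.2, e]))])).ge (Subgroup.mem_top s) 0)
  rw [mul_inv_eq_iff_eq_mul] at this ⊢
  exact this.symm

omit nc [Finite G] [IsSimpleGroup G] in
theorem n1 (k : R a b c d e) : R (-a) b c d e := by
  simpa [show a * 2 - a = a by ring] using h.neg (h.refl h.fr k a (by ring))

omit nc [Finite G] [IsSimpleGroup G] in
theorem z1 (k : R a b c d e) (l : a ^ 2 = 1) : R 1 b c d e := by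
  obtain rfl | rfl := sq_eq_one_iff.1 l
  exacts [k, by simpa using h.n1 k]

omit nc [Finite G] [IsSimpleGroup G] in
theorem d3 (k : R a b c d e) (a0 : a ≠ 0) (b0 : b ≠ 0) (c0 : c ≠ 0) :
    Pair (a ^ 2) (b ^ 2) ∧ Pair (a ^ 2) (c ^ 2) ∧ Pair (b ^ 2) (c ^ 2) :=
  ⟨h.tf k a0 b0 c0, h.s23.tf k a0 c0 b0, h.s12.s23.tf k b0 c0 a0⟩

omit nc [Finite G] [IsSimpleGroup G] in
theorem d4 (k : R a b c d e) (a0 : a ≠ 0) (b0 : b ≠ 0) (c0 : c ≠ 0) (d0 : d ≠ 0) :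
    e = 0 ∧ a ^ 2 = 1 ∧ b ^ 2 = 1 ∧ c ^ 2 = 1 ∧ d ^ 2 = 1 := by
  have h2 := h.two
  have n := h.nrm k
  have k1 := h.d3 k a0 b0 c0
  have k2 := h.s34.d3 k a0 b0 d0
  have k3 := h.s23.s34.tf k a0 c0 d0
  have k4 := h.s12.s23.s34.s12.s23.tf k c0 d0 b0
  by_cases e0 : e = 0
  · subst e0
    unfold Pair at *
    generalize a ^ 2 = a, b ^ 2 = b, c ^ 2 = c, d ^ 2 = d at *
    grind
  have k5 := h.s45.s34.d3 k a0 b0 e0
  have k6 := h.s12.s23.s34.s45.s12.s23.s34.d3 k c0 d0 e0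
  have := pow_ne_zero 2 a0
  have := pow_ne_zero 2 b0
  have := pow_ne_zero 2 c0
  have := pow_ne_zero 2 d0
  have := pow_ne_zero 2 e0
  unfold Pair at *
  generalize a ^ 2 = a, b ^ 2 = b, c ^ 2 = c, d ^ 2 = d, e ^ 2 = e at *
  grind

omit nc [Finite G] [IsSimpleGroup G] in
theorem sw (k : R p p 0 0 0) (l : p ^ 2 = 2) (m : R a b c d e) : R b a c d e := by
  convert h.neg (h.refl (h.n1 k) m (p * (b - a) / 2) (by have := h.two; field_simp; ring)) using 1 <;>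
    have := h.two <;> grind

theorem rot (k : R p q 0 0 0) (p0 : p ≠ 0) (q0 : q ≠ 0) : ∃ R', S.St R' ∧ ∀ {a b c d e a' b' : F},
    R a b c d e → p * a + q * b = 2 * a' → q * b - p * a = 2 * b' → R' a' b' c d e := by
  have := h.tf2 nc k p0 q0
  have := h.s12.tf2 nc k q0 p0
  obtain ⟨R', l, m⟩ := h.new k (h.n1 k) h.p3.fr h.p4.fr (by simp) (by grind) (by simp)
    (by simp) (by simp) (by simp) (by simp)
  exact ⟨R', l, fun k a b => m k (by grind) (by grind) (by ring) (by ring)⟩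

theorem b5 (p2 : p ^ 2 = 2) (k1 : R p 0 0 0 p) (k2 : R 0 p 0 0 p) (k3 : R 0 0 p 0 p)
    (k4 : R 0 0 0 p p) : False := by
  have h2 := h.two
  have t1 {a b c d e} (k : R a b c d e) : R e b c d a := h.s45.s34.s23.sw k1 p2 k
  have t2 {a b c d e} (k : R a b c d e) : R a e c d b := h.s12.s45.s34.s23.sw k2 p2 k
  have t3 {a b c d e} (k : R a b c d e) : R a b e d c := h.s23.s12.s45.s34.s23.sw k3 p2 k
  have t4 {a b c d e} (k : R a b c d e) : R a b c e d := h.s34.s23.s12.s45.s34.s23.sw k4 p2 k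
  have u1 {a b c d e} (k : R a b c d e) : R b a c d e := t1 (t2 (t1 k))
  have u2 {a b c d e} (k : R a b c d e) : R a c b d e := t2 (t3 (t2 k))
  have u3 {a b c d e} (k : R a b c d e) : R a b d c e := t3 (t4 (t3 k))
  obtain ⟨a, b, c, d, e, k⟩ := h.np nc
  obtain ⟨a, b, c, d, e, ⟨k, l⟩, m⟩ := sort5 (fun a b c d e => R a b c d e ∧ T3 a b c d e)
    (fun h => ⟨u1 h.1, h.2.sw.1⟩) (fun h => ⟨u2 h.1, h.2.sw.2.1⟩)
    (fun h => ⟨u3 h.1, h.2.sw.2.2.1⟩) (fun h => ⟨t4 h.1, h.2.sw.2.2.2⟩) k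
  obtain ⟨a0, b0, c0⟩ := l.ne m
  obtain rfl : e = 0 := by
    by_cases d0 : d = 0
    exacts [m.2.2.2 d0, (h.d4 k a0 b0 c0 d0).1]
  have p0 : p ≠ 0 := by grind
  obtain ⟨R', h', f⟩ := h.rot nc (t2 k1) p0 p0
  have key {a b c} (k : R a b c d 0) (a1 : a ^ 2 = 1) (b0 : b ≠ 0) (c0 : c ≠ 0) : False := by
    have := (h'.d4 (f (a' := p * a / 2) (b' := -(p * a / 2)) (u2 (u3 (t4 k))) (by grind) (by grind))
      (by grind) (by grind) b0 c0).2.1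
    grind
  have := h.d3 k a0 b0 c0
  unfold Pair at this
  obtain l | l | l : a ^ 2 = 1 ∨ b ^ 2 = 1 ∨ c ^ 2 = 1 := by grind
  exacts [key k l b0 c0, key (u1 k) l a0 c0, key (u1 (u2 k)) l a0 b0]

theorem no4 (k : R a b c d e) (a0 : a ≠ 0) (b0 : b ≠ 0) (c0 : c ≠ 0) (d0 : d ≠ 0) : False := by
  obtain ⟨rfl, l1, l2, l3, l4⟩ := h.d4 k a0 b0 c0 d0
  have k := h.p4.z1 (h.p3.z1 (h.s12.z1 (h.z1 k l1) l2) l3) l4
  obtain ⟨a, b, c, d, e, l⟩ := h.cross1 nc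
  obtain ⟨a, b, c, d, ⟨R, h, k, l, e0, n⟩, m⟩ := sort4 (fun a b c d => ∃ R, S.St R ∧ R 1 1 1 1 0 ∧
      R a b c d e ∧ e ≠ 0 ∧ ¬ (a = 0 ∧ b = 0 ∧ c = 0 ∧ d = 0))
    (fun ⟨_, h, k⟩ => ⟨_, h.s12, by tauto⟩) (fun ⟨_, h, k⟩ => ⟨_, h.s23, by tauto⟩)
    (fun ⟨_, h, k⟩ => ⟨_, h.s34, by tauto⟩) ⟨R, h, k, l⟩
  have h2 := h.two
  have a0 : a ≠ 0 := by tauto
  obtain rfl : d = 0 := by
    by_contra d0
    exact e0 (h.d4 l a0 (by tauto) (by tauto) d0).1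
  obtain ⟨R', h', f⟩ := h.new k (h.n1 (h.s12.n1 k)) (h.n1 (h.p3.n1 k)) (h.s12.n1 (h.p3.n1 k))
    (by simp) (by ring) (by ring) (by ring) (by ring) (by ring) (by ring)
  have had : a + b + c = 0 ∨ -a - b + c = 0 ∨ -a + b - c = 0 ∨ a - b - c = 0 := by
    by_contra! n
    exact e0 (h'.d4 (f (a' := (a + b + c) / 2) (b' := (-a - b + c) / 2) (c' := (-a + b - c) / 2)
      (d' := (a - b - c) / 2) l (by grind) (by grind) (by grind) (by grind)) (by grind) (by grind)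
      (by grind) (by grind)).1
  by_cases c0 : c = 0
  swap
  · obtain ⟨-, l1, l2, l3, l4⟩ := h.s45.d4 l a0 (by tauto) c0 e0
    exact h.n2 (by grind) k (h.p5.z1 (h.p3.z1 (h.s12.z1 (h.z1 l l1) l2) l3) l4)
  subst c0
  have b0 : b ≠ 0 := by grind
  have := h.s45.s34.d3 l a0 b0 e0
  have n := h.nrm l
  obtain ⟨l1, l2, e2⟩ : a ^ 2 = 1 ∧ b ^ 2 = 1 ∧ e ^ 2 = 2 := by unfold Pair at this; grind
  replace l := h.s12.z1 (h.z1 l l1) l2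
  have r1 : R e e 0 0 0 := by
    convert h.refl l h.p5.fr e (by ring) using 1 <;> grind
  have r2 : R 0 0 e e 0 := by simpa using h.refl k r1 e (by ring)
  have r3 : R 0 0 1 1 e := by simpa using h.p5.n1 (h.refl k l 1 (by ring))
  obtain ⟨R', h', f⟩ := h.new r1 (h.n1 r1) r2 (h.p3.n1 r2) (by simp) (by ring) (by ring)
    (by ring) (by ring) (by ring) (by ring)
  exact h'.b5 nc e2 (f l (by ring) (by ring) (by ring) (by ring))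
    (f (h.n1 l) (by ring) (by ring) (by ring) (by ring)) (f r3 (by ring) (by ring) (by ring) (by ring))
    (f (h.p3.n1 r3) (by ring) (by ring) (by ring) (by ring))

theorem crs (P : (F → F → F → F → F → Prop) → Prop) (hP : P R)
    (s1 : ∀ {R}, P R → P fun a b c d e => R b a c d e) (s2 : ∀ {R}, P R → P fun a b c d e => R a c b d e)
    (s4 : ∀ {R}, P R → P fun a b c d e => R a b c e d) : ∃ R, S.St R ∧ P R ∧ ∃ a b d e, R a b 0 d e ∧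
      a ≠ 0 ∧ d ≠ 0 := by
  obtain ⟨a, b, c, d, e, l, n1, n2⟩ := h.cross2 nc
  obtain ⟨d, e, ⟨n1, R, h, hP, l⟩, m⟩ := sort2 (fun d e => ¬ (d = 0 ∧ e = 0) ∧ ∃ R, S.St R ∧ P R ∧
    R a b c d e) (fun ⟨n, _, h, k⟩ => ⟨mt .symm n, _, h.s45, s4 k.1, k.2⟩) ⟨n1, R, h, hP, l⟩
  obtain ⟨a, b, c, ⟨n2, R, h, hP, l⟩, n⟩ := sort3 (fun a b c => ¬ (a = 0 ∧ b = 0 ∧ c = 0) ∧
    ∃ R, S.St R ∧ P R ∧ R a b c d e) (fun ⟨n, _, h, k⟩ => ⟨by grind, _, h.s12, s1 k.1, k.2⟩)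
    (fun ⟨n, _, h, k⟩ => ⟨by grind, _, h.s23, s2 k.1, k.2⟩) ⟨n2, R, h, hP, l⟩
  obtain rfl : c = 0 := by
    by_contra c0
    exact h.no4 nc l (by grind) (by grind) c0 (by grind)
  exact ⟨R, h, hP, a, b, d, e, l, by grind, by grind⟩

theorem no3a (k : R a b c 0 0) (a2 : a ^ 2 = 2) (b1 : b ^ 2 = 1) (c1 : c ^ 2 = 1) : False := by
  have h2 := h.two
  have a0 : a ≠ 0 := by grind
  replace k := h.p3.z1 (h.s12.z1 k b1) c1
  obtain ⟨R', h', f⟩ := h.p3.p3.rot nc (p := a) (q := a) (by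
    convert h.refl k h.fr a (by ring) using 1 <;> grind) a0 a0
  have r1 := f (a' := a) (b' := 0) k (by ring) (by ring)
  have r2 := f (a' := 0) (b' := a) (h.s12.n1 k) (by ring) (by ring)
  have r3 : R' a a 0 0 0 := by simpa using h'.s12.n1 (h'.refl r1 r2 1 (by grind))
  obtain ⟨R, h, ⟨r1, r2, r3⟩, p, q, d, e, k, p0, d0⟩ := h'.crs nc
    (fun R => R a a 0 0 0 ∧ R a 0 a 0 0 ∧ R 0 a a 0 0) ⟨r3, r1, r2⟩ (fun h => ⟨h.1, h.2.2, h.2.1⟩)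
    (fun h => ⟨h.2.1, h.1, h.2.2⟩) id
  by_cases q0 : q = 0
  swap
  · obtain ⟨R', h', f⟩ := h.p3.p3.rot nc r3 a0 a0
    exact h'.no4 nc (f (a' := a * q / 2) (b' := -(a * q / 2)) k (by grind) (by grind)) (by grind)
      (by grind) p0 d0
  subst q0
  obtain ⟨R', h', f⟩ := h.rot nc r1 a0 a0
  by_cases e0 : e = 0
  swap
  · exact h'.s45.s34.s45.no4 nc (f (a' := a * p / 2) (b' := -(a * p / 2)) k (by grind) (by grind))
      (by grind) (by grind) e0 d0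
  subst e0
  have r4 : R 0 0 p d 0 := h.s23.sw r2 a2 k
  obtain ⟨R'', h'', f'⟩ := h'.p3.s34.s23.rot nc (f (a' := 0) (b' := 0) r4 (by ring) (by ring)) p0 d0
  exact h''.no4 nc (f' (a' := p * a / 2) (b' := -(p * a / 2)) (f (a' := 1) (b' := -1) r2 (by grind)
    (by grind)) (by grind) (by grind)) (by grind) (by grind) (by grind) (by grind)

theorem false : False := by
  obtain ⟨a, b, c, d, e, k⟩ := h.np nc
  obtain ⟨a, b, c, d, e, ⟨l, R, h, k⟩, m⟩ := sort5 (fun a b c d e => T3 a b c d e ∧ ∃ R, S.St R ∧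
    R a b c d e) (fun ⟨l, _, h, k⟩ => ⟨l.sw.1, _, h.s12, k⟩) (fun ⟨l, _, h, k⟩ => ⟨l.sw.2.1, _, h.s23, k⟩)
    (fun ⟨l, _, h, k⟩ => ⟨l.sw.2.2.1, _, h.s34, k⟩) (fun ⟨l, _, h, k⟩ => ⟨l.sw.2.2.2, _, h.s45, k⟩)
    ⟨k.2, R, h, k.1⟩
  obtain ⟨a0, b0, c0⟩ := l.ne m
  obtain rfl : d = 0 := by_contra (h.no4 nc k a0 b0 c0)
  obtain rfl := m.2.2.2 rfl
  have h2 := h.two
  have ty {R a b c} (h : S.St R) (k : R a b c 0 0) (a0 : a ≠ 0) (b0 : b ≠ 0) (c0 : c ≠ 0) :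
      a ^ 2 = 1 ∧ b ^ 2 * c ^ 2 = 1 ∧ b ^ 2 + c ^ 2 = 3 ∨ b ^ 2 = 1 ∧ a ^ 2 * c ^ 2 = 1 ∧ a ^ 2 + c ^ 2 = 3 ∨
        c ^ 2 = 1 ∧ a ^ 2 * b ^ 2 = 1 ∧ a ^ 2 + b ^ 2 = 3 := by
    have l := h.d3 k a0 b0 c0
    have := h.nrm k
    have := h.no3a nc k
    have := h.s12.no3a nc k
    have := h.p3.no3a nc k
    generalize a ^ 2 = a, b ^ 2 = b, c ^ 2 = c at *
    obtain ⟨l | l | l, m | m | m, o | o | o⟩ := l <;>
      by_cases a = 2 <;> by_cases b = 2 <;> by_cases c = 2 <;> grind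
  have fl {R a b c} (h : S.St R) (k : R a b c 0 0) (l : a ^ 2 = 1 ∧ b ^ 2 * c ^ 2 = 1 ∧ b ^ 2 + c ^ 2 = 3) :
      ∃ a b c, R a b c 0 0 ∧ c ^ 2 = 1 ∧ a ^ 2 * b ^ 2 = 1 ∧ a ^ 2 + b ^ 2 = 3 :=
    ⟨_, _, _, by simpa using h.refl k (h.s12.n1 k) (2 - b ^ 2) (by grind), by grind⟩
  let P (R : F → F → F → F → F → Prop) := ∃ a b c, R a b c 0 0 ∧ a ≠ 0 ∧ b ≠ 0 ∧ c ≠ 0
  obtain ⟨R, h, ⟨a, b, c, k, a0, b0, c0⟩, p, q, d, e, l, p0, d0⟩ := h.crs nc P ⟨a, b, c, k, a0, b0, c0⟩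
    (fun ⟨a, b, c, k, a0, b0, c0⟩ => ⟨b, a, c, k, b0, a0, c0⟩)
    (fun ⟨a, b, c, k, a0, b0, c0⟩ => ⟨a, c, b, k, a0, c0, b0⟩) id
  obtain ⟨a, b, c, k, c1, n1, n2⟩ : ∃ a b c, R a b c 0 0 ∧ c ^ 2 = 1 ∧ a ^ 2 * b ^ 2 = 1 ∧
      a ^ 2 + b ^ 2 = 3 := by
    obtain m | m | m := ty h k a0 b0 c0
    · exact fl h k m
    · obtain ⟨a, b, c, k, m⟩ := fl h.s12 k m
      exact ⟨b, a, c, k, by grind⟩
    · exact ⟨a, b, c, k, m⟩
  have c0 : c ≠ 0 := by grind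
  have f1 {b} (k : R a b c 0 0) : (a * p + b * q = 0 ∨ (a * p + b * q) * a = 2 * p ∨
      (a * p + b * q) * b = 2 * q) ∧ (e = 0 → a * p + b * q = 0 ∨ (a * p + b * q) * p = 2 * a ∨
        (a * p + b * q) * q = 2 * b) := by
    constructor
    · by_contra! n
      exact h.no4 nc (h.refl k l ((a * p + b * q) / 2) (by grind)) (by grind) (by grind)
        (by grind) (by simpa)
    · rintro rfl
      by_contra! n
      exact h.no4 nc (h.refl l k ((a * p + b * q) / 2) (by grind)) (by grind) (by grind)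
        (by simp [c0]) (by grind)
  obtain ⟨e2, e3⟩ := f1 k
  by_cases q0 : q = 0
  · grind
  obtain rfl : e = 0 := by_contra (h.s45.s34.s45.no4 nc l p0 q0 · d0)
  obtain ⟨g2, g3⟩ := f1 (h.s12.n1 k)
  have t := ty h.s34 l p0 q0 d0
  have h4 := four_ne h2
  have a0 : a ≠ 0 := by grind
  have b0 : b ≠ 0 := by grind
  have r1 : p ^ 2 * b ^ 2 = q ^ 2 := by
    clear e3 g3 t
    rcases e2 with e2 | e2 | e2 <;> rcases g2 with g2 | g2 | g2 <;> grind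
  have r2 : a ^ 2 * p ^ 2 = b ^ 2 * q ^ 2 ∧ (p ^ 2 = 1 ∨ q ^ 2 = 1) ∨ a ^ 2 * (p ^ 2 - 2) ^ 2 =
      p ^ 2 * q ^ 2 * b ^ 2 ∧ p ^ 2 + q ^ 2 = 2 + p ^ 2 * q ^ 2 := by
    clear r1 t n1 n2 e2 g2
    rcases e3 rfl with e2 | e2 | e2 <;> rcases g3 rfl with g2 | g2 | g2 <;> grind
  clear e2 g2 e3 g3
  have := pow_ne_zero 2 p0
  generalize a ^ 2 = a, b ^ 2 = b, p ^ 2 = p, q ^ 2 = q, d ^ 2 = d at *
  rcases t with t | t | t <;> grind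

end St

theorem Ax.no_root [Finite F] [Finite G] [IsSimpleGroup G] (nc : ¬ IsMulCommutative G) (h : S.Ax)
    (u : W5 F) : ¬ S.Rt u := fun k => h.four nc k fun x y z w hx hy hz hw k1 k2 k3 k4 k5 k6 => by
  obtain ⟨v, l0, l1, l2, l3, l4⟩ := exists_fifth h.two hx.nrm hy.nrm hz.nrm hw.nrm (bw_symm k1)
    (bw_symm k2) (bw_symm k3) k4 (bw_symm k5) (bw_symm k6)
  have o : ∀ i j, bw (![x, y, z, w, v] i) (![x, y, z, w, v] j) = if i = j then 2 else 0 := by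
    intro i j
    fin_cases i <;> fin_cases j <;> simp [hx.nrm, hy.nrm, hz.nrm, hw.nrm, bw_symm k1,
      bw_symm k2, bw_symm k3, bw_symm k4, bw_symm k5, bw_symm k6, bw_symm l1, bw_symm l2, bw_symm l3,
      bw_symm l4, *]
  have hv : S.Rt v := by
    obtain ⟨a, hx⟩ := hx
    obtain ⟨b, hy⟩ := hy
    obtain ⟨c, hz⟩ := hz
    obtain ⟨d, hw⟩ := hw
    refine ⟨a * b * (c * d), l0, fun u => ?_⟩
    have := parseval h.two o u
    rw [S.mul_ap, hz.mul_ap hw (bw_symm k6), hx.mul_ap hy (bw_symm k1)]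
    simp [Fin.sum_univ_five, k2, k3, k5, bw_symm k4, two_smul] at this ⊢
    linear_combination (exp := 1) this
  exact St.false ⟨h, _, ⟨fun i => by fin_cases i <;> assumption, o⟩, rfl⟩ nc

end CF.MaxSub.O4.RS
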