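/-
Subgroups of `Sp₄` in odd characteristic: the inner products of roots; noncentral involutions.
-/
import Cfsg.Agent.MaxSub.O4D
import Cfsg.Agent.MaxSub.O4G
import Cfsg.Agent.Classical.Tau

set_option autoImplicit false

namespace CF.MaxSub.O4

open Matrix CF.Classical MulAction OnePoint Subgroup
open CF.MaxSub.E4 (M4 trace4 mul4)
open scoped MatrixGroups

theorem dk {k : Type*} [Field k] [IsAlgClosed k] (h2 : (2 : k) ≠ 0) (H : Subgroup PGL(2, k))
    [Finite H] (nq : ∀ g ∈ H, ∀ h ∈ H, tau g = 4 → tau h = 4 → tau (g * h) = 4 → tau (g * h⁻¹) = 4 →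
      g = 1 ∨ h = 1 ∨ h = g ∨ h = g⁻¹) (hι : pgl 1 0 0 (-1) (by simp) ∈ H) {p q r s : k} {d}
    (hg : pgl p q r s d ∈ H) (q0 : q ≠ 0) (r0 : r ≠ 0) (ps : p ≠ 0 ∨ s ≠ 0) {h} (hh : h ∈ H)
    (t1 : tau h ≠ 0) (t2 : tau (h * pgl 1 0 0 (-1) (by simp)) ≠ 0) :
    (∀ g ∈ H, g = 1 ∨ tau g = 0 ∨ tau g = 1 ∨ tau g = 2) ∨
      ∀ g ∈ H, g = 1 ∨ tau g = 0 ∨ tau g = 1 ∨ (tau g ^ 2 - 3 * tau g + 1 = 0 ∧ (5 : k) ≠ 0) := by
  have fι {x : OnePoint k} (e : pgl (1 : k) 0 0 (-1) (by simp) • x = x) : x = ∞ ∨ x = (0 : k) :=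
    eq_or_eq_of_fixed (by simpa [pgl_eq_one_iff, eq_neg_iff_add_eq_zero, one_add_one_eq_two])
      (infty_ne_coe _) (pgl_smul_infty_eq_infty.2 rfl) (pgl_smul_coe_eq_coe.2 (by simp)) e
  have g1 : pgl p q r s d • (∞ : OnePoint k) ≠ ∞ := mt pgl_smul_infty_eq_infty.1 r0
  have g2 : pgl p q r s d • ((0 : k) : OnePoint k) ≠ (0 : k) := fun e =>
    q0 (by simpa using (pgl_smul_coe_eq_coe.1 e).symm)
  have nf : ¬ ∃ x : OnePoint k, ∀ g : H, g • x = x := fun ⟨x, e⟩ => by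
    rcases fι (e ⟨_, hι⟩) with rfl | rfl
    exacts [g1 (e ⟨_, hg⟩), g2 (e ⟨_, hg⟩)]
  have n2 (x : OnePoint k) : (orbit H x).ncard ≠ 2 := fun e => by
    obtain ⟨y, yx, e, -⟩ := exists_of_ncard_orbit_eq_two e
    obtain ⟨a, b⟩ | ⟨a, b⟩ := e ⟨_, hι⟩
    · have g3 (a : pgl p q r s d • (∞ : OnePoint k) = (0 : k))
          (b : pgl p q r s d • ((0 : k) : OnePoint k) = ∞) : False := by
        simp [pgl_smul_infty_eq_coe, pgl_smul_coe_eq_infty, eq_comm (a := (0 : k))] at a b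
        tauto
      rcases fι a with rfl | rfl <;> rcases fι b with rfl | rfl <;>
        rcases e ⟨_, hg⟩ with c | c <;> first | exact yx rfl | tauto
    · have f {h} (hh : h ∈ H) (t : tau h ≠ 0) : h • x = x := ((e ⟨h, hh⟩).resolve_right fun c => by
        have := mul_self_eq_one_of_swap (t := h) yx.symm c.1 c.2
        obtain rfl := (sq_eq_one_iff_tau.1 (pow_two h ▸ this)).resolve_right t
        exact yx (c.1.symm.trans (one_smul _ x))).1
      have := (f (mul_mem hh hι) t2).trans (f hh t1).symm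
      rw [mul_smul, smul_left_cancel_iff] at this
      exact yx (a.symm.trans this)
  have uni {x : OnePoint k} {g : H} (e : g ∈ unip H x) : tau g.1 = 4 := by
    obtain rfl | e := e
    · exact tau_one
    obtain ⟨c, rfl⟩ := exists_smul_infty_eq x
    obtain ⟨β, -, e⟩ := isUnip_infty_iff.1 (isUnip_conj_iff.1 (show IsUnip g.1 _ from e))
    rw [← tau_conj c⁻¹, inv_inv, e, aff, tau_pgl]; norm_num
  have o (n : ℕ) {g} (hg : g ∈ H) (e : orderOf (⟨g, hg⟩ : H) ∣ n) : g ^ n = 1 :=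
    congrArg Subtype.val (orderOf_dvd_iff_pow_eq_one.1 e)
  have five (e : ∀ g : H, orderOf g ∣ 2 ∨ orderOf g ∣ 3 ∨ orderOf g ∣ 5) (g) (hg : g ∈ H) :
      g = 1 ∨ tau g = 0 ∨ tau g = 1 ∨ (tau g ^ 2 - 3 * tau g + 1 = 0 ∧ (5 : k) ≠ 0) := by
    rcases e ⟨g, hg⟩ with e | e | e
    · have := sq_eq_one_iff_tau.1 (o _ hg e); tauto
    · have := pow_three_eq_one_iff_tau.1 (o _ hg e); tauto
    have e5 := o _ hg e
    by_cases g1 : g = 1
    · exact .inl g1
    have t := (pow_five_eq_one_iff_tau.1 e5).resolve_left g1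
    refine .inr (.inr (.inr ⟨t, fun h5 => g1 ?_⟩))
    have t4 : tau g = 4 := by grind
    have t8 : tau (g ^ 2) = 4 := by rw [tau_sq, t4]; norm_num
    have c (n) (h : Nat.Coprime n 5) (e : g ^ n = 1) : g = 1 := by
      simpa [h.gcd_eq_one] using pow_gcd_eq_one.2 ⟨e, e5⟩
    rcases nq g hg _ (pow_mem hg 2) t4 t8 (by
      rw [← tau_inv, ← t8]; congr 1; rw [inv_eq_iff_mul_eq_one, ← e5]; group)
      (by rw [← tau_inv, ← t4]; congr 1; group) with e | e | e | e
    exacts [e, c 2 (by decide) e, by simpa [pow_two] using e, c 3 (by decide) (by rw [pow_succ, e]; simp)]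
  by_cases hu : ∀ x : OnePoint k, unip H x = ⊥
  · rcases klein_semisimple_cases hu with e | ⟨x, e⟩ | ⟨-, e⟩ | ⟨-, e⟩ | ⟨-, e⟩
    · exact (nf e).elim
    · exact (n2 x e).elim
    · exact .inr (five fun g => by have := e g; tauto)
    · refine .inl fun g hg => ?_
      rcases e ⟨g, hg⟩ with e | e
      · have := pow_three_eq_one_iff_tau.1 (o _ hg e); tauto
      · have := pow_four_eq_one_iff_tau.1 (o _ hg e); tauto
    · exact .inr (five e)
  push Not at hu
  obtain ⟨x, hx⟩ := hu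
  obtain ⟨⟨u, hu⟩, u1⟩ := (ne_bot_iff_exists_ne_one).1 hx
  replace u1 : u ≠ 1 := by simpa using u1
  have u1' : u.1 ≠ 1 := fun e => u1 (Subtype.ext e)
  have all {v} (hv : v ∈ unip H x) : v = 1 ∨ v = u ∨ v = u⁻¹ :=
    ((nq _ u.2 _ v.2 (uni hu) (uni hv) (uni (mul_mem hu hv))
      (uni (mul_mem hu (inv_mem hv)))).resolve_left u1').imp Subtype.ext (.imp Subtype.ext Subtype.ext)
  have u3 : u ^ 3 = 1 := by
    rcases all (pow_mem hu 2) with e | e | e
    · have := (sq_eq_one_iff_tau.1 (congrArg Subtype.val e)).resolve_left u1'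
      exact (four_ne h2 (uni hu ▸ this)).elim
    · exact (u1 (by simpa [pow_two] using e)).elim
    · rw [pow_succ, e]; simp
  have h3 : (3 : k) = 0 := by
    have := (pow_three_eq_one_iff_tau.1 (congrArg Subtype.val u3)).resolve_left u1'
    linear_combination this - uni hu
  have c3 : Nat.card (unip H x) = 3 := by
    rw [show unip H x = zpowers u from le_antisymm (fun v hv => by
      rcases all hv with rfl | rfl | rfl <;> simp) (zpowers_le.2 hu), Nat.card_zpowers,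
      orderOf_eq_prime u3 u1]
  rcases klein_unipotent_cases hx with e | ⟨e, -⟩ | ⟨-, -, e⟩ | ⟨e, e'⟩
  · exact (nf ⟨x, e⟩).elim
  · omega
  · exact .inr (five e)
  obtain ⟨y, -, -, a, b⟩ := exists_second_orbit hx (by omega)
  have c1 := ncard_orbit_mul_card_stabilizer (H := H) x
  have c2 := ncard_orbit_mul_card_stabilizer (H := H) y
  rw [c3] at e e' b
  rw [e] at b c1
  rw [b] at c2
  have d : Nat.card (stabilizer H x) ∣ 6 ∧ Nat.card (stabilizer H y) ∣ 4 := by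
    obtain ⟨a, b⟩ | ⟨a, b⟩ : Nat.card (stabilizer H x) = 6 ∧ Nat.card (stabilizer H y) = 4 ∨
      Nat.card (stabilizer H x) = 3 ∧ Nat.card (stabilizer H y) = 2 := by omega
    all_goals rw [a, b]; decide
  refine .inl fun g hg => or_iff_not_imp_left.2 fun g1 => ?_
  obtain ⟨z, hz⟩ := IsKlein.exists_fixed (X := OnePoint k) (⟨g, hg⟩ : H)
  rcases a z fun e => g1 (congrArg Subtype.val (e.le hz :)) with a | a
  · have := pow_three_eq_one_iff_tau.1 ((pow_mul g 2 3).symm.trans (o 6 hg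
      ((orderOf_dvd_of_mem_orbit hz a).trans d.1)))
    rw [sq_eq_one_iff_tau, tau_sq] at this
    grind
  · have := pow_four_eq_one_iff_tau.1 (o 4 hg ((orderOf_dvd_of_mem_orbit hz a).trans d.2))
    tauto

variable {F : Type*} [Field F] {I J : M4 F} {ν p q r s p' q' r' s' : F}

/-- Quaternions. -/
def Qt (I J : M4 F) (p q r s : F) : M4 F := p • 1 + q • I + r • J + s • (I * J)

/-- The relations of a quaternion algebra. -/
structure QB (I J : M4 F) (ν : F) : Prop where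
  two : (2 : F) ≠ 0
  ii : I * I = -1
  jj : J * J = ν • 1
  ji : J * I = -(I * J)
  ai : adj I = -I
  aj : adj J = -J
  ind : ∀ r s : F, r • J + s • (I * J) = 0 → r = 0 ∧ s = 0

namespace QB

variable (h : QB I J ν)
include h

theorem mul (p q r s p' q' r' s' : F) : Qt I J p q r s * Qt I J p' q' r' s' =
    Qt I J (p * p' - q * q' + ν * (r * r' + s * s')) (p * q' + q * p' + ν * (s * r' - r * s'))
      (p * r' + r * p' - q * s' + s * q') (p * s' + s * p' + q * r' - r * q') := by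
  have a (M : M4 F) : I * (I * M) = -M := by rw [← mul_assoc, h.ii]; simp
  have b (M : M4 F) : J * (I * M) = -(I * (J * M)) := by rw [← mul_assoc, h.ji]; simp [mul_assoc]
  simp only [Qt, mul_add, add_mul, smul_mul_assoc, mul_smul_comm, one_mul, mul_one, mul_assoc, a, b,
    h.ii, h.jj, h.ji, mul_neg, neg_neg]
  module

theorem adj' (p q r s : F) : adj (Qt I J p q r s) = Qt I J p (-q) (-r) (-s) := by
  simp [Qt, adj_mul, h.ai, h.aj, h.ji]

theorem tr (p q r s : F) : (Qt I J p q r s).trace = 4 * p := by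
  have z {M : M4 F} (e : adj M = -M) : M.trace = 0 := mul_left_cancel₀ h.two (by
    have := trace_adj M
    rw [e, trace_neg] at this; linear_combination -this)
  simp [Qt, z h.ai, z h.aj, z (M := I * J) (by simp [adj_mul, h.ai, h.aj, h.ji]), mul_comm]

theorem nrm (e : Sp (Qt I J p q r s)) : p ^ 2 + q ^ 2 - ν * (r ^ 2 + s ^ 2) = 1 := by
  have := congrArg trace e
  rw [h.adj', h.mul, h.tr, trace_one] at this
  exact mul_left_cancel₀ (four_ne h.two) (by simp at this; linear_combination this)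

theorem inj (e : Qt I J p 0 r s = Qt I J p 0 r' s') : r = r' ∧ s = s' := by
  simpa [sub_eq_zero] using h.ind (r - r') (s - s') (by
    unfold Qt at e; linear_combination (norm := module) e)

theorem inj' (e : Qt I J p q r s = Qt I J p' q' r' s') : p = p' ∧ q = q' ∧ r = r' ∧ s = s' := by
  have h4 := four_ne h.two
  obtain rfl : p = p' := mul_left_cancel₀ h4 (by rw [← h.tr, e, h.tr])
  obtain rfl : q = q' := by
    have := congrArg (fun M => (M * Qt I J 0 1 0 0).trace) e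
    simpa [h.mul, h.tr, h4] using this
  exact ⟨rfl, rfl, h.inj (p := 0) (by unfold Qt at *; linear_combination (norm := module) e)⟩

end QB

namespace Rep

variable {G : Type*} [Group G] {R : Rep G F} [Finite F] [Finite G] {g h t : G}

theorem Core.nq' (c : R.Core) (b : QB I J ν) (e : R.ρ g = Qt I J 1 q r s) (e' : R.ρ h = Qt I J 1 q' r' s')
    (k : q * q' = ν * (r * r' + s * s')) (k1 : ν * (s * r' - r * s') = 0) (k2 : q * s' = s * q')
    (k3 : q * r' = r * q') : (q = 0 ∧ r = 0 ∧ s = 0) ∨ (q' = 0 ∧ r' = 0 ∧ s' = 0) ∨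
      (q' = q ∧ r' = r ∧ s' = s) ∨ (q' = -q ∧ r' = -r ∧ s' = -s) := by
  have z : (0 : M4 F) = Qt I J 0 0 0 0 := by simp [Qt]
  have n := b.nrm (e ▸ R.sp g)
  have n' := b.nrm (e' ▸ R.sp h)
  have := c.nq (N := Qt I J 0 q r s) (M := Qt I J 0 q' r' s') (e.trans (by simp [Qt, add_assoc]))
    (e'.trans (by simp [Qt, add_assoc])) (by rw [b.mul, z]; congr 1 <;> grind)
    (by rw [b.mul, z]; congr 1 <;> grind) (by rw [b.mul, z]; congr 1 <;> grind)
    (by rw [b.mul, z]; congr 1 <;> grind)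
  rw [z, show -Qt I J 0 q r s = Qt I J 0 (-q) (-r) (-s) by simp [Qt]; abel] at this
  exact this.imp (fun e => (b.inj' e).2) (.imp (fun e => (b.inj' e).2)
    (.imp (fun e => (b.inj' e).2) fun e => (b.inj' e).2))

theorem Core.dg (c : R.Core) (b : QB I J 0) (ht : R.ρ t = I) (e : R.ρ g = Qt I J p q 1 0)
    (e' : R.ρ h = Qt I J p' q' r' s') : p' * q' = 0 := by
  have n := b.nrm (e ▸ R.sp g)
  have n' := b.nrm (e' ▸ R.sp h)
  replace ht : R.ρ t = Qt I J 0 1 0 0 := by simp [ht, Qt]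
  have u : R.ρ (g * t * g⁻¹ * t⁻¹) = Qt I J 1 0 (2 * p) (2 * q) := by
    simp only [map_mul, ρ_inv, ht, e, b.adj', b.mul]; congr 1 <;> grind
  have u' : R.ρ (h * (g * t * g⁻¹ * t⁻¹) * h⁻¹) = Qt I J 1 0 (2 * ((p' ^ 2 - q' ^ 2) * p - 2 * p' * q' * q))
      (2 * ((p' ^ 2 - q' ^ 2) * q + 2 * p' * q' * p)) := by
    rw [map_mul, map_mul, u, ρ_inv, e', b.adj', b.mul, b.mul]; congr 1 <;> grind
  have := c.nq' b u u' (by simp) (by simp) (by simp) (by simp)
  have h2 := b.two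
  have h4 := four_ne h2
  rcases this with k | k | k | k <;> grind

theorem Core.dkq (c : R.Core) (b : QB I J ν) (ν0 : ν ≠ 0) (ht : R.ρ t = I)
    (e : R.ρ g = Qt I J p q 1 0) (pq : p ≠ 0 ∨ q ≠ 0) (e' : R.ρ h = Qt I J p' q' r' s') (p0 : p' ≠ 0)
    (q0 : q' ≠ 0) : (∀ g p q r s, R.ρ g = Qt I J p q r s → (q = 0 ∧ r = 0 ∧ s = 0) ∨ p = 0 ∨
      (2 * p) ^ 2 = 1 ∨ (2 * p) ^ 2 = 2) ∨ ∀ g p q r s, R.ρ g = Qt I J p q r s →
        (q = 0 ∧ r = 0 ∧ s = 0) ∨ p = 0 ∨ (2 * p) ^ 2 = 1 ∨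
          (((2 * p) ^ 2) ^ 2 - 3 * (2 * p) ^ 2 + 1 = 0 ∧ (5 : F) ≠ 0) := by
  obtain ⟨k, _, _, φ, -⟩ : ∃ (k : Type _) (_ : Field k) (_ : IsAlgClosed k) (φ : F →+* k), True :=
    ⟨AlgebraicClosure F, _, inferInstance, algebraMap _ _, trivial⟩
  have inj := φ.injective
  obtain ⟨i, hi⟩ := IsAlgClosed.exists_eq_mul_self (-1 : k)
  have h2 : (2 : k) ≠ 0 := by rw [← map_ofNat φ]; exact (map_ne_zero φ).2 b.two
  have ν0' := (map_ne_zero φ).2 ν0
  have dt {g p q r s} (e : R.ρ g = Qt I J p q r s) : (φ p + i * φ q) * (φ p - i * φ q) -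
      φ ν * (φ r + i * φ s) * (φ r - i * φ s) = 1 := by
    have := congrArg φ (b.nrm (e ▸ R.sp g))
    simp only [map_sub, map_add, map_mul, map_pow, map_one] at this
    linear_combination this + (φ q ^ 2 - φ ν * φ s ^ 2) * hi
  obtain ⟨ψ, hψ⟩ : ∃ ψ : F → F → F → F → PGL(2, k), ∀ {g p q r s} (e : R.ρ g = Qt I J p q r s),
      ψ p q r s = pgl _ _ _ _ ((dt e).trans_ne one_ne_zero) := by
    classical
    exact ⟨fun p q r s => if h : _ then pgl (φ p + i * φ q) (φ ν * (φ r + i * φ s)) (φ r - i * φ s)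
      (φ p - i * φ q) h else 1, fun e => dif_pos _⟩
  have em {g p q r s g' p' q' r' s'} (e : R.ρ g = Qt I J p q r s) (e' : R.ρ g' = Qt I J p' q' r' s') :=
    (map_mul R.ρ g g').trans (e ▸ e' ▸ b.mul p q r s p' q' r' s')
  have ei {g p q r s} (e : R.ρ g = Qt I J p q r s) := (R.ρ_inv g).trans (e ▸ b.adj' p q r s)
  have tψ {g p q r s} (e : R.ρ g = Qt I J p q r s) : tau (ψ p q r s) = φ ((2 * p) ^ 2) := by
    rw [hψ e, tau_pgl, dt e]; simp [map_ofNat]; ring
  have mψ {g p q r s g' p' q' r' s'} (e : R.ρ g = Qt I J p q r s) (e' : R.ρ g' = Qt I J p' q' r' s') :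
      ψ p q r s * ψ p' q' r' s' = ψ (p * p' - q * q' + ν * (r * r' + s * s'))
        (p * q' + q * p' + ν * (s * r' - r * s')) (p * r' + r * p' - q * s' + s * q')
        (p * s' + s * p' + q * r' - r * q') := by
    rw [hψ e, hψ e', hψ (em e e'), pgl_mul]; congr 1 <;> simp <;> grind
  have iψ {g p q r s} (e : R.ρ g = Qt I J p q r s) : (ψ p q r s)⁻¹ = ψ p (-q) (-r) (-s) := by
    rw [hψ e, hψ (ei e), pgl_inv]; congr 1 <;> simp <;> ring
  have i0 : i ≠ 0 := by rintro rfl; simp at hi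
  have oψ {g p q r s} (e : R.ρ g = Qt I J p q r s) : ψ p q r s = 1 ↔ q = 0 ∧ r = 0 ∧ s = 0 := by
    rw [hψ e, pgl_eq_one_iff, ← map_eq_zero φ, ← map_eq_zero (a := r) φ, ← map_eq_zero (a := s) φ]
    refine ⟨fun ⟨a, b, c⟩ => ?_, fun ⟨a, b, c⟩ => by simp [a, b, c]⟩
    replace a := (mul_eq_zero.1 a).resolve_left ν0'
    have h := mul_ne_zero h2 i0
    exact ⟨mul_left_cancel₀ h (by linear_combination c), mul_left_cancel₀ h2 (by linear_combination a + b),
      mul_left_cancel₀ h (by linear_combination a - b)⟩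
  let H : Subgroup PGL(2, k) :=
    { carrier := {x | ∃ g p q r s, R.ρ g = Qt I J p q r s ∧ x = ψ p q r s}
      one_mem' := ⟨1, 1, 0, 0, 0, by simp [Qt], ((oψ (g := 1) (by simp [Qt])).2 (by simp)).symm⟩
      mul_mem' := by
        rintro _ _ ⟨g, _, _, _, _, e, rfl⟩ ⟨g', _, _, _, _, e', rfl⟩
        exact ⟨_, _, _, _, _, em e e', mψ e e'⟩
      inv_mem' := by
        rintro _ ⟨g, _, _, _, _, e, rfl⟩
        exact ⟨_, _, _, _, _, ei e, iψ e⟩ }
  have : Finite H := by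
    refine (Set.finite_range fun x : F × F × F × F => ψ x.1 x.2.1 x.2.2.1 x.2.2.2).subset ?_
    rintro _ ⟨g, p, q, r, s, -, rfl⟩
    exact ⟨⟨p, q, r, s⟩, rfl⟩
  replace ht : R.ρ t = Qt I J 0 1 0 0 := by simp [ht, Qt]
  have ι : pgl 1 0 0 (-1) (by simp) = ψ 0 1 0 0 :=
    hψ ht ▸ pgl_congr _ _ i (by simp) (by simp) (by simp) (by simp)
  have nm {x} (hx : x ∈ H) (e : tau x = 4) : ∃ g q r s, R.ρ g = Qt I J 1 q r s ∧ x = ψ 1 q r s := by
    obtain ⟨g, p, q, r, s, l, rfl⟩ := hx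
    rw [tψ l, ← map_ofNat φ 4, inj.eq_iff] at e
    have := four_ne b.two
    obtain rfl | rfl : p = 1 ∨ p = -1 := 
      mul_self_eq_one_iff.1 (mul_left_cancel₀ this (by linear_combination e))
    · exact ⟨g, q, r, s, l, rfl⟩
    · have l' : R.ρ (g * (t * t)) = Qt I J 1 (-q) (-r) (-s) := by simp [l, ht, b.mul]
      exact ⟨_, -q, -r, -s, l', hψ l ▸ hψ l' ▸ pgl_congr _ _ (-1) (by simp; ring)
        (by simp; ring) (by simp; ring) (by simp; ring)⟩
  have := dk h2 H (fun x hx y hy t1 t2 t3 t4 => by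
      obtain ⟨g, q, r, s, e, rfl⟩ := nm hx t1
      obtain ⟨g', q', r', s', e', rfl⟩ := nm hy t2
      rw [iψ e', mψ e (ei e'), tψ (em e (ei e')), ← map_ofNat φ 4, inj.eq_iff] at t4
      rw [mψ e e', tψ (em e e'), ← map_ofNat φ 4, inj.eq_iff] at t3
      have n := b.nrm (e ▸ R.sp g)
      have n' := b.nrm (e' ▸ R.sp g')
      have h16 := mul_ne_zero (four_ne b.two) (four_ne b.two)
      have k0 : q * q' = ν * (r * r' + s * s') := mul_left_cancel₀ h16 (by linear_combination t4 - t3)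
      have k1 : ν * (s * r' - r * s') = 0 := pow_eq_zero_iff two_ne_zero |>.1 (by grind)
      have k1' : s * r' = r * s' := by grind
      rcases c.nq' b e e' k0 k1 (by rw [← sub_eq_zero, ← pow_eq_zero_iff two_ne_zero]; grind)
        (by rw [← sub_eq_zero, ← pow_eq_zero_iff two_ne_zero]; grind) with
        l | l | ⟨rfl, rfl, rfl⟩ | ⟨rfl, rfl, rfl⟩
      exacts [.inl ((oψ e).2 l), .inr (.inl ((oψ e').2 l)), .inr (.inr (.inl rfl)),
        .inr (.inr (.inr (iψ e).symm))]) ⟨_, _, _, _, _, ht, ι⟩ ⟨_, _, _, _, _, e, (hψ e).symm⟩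
    (by simpa) (by simp) (by
      by_contra! k
      have h := mul_ne_zero h2 i0
      exact pq.elim (fun n => n (inj (mul_left_cancel₀ h2 (by rw [map_zero]; linear_combination k.1 + k.2))))
        fun n => n (inj (mul_left_cancel₀ h (by rw [map_zero]; linear_combination k.1 - k.2))))
    ⟨_, _, _, _, _, e', rfl⟩
    (by simp [tψ e', b.two, p0]) (by rw [ι, mψ e' ht, tψ (em e' ht)]; simp [b.two, q0])
  have five : (5 : k) ≠ 0 → (5 : F) ≠ 0 := fun n e => n (by rw [← map_ofNat φ, e, map_zero])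
  refine this.imp (fun l g p q r s e => ?_) fun l g p q r s e => ?_ <;>
    have := l _ ⟨_, _, _, _, _, e, rfl⟩ <;> rw [oψ e, tψ e] at this <;>
    refine this.imp_right (.imp (by simp [b.two]) (.imp (map_eq_one_iff φ inj).1 fun e => ?_))
  · exact inj (by rw [e, map_ofNat])
  · exact ⟨inj (by simpa [map_ofNat] using e.1), five e.2⟩

end Rep

end CF.MaxSub.O4
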