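/-
Subgroups of `Sp₄` in odd characteristic: there are no noncentral involutions.
-/
import Cfsg.Agent.MaxSub.O4H

set_option autoImplicit false

namespace CF.MaxSub.O4

open Matrix
open CF.MaxSub.E4 (M4 trace4 mul4)

variable {F : Type*} [Field F] {M N : M4 F} {x y z n u m : W5 F} {c : F}

theorem scal_of (h2 : (2 : F) ≠ 0) (h : ∀ v, M * wm v = wm v * M) : ∃ c : F, M = c • 1 := by
  have k v i j := congrFun₂ (h v) i j
  have a := k (Pi.single 0 1); have b := k (Pi.single 1 1); have c := k (Pi.single 2 1)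
  have a1 := a 0 1; have a2 := a 0 2; have a3 := a 1 0; have a4 := a 2 0; have a5 := a 3 1
  have a6 := a 3 2; have a7 := a 1 3; have a8 := a 2 3
  have b1 := b 0 1; have b2 := b 2 3; have b3 := b 0 2; have b4 := b 3 1; have b5 := k (Pi.single 3 1) 0 2
  have c1 := c 0 2; have c2 := c 0 1
  simp [mul4, wm] at a1 a2 a3 a4 a5 a6 a7 a8 b1 b2 b3 b4 b5 c1 c2
  refine ⟨M 0 0, ?_⟩
  ext i j; fin_cases i <;> fin_cases j <;> simp <;> grind

theorem Sp.pm (h : Sp (c • (1 : M4 F))) : c = 1 ∨ c = -1 :=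
  mul_self_eq_one_iff.1 (by simpa [Sp] using congrFun₂ h 0 0)

/-- The action on the five-dimensional space. -/
def act (M : M4 F) : Module.End F (W5 F) where
  toFun v := wv (M * wm v * adj M)
  map_add' u v := by simp [mul_add, add_mul, wv_add]
  map_smul' c v := by simp [wv_smul]

theorem wm_act (h2 : (2 : F) ≠ 0) (h : Sp M) (v : W5 F) : wm (act M v) = M * wm v * adj M := by
  have := eq_wm h2 (M := M * wm v * adj M) (by simp [adj_mul, mul_assoc])
  rw [trace_mul_cycle, h] at this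
  simpa [act] using this.symm

theorem act_mul (h2 : (2 : F) ≠ 0) (h : Sp N) (v : W5 F) : act (M * N) v = act M (act N v) :=
  congrArg wv (by simp [wm_act h2 h, adj_mul, ← mul_assoc])

theorem bw_act (h2 : (2 : F) ≠ 0) (h : Sp M) (u v : W5 F) : bw (act M u) (act M v) = bw u v :=
  mul_left_cancel₀ h2 (by
    rw [← trace_wm_mul, ← trace_wm_mul, wm_act h2 h, wm_act h2 h, ← mul_assoc, trace_mul_cycle]
    simp only [← mul_assoc]
    rw [h, one_mul, mul_assoc _ (adj _), h, mul_one])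

theorem wm_refl (h2 : (2 : F) ≠ 0) (h : bw x x = 2) (v : W5 F) :
    wm x * wm v * wm x = wm (bw v x • x - v) := by
  rw [wm_mul x, sub_mul, mul_assoc, wm_sq0 h2 h, bw_comm]; simp

theorem qb (h2 : (2 : F) ≠ 0) (hx : bw x x = 2) (hy : bw y y = 2) (xy : bw x y = 0) (xn : bw x n = 0)
    (yn : bw y n = 0) (n0 : n ≠ 0) : QB (wm x * wm y) (wm x * wm n) (-(bw n n / 2)) where
  two := h2
  ii := by rw [mul_assoc, wm_an xy, mul_neg, wm_sq' h2 hx, wm_sq0 h2 hy]
  jj := by rw [mul_assoc, wm_an xn, mul_neg, wm_sq' h2 hx, wm_sq h2 n, neg_smul]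
  ji := by simp [mul_assoc, wm_an xy, wm_an xn, wm_an0 yn, wm_sq' h2 hx]
  ai := by simp [adj_mul, wm_an0 xy]
  aj := by simp [adj_mul, wm_an0 xn]
  ind r s e := by
    have k {v} (hv : bw v v = 2) (r : F) (e : (2 * r) • (wm v * wm n) = 0) : r = 0 := by
      by_contra r0
      have := congrArg (wm v * ·) ((smul_eq_zero.1 e).resolve_left (mul_ne_zero h2 r0))
      exact n0 (wm_inj (by simpa [wm_sq' h2 hv] using this))
    have e' := congrArg (fun M => wm x * M * wm x) e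
    simp only [mul_assoc, wm_an xy, wm_sq' h2 hx, mul_add, add_mul, smul_mul_assoc, mul_smul_comm,
      wm_an0 xn, mul_neg, neg_mul, neg_neg, zero_mul, mul_zero] at e e'
    exact ⟨k hx r (by linear_combination (norm := module) e - e'),
      k hy s (by linear_combination (norm := module) -e - e')⟩

theorem qb' (h2 : (2 : F) ≠ 0) (hx : bw x x = 2) (hy : bw y y = 2) (xy : bw x y = 0) (n : ¬ Pl x y z) :
    ∃ J ν, QB (wm x * wm y) J ν ∧ wm x * wm z = Qt (wm x * wm y) J (bw z x / 2) (bw z y / 2) 1 0 := by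
  refine ⟨_, _, qb (n := z - (bw z x / 2) • x - (bw z y / 2) • y) h2 hx hy xy ?_ ?_ (fun e => n
    ⟨_, _, by rw [sub_sub, sub_eq_zero] at e; exact e⟩), ?_⟩
  · simp [hx, xy, h2, bw_comm x z]
  · simp [hy, bw_symm xy, h2, bw_comm y z]
  · simp [Qt, mul_sub, wm_sq0 h2 hx]

namespace Rep

variable {G : Type*} [Group G] (R : Rep G F) {g h t : G}

/-- Roots. -/
def MR (x : W5 F) : Prop := bw x x = 2 ∧ ∃ g, R.ρ g = wm x ∨ R.ρ g = -wm x

variable {R}

theorem MR.neg1 (h2 : (2 : F) ≠ 0) (hx : R.MR x) (hy : R.MR y) (xy : bw x y = 0) : ∃ t, R.ρ t = -1 := by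
  obtain ⟨hx, g, k⟩ := hx
  obtain ⟨hy, h, l⟩ := hy
  refine ⟨g * h * (g * h), ?_⟩
  rcases k with k | k <;> rcases l with l | l <;>
    simp [k, l, mul_assoc, wm_an xy, wm_sq0 h2 hx, wm_sq0 h2 hy]

theorem MR.el (ht : R.ρ t = -1) (hx : R.MR x) : ∃ g, R.ρ g = wm x := by
  obtain ⟨-, g, k | k⟩ := hx
  exacts [⟨g, k⟩, ⟨t * g, by simp [k, ht]⟩]

variable [Finite F] [Finite G]

theorem Core.tf (c : R.Core) (hx : R.MR x) (hy : R.MR y) (xy : bw x y = 0) (hz : R.MR z)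
    (a0 : bw z x ≠ 0) (b0 : bw z y ≠ 0) (n : ¬ Pl x y z) : Pair (bw z x ^ 2) (bw z y ^ 2) := by
  have h2 := c.two
  obtain ⟨t, ht⟩ := hx.neg1 h2 hy xy
  obtain ⟨g, eg⟩ := hx.el ht
  obtain ⟨h, eh⟩ := hy.el ht
  obtain ⟨k, ek⟩ := hz.el ht
  obtain ⟨J, ν, b, e⟩ := qb' h2 hx.1 hy.1 xy n
  have ei : R.ρ (g * h) = wm x * wm y := by rw [map_mul, eg, eh]
  rw [← ek, ← eg, ← map_mul, eg] at e
  obtain ⟨p, hp⟩ : ∃ p, p = bw z x / 2 := ⟨_, rfl⟩
  obtain ⟨q, hq⟩ : ∃ q, q = bw z y / 2 := ⟨_, rfl⟩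
  rw [← hp, ← hq] at e
  rw [show bw z x = 2 * p by rw [hp]; field_simp] at a0 ⊢
  rw [show bw z y = 2 * q by rw [hq]; field_simp] at b0 ⊢
  have p0 := right_ne_zero_of_mul a0
  have q0 := right_ne_zero_of_mul b0
  have ν0 : ν ≠ 0 := by rintro rfl; exact mul_ne_zero p0 q0 (c.dg b ei e e)
  have nr := b.nrm (e ▸ R.sp _)
  have eI : R.ρ (g * h) = Qt (wm x * wm y) J 0 1 0 0 := by simp [ei, Qt]
  have e1 := (map_mul R.ρ (g * k) (g * h)).trans (by rw [e, eI, b.mul])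
  have e2 := (map_mul R.ρ (g * k * (g * k)) (g * h)).trans (by rw [map_mul, e, eI, b.mul, b.mul])
  have h4 := four_ne h2
  unfold Pair
  rcases c.dkq b ν0 ei e (.inl p0) e p0 q0 with l | l <;> have l1 := l _ _ _ _ _ e <;>
    have l2 := l _ _ _ _ _ e1 <;> have l3 := l _ _ _ _ _ e2 <;>
    simp only [mul_zero, mul_one, add_zero, zero_sub, sub_zero, zero_add, one_ne_zero, p0, q0,
      false_and, and_false, false_or, neg_eq_zero, mul_neg, neg_sq, zero_mul] at l1 l2 l3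
  · rcases l1 with l1 | l1 <;> rcases l2 with l2 | l2 <;> grind
  · rcases l1 with l1 | l1
    · exact .inl l1
    rcases l2 with l2 | l2
    · exact .inr (.inl l2)
    by_cases s : (2 * p) ^ 2 + (2 * q) ^ 2 = 3
    · exact .inr (.inr ⟨s, by grind, l1.2⟩)
    have : (2 * p) ^ 2 = (2 * q) ^ 2 := by grind
    rcases l3 with l3 | l3 | l3 | l3 <;> grind

theorem Core.tf2 (c : R.Core) (hx : R.MR x) (hy : R.MR y) (xy : bw x y = 0) (hz : R.MR z)
    (a0 : bw z x ≠ 0) (b0 : bw z y ≠ 0) (pl : Pl x y z) (hu : R.MR u) (n : ¬ Pl x y u)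
    (n0 : bw u x ≠ 0 ∨ bw u y ≠ 0) : bw z x ^ 2 = 2 := by
  have h2 := c.two
  obtain ⟨t, ht⟩ := hx.neg1 h2 hy xy
  obtain ⟨g, eg⟩ := hx.el ht
  obtain ⟨h, eh⟩ := hy.el ht
  obtain ⟨k, ek⟩ := hz.el ht
  obtain ⟨f, ef⟩ := hu.el ht
  obtain ⟨J, ν, b, e⟩ := qb' h2 hx.1 hy.1 xy n
  have ei : R.ρ (g * h) = wm x * wm y := by rw [map_mul, eg, eh]
  rw [← ef, ← eg, ← map_mul, eg] at e
  obtain ⟨p, q, rfl⟩ := pl
  have e' : R.ρ (g * k) = Qt (wm x * wm y) J p q 0 0 := by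
    simp [eg, ek, Qt, mul_add, wm_sq0 h2 hx.1]
  simp only [bw_add_left, bw_smul_left, hx.1, hy.1, xy, bw_symm xy, mul_zero, add_zero,
    zero_add] at a0 b0 ⊢
  have p0 := left_ne_zero_of_mul a0
  have q0 := left_ne_zero_of_mul b0
  have ν0 : ν ≠ 0 := by rintro rfl; exact mul_ne_zero p0 q0 (c.dg b ei e e')
  have nr := b.nrm (e' ▸ R.sp _)
  have eI : R.ρ (g * h) = Qt (wm x * wm y) J 0 1 0 0 := by simp [ei, Qt]
  have e1 := (map_mul R.ρ (g * k) (g * h)).trans (by rw [e', eI, b.mul])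
  have h4 := four_ne h2
  rcases c.dkq b ν0 ei e (by simpa [h2] using n0) e' p0 q0 with l | l <;> have l1 := l _ _ _ _ _ e' <;>
    have l2 := l _ _ _ _ _ e1 <;>
    simp only [mul_zero, mul_one, add_zero, zero_sub, sub_zero, zero_add, p0, q0,
      false_and, false_or, neg_eq_zero, mul_neg, neg_sq, zero_mul] at l1 l2 <;>
    rcases l1 with l1 | l1 <;> rcases l2 with l2 | l2 <;> grind

theorem Core.n2 (c : R.Core) (hx : R.MR x) (hy : R.MR y) (xy : bw x y = 0) (mx : bw m x = 0)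
    (my : bw m y = 0) (mm : bw m m = 0) (hz : R.MR (m - x)) (hu : R.MR (m - y)) : m = 0 := by
  have h2 := c.two
  obtain ⟨t, ht⟩ := hx.neg1 h2 hy xy
  obtain ⟨g, eg⟩ := hx.el ht
  obtain ⟨h, eh⟩ := hy.el ht
  obtain ⟨k, ek⟩ := hz.el ht
  obtain ⟨f, ef⟩ := hu.el ht
  have m0 : wm m * wm m = 0 := by simp [wm_sq h2, mm]
  have z {v} (hv : bw v v ≠ 0) (e : wm v * wm m = 0) : m = 0 := wm_inj (by
    have := congrArg (wm v * ·) e
    simpa [← mul_assoc, wm_sq h2, hv, h2] using this)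
  have := c.nq (g := t * g * k) (k := t * h * f) (N := -(wm x * wm m)) (M := -(wm y * wm m))
    (by simp [ht, eg, ek, mul_sub, wm_sq0 h2 hx.1]; abel)
    (by simp [ht, eh, ef, mul_sub, wm_sq0 h2 hy.1]; abel)
    (by simp [mul_assoc, wm_an (bw_symm mx), m0]) (by simp [mul_assoc, wm_an (bw_symm my), m0])
    (by simp [mul_assoc, wm_an (bw_symm my), m0]) (by simp [mul_assoc, wm_an (bw_symm mx), m0])
  have h4 : (2 + 2 : F) ≠ 0 := fun e => four_ne h2 (by linear_combination e)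
  rcases this with e | e | e | e
  · exact z (hx.1 ▸ h2) (neg_eq_zero.1 e)
  · exact z (hy.1 ▸ h2) (neg_eq_zero.1 e)
  · exact z (v := x - y) (by simpa [hx.1, hy.1, xy, bw_symm xy] using h4) (by
      simp only [wm_sub, sub_mul]; linear_combination (norm := module) e)
  · exact z (v := x + y) (by simpa [hx.1, hy.1, xy, bw_symm xy] using h4) (by
      simp only [wm_add, add_mul]; linear_combination (norm := module) -e)

omit [Finite F] [Finite G]

variable (R) in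
/-- The action on the five-dimensional space. -/
def α (h2 : (2 : F) ≠ 0) : G →* Module.End F (W5 F) where
  toFun g := act (R.ρ g)
  map_one' := LinearMap.ext fun v => by simp [act, wv_wm h2]
  map_mul' g h := LinearMap.ext fun v => by rw [map_mul, act_mul h2 (R.sp h)]; rfl

theorem wm_α (h2 : (2 : F) ≠ 0) (g : G) (v : W5 F) :
    wm (R.α h2 g v) = R.ρ g * wm v * adj (R.ρ g) := wm_act h2 (R.sp g) v

theorem mem_ker_α (h2 : (2 : F) ≠ 0) : g ∈ (R.α h2).ker ↔ ∃ c : F, R.ρ g = c • 1 := by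
  refine ⟨fun e => scal_of h2 fun v => ?_, fun ⟨c, e⟩ => LinearMap.ext fun v => wm_inj ?_⟩
  · have := wm_α (R := R) h2 g v
    rw [MonoidHom.mem_ker.1 e] at this
    rw [← mul_one (R.ρ g * _), ← (R.sp g : _ = _), ← mul_assoc, ← this]; rfl
  · obtain rfl | rfl := (e ▸ R.sp g).pm <;> simp [wm_α, e]

theorem Core.ex (c : R.Core) : ∃ t, ∀ c : F, R.ρ t ≠ c • 1 := by
  by_contra! k
  obtain ⟨a, e⟩ := c.all (fun M => ∃ c : F, M = c • 1) (by
    rintro _ _ ⟨a, rfl⟩ ⟨b, rfl⟩; exact ⟨a - b, (sub_smul ..).symm⟩) k (single 0 1 1)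
  simpa using congrFun₂ e 0 1

theorem Core.simple (c : R.Core) : IsSimpleGroup (G ⧸ (R.α c.two).ker) := by
  obtain ⟨t, ht⟩ := c.ex
  have : Nontrivial (G ⧸ (R.α c.two).ker) := ⟨(t : G), 1, fun e => by
    obtain ⟨a, e⟩ := (mem_ker_α c.two).1 ((QuotientGroup.eq_one_iff t).1 e)
    exact ht a e⟩
  refine ⟨fun N hN => or_iff_not_imp_left.2 fun n => ?_⟩
  obtain ⟨⟨g, hg⟩, k⟩ := (Subgroup.ne_bot_iff_exists_ne_one).1 n
  obtain ⟨g, rfl⟩ := QuotientGroup.mk_surjective g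
  have := c.qs _ (hN.comap (QuotientGroup.mk' _)) g hg fun a e =>
    k (Subtype.ext ((QuotientGroup.eq_one_iff g).2 ((mem_ker_α c.two).2 ⟨a, e⟩)))
  exact Subgroup.comap_injective (QuotientGroup.mk'_surjective _) this

theorem Core.nc [Finite G] (c : R.Core) : ¬ IsMulCommutative (G ⧸ (R.α c.two).ker) := fun h => by
  obtain ⟨t, ht⟩ := c.ex
  obtain ⟨a, e⟩ := c.cen (M := R.ρ t) (c.ind t ht _ (by simp) fun g x e => by
    obtain ⟨a, k⟩ := (mem_ker_α c.two).1 ((QuotientGroup.eq_one_iff (g * t * g⁻¹ * t⁻¹)).1 (by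
      have : (g : G ⧸ (R.α c.two).ker) * t = t * g := h.is_comm.comm _ _
      simp only [QuotientGroup.mk_mul, QuotientGroup.mk_inv]; rw [this]; simp))
    rw [show g * t * g⁻¹ * x = g * t * g⁻¹ * t⁻¹ * t * x by simp, map_mul, map_mul, k]
    simp [mul_assoc, ← e])
  exact ht a e

variable (R) in
/-- The orthogonal representation of the quotient. -/
def rs (h2 : (2 : F) ≠ 0) : RS (G ⧸ (R.α h2).ker) F :=
  ⟨QuotientGroup.lift _ (R.α h2) le_rfl, fun g h e => by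
    obtain ⟨g, rfl⟩ := QuotientGroup.mk_surjective g
    obtain ⟨h, rfl⟩ := QuotientGroup.mk_surjective h
    refine QuotientGroup.eq.2 (MonoidHom.mem_ker.2 ?_)
    rw [map_mul, ← show R.α h2 g = R.α h2 h from e, ← map_mul, inv_mul_cancel, map_one], fun g => by
    obtain ⟨g, rfl⟩ := QuotientGroup.mk_surjective g; exact bw_act h2 (R.sp g)⟩

theorem rs_α (h2 : (2 : F) ≠ 0) (g : G) (v : W5 F) : (R.rs h2).α g v = R.α h2 g v := rfl

theorem mr (h2 : (2 : F) ≠ 0) (h : (R.rs h2).Rt x) : R.MR x := by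
  obtain ⟨g, hx, h⟩ := h
  obtain ⟨g, rfl⟩ := QuotientGroup.mk_surjective g
  obtain ⟨a, k⟩ := scal_of h2 (M := wm x * R.ρ g) fun v => by
    have := wm_α (R := R) h2 g v
    rw [← rs_α, h v, ← wm_refl h2 hx] at this
    rw [mul_assoc, ← mul_one (R.ρ g * _), ← (R.sp g : _ = _), ← mul_assoc (R.ρ g * _), ← this]
    simp only [mul_assoc, wm_sq' h2 hx]
  have s : Sp (wm x) := by simpa [Sp] using wm_sq0 h2 hx
  have k' := congrArg (wm x * ·) k
  simp only [wm_sq' h2 hx] at k'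
  refine ⟨hx, g, ?_⟩
  obtain rfl | rfl := (k ▸ s.mul (R.sp g)).pm <;> simp [k']

theorem Core.no_inv [Finite F] [Finite G] (c : R.Core) (e : g * g = 1) : R.ρ g = 1 ∨ R.ρ g = -1 := by
  have h2 := c.two
  have := c.simple
  have nr := RS.Ax.no_root (S := R.rs h2) c.nc ⟨h2,
    fun a b d f => c.tf (mr h2 a) (mr h2 b) d (mr h2 f),
    fun a b d f i j k l => c.tf2 (mr h2 a) (mr h2 b) d (mr h2 f) i j k (mr h2 l),
    fun a b d f i j k l => c.n2 (mr h2 a) (mr h2 b) d f i j (mr h2 k) (mr h2 l)⟩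
  have e' : R.ρ g * R.ρ g = 1 := by rw [← map_mul, e, map_one]
  have ad := ((R.sp g).eq_adj e').symm
  have k := eq_wm h2 ad
  generalize (R.ρ g).trace / 4 = a, wv (R.ρ g) = x at k
  by_cases x0 : x = 0
  · simp only [x0, wm_zero, add_zero] at k
    obtain rfl | rfl := (k ▸ R.sp g).pm <;> simp [k]
  have l := congrArg wv e'
  simp only [k, mul_add, add_mul, smul_mul_assoc, mul_smul_comm, one_mul, mul_one, wm_sq h2, wv_add,
    wv_smul, wv_one, wv_wm h2, smul_zero, zero_add, add_zero, ← add_smul, smul_eq_zero, x0,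
    or_false] at l
  obtain rfl : a = 0 := mul_left_cancel₀ h2 (by linear_combination l)
  rw [zero_smul, zero_add] at k
  have hx : bw x x = 2 := by
    have := congrFun₂ (k ▸ e' : wm x * wm x = 1) 0 0
    rw [wm_sq h2] at this
    exact (div_eq_one_iff_eq h2).1 (by simpa using this)
  exact (nr x ⟨g, hx, fun v => wm_inj (by rw [rs_α, wm_α, k, adj_wm, wm_refl h2 hx])⟩).elim

end Rep

end CF.MaxSub.O4
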