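/-
Subgroups of `Sp₄` in odd characteristic: traces, quadratic elements, overgroups.
-/
import Cfsg.Agent.MaxSub.O4I
import Cfsg.Agent.GW.Cor1

set_option autoImplicit false

namespace CF.MaxSub.O4

open Matrix Polynomial
open CF.MaxSub.E4 (M4 trace4 mul4 subOf e0 e1 e3)

variable {F : Type*} [Field F] {M B C : M4 F} {x y z : W5 F} {c : F} {n : ℕ}

theorem ss (e : M ^ n = 1) (h : (n : F) ≠ 0) (f : F[X]) {k : ℕ} (l : aeval M f ^ k = 0) :
    aeval M f = 0 := by
  have := ((separable_X_pow_sub_C (1 : F) h one_ne_zero).squarefree.squarefree_of_dvd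
    (minpoly.dvd F M (by simp [e]))).isRadical k f (minpoly.dvd F M (by simpa using l))
  exact aeval_eq_zero_of_dvd_aeval_eq_zero this (minpoly.aeval F M)

theorem ss1 (e : M ^ n = 1) (h : (n : F) ≠ 0) {k : ℕ} (l : (M - 1) ^ k = 0) : M = 1 :=
  sub_eq_zero.1 (by
    have := ss e h (X - 1) (k := k) (by simpa using l)
    simpa using this)

theorem tr_pow (p : ℕ) [hp : Fact p.Prime] [CharP F p] (M : M4 F) : (M ^ p).trace = M.trace ^ p := by
  have : (M ^ p).charpoly = M.charpoly.map (frobenius F p) := by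
    apply Polynomial.expand_injective hp.1.pos
    rw [← Polynomial.map_expand, Polynomial.map_frobenius_expand]
    unfold charpoly
    rw [AlgHom.map_det, ← det_pow]
    refine congr_arg det (matPolyEquiv.injective ?_)
    rw [map_pow, matPolyEquiv_charmatrix, sub_pow_char_of_commute, ← Polynomial.C_pow]
    · exact (id (matPolyEquiv_eq_X_pow_sub_C p M) :)
    · exact (Polynomial.C M).commute_X
  rw [trace_eq_neg_charpoly_coeff, trace_eq_neg_charpoly_coeff, this, Polynomial.coeff_map, ← map_neg,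
    frobenius_def]

theorem sw_inj (h2 : (2 : F) ≠ 0) {a b : F} (e : a • (1 : M4 F) + wm x = b • 1 + wm y) : a = b ∧ x = y :=
  ⟨mul_left_cancel₀ (four_ne h2) (by simpa [mul_comm] using congrArg trace e),
    by simpa [wv_add, wv_smul, wv_one, wv_wm h2] using congrArg wv e⟩

theorem tr4 (x y z w : W5 F) : (wm x * wm y * wm z * wm w).trace =
    bw x y * bw z w - bw x z * bw y w + bw x w * bw y z := by
  simp [wm, bw, mul4, trace4]; ring

theorem act_refl (h2 : (2 : F) ≠ 0) {κ : F} (κ0 : κ ≠ 0) (hx : bw x x = 2 * κ) (hy : bw y y = 2 * κ) :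
    Sp (κ⁻¹ • (wm x * wm y)) ∧ ∀ v, act (κ⁻¹ • (wm x * wm y)) v =
      v - (κ⁻¹ * bw v y) • y - (κ⁻¹ * bw (v - (κ⁻¹ * bw v y) • y) x) • x := by
  have s {x : W5 F} (hx : bw x x = 2 * κ) : wm x * wm x = κ • 1 := by
    rw [wm_sq h2, hx, mul_div_cancel_left₀ _ h2]
  have r {x : W5 F} (hx : bw x x = 2 * κ) (v) :
      wm x * wm v * wm x = -κ • wm (v - (κ⁻¹ * bw v x) • x) := by
    rw [wm_mul x, sub_mul, mul_assoc, s hx, bw_comm]; simp [smul_sub, smul_smul, κ0]; abel
  have : Sp (κ⁻¹ • (wm x * wm y)) := by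
    simp [Sp, adj_mul, mul_assoc, ← mul_assoc (wm x), s hx, s hy, smul_smul, κ0]
  refine ⟨this, fun v => wm_inj ?_⟩
  rw [wm_act h2 this, adj_smul, adj_mul, adj_wm, adj_wm, smul_mul_assoc, smul_mul_assoc, mul_smul_comm,
    show wm x * wm y * wm v * (wm y * wm x) = wm x * (wm y * wm v * wm y) * wm x by
      simp only [mul_assoc], r hy, mul_smul_comm, smul_mul_assoc, r hx, smul_smul, smul_smul, smul_smul]
  field_simp
  simp

theorem eq_zero_of_tv (h2 : (2 : F) ≠ 0) (h : ∀ v, act (tv v 1) x = x) : x = 0 := by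
  have a := h e0; have b := h e3; have c := h (e0 + e1)
  have a1 := congrFun a 1; have a2 := congrFun a 2; have b3 := congrFun b 3; have b4 := congrFun b 4
  have c2 := congrFun c 2
  simp [act, wv, wm, tv, adj, mul4, e0, e1, e3, vecMulVec_apply, one_apply] at a1 a2 b3 b4 c2
  apply ext5 <;> simp <;> grind

theorem bw_tv (h2 : (2 : F) ≠ 0) (v : Fin 4 → F) (x : W5 F) : bw (act (tv v 1) x) x = bw x x := by
  simp [act, wv, wm, tv, adj, mul4, vecMulVec_apply, one_apply, bw]; field_simp; ring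

namespace Rep

variable {G : Type*} [Group G] (R : Rep G F) {g h k a b : G}

/-- The trace. -/
def t (g : G) : F := (R.ρ g).trace

/-- The self-adjoint part. -/
def N (g : G) : M4 F := R.ρ g + R.ρ g⁻¹

/-- The vector of an element. -/
def xv (g : G) : W5 F := wv (R.N g)

/-- The normaliser in the symplectic group. -/
def Nm (B : M4 F) : Prop := Sp B ∧ ∀ g, ∃ h, R.ρ h = B * R.ρ g * adj B

/-- The normaliser is maximal. -/
def Mx : Prop := ∀ p : M4 F → Prop, (∀ A B, Sp A → Sp B → p A → p B → p (A * B)) →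
  (∀ B, R.Nm B → p B) → (∀ B, Sp B → p B) ∨ ∀ B, Sp B → p B → R.Nm B

/-- Transport along an isomorphism. -/
def tr {G' : Type*} [Group G'] (e : G' ≃* G) : Rep G' F :=
  ⟨R.ρ.comp e, fun g => R.sp (e g), R.inj.comp e.injective⟩

theorem t_one : R.t 1 = 4 := by simp [t]

theorem t_inv (g : G) : R.t g⁻¹ = R.t g := by simp [t, ρ_inv]

theorem t_comm (g h : G) : R.t (g * h) = R.t (h * g) := by simp only [t, map_mul]; exact trace_mul_comm ..

theorem t_conj (h g : G) : R.t (h * g * h⁻¹) = R.t g := by rw [t_comm]; simp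

theorem N_inv (g : G) : R.N g⁻¹ = R.N g := by simp [N, add_comm]

theorem x_inv (g : G) : R.xv g⁻¹ = R.xv g := by simp [xv, N_inv]

theorem N_mul (e : g * h = h * g) : R.N g * R.N h = R.N (g * h) + R.N (g * h⁻¹) := by
  have : Commute g h := e
  simp only [N, mul_add, add_mul, ← map_mul, _root_.mul_inv_rev, inv_inv, this.inv_inv.symm.eq,
    this.inv_left.symm.eq]
  abel

theorem N_one : R.N 1 = (2 : F) • 1 := by simp [N, two_smul]

theorem N_comm (g : G) : R.ρ g * R.N g = R.N g * R.ρ g := by simp [N, mul_add, add_mul, ← map_mul]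

theorem t_pow (p : ℕ) [Fact p.Prime] [CharP F p] (g : G) (n : ℕ) : R.t (g ^ p ^ n) = R.t g ^ p ^ n := by
  induction n with
  | zero => simp
  | succ n ih => rw [pow_succ, pow_mul, pow_mul, ← ih, t, map_pow, tr_pow]; rfl

variable {R}

theorem nm_ρ (g : G) : R.Nm (R.ρ g) := ⟨R.sp g, fun h => ⟨g * h * g⁻¹, by simp [ρ_inv]⟩⟩

theorem Nm.hom (h : R.Nm B) : ∃ φ : G →* G, Function.Injective φ ∧ ∀ g, R.ρ (φ g) = B * R.ρ g * adj B := by
  choose f hf using h.2
  refine ⟨MonoidHom.mk' f fun a b => R.inj ?_, fun a b e => R.inj (h.1.cancel' (h.1.adj.cancel ?_)), hf⟩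
  · simp only [map_mul, hf, mul_assoc]
    rw [← mul_assoc (adj B), (h.1 : _ = _), one_mul]
  · rw [← hf, ← hf]; exact congrArg _ e

theorem N_neg (e : R.ρ h = -R.ρ g) : R.N h = -R.N g := by simp [N, ρ_inv, e]; abel

theorem t_neg (e : R.ρ h = -R.ρ g) : R.t h = -R.t g := by simp [t, e]

theorem x_neg (e : R.ρ h = -R.ρ g) : R.xv h = -R.xv g := by
  rw [xv, N_neg e, ← neg_one_smul F, wv_smul, neg_one_smul]; rfl

theorem N_four (e : R.ρ (g * g) = -1) : R.N g = 0 := by
  rw [N, ρ_inv, ← (R.sp g).eq_adj (N := -R.ρ g) (by simp [← map_mul, e]), add_neg_cancel]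

theorem N_sub (e : g * h = h * g) (k : R.N (g * h) = R.N (g * h⁻¹)) :
    (R.ρ (g * g) - 1) * (R.ρ (h * h) - 1) = 0 := by
  have c : Commute g h := e
  have := congrArg (R.ρ (g * h) * ·) k
  simp only [N, mul_add, ← map_mul, _root_.mul_inv_rev, inv_inv, mul_assoc, mul_inv_cancel_left,
    mul_inv_cancel, c.symm.left_comm, c.inv_left.symm.eq, c.inv_left.symm.left_comm] at this
  simp only [mul_sub, sub_mul, ← map_mul, mul_assoc, mul_one, one_mul]
  rw [map_one, mul_one] at this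
  linear_combination (norm := module) this

theorem Core.tr {G' : Type*} [Group G'] (c : R.Core) (e : G' ≃* G) : (R.tr e).Core where
  two := c.two
  qs N h g k l := by
    have := c.qs _ (h.map (e : G' →* G) e.surjective) (e g) ⟨g, k, rfl⟩ l
    exact Subgroup.map_injective (f := (e : G' →* G)) e.injective
      (this.trans (Subgroup.map_top_of_surjective _ e.surjective).symm)
  gen S h := c.gen S fun g => by simpa [Rep.tr] using h (e.symm g)
  nf h := c.nf fun M k => (h M k).elim fun g l => ⟨e g, l⟩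

theorem Mx.tr {G' : Type*} [Group G'] (h : R.Mx) (e : G' ≃* G) : (R.tr e).Mx := by
  have {B} : (R.tr e).Nm B ↔ R.Nm B := and_congr_right fun _ =>
    ⟨fun k g => (k (e.symm g)).elim fun h l => ⟨e h, by simpa [Rep.tr] using l⟩,
      fun k g => (k (e g)).elim fun h l => ⟨e.symm h, by simpa [Rep.tr] using l⟩⟩
  simpa only [Mx, this] using h

section
variable (h2 : (2 : F) ≠ 0)
include h2

theorem N_eq (g : G) : R.N g = (R.t g / 2) • 1 + wm (R.xv g) := by
  have := eq_wm h2 (M := R.N g) (by simp [N, ρ_inv, add_comm])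
  rwa [show (R.N g).trace / 4 = R.t g / 2 by
    have := four_ne h2
    simp [N, ρ_inv, t]; field_simp; ring] at this

theorem N_iff {s : F} : R.N g = s • 1 + wm y ↔ R.t g = 2 * s ∧ R.xv g = y := by
  refine ⟨fun e => ?_, fun ⟨a, b⟩ => by rw [N_eq h2, a, b, mul_div_cancel_left₀ _ h2]⟩
  obtain ⟨a, b⟩ := sw_inj h2 ((N_eq h2 g).symm.trans e)
  exact ⟨by rw [← a, mul_div_cancel₀ _ h2], b⟩

theorem four (e : R.ρ (g * g) = -1) : R.t g = 0 ∧ R.xv g = 0 := by
  simpa using (N_iff h2 (s := 0) (y := 0)).1 (by simp [N_four e])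

theorem x_conj' (hB : Sp B) (e : R.ρ h = B * R.ρ g * adj B) :
    R.t h = R.t g ∧ R.xv h = act B (R.xv g) := by
  have : R.N h = B * R.N g * adj B := by simp [N, ρ_inv, e, adj_mul, mul_add, add_mul, mul_assoc]
  rw [N_eq h2 g, mul_add, add_mul, ← wm_act h2 hB, mul_smul_comm, mul_one, smul_mul_assoc, hB.mul_adj,
    N_iff h2, mul_div_cancel₀ _ h2] at this
  exact this

theorem x_conj (h g : G) : R.xv (h * g * h⁻¹) = act (R.ρ h) (R.xv g) :=
  (x_conj' h2 (R.sp h) (by simp [ρ_inv])).2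

theorem gram (g h : G) : bw (R.xv g) (R.xv h) = R.t (g * h) + R.t (g * h⁻¹) - R.t g * R.t h / 2 := by
  have a : (R.N g * R.N h).trace = 2 * (R.t (g * h) + R.t (g * h⁻¹)) := by
    have a := R.t_inv (h * g)
    have b := R.t_inv (h⁻¹ * g)
    rw [t_comm _ h, _root_.mul_inv_rev] at a
    rw [t_comm _ h⁻¹, _root_.mul_inv_rev, inv_inv] at b
    simp only [N, mul_add, add_mul, ← map_mul, trace_add]
    unfold t at a b ⊢
    linear_combination a + b
  simp [N_eq h2, mul_add, add_mul, trace_wm_mul] at a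
  grind

theorem N_sq (g : G) : R.N g * R.N g =
    (R.t g ^ 2 / 4 + bw (R.xv g) (R.xv g) / 2) • 1 + wm (R.t g • R.xv g) := by
  have := four_ne h2
  simp only [N_eq h2, mul_add, add_mul, smul_mul_assoc, mul_smul_comm, one_mul, mul_one, wm_sq h2,
    wm_smul]
  match_scalars <;> field_simp <;> ring

theorem x_sq (g : G) : R.xv (g * g) = R.t g • R.xv g := by
  have := R.N_mul (g := g) (h := g) rfl
  rw [N_sq h2, mul_inv_cancel, N_one, N_eq h2 (g * g), add_right_comm, ← add_smul] at this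
  exact (sw_inj h2 this).2.symm

theorem pm_x (e : g ^ n = 1) (n0 : (n : F) ≠ 0) (c : g * (h * g * h⁻¹) = h * g * h⁻¹ * g) :
    R.xv (h * g * h⁻¹) = R.xv g ∨ R.xv (h * g * h⁻¹) = -R.xv g := by
  by_cases b : bw (R.xv g) (R.xv g) = 0
  · have z := ss (M := R.ρ g) (by rw [← map_pow, e, map_one]) n0 (X ^ 2 - Polynomial.C (R.t g / 2) * X + 1)
      (k := 2)
    have l : R.ρ g ^ 2 - (R.t g / 2) • R.ρ g + 1 = wm (R.xv g) * R.ρ g := by
      rw [← sub_eq_iff_eq_add'.2 (N_eq h2 g)]; simp [N, sub_mul, add_mul, ← map_mul, pow_two]; abel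
    have m : R.ρ g * wm (R.xv g) = wm (R.xv g) * R.ρ g := by
      rw [← sub_eq_iff_eq_add'.2 (N_eq h2 g)]; simp [sub_mul, mul_sub, N_comm]
    simp only [map_add, map_sub, map_mul, map_pow, aeval_X, aeval_C, map_one,
      Algebra.algebraMap_eq_smul_one, smul_mul_assoc, one_mul, l] at z
    have : R.xv g = 0 := wm_inj ((R.sp g).cancel (by
      rw [z (by rw [pow_two, mul_assoc, ← mul_assoc (R.ρ g), m, ← mul_assoc, ← mul_assoc, wm_sq h2, b]
                simp)]; simp))
    simp [x_conj h2, this]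
  have l : R.N g * R.N (h * g * h⁻¹) = R.N (h * g * h⁻¹) * R.N g := by
    have c : Commute g (h * g * h⁻¹) := c
    simp only [N]
    exact ((c.map R.ρ).add_right (c.inv_right.map R.ρ)).add_left
      ((c.inv_left.map R.ρ).add_right (c.inv_inv.map R.ρ))
  have b' : bw (R.xv (h * g * h⁻¹)) (R.xv (h * g * h⁻¹)) = bw (R.xv g) (R.xv g) := by
    rw [x_conj h2, bw_act h2 (R.sp h)]
  rw [N_eq h2, N_eq h2] at l
  generalize R.xv (h * g * h⁻¹) = y, R.xv g = x at *
  have l' : (2 : F) • (wm x * wm y) = bw x y • 1 := by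
    rw [← wm_anti]
    simp only [mul_add, add_mul, smul_mul_assoc, mul_smul_comm, one_mul, mul_one] at l
    linear_combination (norm := module) l
  have := congrArg (wm x * ·) l'
  simp only [mul_smul_comm, ← mul_assoc, wm_sq h2, smul_mul_assoc, one_mul, mul_one, smul_smul,
    ← wm_smul] at this
  refine pm_of_smul h2 b b' (a := 2 * bw x y / bw x x) (smul_right_injective _ (div_ne_zero b h2) ?_)
  simp only [smul_smul]
  convert wm_inj this using 2 <;> field_simp

theorem pm_comm (e : g ^ n = 1) (n0 : (n : F) ≠ 0) (c : g * (h * g * h⁻¹) = h * g * h⁻¹ * g) :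
    R.N (h * h * g * (h * h)⁻¹) = R.N g := by
  have k := pm_x h2 (R := R) e n0 c
  have : h * h * g * (h * h)⁻¹ = h * (h * g * h⁻¹) * h⁻¹ := by group
  rw [N_eq h2, N_eq h2, t_conj, this, x_conj h2]
  rcases k with k | k <;> simp [k, ← x_conj h2]

theorem lq (ea : R.ρ (a * a) = -1) (xb : R.xv b = 0) : R.ρ a * R.N (a * b) = R.N (a * b) * R.ρ a ∧
    R.ρ b * R.N (a * b) = R.N (a * b) * R.ρ b := by
  have : R.N (a * b) = R.N (b * a) := by
    have k := N_four ea
    have l := N_eq h2 (R := R) b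
    simp only [xb, wm_zero, add_zero, N] at k l
    simp only [N, _root_.mul_inv_rev, map_mul, eq_neg_of_add_eq_zero_right k, eq_sub_of_add_eq' l]
    simp [mul_sub, sub_mul]; abel
  constructor
  · conv_lhs => rw [this]
    simp [N, mul_add, add_mul, ← map_mul, mul_assoc]
  · conv_rhs => rw [this]
    simp [N, mul_add, add_mul, ← map_mul, mul_assoc]

theorem lq3 (ea : R.ρ (a * a) = -1) (xb : R.xv b = 0) (tb : R.t b ≠ 0) (e : (a * b) ^ 3 = 1) :
    R.N (a * b) = -1 := by
  obtain ⟨k, l⟩ := lq h2 ea xb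
  obtain ⟨E, hE⟩ : ∃ E, E = R.N (a * b) + 1 := ⟨_, rfl⟩
  have i : (a * b)⁻¹ = a * b * (a * b) := by rw [inv_eq_iff_mul_eq_one, ← e, pow_three]
  have e1 : R.ρ (a * b) * E = E := by
    simp only [hE, N, mul_add, ← map_mul, mul_inv_cancel, map_one, ← i, mul_one]; abel
  have ka : R.ρ a * E = E * R.ρ a := by simp [hE, mul_add, add_mul, k]
  have e2 : R.ρ b * E = R.ρ a⁻¹ * E := by
    conv_rhs => rw [← e1, ← mul_assoc, ← map_mul, inv_mul_cancel_left]
  have e3 : R.ρ b⁻¹ * E = R.ρ a * E := by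
    apply (R.sp (a * b)).cancel'
    rw [← mul_assoc, ← map_mul, mul_inv_cancel_right, ka, ← mul_assoc, e1]
  have : R.N b * E = R.N a * E := by simp only [N, add_mul, e2, e3, add_comm]
  rw [N_four ea, N_eq h2, xb] at this
  exact add_eq_zero_iff_eq_neg.1 (hE ▸ by simpa [tb, h2] using this)

theorem three (e : g ^ 3 = 1) : R.t g = 1 ∨ R.xv g = 0 ∧ (R.t g = -2 ∨ (3 : F) ≠ 0 ∧ g = 1) := by
  have i : g * g = g⁻¹ := by rw [eq_inv_iff_mul_eq_one, ← e, pow_three']
  have k := x_sq h2 (R := R) g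
  have l := R.N_mul (g := g) (h := g) rfl
  rw [i, x_inv] at k
  refine or_iff_not_imp_left.2 fun n => ?_
  have x0 : R.xv g = 0 := (smul_eq_zero.1 (show (R.t g - 1) • R.xv g = 0 by
    rw [sub_smul, ← k, one_smul, sub_self])).resolve_left (sub_ne_zero.2 n)
  refine ⟨x0, ?_⟩
  rw [N_sq h2, i, N_inv, mul_inv_cancel, N_one, N_eq h2, add_right_comm, ← add_smul, x0] at l
  have := (sw_inj h2 l).1
  have h4 := four_ne h2
  obtain k | k : R.t g = -2 ∨ R.t g = 4 := by simp at this; grind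
  · exact .inl k
  by_cases h3 : (3 : F) = 0
  · exact .inl (by linear_combination k + 2 * h3)
  refine .inr ⟨h3, R.eq_one (ss1 (n := 3) (k := 2) (by rw [← map_pow, e, map_one]) h3 ?_)⟩
  have := congrArg (R.ρ g * ·) ((N_iff h2 (s := 2) (y := 0)).2 ⟨by rw [k]; norm_num, x0⟩)
  simp only [N, mul_add, ← map_mul, mul_inv_cancel, map_one, wm_zero, add_zero, mul_smul_comm,
    mul_one] at this
  simp only [pow_two, mul_sub, sub_mul, ← map_mul, mul_one, one_mul]
  linear_combination (norm := module) this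

theorem five (e : g ^ 5 = 1) (x0 : R.xv g ≠ 0) : R.t g = -1 ∨ R.t g ^ 2 - 3 * R.t g + 1 = 0 ∧
    (5 : F) ≠ 0 ∧ ∀ a, R.ρ (a * a) = -1 → R.t (g * (g * a)) = (R.t g - 2) * R.t (g * a) := by
  have i : g * g * g = (g * g)⁻¹ := by rw [eq_inv_iff_mul_eq_one, ← e]; simp [pow_succ, mul_assoc]
  have i' : g * g * (g * g) = g⁻¹ := by rw [eq_inv_iff_mul_eq_one, ← e]; simp [pow_succ, mul_assoc]
  have h4 := four_ne h2
  have k := x_sq h2 (R := R) (g * g)
  have l := R.N_mul (g := g * g) (h := g) (mul_assoc ..)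
  have m := R.N_mul (g := g) (h := g) rfl
  rw [i', x_inv, x_sq h2, smul_smul] at k
  have k := smul_left_injective F x0 ((one_smul ..).trans k)
  rw [N_sq h2, mul_inv_cancel, N_one, N_eq h2 (g * g), add_right_comm, ← add_smul] at m
  have m := (sw_inj h2 m).1
  rw [i, N_inv, mul_inv_cancel_right, N_eq h2, N_eq h2, x_sq h2] at l
  have l := congrArg wv l
  simp only [mul_add, add_mul, smul_mul_assoc, mul_smul_comm, one_mul, mul_one, wm_sq h2, wv_add,
    wv_smul, wv_one, wv_wm h2, smul_zero, zero_add, add_zero, wm_smul, smul_smul] at l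
  have l := smul_left_injective F x0 (show (R.t (g * g) / 2 + R.t g / 2 * R.t g) • R.xv g =
    (R.t g + 1) • R.xv g by linear_combination (norm := module) l)
  refine or_iff_not_imp_left.2 fun n => ?_
  have t : R.t g ^ 2 - 3 * R.t g + 1 = 0 := by grind
  have h5 : (5 : F) ≠ 0 := by grind
  refine ⟨t, h5, fun a ea => ?_⟩
  obtain ⟨M, hM⟩ : ∃ M, M = R.N g - (R.t g - 2) • 1 := ⟨_, rfl⟩
  have e1 : (R.N g - (2 : F) • 1) * M = 0 := by
    simp only [hM, sub_mul, mul_sub, N_sq h2, smul_mul_assoc, mul_smul_comm, one_mul, mul_one]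
    rw [N_eq h2, wm_smul]
    match_scalars <;> grind
  have e2 : (R.ρ g - 1) * ((R.ρ g - 1) * M) = 0 := by
    rw [← mul_zero (R.ρ g), ← e1, ← mul_assoc, ← mul_assoc]; congr 1
    simp [N, mul_sub, sub_mul, mul_add, ← map_mul, two_smul]; abel
  have e3 (j : ℕ) : R.ρ (g ^ j) * M = M + (j : F) • ((R.ρ g - 1) * M) := by
    induction j with
    | zero => simp
    | succ j ih =>
      rw [sub_mul, one_mul, sub_eq_zero] at e2
      rw [pow_succ', map_mul, mul_assoc, ih, mul_add, mul_smul_comm, e2, sub_mul, one_mul]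
      push_cast; module
  have e4 : R.ρ g * M = M := by
    have := e3 5
    rw [e, map_one, one_mul, left_eq_add, smul_eq_zero, sub_mul, one_mul, sub_eq_zero] at this
    exact this.resolve_left (by exact_mod_cast h5)
  have e5 : (R.ρ a * M).trace = 0 := mul_left_cancel₀ h2 (by
    have := trace_adj (R.ρ a * M)
    rw [adj_mul, ← ρ_inv, eq_neg_of_add_eq_zero_right (N_four ea), show adj M = M by
      simp [hM, N, ρ_inv, add_comm, sub_eq_add_neg], mul_neg, trace_neg, trace_mul_comm] at this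
    linear_combination -this)
  rw [← e4, ← mul_assoc, trace_mul_comm, ← map_mul, hM] at e5
  simp only [N, sub_mul, add_mul, ← map_mul, smul_mul_assoc, one_mul, trace_sub, trace_add,
    trace_smul, smul_eq_mul] at e5
  have a1 := R.t_conj g⁻¹ a
  have a2 := R.t_comm (g * a) g
  have a3 := R.t_comm g a
  rw [inv_inv, (four h2 ea).1, mul_assoc] at a1
  rw [mul_assoc] at a2
  unfold Rep.t at *
  linear_combination e5 - a1 - a2 - ((R.ρ g).trace - 2) * a3

end

end Rep

end CF.MaxSub.O4
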