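/-
Subgroups of `Sp₄` in odd characteristic: abelian subgroups, the structure theorem, overgroups.
-/
import Cfsg.Agent.MaxSub.O4J

set_option autoImplicit false

namespace CF.MaxSub.O4

open Matrix
open CF.MaxSub.E4 (M4 M2 subOf)
open scoped MatrixGroups commutatorElement

variable {F : Type*} [Field F] {M B C : M4 F} {x y z : W5 F} {c : F} {n : ℕ}

/-- The Gram matrix of a regular simplex. -/
def Gr {ι : Type*} (v : ι → W5 F) : Prop := ∀ i j, (i = j → 2 * bw (v i) (v j) = 5) ∧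
  (i ≠ j → 2 * bw (v i) (v j) = -1)

theorem Gr.span (h2 : (2 : F) ≠ 0) (h3 : (3 : F) ≠ 0) {v : Fin 5 → W5 F} (h : Gr v)
    (e : ∀ i, bw x (v i) = bw y (v i)) : x = y := by
  have li : LinearIndependent F v := Fintype.linearIndependent_iff.2 fun g e i => by
    have k (i) : 6 * g i = ∑ j, g j := by
      have := congrArg (2 * bw · (v i)) e
      simp only [bw_sum, bw_smul_left, bw_zero_left, Finset.mul_sum, mul_left_comm (2 : F)] at this
      rw [← Finset.add_sum_erase _ _ (Finset.mem_univ i)] at this ⊢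
      rw [(h i i).1 rfl, Finset.sum_congr rfl fun j hj => by
        rw [(h j i).2 (Finset.ne_of_mem_erase hj), mul_neg_one], Finset.sum_neg_distrib] at this
      linear_combination this
    have := Finset.sum_congr rfl fun i (_ : i ∈ Finset.univ) => k i
    rw [← Finset.mul_sum, Finset.sum_const, Finset.card_fin, nsmul_eq_mul] at this
    exact mul_left_cancel₀ (mul_ne_zero h2 h3) (by push_cast at this; linear_combination k i + this)
  rw [← sub_eq_zero]
  by_contra n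
  obtain ⟨z, l⟩ := exists_bw h2 n
  obtain ⟨g, rfl⟩ := (Submodule.mem_span_range_iff_exists_fun F).1
    (li.span_eq_top_of_card_eq_finrank' (by simp) ▸ Submodule.mem_top : z ∈ _)
  rw [bw_comm, bw_sum, Finset.sum_eq_zero fun i _ => by rw [bw_comm]; simp [e]] at l
  exact zero_ne_one l

theorem Gr.sgn (h2 : (2 : F) ≠ 0) {ι : Type*} {v w : ι → W5 F} (h : Gr v) (k : Gr w)
    (e : ∀ i, ∃ k, w i = v k ∨ w i = -v k) (i j : ι) : ∃ k l, w i - w j = v k - v l := by
  by_cases ij : i = j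
  · exact ⟨i, i, by simp [ij]⟩
  obtain ⟨a, ha⟩ := e i
  obtain ⟨b, hb⟩ := e j
  have := (k i j).2 ij
  have h4 := four_ne h2
  have l := h a b
  rcases ha with ha | ha <;> rcases hb with hb | hb <;> rw [ha, hb] at this ⊢
  · exact ⟨a, b, rfl⟩
  · by_cases a = b <;> simp at this <;> grind
  · by_cases a = b <;> simp at this <;> grind
  · exact ⟨b, a, by abel⟩

theorem nf_wm (h2 : (2 : F) ≠ 0) (x0 : x ≠ 0) (h : bw x x = 0) : ∃ B, Sp B ∧ ∃ A : M2 F,
    adj B * wm x * B = bl 0 A 0 0 ∧ ∀ M, Sp M → M * bl 0 A 0 0 = bl 0 A 0 0 * M →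
      ∃ a b d, M = bl a b 0 d ∧ a.det = 1 ∧ st d * a = 1 := by
  obtain ⟨B, hB, A, e⟩ := exists_nf (N := wm x) (ε := 1) (by simp [wm_sq h2, h]) (by simp)
  refine ⟨B, hB, A, e, fun M hM k => ?_⟩
  have s : st A = -A := by
    have := congrArg adj e
    rw [adj_mul, adj_mul, adj_adj, adj_wm, ← mul_assoc, e, adj_bl, bl_inj] at this
    exact (neg_eq_iff_eq_neg.1 this.2.1.symm)
  have A0 : A ≠ 0 := by
    rintro rfl
    exact x0 (wm_inj (hB.adj.cancel' (hB.cancel (by simp [e, ← bl_zero]))))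
  have dA : IsUnit A.det := by
    have a := congrFun₂ s 0 0; have b := congrFun₂ s 0 1; have c := congrFun₂ s 1 0
    simp [st] at a b c
    refine Ne.isUnit fun d => A0 ?_
    rw [det_fin_two] at d
    ext i j; fin_cases i <;> fin_cases j <;> simp <;> grind
  obtain ⟨a, b, c, d, rfl⟩ := exists_bl M
  simp only [bl_mul, mul_zero, zero_mul, add_zero, zero_add, bl_inj] at k
  obtain rfl : c = 0 := by simpa [← mul_assoc, nonsing_inv_mul _ dA] using congrArg (A⁻¹ * ·) k.1.symm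
  have := (sp_bl.1 hM).1
  rw [mul_zero, sub_zero] at this
  refine ⟨a, b, _, rfl, smul_left_injective F A0 ?_, this⟩
  have l := congrArg st this
  simp only [← st_anti h2 s, k.2.1, one_smul, mul_assoc]
  rw [st_mul, st_st, st_one, mul_eq_one_comm] at l
  rw [l, mul_one]

namespace Rep

variable {G : Type*} [Group G] {R : Rep G F} {g h k a b : G}

theorem N_two (g : G) : R.N g - (2 : F) • 1 = -((R.ρ g⁻¹ - 1) * (R.ρ g - 1)) := by
  simp [N, mul_sub, sub_mul, ← map_mul, two_smul]; abel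

theorem N_two' (g : G) : R.N g - (2 : F) • 1 = -((R.ρ g - 1) * (R.ρ g⁻¹ - 1)) := by
  simpa [N_inv] using N_two (R := R) g⁻¹

theorem sq_of_N (e : R.N g = (2 : F) • 1) : (R.ρ g - 1) * (R.ρ g - 1) = 0 := by
  have := congrArg (R.ρ g * ·) e
  simp only [N, mul_add, ← map_mul, mul_inv_cancel, map_one, mul_smul_comm, mul_one] at this
  simp only [mul_sub, sub_mul, ← map_mul, mul_one, one_mul]
  linear_combination (norm := module) this

theorem sq3 (h2 : (2 : F) ≠ 0) (h3 : (3 : F) = 0) (e : g ^ 3 = 1) : R.N g = (2 : F) • 1 := by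
  have t : R.t g = 2 * 2 := by
    rcases three h2 (R := R) e with k | ⟨-, k | k⟩
    exacts [by linear_combination k - h3, by linear_combination k - 2 * h3, (k.1 h3).elim]
  by_contra n
  have x0 : R.xv g ≠ 0 := fun e => n (by simpa using (N_iff h2 (y := 0)).2 ⟨t, e⟩)
  have k := sub_eq_iff_eq_add'.2 ((N_iff h2).2 ⟨t, rfl⟩)
  have i : g⁻¹ = g * g := by rw [inv_eq_iff_mul_eq_one, ← e, pow_three]
  have l : R.ρ g * R.ρ g * R.ρ g = 1 := by rw [← map_mul, ← map_mul, ← pow_three', e, map_one]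
  have := sq_zero_of h2 (M := R.ρ g - 1) x0 (by
      simp only [← k, N, i, map_mul, sub_mul, mul_sub, add_mul, l, smul_mul_assoc, one_mul, mul_one]
      linear_combination (norm := module) h3 • (1 - R.ρ g)) (by
      simp only [← k, N, i, map_mul, sub_mul, mul_sub, mul_add, ← mul_assoc, l, mul_smul_comm, one_mul,
        mul_one]
      linear_combination (norm := module) h3 • (1 - R.ρ g))
  refine n (sub_eq_zero.1 ?_)
  rw [N_two, show R.ρ g⁻¹ - 1 = -R.ρ g⁻¹ * (R.ρ g - 1) by simp [mul_sub, ← map_mul]; abel, mul_assoc, this]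
  simp

theorem Core.nq2 [Finite F] [Finite G] (c : R.Core) (l : g * k = k * g) (e1 : R.N g = (2 : F) • 1)
    (e2 : R.N k = (2 : F) • 1) (e3 : R.N (g * k) = (2 : F) • 1) : g = 1 ∨ k = 1 ∨ k = g ∨ k = g⁻¹ := by
  have a := sq_of_N e1
  have b := sq_of_N e2
  have d := sq_of_N e3
  obtain ⟨A, hA⟩ : ∃ A, R.ρ g = 1 + A := ⟨R.ρ g - 1, by simp⟩
  obtain ⟨B, hB⟩ : ∃ A, R.ρ k = 1 + A := ⟨R.ρ k - 1, by simp⟩
  have l' := congrArg R.ρ l
  simp only [map_mul, hA, hB, add_sub_cancel_left] at a b d l'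
  have m : B * A = A * B := by linear_combination (norm := noncomm_ring) -l'
  have z : A * B = 0 := smul_right_injective _ c.two (by
    have m' (M) : B * (A * M) = A * (B * M) := by rw [← mul_assoc, m, mul_assoc]
    have a' (M) : A * (A * M) = 0 := by rw [← mul_assoc, a, zero_mul]
    simp only [mul_add, add_mul, mul_sub, sub_mul, mul_one, one_mul, mul_assoc, m, m', a, a', b,
      mul_zero] at d
    linear_combination (norm := module) d)
  refine (c.nq hA hB a b z (m ▸ z)).imp (fun e => R.eq_one (by simp [hA, e])) (.imp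
    (fun e => R.eq_one (by simp [hB, e])) (.imp (fun e => R.inj (by rw [hA, hB, e])) fun e => ?_))
  exact eq_inv_of_mul_eq_one_right (R.eq_one (by simp [hA, hB, e, mul_add, add_mul, a]))

theorem Core.q2 [Finite G] (c : R.Core) (ea : R.ρ (a * a) = -1)
    (gen : ∀ S : Subgroup G, a ∈ S → b ∈ S → S = ⊤) : R.xv b ≠ 0 := fun xb => by
  have h2 := c.two
  obtain ⟨k, l⟩ := lq h2 ea xb
  obtain ⟨s, hs⟩ := c.cen (M := R.N (a * b)) fun g => (gen (subOf (fun g => R.N (a * b) * R.ρ g =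
    R.ρ g * R.N (a * b)) (by simp) fun g h k l => by rw [map_mul, ← mul_assoc, k, mul_assoc, l,
      mul_assoc]) k.symm l.symm).ge trivial
  have ia := eq_neg_of_add_eq_zero_right (N_four ea)
  have ib := N_eq h2 (R := R) b
  rw [xb, wm_zero, add_zero, N, add_comm, ← eq_sub_iff_add_eq] at ib
  have bb : R.ρ b * R.ρ b = (R.t b / 2) • R.ρ b - 1 := by
    rw [← map_one R.ρ, ← mul_inv_cancel b, map_mul, ib]; simp [mul_sub]
  have hs' := hs
  rw [N, _root_.mul_inv_rev, map_mul, map_mul, ia, ib] at hs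
  rw [N, ρ_inv, map_mul] at hs'
  rw [map_mul] at ea
  rw [ρ_inv] at ia ib
  generalize R.t b / 2 = τ at *
  have ba : R.ρ b * R.ρ a = s • 1 + τ • R.ρ a - R.ρ a * R.ρ b := by
    simp only [sub_mul, mul_neg, smul_mul_assoc, one_mul] at hs
    linear_combination (norm := module) hs
  let P (M : M4 F) := ∃ α β γ δ : F, M = α • 1 + β • R.ρ a + γ • R.ρ b + δ • (R.ρ a * R.ρ b)
  have := c.all (fun M => wv (M + adj M) = 0) (fun M N k l => by
      rw [show M - N + adj (M - N) = M + adj M + (-1 : F) • (N + adj N) by simp [sub_eq_add_neg]; abel,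
        wv_add, wv_smul, k, l]; simp) (fun g => by
    obtain ⟨α, β, γ, δ, e⟩ := (gen (subOf (fun g => ∀ M, P M → P (R.ρ g * M)) (by simp) fun g h k l M m =>
      by rw [map_mul, mul_assoc]; exact k _ (l _ m)) (by
        rintro _ ⟨α, β, γ, δ, rfl⟩
        refine ⟨-β, α, -δ, γ, ?_⟩
        simp only [mul_add, mul_smul_comm, ← mul_assoc, ea, neg_mul, one_mul, mul_one]; module) (by
        rintro _ ⟨α, β, γ, δ, rfl⟩
        refine ⟨β * s - γ, β * τ + δ, α + γ * τ + δ * s, -β, ?_⟩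
        simp only [mul_add, mul_smul_comm, ← mul_assoc, ba, bb, add_mul, sub_mul, smul_mul_assoc,
          mul_assoc (R.ρ a), mul_sub, one_mul, mul_one]; module)).ge (Subgroup.mem_top g) 1
        ⟨1, 0, 0, 0, by simp⟩
    rw [mul_one] at e
    rw [show R.ρ g + adj (R.ρ g) = (2 * α + γ * τ + δ * s) • (1 : M4 F) by
      simp only [e, adj_add, adj_smul, adj_one, ia, ib]; linear_combination (norm := module) δ • hs']
    simp [wv_smul, wv_one]) (wm (Pi.single 0 1))
  simpa [wv_smul, wv_wm h2, ← two_smul F, h2] using this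

theorem ptn (h2 : (2 : F) ≠ 0) (e : g ^ n = 1) (n0 : (n : F) ≠ 0) (g1 : g ≠ 1) (m0 : M ≠ 0)
    (m : (R.N g - (2 : F) • 1) * M = 0) : bw (R.xv g) (R.xv g) / 2 = (R.t g / 2 - 2) ^ 2 ∧ R.t g / 2 - 2 ≠ 0 := by
  have d : R.N g - (2 : F) • 1 = (R.t g / 2 - 2) • 1 + wm (R.xv g) := by rw [N_eq h2]; module
  have k := congrArg (((R.t g / 2 - 2) • 1 - wm (R.xv g)) * ·) m
  simp only [d, ← mul_assoc, mul_add, sub_mul, smul_mul_assoc, mul_smul_comm, one_mul, mul_one,
    wm_sq h2, mul_zero] at k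
  have k : bw (R.xv g) (R.xv g) / 2 = (R.t g / 2 - 2) ^ 2 := (smul_left_injective F m0 (by
    simp only [add_mul, sub_mul, smul_mul_assoc, one_mul] at k
    linear_combination (norm := module) -k))
  refine ⟨k, fun z => g1 (R.eq_one (ss1 (n := n) (k := 4) (by rw [← map_pow, e, map_one]) n0 ?_))⟩
  have l : (R.ρ g - 1) ^ 2 = R.ρ g * (R.N g - (2 : F) • 1) := by
    simp [N, pow_two, mul_sub, sub_mul, mul_add, ← map_mul, two_smul]; abel
  have c : R.ρ g * (R.N g - (2 : F) • 1) = (R.N g - (2 : F) • 1) * R.ρ g := by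
    simp [mul_sub, sub_mul, N_comm]
  rw [show _ ^ 4 = (_ ^ 2) ^ 2 from pow_mul _ 2 2, l, pow_two, mul_assoc, ← mul_assoc _ (R.ρ g), ← c, mul_assoc, d, z,
    zero_smul, zero_add, wm_sq h2, k, z]
  simp

theorem xchar (R : Rep G F) (h2 : (2 : F) ≠ 0) {K : Type*} [Field K] (k2 : (2 : K) ≠ 0) (u : K → G)
    (add : ∀ s t, u (s + t) = u s * u t) (inj : ∀ s, u s = 1 → s = 0)
    (tor : ∀ a : K, a ≠ 0 → ∃ h, ∀ s, h * u s * h⁻¹ = u (a ^ 2 * s)) (e : ∀ s, u s ^ n = 1)
    (n0 : (n : F) ≠ 0) {a : K} (a0 : a ≠ 0) : a ^ 8 = 1 := by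
  by_contra n8
  obtain ⟨h, hh⟩ := tor a a0
  have cm (s t) : u s * u t = u t * u s := by rw [← add, ← add, add_comm]
  have sub (s t) : u s * (u t)⁻¹ = u (s - t) := by rw [mul_inv_eq_iff_eq_mul, ← add, sub_add_cancel]
  have k (s) : (R.ρ (u ((1 + a ^ 4) * s)) - 1) * (R.ρ (u ((1 - a ^ 4) * s)) - 1) = 0 := by
    have := pm_comm h2 (R := R) (h := h) (e s) n0 (by rw [hh, cm])
    rw [show h * h * u s * (h * h)⁻¹ = h * (h * u s * h⁻¹) * h⁻¹ by group, hh, hh] at this
    have := N_sub (R := R) (cm ((1 + a ^ 4) * s / 2) ((1 - a ^ 4) * s / 2)) (by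
      rw [← add, sub]; convert this.symm using 3 <;> field_simp <;> ring)
    simp only [← add] at this
    convert this using 5 <;> field_simp <;> ring
  have p : 1 + a ^ 4 ≠ 0 := fun e => n8 (by linear_combination (a ^ 4 - 1) * e)
  have q : 1 - a ^ 4 ≠ 0 := fun e => n8 (by linear_combination -(a ^ 4 + 1) * e)
  have z {g k : G} (l : (R.ρ g - 1) * (R.ρ k - 1) = 0) :
      (R.N g - (2 : F) • 1) * (R.N k - (2 : F) • 1) = 0 := by
    rw [N_two, N_two', neg_mul_neg, mul_assoc, ← mul_assoc (R.ρ g - 1), l]; simp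
  have nz {s} (s0 : s ≠ 0) : R.N (u s) - (2 : F) • 1 ≠ 0 := fun l => s0 (inj s (R.eq_one (ss1 (n := n)
    (k := 2) (by rw [← map_pow, e, map_one]) n0 (by rw [pow_two, sq_of_N (sub_eq_zero.1 l)]))))
  have k1 := k 1
  have k3 := k (2 / (1 + a ^ 4))
  rw [mul_div_cancel₀ _ p] at k3
  simp only [mul_one] at k1
  have ⟨a1, b1⟩ := ptn h2 (e _) n0 (mt (inj _) p) (nz q) (z k1)
  have ⟨a2, b2⟩ := ptn h2 (R := R) (e _) n0 (mt (inj _) q) (nz p) (by
    simpa [adj_mul, N, ρ_inv, add_comm, sub_eq_add_neg] using congrArg adj (z k1))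
  have ⟨a3, _⟩ := ptn h2 (e _) n0 (mt (inj _) k2) (nz (mul_ne_zero q (div_ne_zero k2 p))) (z k3)
  have s : R.ρ (u 2) = R.ρ (u (1 + a ^ 4)) + R.ρ (u (1 - a ^ 4)) - 1 := by
    rw [show (2 : K) = 1 + a ^ 4 + (1 - a ^ 4) by ring, add, map_mul]
    linear_combination (norm := noncomm_ring) k1
  have s' := (N_iff h2 (R := R) (g := u 2) (s := R.t (u (1 + a ^ 4)) / 2 + R.t (u (1 - a ^ 4)) / 2 - 2)
    (y := R.xv (u (1 + a ^ 4)) + R.xv (u (1 - a ^ 4)))).1 (by
      have := congrArg₂ (· + ·) (N_eq h2 (R := R) (u (1 + a ^ 4))) (N_eq h2 (R := R) (u (1 - a ^ 4)))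
      simp only [N, ρ_inv, s, sub_eq_add_neg, adj_add, adj_neg, adj_one, wm_add] at this ⊢
      linear_combination (norm := module) this)
  have t := congrArg trace (z k1)
  rw [s'.1, s'.2] at a3
  simp [N_eq h2, mul_sub, sub_mul, mul_add, add_mul, trace_wm_mul] at t
  simp only [bw_add_left, bw_add_right, bw_comm (R.xv (u (1 - a ^ 4))) (R.xv (u (1 + a ^ 4)))] at a3
  have := four_ne h2
  grind

theorem Core.cls [Finite F] [Finite G] (c : R.Core) : (∃ q, Odd q ∧ 3 < q ∧ GW.S2Q q G) ∨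
    Cfsg.IsNonsplitDoubleCover G GW.A7 := by
  obtain ⟨t, ht⟩ := c.ex
  have : Nontrivial G := ⟨t, 1, fun e => ht 1 (by simp [e])⟩
  have p : Group.IsPerfect G := ⟨by
    by_contra n
    refine c.nc ⟨⟨fun a b => ?_⟩⟩
    obtain ⟨a, rfl⟩ := QuotientGroup.mk_surjective a
    obtain ⟨b, rfl⟩ := QuotientGroup.mk_surjective b
    refine commutatorElement_eq_one_iff_mul_comm.1 ((QuotientGroup.eq_one_iff ⁅a, b⁆).2
      ((mem_ker_α c.two).2 ?_))
    by_contra! k
    exact n (c.qs _ inferInstance _ (Subgroup.commutator_mem_commutator trivial trivial) k)⟩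
  have ev : ¬ Odd (Nat.card G) := fun o => Group.IsPerfect.not_isSolvable G (Hyp.isSolvable_of_odd o)
  refine GW.perfect_r1 p (fun a _ b _ i j _ => R.inj ?_) ((BG.pPrimeCore_eq Nat.prime_two).symm.trans
    ((Subgroup.eq_bot_iff_forall _).2 fun g hg => ?_)) (Nat.not_odd_iff_even.1 ev)
  · rw [(c.no_inv i.sq).resolve_left (mt R.eq_one i.ne_one), (c.no_inv j.sq).resolve_left (mt R.eq_one j.ne_one)]
  have o := GW.odd_oddCore (G := G)
  obtain ⟨a, e⟩ : ∃ a : F, R.ρ g = a • 1 := by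
    by_contra! k
    rw [show Cfsg.oddCore G = ⊤ from c.qs _ inferInstance g hg k, Subgroup.card_top] at o
    exact ev o
  have : g ^ 2 = 1 := R.eq_one (by obtain rfl | rfl := (e ▸ R.sp g).pm <;> simp [e])
  simpa [(Nat.coprime_two_left.2 o).gcd_eq_one] using pow_gcd_eq_one.2 ⟨this,
    congrArg Subtype.val (pow_card_eq_one' (x := (⟨g, hg⟩ : Cfsg.oddCore G)))⟩

theorem Mx.nm (hM : R.Mx) (h2 : (2 : F) ≠ 0) (h3 : (3 : F) ≠ 0) {ι : Type*} [DecidableEq ι] {E : ι → W5 F}
    (f : ι → F) (hE : ∀ i j, bw (E i) (E j) = f i + f j + if i = j then 3 else 0)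
    (hH : ∀ B, R.Nm B → ∀ i j, ∃ k l, act B (E i - E j) = E k - E l) {i j k l : ι} (ij : i ≠ j)
    (kl : k ≠ l) : R.Nm ((3 : F)⁻¹ • (wm (E i - E j) * wm (E k - E l))) := by
  have nr {i j} (ij : i ≠ j) : bw (E i - E j) (E i - E j) = 2 * 3 := by simp [hE, ij, ij.symm]; ring
  have rf {i j} (ij : i ≠ j) (k l) : E k - E l - ((3 : F)⁻¹ * bw (E k - E l) (E i - E j)) • (E i - E j) =
      E (Equiv.swap i j k) - E (Equiv.swap i j l) := by
    have (k : ι) : E (Equiv.swap i j k) =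
        E k - ((3 : F)⁻¹ * (bw (E k) (E i - E j) - f i + f j)) • (E i - E j) := by
      by_cases a : k = i
      · simp [a, hE, ij]; match_scalars <;> field_simp <;> ring
      by_cases b : k = j
      · simp [b, hE, ij.symm]; match_scalars <;> field_simp <;> ring
      simp [Equiv.swap_apply_of_ne_of_ne a b, hE, a, b]
    rw [this, this, bw_sub_left]; module
  obtain ⟨s, e⟩ := act_refl h2 h3 (nr ij) (nr kl)
  refine ((hM (fun B => ∀ i j, ∃ k l, act B (E i - E j) = E k - E l) (fun A B _ hB a b i j => ?_)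
    hH).resolve_left fun a => ?_) _ s fun a b => ⟨_, _, by rw [e, rf kl, rf ij]⟩
  · obtain ⟨k, l, e⟩ := b i j
    rw [act_mul h2 hB, e]; exact a k l
  have := nr ij
  rw [eq_zero_of_tv h2 (x := E i - E j) fun v => ?_] at this
  · exact mul_ne_zero h2 h3 (by simpa using this.symm)
  obtain ⟨k, l, e⟩ := a _ (sp_tv v 1) i j
  have := bw_tv h2 v (E i - E j)
  rw [e, nr ij] at this
  have h4 := four_ne h2
  have h9 := mul_ne_zero h3 h3
  have h12 := mul_ne_zero h4 h3
  have h6 := mul_ne_zero h2 h3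
  simp only [bw_sub_left, bw_sub_right, hE] at this
  rw [e]
  split_ifs at this <;> grind

end Rep

end CF.MaxSub.O4
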