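/-
Subgroups of `Sp₄` in odd characteristic: four-dimensional representations of `SL₂`.
-/
import Cfsg.Agent.MaxSub.O4K
import Cfsg.Agent.Classical.SmallIso

set_option autoImplicit false

namespace CF.MaxSub.O4

open Matrix
open CF.MaxSub.E4 (M4 M2 subOf)
open scoped MatrixGroups

variable {F K : Type*} [Field F] [Field K] {s : K} {g h : SL(2, K)}

section
variable {a b c d a' b' c' d' : K}

/-- Elements of `SL₂`. -/
def sl (a b c d : K) (h : a * d - b * c = 1) : SL(2, K) := ⟨!![a, b; c, d], by simpa using h⟩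

/-- The trace. -/
def τ (g : SL(2, K)) : K := g 0 0 + g 1 1

/-- Unipotent elements. -/
def us (s : K) : SL(2, K) := sl 1 s 0 1 (by simp)

/-- Companion matrices. -/
def cp (s : K) : SL(2, K) := sl 0 (-1) 1 s (by simp)

theorem exists_sl (g : SL(2, K)) : ∃ a b c d h, g = sl a b c d h :=
  ⟨g 0 0, g 0 1, g 1 0, g 1 1, det_fin_two g.1 ▸ g.2, Subtype.ext (eta_fin_two _)⟩

@[simp] theorem sl_inj {h h'} : sl a b c d h = sl a' b' c' d' h' ↔ a = a' ∧ b = b' ∧ c = c' ∧ d = d' :=
  ⟨fun e => have k i j := congrFun₂ (congrArg Subtype.val e) i j; ⟨k 0 0, k 0 1, k 1 0, k 1 1⟩,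
    fun ⟨_, _, _, _⟩ => by congr⟩

@[simp] theorem sl_mul {h h'} : sl a b c d h * sl a' b' c' d' h' = sl (a * a' + b * c') (a * b' + b * d')
    (c * a' + d * c') (c * b' + d * d') (by linear_combination (a' * d' - b' * c') * h + h') :=
  Subtype.ext (mul_fin_two ..)

@[simp] theorem sl_inv {h} : (sl a b c d h)⁻¹ = sl d (-b) (-c) a (by linear_combination h) :=
  Subtype.ext (adjugate_fin_two_of ..)

@[simp] theorem sl_neg {h} : -sl a b c d h = sl (-a) (-b) (-c) (-d) (by linear_combination h) :=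
  Subtype.ext (by rw [SpecialLinearGroup.coe_neg]; simp [sl])

theorem sl_one : (1 : SL(2, K)) = sl 1 0 0 1 (by simp) := Subtype.ext one_fin_two

@[simp] theorem τ_sl {h} : τ (sl a b c d h) = a + d := rfl

end

theorem τ_neg (g : SL(2, K)) : τ (-g) = -τ g := by
  obtain ⟨a, b, c, d, h, rfl⟩ := exists_sl g
  simp [add_comm]

theorem us_add (s t : K) : us (s + t) = us s * us t := by simp [us, add_comm]

theorem us_inv (s : K) : (us s)⁻¹ = us (-s) := by simp [us]

theorem us_eq_one : us s = 1 ↔ s = 0 := by simp [us, sl_one]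

theorem us_pow (s : K) (n : ℕ) : us s ^ n = us (n * s) := by
  induction n with
  | zero => simp [us, sl_one]
  | succ n ih => rw [pow_succ, ih, ← us_add]; congr 1; push_cast; ring

theorem us_tor (a : K) (h : a ≠ 0) : ∃ h, ∀ s, h * us s * h⁻¹ = us (a ^ 2 * s) :=
  ⟨sl a 0 0 a⁻¹ (by simp [h]), fun s => by simp [us, h]; ring⟩

theorem sq_of_τ (e : τ g = 0) : g * g = -1 := by
  obtain ⟨a, b, c, d, h, rfl⟩ := exists_sl g
  simp [sl_one] at e ⊢; grind

theorem conj_us (e : τ g = 2) : ∃ h s, g = h * us s * h⁻¹ := by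
  obtain ⟨a, b, c, d, h, rfl⟩ := exists_sl g
  rw [τ_sl] at e
  by_cases k : c = 0
  · exact ⟨1, b, by simp [us]; grind⟩
  · exact ⟨sl ((a - 1) / c) (-1) 1 0 (by simp), -c, by simp [us]; grind⟩

theorem conj_cp [Finite K] (k2 : (2 : K) ≠ 0) (e : τ g ^ 2 ≠ 4) : ∃ h, g = h * cp (τ g) * h⁻¹ := by
  obtain ⟨a, b, c, d, h, rfl⟩ := exists_sl g
  rw [τ_sl] at e ⊢
  suffices ∃ x y, x * (c * x + d * y) - (a * x + b * y) * y = 1 by
    obtain ⟨x, y, k⟩ := this
    exact ⟨sl _ _ _ _ k, by rw [eq_mul_inv_iff_mul_eq]; simp [cp]; grind⟩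
  by_cases k : c = 0
  · exact ⟨(1 + b) / (d - a), 1, by grind⟩
  have := Fintype.ofFinite K
  obtain ⟨x, y, l⟩ := FiniteField.exists_root_sum_quadratic (f := .X ^ 2 - .C (4 * c))
    (g := .C (4 - (a + d) ^ 2) * .X ^ 2) (Polynomial.degree_X_pow_sub_C two_pos _)
    (Polynomial.degree_C_mul_X_pow _ (sub_ne_zero.2 e.symm))
    (FiniteField.odd_card_of_char_ne_two fun e => k2 (by
      have := ringChar.Nat.cast_ringChar (R := K); rwa [e] at this))
  simp at l
  exact ⟨(x - (d - a) * y) / (2 * c), y, by have := mul_ne_zero k2 k; grind⟩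

theorem conj_of_τ [Finite K] (k2 : (2 : K) ≠ 0) (e : τ g ^ 2 ≠ 4) (l : τ h = τ g) : ∃ k, h = k * g * k⁻¹ := by
  obtain ⟨a, ha⟩ := conj_cp k2 e
  obtain ⟨b, hb⟩ := conj_cp k2 (l ▸ e)
  exact ⟨b * a⁻¹, by rw [hb, l]; (conv_rhs => rw [ha]); group⟩

theorem gen_top {S : Subgroup SL(2, K)} (k : cp 0 ∈ S) (l : ∀ s, us s ∈ S) : S = ⊤ :=
  (Subgroup.eq_top_iff' S).2 (SL2.transvection_induction _ (fun i j h c => by
    fin_cases i <;> fin_cases j
    · simp at h
    · convert l c; ext i j; fin_cases i <;> fin_cases j <;> simp [us, sl, SpecialLinearGroup.transvection_coe]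
    · convert mul_mem (mul_mem k (l (-c))) (inv_mem k)
      simp only [cp, us, sl_mul, sl_inv]
      ext i j; fin_cases i <;> fin_cases j <;> simp [sl, SpecialLinearGroup.transvection_coe]
    · simp at h) fun _ _ => mul_mem)

theorem sq_of_inv {a b : M2 F} (da : a.det = 1) (db : b.det = 1) (t : a.trace = 2) (a1 : a ≠ 1)
    (e : a * b * a = b) : IsSquare (-1 : F) := by
  have k i j := congrFun₂ e i j
  have k1 := k 0 0; have k2 := k 0 1; have k3 := k 1 0; have k4 := k 1 1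
  simp only [det_fin_two, trace_fin_two, mul_apply, Fin.sum_univ_two] at da db t k1 k2 k3 k4
  by_cases q : a 0 1 = 0
  · have : a 1 0 ≠ 0 := fun r => a1 (by ext i j; fin_cases i <;> fin_cases j <;> simp <;> grind)
    exact ⟨b 1 1, by grind⟩
  · exact ⟨(b 0 0 * a 0 1 - b 0 1 * (a 0 0 - 1)) / a 0 1, by grind⟩

theorem card_le_of_pow [Finite F] {q : ℕ} (h : 1 < q) (e : ∀ x : F, x ^ q = x) : Nat.card F ≤ q := by
  have := Fintype.ofFinite F
  have k := (FiniteField.forall_pow_eq_one_iff F (q - 1)).1 fun x => Units.ext (by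
    refine mul_right_cancel₀ x.ne_zero ?_
    rw [Units.val_pow_eq_pow_val, pow_sub_one_mul (by omega), e, Units.val_one, one_mul])
  have := Nat.le_of_dvd (by omega) k
  rw [Nat.card_eq_fintype_card]
  omega

theorem τ_five (e : g ^ 5 = 1) (g1 : g ≠ 1) (k2 : (2 : K) ≠ 0) : τ g ^ 2 + τ g - 1 = 0 := by
  obtain ⟨a, b, c, d, h, rfl⟩ := exists_sl g
  have k : sl a b c d h ^ 5 = sl (((a + d) ^ 4 - 3 * (a + d) ^ 2 + 1) * a - ((a + d) ^ 3 - 2 * (a + d)))
      (((a + d) ^ 4 - 3 * (a + d) ^ 2 + 1) * b) (((a + d) ^ 4 - 3 * (a + d) ^ 2 + 1) * c)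
      (((a + d) ^ 4 - 3 * (a + d) ^ 2 + 1) * d - ((a + d) ^ 3 - 2 * (a + d))) (by grind) := by
    simp [pow_succ]; grind
  simp only [k, sl_one, sl_inj, ne_eq, τ_sl] at e g1 ⊢
  by_cases z : (a + d) ^ 4 - 3 * (a + d) ^ 2 + 1 = 0
  · clear k; generalize a + d = t at *; grind
  obtain rfl : b = 0 := by grind
  obtain rfl : c = 0 := by grind
  obtain rfl : a = d := by grind
  grind

namespace Rep

theorem Core.card_p {G : Type*} [Group G] {R : Rep G F} [Finite F] (c : R.Core) (p : ℕ) [hp : Fact p.Prime]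
    [CharP F p] (h : ∀ g, R.t g ^ p = R.t g) : Nat.card F = p := by
  have := Fintype.ofFinite F
  obtain ⟨n, -, e⟩ := FiniteField.card F p
  refine (card_le_of_pow hp.1.one_lt (c.tg (frobenius F p) h)).antisymm ?_
  rw [Nat.card_eq_fintype_card, e]
  exact Nat.le_self_pow n.ne_zero p

theorem t_unip {G : Type*} [Group G] (R : Rep G F) (p : ℕ) [Fact p.Prime] [CharP F p] {g : G}
    (e : g ^ p = 1) : R.t g = 4 := frobenius_inj F p (by
  rw [map_ofNat, frobenius_def, ← R.t_one, ← e]; simpa using (R.t_pow p g 1).symm)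

variable {R : Rep SL(2, K) F} [Finite F] [Finite K] (c : R.Core) (k2 : (2 : K) ≠ 0)
include c k2

theorem Core.neg (g : SL(2, K)) : R.ρ (-g) = -R.ρ g := by
  rw [← neg_one_mul, map_mul, (c.no_inv (g := -1) (by simp)).resolve_left fun e => k2 (by
    simpa [sl_one, neg_eq_iff_add_eq_zero, one_add_one_eq_two] using R.eq_one e), neg_one_mul]

theorem Core.sq0 (e : τ g = 0) : R.ρ (g * g) = -1 := by rw [sq_of_τ e, c.neg k2, map_one]

omit c [Finite F] in
theorem t_cp (e : τ g ^ 2 ≠ 4) : R.t g = R.t (cp (τ g)) := by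
  obtain ⟨h, k⟩ := conj_cp k2 e
  rw [← R.t_conj h (cp _), ← k]

theorem Core.prime (pr : ∀ s t : K, s ≠ 0 → ∃ n : ℕ, t = n * s) (s0 : s ≠ 0) :
    R.xv (us s) ≠ 0 ∧ R.xv (cp s) ≠ 0 := by
  have (S : Subgroup SL(2, K)) (k : cp 0 ∈ S) (l : us s ∈ S) : S = ⊤ := gen_top k fun t => by
    obtain ⟨n, rfl⟩ := pr s t s0
    exact us_pow s n ▸ pow_mem l n
  exact ⟨c.q2 (c.sq0 k2 (by simp [cp])) this, c.q2 (c.sq0 k2 (by simp [cp])) fun S k l => this S k (by
    convert mul_mem (inv_mem k) l; simp [cp, us])⟩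

section
variable (p : ℕ) [hp : Fact p.Prime] [CharP F p] [CharP K p]
include p

omit c k2 [Finite F] [Finite K] in
theorem t_us (s : K) : R.t (us s) = 4 := R.t_unip p (by simp [us_pow, us_eq_one])

theorem Core.card_le : Nat.card F ≤ Nat.card K := by
  have := Fintype.ofFinite K
  have := Fintype.ofFinite F
  obtain ⟨n, -, e⟩ := FiniteField.card K p
  have two {g : SL(2, K)} (e : τ g = 2) : R.t g = 4 := by
    obtain ⟨h, s, rfl⟩ := conj_us e
    rw [t_conj, t_us p]
  have := c.tg (iterateFrobenius F p n) fun g => by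
    change iterateFrobenius F p n (R.t g) = R.t g
    by_cases k : τ g ^ 2 = 4
    · obtain k | k : τ g = 2 ∨ τ (-g) = 2 := by rw [τ_neg]; grind
      · rw [two k, map_ofNat]
      · rw [← neg_neg g, t_neg (c.neg k2 _), two k, map_neg, map_ofNat]
    have : τ (g ^ p ^ (n : ℕ)) = τ g := by
      simpa [τ, trace_fin_two, ← e, FiniteField.pow_card] using FiniteField.trace_pow_card g.1
    rw [iterateFrobenius_def, ← t_pow, t_cp k2 k, t_cp k2 (this ▸ k), this]
  exact card_le_of_pow (by simpa using Fintype.one_lt_card) fun x => by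
    simpa [e, iterateFrobenius_def] using this x

theorem Core.xus (k3 : (3 : K) ≠ 0) (s0 : s ≠ 0) : R.xv (us s) ≠ 0 := fun e => by
  have k {s} (e : R.xv (us s) = 0) : R.N (us s) = (2 : F) • 1 := by
    simpa using (N_iff c.two (y := 0)).2 ⟨(t_us p s).trans (by norm_num), e⟩
  have l := k (s := s + s) (by rw [us_add, x_sq c.two, e, smul_zero])
  have m := R.N_mul (g := us s) (h := us (s + s)) (by rw [← us_add, ← us_add, add_comm])
  rw [us_inv, ← us_add s (-_), show s + -(s + s) = -s by ring, ← us_inv, N_inv, k e, l] at m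
  have := c.nq2 (by rw [← us_add, ← us_add, add_comm]) (k e) l (by
    simp only [smul_mul_assoc, one_mul] at m; linear_combination (norm := module) -m)
  simp [us, sl_one] at this
  grind

theorem Core.top (k3 : (3 : K) ≠ 0) : ∃ C, ∃ hC : Sp C, ∃ X : M4 F, adj C * wm (R.xv (us 1)) * C = X ∧
    (∀ M, Sp M → M * X = X * M → ∃ a b d, M = bl a b 0 d ∧ a.det = 1 ∧ st d * a = 1) ∧
    ∀ s, ∃ a b d, (R.cj hC).ρ (us s) = bl a b 0 d ∧ a.det = 1 ∧ st d * a = 1 ∧ (a = 1 → s = 0) := by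
  obtain ⟨C, hC, A, e, k⟩ := nf_wm c.two (c.xus k2 p k3 one_ne_zero) (by
    rw [gram c.two, ← us_add, mul_inv_cancel, t_one, t_us p, t_us p]; have := c.two; grind)
  refine ⟨C, hC, _, e, k, fun s => ?_⟩
  obtain ⟨a, b, d, l, m, n⟩ := k _ ((R.cj hC).sp (us s)) (by
    have : R.ρ (us s) * R.N (us 1) = R.N (us 1) * R.ρ (us s) := by
      simp [N, us_inv, mul_add, add_mul, ← map_mul, ← us_add, add_comm]
    simp only [N_eq c.two, mul_add, add_mul, mul_smul_comm, smul_mul_assoc, mul_one, one_mul,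
      add_right_inj] at this
    simp only [← e, cj_ρ, mul_assoc, ← mul_assoc C, hC.mul_adj, one_mul]
    rw [← mul_assoc (R.ρ _), this, mul_assoc])
  refine ⟨a, b, d, l, m, n, fun a1 => by_contra fun s0 => (c.cj hC).xus k2 p k3 s0 ?_⟩
  subst a1
  obtain rfl : d = 1 := by simpa using congrArg st n
  have := (sp_bl.1 (l ▸ (R.cj hC).sp (us s))).2.1
  rw [st_one, one_mul, mul_one] at this
  rw [xv, N, ρ_inv, l, adj_bl, bl_add, ← this]
  simp [← two_smul F, wv, bl]

theorem Core.card_ge (k3 : (3 : K) ≠ 0) : Nat.card K ≤ Nat.card F := by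
  obtain ⟨C, hC, -, -, -, k⟩ := c.top k2 p k3
  choose a b d l m n o using k
  let f : Multiplicative K →* SL(2, F) := MonoidHom.mk' (fun s => ⟨a s.toAdd, m _⟩) fun s t =>
    Subtype.ext (by
      have := l (s.toAdd + t.toAdd)
      rw [us_add, map_mul, l, l, bl_mul, bl_inj] at this
      exact this.1.symm.trans (by simp; rfl))
  have := Fintype.ofFinite K
  have := Fintype.ofFinite F
  obtain ⟨i, -, e⟩ := FiniteField.card K p
  obtain ⟨j, -, e'⟩ := FiniteField.card F p
  have := Subgroup.card_dvd_of_injective f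
    ((injective_iff_map_eq_one f).2 fun s e => o _ (congrArg Subtype.val e))
  rw [Classical.card_SL_two', Nat.card_congr Multiplicative.toAdd, Nat.card_eq_fintype_card,
    Nat.card_eq_fintype_card, e, e'] at this
  rw [Nat.card_eq_fintype_card, Nat.card_eq_fintype_card, e, e']
  refine Nat.le_of_dvd (pow_pos hp.1.pos _) (Nat.Coprime.dvd_of_dvd_mul_right (.pow_left _ ?_) this)
  rw [← pow_mul, Nat.coprime_comm, ← Nat.coprime_pow_right_iff (n := j * 2) (by simp)]
  exact (Nat.coprime_self_sub_left (Nat.one_le_pow _ _ hp.1.pos)).2 (by simp)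

theorem Core.not_inv (k3 : (3 : K) ≠ 0) {B : M4 F} (hB : Sp B)
    (e : R.ρ (us 1)⁻¹ = B * R.ρ (us 1) * adj B) : IsSquare (-1 : F) := by
  obtain ⟨C, hC, X, hX, k, l⟩ := c.top k2 p k3
  obtain ⟨a, b, d, l, m, n, o⟩ := l 1
  obtain ⟨a', b', d', l', m', -⟩ := k (adj C * B * C) ((hC.adj.mul hB).mul hC) (by
    have := congrArg wm (x_conj' c.two hB e).2
    rw [x_inv, wm_act c.two hB] at this
    simp only [← hX, mul_assoc, ← mul_assoc C, hC.mul_adj, one_mul]
    conv_rhs => rw [this, mul_assoc, mul_assoc, ← mul_assoc (adj B), (hB : _ = _), one_mul])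
  have t : (R.cj hC).t (us 1) = 4 := t_us p 1
  have k : (R.cj hC).ρ (us 1) * (adj C * B * C) * (R.cj hC).ρ (us 1) = adj C * B * C := by
    simp only [cj_ρ, mul_assoc, ← mul_assoc C, hC.mul_adj, one_mul]
    rw [← mul_assoc B, hB.adj.cancel (M := B * R.ρ (us 1)) (N := R.ρ (us 1)⁻¹ * B)
      (by rw [← e, mul_assoc, hB.mul_adj, mul_one]), ← mul_assoc (R.ρ _), ← mul_assoc (R.ρ _), ← map_mul]
    simp
  simp only [l, l', bl_mul, bl_inj, mul_zero, add_zero] at k
  refine sq_of_inv m m' (mul_left_cancel₀ c.two ?_) (fun e => one_ne_zero (o e)) k.1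
  have n0 := congrArg (· * adjugate a) n
  simp only [mul_assoc, mul_adjugate, m, one_smul, mul_one, one_mul] at n0
  have n1 := congrFun₂ n0 0 0
  have n2 := congrFun₂ n0 1 1
  simp [st, adjugate_fin_two] at n1 n2
  simp [Rep.t, l, E4.trace4, bl] at t
  rw [trace_fin_two]
  linear_combination t - n1 - n2

end

theorem Core.char3 [Fintype K] (h3 : (3 : F) = 0) (k3 : (3 : K) = 0) : Fintype.card K ≤ 3 := by
  have e (s : K) : us s ^ 3 = 1 := by simp [us_pow, us_eq_one, k3]
  classical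
  have (s : K) : s ∈ ({0, 1, -1} : Finset K) := by
    have := c.nq2 (g := us 1) (k := us s) (by rw [← us_add, ← us_add, add_comm]) (sq3 c.two h3 (e _))
      (sq3 c.two h3 (e _)) (us_add 1 s ▸ sq3 c.two h3 (e _))
    simpa [us, sl_one] using this
  exact (Finset.card_le_card fun s _ => this s).trans Finset.card_le_three

omit [Finite F] [Finite K] in
theorem Core.cross_card [Fintype K] (r : ℕ) [CharP K r] (h : (r : F) ≠ 0) : Fintype.card K - 1 ∣ 8 :=
  (FiniteField.forall_pow_eq_one_iff K 8).1 fun x => Units.ext (xchar R c.two k2 us us_add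
    (fun _ => us_eq_one.1) us_tor (n := r) (fun s => by simp [us_pow, us_eq_one]) h x.ne_zero)

end Rep

end CF.MaxSub.O4
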