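/-
Subgroups of `Sp₄` in odd characteristic: `SL₂(5)` and `SL₂(7)` are not maximal.
-/
import Cfsg.Agent.MaxSub.O4L

set_option autoImplicit false

namespace CF.MaxSub.O4

open Matrix
open CF.MaxSub.E4 (M4 M2 subOf)
open scoped MatrixGroups

variable {F : Type*} [Field F] {B : M4 F}

theorem Gr.act (h2 : (2 : F) ≠ 0) {ι : Type*} {v : ι → W5 F} (h : Gr v) (hB : Sp B) :
    Gr fun i => act B (v i) := fun i j => by simpa only [bw_act h2 hB] using h i j

theorem Gr.eq (h2 : (2 : F) ≠ 0) {ι : Type*} [DecidableEq ι] {v : ι → W5 F} (h : Gr v) (i j : ι) :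
    bw (v i) (v j) = -1 / 4 + -1 / 4 + if i = j then 3 else 0 := by
  have := four_ne h2
  have := h i j
  split_ifs <;> grind

theorem Gr.eq7 (h2 : (2 : F) ≠ 0) (h7 : (7 : F) = 0) {v : Fin 6 → W5 F} (h : Gr v) (i j : Fin 7) :
    bw (Fin.cons (α := fun _ => W5 F) 0 v i) (Fin.cons (α := fun _ => W5 F) 0 v j) =
      Fin.cons (α := fun _ => F) (1 / 4) (fun _ => -1 / 4) i +
        Fin.cons (α := fun _ => F) (1 / 4) (fun _ => -1 / 4) j + if i = j then 3 else 0 := by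
  have := four_ne h2
  cases i using Fin.cases <;> cases j using Fin.cases <;>
    simp [h.eq h2, Fin.succ_ne_zero, (Fin.succ_ne_zero _).symm] <;> grind

instance fact5 : Fact (Nat.Prime 5) := ⟨by decide⟩

instance fact7 : Fact (Nat.Prime 7) := ⟨by decide⟩

/-- The character of `SL₂(5)`. -/
def T5 (g : SL(2, ZMod 5)) : ℤ := if τ g = 0 then 0 else if τ g = -1 then 1 else if τ g = 1 then -1 else
  if τ g = 2 then if g = 1 then 4 else -1 else if -g = 1 then -4 else 1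

/-- Elements of order five. -/
def c5 : Fin 6 → SL(2, ZMod 5) := ![us 1, sl 1 0 4 1 rfl, sl 0 1 4 2 rfl, sl 4 4 4 3 rfl, sl 3 4 4 4 rfl,
  sl 2 1 4 0 rfl]

/-- The character of `SL₂(7)`. -/
def T7 (g : SL(2, ZMod 7)) : ZMod 7 := τ g ^ 3 - 2 * τ g

/-- Inner products. -/
def B7 (g h : SL(2, ZMod 7)) : ZMod 7 := T7 (g * h) + T7 (g * h⁻¹) - T7 g * T7 h * 4

/-- Inner products. -/
def BB (g h : SL(2, ZMod 7) × SL(2, ZMod 7)) : ZMod 7 :=
  4 * (B7 g.1 h.1 - B7 g.1 h.2 - B7 g.2 h.1 + B7 g.2 h.2)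

/-- Pairs of elements of order eight. -/
def c7 : Fin 6 → SL(2, ZMod 7) × SL(2, ZMod 7) := ![(sl 0 1 6 3 rfl, sl 0 3 2 3 rfl),
  (sl 0 1 6 3 rfl, sl 1 2 4 2 rfl), (sl 0 5 4 3 rfl, sl 1 1 1 2 rfl), (sl 1 3 5 2 rfl, sl 4 2 1 6 rfl),
  (sl 0 5 4 3 rfl, sl 0 4 5 3 rfl), (sl 1 3 5 2 rfl, sl 5 1 3 5 rfl)]

theorem zmod_gen {r : ℕ} [Fact r.Prime] (s t : ZMod r) (h : s ≠ 0) : ∃ n : ℕ, t = n * s :=
  ⟨(t / s).val, by simp [h]⟩

namespace Rep

theorem Nm.mul {G : Type*} [Group G] {R : Rep G F} {A : M4 F} (h : R.Nm A) (k : R.Nm B) : R.Nm (A * B) :=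
  ⟨h.1.mul k.1, fun g => (k.2 g).elim fun a e => (h.2 a).imp fun b e' => by
    rw [e', e, adj_mul]; simp only [mul_assoc]⟩

variable [Finite F]

section five
variable {R : Rep SL(2, ZMod 5) F} (c : R.Core)
include c

theorem Core.three5 : (3 : F) ≠ 0 := fun h => (c.prime (s := -1) (by decide) zmod_gen (by decide)).2
  ((N_iff c.two (s := 2) (y := 0)).1 (by simpa using sq3 c.two h (by decide +kernel))).2

theorem Core.t5 (g : SL(2, ZMod 5)) : R.t g = T5 g := by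
  have k2 : (2 : ZMod 5) ≠ 0 := by decide
  have h2 := c.two
  have h3 := c.three5
  have m1 {g} (e : τ g = -1) : R.t g = 1 := by
    rw [t_cp k2 (by rw [e]; decide), e]
    exact (three h2 (by decide +kernel)).resolve_right fun k => (c.prime k2 zmod_gen (by decide)).2 k.1
  have p1 {g} (e : τ g = 1) : R.t g = -1 := by
    rw [← neg_neg g, t_neg (c.neg k2 _), m1 (by rw [τ_neg, e])]
  have f {g} (e : τ g = 2) (g1 : g ≠ 1) : ∃ s ≠ 0, R.t g = R.t (us s) ∧ (R.t g = -1 ∨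
      R.t g ^ 2 - 3 * R.t g + 1 = 0 ∧ ∀ a, R.ρ (a * a) = -1 →
        R.t (us s * (us s * a)) = (R.t g - 2) * R.t (us s * a)) := by
    obtain ⟨h, s, rfl⟩ := conj_us e
    have s0 : s ≠ 0 := by rintro rfl; simp [us_eq_one.2 rfl] at g1
    rw [t_conj]
    exact ⟨s, s0, rfl, (five h2 (by simp [us_pow, us_eq_one]; exact .inl rfl) (c.prime k2 zmod_gen s0).1).imp_right
      fun k => ⟨k.1, k.2.2⟩⟩
  have p2 {g} (e : τ g = 2) (g1 : g ≠ 1) : R.t g = -1 := by
    obtain ⟨s, s0, -, k | ⟨k, l⟩⟩ := f e g1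
    · exact k
    have l := l (sl 0 (-s) s⁻¹ 0 (by simp [s0])) (c.sq0 k2 (by simp))
    rw [p1 (g := us s * sl _ _ _ _ _) (by simp [us, s0])] at l
    obtain ⟨-, -, -, m | ⟨m, -⟩⟩ := f (g := us s * (us s * sl 0 (-s) s⁻¹ 0 (by simp [s0])))
      (by simp [us, s0]; decide) (by simp [us, s0, sl_one])
    all_goals rw [l] at m; grind
  unfold T5
  split_ifs with a b d e f f
  · simpa using (four h2 (c.sq0 k2 a)).1
  · simpa using m1 b
  · simpa using p1 d
  · simp [f, t_one]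
  · simpa using p2 e f
  · rw [← neg_neg g, t_neg (c.neg k2 _), f]; simp [t_one]
  · rw [← neg_neg g, t_neg (c.neg k2 _), p2 _ f]
    · simp
    rw [τ_neg]; revert a b d e; generalize τ g = t; revert t; decide

theorem Core.not5 : ¬ R.Mx := fun hM => by
  have k2 : (2 : ZMod 5) ≠ 0 := by decide
  have h2 := c.two
  have h3 := c.three5
  have gr : Gr fun i => R.xv (c5 i) := fun i j => by
    have := (by decide +kernel : ∀ i j, 2 * T5 (c5 i * c5 j) + 2 * T5 (c5 i * (c5 j)⁻¹) -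
      T5 (c5 i) * T5 (c5 j) = if i = j then 5 else -1) i j
    have := congrArg (Int.cast : ℤ → F) this
    simp only [gram h2, c.t5]
    generalize T5 (_ * _⁻¹) = a, T5 (_ * c5 j) = b at this ⊢
    constructor <;> intro e <;> simp [e] at this ⊢ <;> grind
  have nm := hM.nm h2 h3 _ (gr.eq h2) (i := 0) (j := 1) (k := 1) (l := 2) (fun B hB i j => by
    obtain ⟨φ, inj, e⟩ := hB.hom
    rw [map_sub]
    refine gr.sgn h2 (gr.act h2 hB.1) (fun i => ?_) i j
    have ⟨a, b⟩ := (by decide +kernel : ∀ i, c5 i ^ 5 = 1 ∧ c5 i ≠ 1) i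
    have b' := (map_ne_one_iff φ inj).2 b
    have t := τ_five (g := φ (c5 i)) (by rw [← map_pow, a, map_one]) b' k2
    simp only [← (x_conj' h2 hB.1 (e _)).2]
    generalize φ (c5 i) = g at *
    obtain ⟨a, b, d, f, h, rfl⟩ := exists_sl g
    obtain ⟨k, l⟩ := (by decide +kernel : ∀ a b c d : ZMod 5, ∀ h, (a + d) ^ 2 + (a + d) - 1 = 0 →
      sl a b c d h ≠ 1 → ∃ k, T5 (c5 k) = -1 ∧ (sl a b c d h = c5 k ∨ sl a b c d h = (c5 k)⁻¹ ∨
        sl a b c d h = c5 k * c5 k ∨ sl a b c d h = (c5 k * c5 k)⁻¹)) a b d f h t b'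
    refine ⟨k, ?_⟩
    rcases l.2 with e | e | e | e <;> simp [e, x_inv, x_sq h2, c.t5, l.1, -_root_.mul_inv_rev])
    (by decide) (by decide)
  obtain ⟨φ, -, e⟩ := nm.hom
  have k (i j) (e : sl 2 0 0 3 rfl * c5 i * (sl 2 0 0 3 rfl)⁻¹ = (c5 j)⁻¹) :
      act (R.ρ (sl 2 0 0 3 rfl)) (R.xv (c5 i)) = R.xv (c5 j) := by rw [← x_conj h2, e, x_inv]
  have := c.t5 (φ (sl 2 0 0 3 rfl) * (sl 2 0 0 3 rfl)⁻¹)
  rw [t, map_mul, e, ρ_inv, adj_smul, adj_mul, adj_wm, adj_wm] at this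
  have s := R.sp (sl 2 0 0 3 rfl)
  rw [mul_assoc, mul_assoc, ← mul_assoc (R.ρ _), mul_smul_comm, smul_mul_assoc, smul_mul_assoc,
    mul_smul_comm, ← mul_assoc (R.ρ _), ← mul_one (R.ρ _ * _), ← s, ← mul_assoc _ (adj _), mul_assoc _ (R.ρ _),
    mul_assoc _ _ (adj _), ← wm_act h2 s, ← wm_act h2 s, map_sub, map_sub, k 0 0 (by decide +kernel),
    k 1 1 (by decide +kernel), k 2 5 (by decide +kernel), ← mul_assoc, trace_smul, trace_smul, tr4] at this
  simp [gr.eq h2] at this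
  have h4 := four_ne h2
  unfold T5 at this
  split_ifs at this <;> grind

end five

section seven
variable {R : Rep SL(2, ZMod 7) F} (c : R.Core) [CharP F 7]
include c

theorem Core.t7 (g : SL(2, ZMod 7)) : R.t g = ZMod.castHom dvd_rfl F (T7 g) := by
  have k2 : (2 : ZMod 7) ≠ 0 := by decide
  have h2 := c.two
  have k {g} (e : τ g = 0 ∨ τ g = -1 ∨ τ g = 2 ∨ τ g = 3) : R.t g = ZMod.castHom dvd_rfl F (T7 g) := by
    rcases e with e | e | e | e <;> rw [T7, e]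
    · simpa using (four h2 (c.sq0 k2 e)).1
    · rw [t_cp k2 (by rw [e]; decide), e, show (-1 : ZMod 7) ^ 3 - 2 * -1 = 1 from rfl, map_one]
      exact (three h2 (by decide +kernel)).resolve_right fun k => (c.prime k2 zmod_gen (by decide)).2 k.1
    · obtain ⟨h, s, rfl⟩ := conj_us e
      rw [t_conj, t_us 7, show (2 : ZMod 7) ^ 3 - 2 * 2 = 4 from rfl, map_ofNat]
    · rw [t_cp k2 (by rw [e]; decide), e, show (3 : ZMod 7) ^ 3 - 2 * 3 = 0 from rfl, map_zero]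
      exact (smul_eq_zero.1 ((x_sq h2 _).symm.trans (four h2 (c.sq0 k2 (by decide +kernel))).2)).resolve_right
        (c.prime k2 zmod_gen (by decide)).2
  obtain e | e := (by decide : ∀ t : ZMod 7, (t = 0 ∨ t = -1 ∨ t = 2 ∨ t = 3) ∨
    (-t = 0 ∨ -t = -1 ∨ -t = 2 ∨ -t = 3)) (τ g)
  · exact k e
  rw [← neg_neg g, t_neg (c.neg k2 _), k (τ_neg g ▸ e), ← map_neg]
  simp only [T7, τ_neg]; congr 1; ring

theorem Core.nm7 (n : ¬ IsSquare (-1 : F)) (hB : R.Nm B) : ∃ g, B = R.ρ g := by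
  have k2 : (2 : ZMod 7) ≠ 0 := by decide
  have h2 := c.two
  have T {B g h} (hB : Sp B) (e : R.ρ h = B * R.ρ g * adj B) : T7 h = T7 g :=
    (ZMod.castHom dvd_rfl F).injective (by rw [← c.t7, ← c.t7, (x_conj' h2 hB e).1])
  have W {B g h} (k) (e : R.ρ (k * h * k⁻¹) = B * R.ρ g * adj B) :
      R.ρ h = R.ρ k⁻¹ * B * R.ρ g * adj (R.ρ k⁻¹ * B) := by
    rw [adj_mul, ← ρ_inv, mul_assoc _ B, ← mul_assoc, mul_assoc _ _ (adj B), ← e, ← map_mul, ← map_mul]
    congr 1; group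
  have V {B} (k) (e : ∃ g, R.ρ k⁻¹ * B = R.ρ g) : ∃ g, B = R.ρ g :=
    e.elim fun g e => ⟨k * g, by rw [map_mul, ← e, ← mul_assoc, ← map_mul]; simp⟩
  have a {B} (hB : R.Nm B) (e : R.ρ (us 1) = B * R.ρ (us 1) * adj B)
      (e' : R.ρ (sl 1 0 6 1 rfl) = B * R.ρ (sl 1 0 6 1 rfl) * adj B) : ∃ g, B = R.ρ g := by
    have l {g} (e : R.ρ g = B * R.ρ g * adj B) : B * R.ρ g = R.ρ g * B := by
      conv_rhs => rw [e, mul_assoc, (hB.1 : _ = _), mul_one]
    let S := subOf (fun g => B * R.ρ g = R.ρ g * B) (by simp) fun g h k l => by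
      rw [map_mul, ← mul_assoc, k, mul_assoc, l, mul_assoc]
    have u : us 1 ∈ S := l e
    obtain ⟨a, e⟩ := c.cen (M := B) fun g => (gen_top (S := S) (by
      rw [show cp (0 : ZMod 7) = (us 1 * sl 1 0 6 1 rfl * us 1)⁻¹ by decide +kernel]
      exact inv_mem (mul_mem (mul_mem u (l e')) u)) fun s => by
        obtain ⟨n, rfl⟩ := zmod_gen 1 s one_ne_zero
        exact us_pow (1 : ZMod 7) n ▸ pow_mem u n).ge trivial
    obtain rfl | rfl := (e ▸ hB.1).pm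
    exacts [⟨1, by simp [e]⟩, ⟨-1, by simp [e, c.neg k2]⟩]
  have b {B} (hB : R.Nm B) (e : R.ρ (us 1) = B * R.ρ (us 1) * adj B) : ∃ g, B = R.ρ g := by
    obtain ⟨h, k⟩ := hB.2 (sl 1 0 6 1 rfl)
    have t1 := T hB.1 k
    have t2 := T (h := us 1 * h) (g := us 1 * sl 1 0 6 1 rfl) hB.1 (by
      rw [map_mul, map_mul, k]
      conv_lhs => rw [e]
      simp only [mul_assoc]; rw [← mul_assoc (adj B), (hB.1 : _ = _), one_mul])
    obtain ⟨a', b, d, f, l, rfl⟩ := exists_sl h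
    obtain ⟨m, l⟩ := (by decide +kernel : ∀ a b c d : ZMod 7, ∀ h, T7 (sl a b c d h) = T7 (sl 1 0 6 1 rfl) →
      T7 (us 1 * sl a b c d h) = T7 (us 1 * sl 1 0 6 1 rfl) →
        ∃ m, sl a b c d h = us m * sl 1 0 6 1 rfl * (us m)⁻¹) a' b d f l t1 t2
    exact V (us m) (a ((nm_ρ _).mul hB) (W _ (by
      rwa [← us_add, add_comm, us_add, mul_inv_cancel_right])) (W _ (l ▸ k)))
  obtain ⟨φ, inj, e⟩ := hB.hom
  obtain ⟨h, s, k⟩ := conj_us ((by decide +kernel : ∀ t : ZMod 7, t ^ 3 - 2 * t = T7 (us 1) → t = 2) _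
    (T hB.1 (e (us 1))))
  obtain ⟨a, a0, l⟩ := (by decide : ∀ s : ZMod 7, s ≠ 0 → ∃ a ≠ 0, s = a ^ 2 * 1 ∨ s = a ^ 2 * -1) s (by
    rintro rfl
    simp [us_eq_one.2 rfl, map_eq_one_iff φ inj, us_eq_one] at k)
  obtain ⟨m, o⟩ := us_tor a a0
  have e := k ▸ e (us 1)
  rcases l with rfl | rfl <;> rw [← o, show ∀ x, h * (m * x * m⁻¹) * h⁻¹ = h * m * x * (h * m)⁻¹ from
    fun x => by group] at e
  · exact V _ (b ((nm_ρ _).mul hB) (W _ e))
  · exact (n (c.not_inv k2 7 (by decide) ((nm_ρ _).mul hB).1 (us_inv (1 : ZMod 7) ▸ W _ e))).elim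

theorem Core.not7 (n : ¬ IsSquare (-1 : F)) : ¬ R.Mx := fun hM => by
  have h2 := c.two
  have h7 : (7 : F) = 0 := CharP.cast_eq_zero F 7
  have h3 : (3 : F) ≠ 0 := fun e => one_ne_zero (α := F) (by linear_combination h7 - 2 * e)
  let φ := ZMod.castHom dvd_rfl F (m := 7)
  let X (g : SL(2, ZMod 7) × SL(2, ZMod 7)) := (5 : F) • (R.xv g.1 - R.xv g.2)
  have b (g h) : bw (X g) (X h) = φ (BB g h) := by
    simp only [X, bw_smul_left, bw_smul_right, bw_sub_left, bw_sub_right, gram h2, c.t7, BB, B7, map_mul,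
      map_add, map_sub, map_ofNat, φ]
    grind
  have gr : Gr fun i => X (c7 i) := fun i j => by
    have := congrArg φ ((by decide +kernel : ∀ i j, 2 * BB (c7 i) (c7 j) = if i = j then 5 else -1) i j)
    rw [map_mul, map_ofNat, ← b] at this
    constructor <;> intro e <;> simpa [e, map_ofNat] using this
  let E : Fin 7 → W5 F := Fin.cons 0 fun i => X (c7 i)
  let d : Fin 7 → _ := Fin.cons (1, 1) c7
  have hE (i) : E i = X (d i) := by cases i using Fin.cases <;> simp [E, X, d]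
  let S := subOf (fun g => ∀ i j, ∃ k l, act (R.ρ g) (E i - E j) = E k - E l)
    (fun i j => ⟨i, j, by simp [act, wv_wm h2, -wm_sub]⟩) fun g h k l i j => by
      obtain ⟨a, b, e⟩ := l i j
      rw [map_mul, act_mul h2 (R.sp h), e]; exact k a b
  have m {g} (e : ∃ p, ∀ i, ∃ k, ∀ j : Fin 5, BB (g * (d i).1 * g⁻¹, g * (d i).2 * g⁻¹) (c7 j.castSucc) =
      BB (d k) (c7 j.castSucc) - BB (d p) (c7 j.castSucc)) : g ∈ S := by
    obtain ⟨p, e⟩ := e
    choose k e using e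
    have (i : Fin 7) : act (R.ρ g) (E i) = E (k i) - E p := Gr.span h2 h3 (v := fun j => X (c7 j.castSucc))
      (fun i j => by simpa using gr i.castSucc j.castSucc) fun j => by
        rw [bw_sub_left, hE, hE, hE, b, b, ← map_sub, ← e, ← b]
        simp [X, x_conj h2]
    exact fun i j => ⟨k i, k j, by simp [this]⟩
  have t : S = ⊤ := gen_top (m (by decide +kernel)) fun s => by
    obtain ⟨n, rfl⟩ := zmod_gen 1 s one_ne_zero
    exact us_pow (1 : ZMod 7) n ▸ pow_mem (m (by decide +kernel)) n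
  obtain ⟨g, e⟩ := c.nm7 n (hM.nm h2 h3 _ (gr.eq7 h2 h7) (i := 1) (j := 0) (k := 2) (l := 0)
    (fun B hB => (c.nm7 n hB).elim fun g e => e ▸ t.ge (Subgroup.mem_top g)) (by decide) (by decide))
  have := c.t7 g
  rw [Rep.t, ← e, trace_smul, trace_wm_mul] at this
  simp only [bw_sub_left, bw_sub_right, gr.eq7 h2 h7] at this
  refine (by decide : ∀ t : ZMod 7, t ^ 3 - 2 * t ≠ 2) _ (φ.injective (this.symm.trans ?_))
  have := four_ne h2
  simp [map_ofNat]; grind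

end seven

end Rep

end CF.MaxSub.O4
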