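/-
Subgroups of `Sp₄` in odd characteristic: the double covers of `A₆` and `A₇`.
-/
import Cfsg.Agent.MaxSub.O4M

set_option autoImplicit false

namespace CF.MaxSub.O4

open Matrix Equiv
open CF.MaxSub.E4 (M4 M2 subOf)
open scoped MatrixGroups

variable {F : Type*} [Field F] {B : M4 F}

/-- The field with nine elements. -/
abbrev K9 := QuadraticAlgebra (ZMod 3) (-1) 0

instance fact9 : Fact (∀ r : ZMod 3, r ^ 2 ≠ -1 + 0 * r) := ⟨by decide⟩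

instance fin9 : Fintype K9 := Fintype.ofEquiv _ (QuadraticAlgebra.equivProd (-1 : ZMod 3) 0).symm

/-- The character on unipotent elements. -/
def U9 (ε : Bool) (g : SL(2, K9)) : ℤ :=
  if g = 1 then 4 else if decide (g 0 1 ^ 4 = 1 ∨ g 1 0 ^ 4 = 1) = ε then 1 else -2

/-- The character of `SL₂(9)`. -/
def T9 (ε : Bool) (g : SL(2, K9)) : ℤ := if τ g = 0 ∨ τ g ^ 2 = -1 then 0 else
  if τ g ^ 2 + τ g - 1 = 0 then -1 else if τ (-g) ^ 2 + τ (-g) - 1 = 0 then 1 else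
    if τ g = 2 then U9 ε g else -U9 ε (-g)

/-- Inner products. -/
def B9 (ε : Bool) (g h : SL(2, K9)) : ℤ := 2 * T9 ε (g * h) + 2 * T9 ε (g * h⁻¹) - T9 ε g * T9 ε h

/-- Elements of order five. -/
def c9 : Bool → Fin 6 → SL(2, K9)
  | true => ![sl 0 ⟨0, 1⟩ ⟨0, 1⟩ ⟨1, 1⟩ rfl, sl 0 1 2 ⟨1, 1⟩ rfl, sl ⟨0, 1⟩ ⟨0, 1⟩ ⟨1, 1⟩ 1 rfl,
    sl ⟨0, 1⟩ ⟨0, 2⟩ ⟨2, 2⟩ 1 rfl, sl ⟨0, 1⟩ 1 ⟨2, 1⟩ 1 rfl, sl ⟨0, 1⟩ ⟨1, 1⟩ ⟨0, 1⟩ 1 rfl]
  | false => ![sl 0 ⟨0, 1⟩ ⟨0, 1⟩ ⟨1, 1⟩ rfl, sl 0 ⟨0, 2⟩ ⟨0, 2⟩ ⟨1, 1⟩ rfl, sl 0 1 2 ⟨1, 1⟩ rfl,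
    sl 0 2 1 ⟨1, 1⟩ rfl, sl 2 ⟨0, 1⟩ 2 ⟨2, 1⟩ rfl, sl 2 1 ⟨0, 2⟩ ⟨2, 1⟩ rfl]

theorem a7_cases (σ : Perm (Fin 7)) (h : Perm.sign σ = 1) : σ ^ 3 = 1 ∨ σ ^ 4 = 1 ∨ σ ^ 7 = 1 ∨
    ∃ h, Perm.sign h = 1 ∧ (σ ^ 5 = 1 ∧ h * σ * h⁻¹ = σ ^ 7 ∨
      σ ^ 6 = 1 ∧ h * σ * h⁻¹ = σ ∧ h * h = 1 ∧ h ≠ 1 ∧ σ ^ 3 ≠ 1 ∧ h * σ ^ 3 ≠ 1) := by
  have k (τ : Perm (Fin 7)) (e : σ.cycleType = τ.cycleType) : ∃ c, σ = c * τ * c⁻¹ :=
    (isConj_iff.1 (Perm.isConj_iff_cycleType_eq.2 e.symm)).imp fun _ => Eq.symm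
  have l (n : ℕ) (e : σ.cycleType.lcm ∣ n) : σ ^ n = 1 :=
    orderOf_dvd_iff_pow_eq_one.1 (σ.lcm_cycleType ▸ e)
  have sg (c h : Perm (Fin 7)) (e : Perm.sign h = 1) : Perm.sign (c * h * c⁻¹) = 1 := by simp [e]
  have a : σ.cycleType.sum ≤ 7 := by simpa using σ.sum_cycleType_le
  have b := fun n => σ.two_le_of_mem_cycleType (n := n)
  rw [Perm.sign_of_cycleType, neg_one_pow_eq_one_iff_even (by decide)] at h
  have : σ.cycleType ∈ [0, {3}, {3, 3}] ∨ σ.cycleType ∈ [{2, 2}, {2, 4}] ∨ σ.cycleType = {7} ∨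
      σ.cycleType = {5} ∨ σ.cycleType = {2, 2, 3} := by
    have c := Multiset.card_nsmul_le_sum b
    generalize σ.cycleType = m at *
    obtain e | e | e | e : m.card = 0 ∨ m.card = 1 ∨ m.card = 2 ∨ m.card = 3 := by
      simp at c; omega
    · simp [Multiset.card_eq_zero.1 e]
    · obtain ⟨x, rfl⟩ := Multiset.card_eq_one.1 e
      simp at a b; revert h; interval_cases x <;> decide
    · obtain ⟨x, y, rfl⟩ := Multiset.card_eq_two.1 e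
      simp at a b; have : x ≤ 5 ∧ y ≤ 5 := by omega
      revert h a; obtain ⟨_, _⟩ := b; obtain ⟨_, _⟩ := this
      interval_cases x <;> interval_cases y <;> decide
    · obtain ⟨x, y, z, rfl⟩ := Multiset.card_eq_three.1 e
      simp at a b; have : x ≤ 3 ∧ y ≤ 3 ∧ z ≤ 3 := by omega
      revert h a; obtain ⟨_, _, _⟩ := b; obtain ⟨_, _, _⟩ := this
      interval_cases x <;> interval_cases y <;> interval_cases z <;> decide
  rcases this with e | e | e | e | e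
  · exact .inl (l 3 ((by decide : ∀ m ∈ [0, {3}, {3, 3}], Multiset.lcm m ∣ 3) _ e))
  · exact .inr (.inl (l 4 ((by decide : ∀ m ∈ [{2, 2}, {2, 4}], Multiset.lcm m ∣ 4) _ e)))
  · exact .inr (.inr (.inl (l 7 (by rw [e]; decide))))
  · obtain ⟨c, rfl⟩ := k c[0, 1, 2, 3, 4] (e.trans (by decide +kernel))
    refine .inr (.inr (.inr ⟨c * (c[1, 2, 4, 3] * swap 5 6) * c⁻¹, sg _ _ (by decide +kernel), .inl ?_⟩))
    simp only [conj_pow, conj_mul, conj_inv, mul_inv_eq_one, mul_eq_left, mul_left_inj, mul_right_inj]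
    decide +kernel
  · obtain ⟨c, rfl⟩ := k (c[0, 1, 2] * swap 3 4 * swap 5 6) (e.trans (by decide +kernel))
    refine .inr (.inr (.inr ⟨c * (swap 3 5 * swap 4 6) * c⁻¹, sg _ _ (by simp), .inr ?_⟩))
    simp only [conj_pow, conj_mul, conj_inv, mul_inv_eq_one, mul_eq_left, mul_left_inj, mul_right_inj, ne_eq]
    decide +kernel

namespace Rep

variable [Finite F]

theorem Core.lqK {K : Type*} [Field K] [Finite K] {R : Rep SL(2, K) F} (c : R.Core) (k2 : (2 : K) ≠ 0)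
    (k3 : (3 : K) = 0) {g : SL(2, K)} (t0 : τ g ≠ 0) (t4 : τ g ^ 2 ≠ 4) (e : R.xv g = 0) {s : K}
    (s0 : s ≠ 0) : R.N (us s) = -1 := by
  let a := sl 0 (s / τ g) (-(τ g / s)) 0 (by simp [s0, t0])
  obtain ⟨h, k⟩ := conj_of_τ (h := a⁻¹ * us s) k2 t4 (by simp [a, us, s0])
  have x1 : R.xv (a⁻¹ * us s) = 0 := by rw [k, x_conj c.two, e, map_zero]
  simpa using lq3 c.two (c.sq0 k2 (g := a) (by simp [a])) x1 (fun z => t0 (by
    have := congrArg (R.ρ (a⁻¹ * us s) * ·) ((N_iff c.two (s := 0) (y := 0)).2 ⟨by simpa, x1⟩)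
    simp only [N, mul_add, ← map_mul, mul_inv_cancel, map_one, zero_smul, wm_zero, add_zero, mul_zero,
      add_eq_zero_iff_eq_neg] at this
    have := R.inj (this.trans ((c.neg k2 1).trans (by rw [map_one])).symm)
    simp [a, us, sl_one, s0, t0] at this)) (by simp [us_pow, us_eq_one, k3])

section nine
variable {R : Rep SL(2, K9) F} (c : R.Core) (h3 : (3 : F) ≠ 0)
include c h3

omit [Finite F] in
theorem Core.u9 : ¬ (R.N (us 1) = -1 ∧ R.N (us ⟨1, 1⟩) = -1) := fun ⟨a, b⟩ => by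
  have k {s t : K9} (a0 : K9) (e : a0 ≠ 0 ∧ t = a0 ^ 2 * s) (l : R.N (us s) = -1) : R.N (us t) = -1 := by
    obtain ⟨h, k⟩ := us_tor a0 e.1
    have := (N_iff c.two (s := -1) (y := 0)).1 (by simpa using l)
    simpa using (N_iff c.two (s := -1) (y := 0)).2 ⟨by rw [e.2, ← k, t_conj, this.1],
      by rw [e.2, ← k, x_conj c.two, this.2, map_zero]⟩
  have := R.N_mul (g := us 1) (h := us ⟨0, 1⟩) (by decide +kernel)
  rw [us_inv, ← us_add, ← us_add, a, k ⟨1, -1⟩ (by decide +kernel) a, k 1 (by decide +kernel) b,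
    k ⟨1, 1⟩ (by decide +kernel) b] at this
  exact h3 (by linear_combination (by simpa using congrFun₂ this 0 0 : (1 : F) = -1 + -1))

theorem Core.nq9 {g : SL(2, K9)} (t0 : τ g ≠ 0) (t4 : τ g ^ 2 ≠ 4) : R.xv g ≠ 0 := fun e =>
  c.u9 h3 ⟨c.lqK (by decide) rfl t0 t4 e one_ne_zero, c.lqK (by decide) rfl t0 t4 e (by decide)⟩

theorem Core.t9 : ∃ ε, ∀ g, R.t g = T9 ε g := by
  have k2 : (2 : K9) ≠ 0 := by decide
  have h2 := c.two
  have t8 {g} (e : τ g ^ 2 = -1) : R.t g = 0 := by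
    have a := (by decide : ∀ t : K9, t ^ 2 = -1 → t ≠ 0 ∧ t ^ 2 ≠ 4) _ e
    rw [t_cp k2 a.2]
    exact (smul_eq_zero.1 ((x_sq h2 _).symm.trans (four h2 (c.sq0 k2 (by
      simp [cp]; revert e; generalize τ g = t; revert t; decide))).2)).resolve_right
        (c.nq9 h3 (by simpa [cp] using a.1) (by simpa [cp] using a.2))
  have f {s : K9} (e : s ^ 2 + s - 1 = 0) := five h2 ((by decide +kernel : ∀ s : K9, s ^ 2 + s - 1 = 0 →
    cp s ^ 5 = 1) s e) (c.nq9 h3 (g := cp s) (by revert s; decide) (by revert s; decide))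
  have a5 := (by decide : ∀ t : K9, t ^ 2 + t - 1 = 0 → t ^ 2 ≠ 4)
  have t5 {g} (e : τ g ^ 2 + τ g - 1 = 0) : R.t g = -1 := by
    rw [t_cp k2 (a5 _ e)]
    refine (f e).resolve_right fun ⟨_, _, l⟩ => ?_
    have n {g} (e : τ g ^ 2 + τ g - 1 = 0) : R.t g ≠ 0 := fun z => by
      have := f e
      rw [← t_cp k2 (a5 _ e), z] at this
      simp at this
    obtain ⟨a, b, h, k, m⟩ := (by decide +kernel : ∀ s : K9, s ^ 2 + s - 1 = 0 → ∃ a b, ∃ h,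
      τ (cp s * sl 0 a b 0 h) ^ 2 = -1 ∧ (fun t => t ^ 2 + t - 1 = 0) (τ (-(cp s * (cp s * sl 0 a b 0 h))))) _ e
    have := l _ (c.sq0 k2 (g := sl 0 a b 0 h) (by simp))
    exact n m (by rw [t_neg (c.neg k2 _), this, t8 k]; simp)
  have t3 (s : K9) (s0 : s ≠ 0) : R.t (us s) = 1 ∨ R.t (us s) = -2 ∧ R.N (us s) = -1 :=
    (three h2 (by simp [us_pow, us_eq_one]; exact .inl rfl)).imp_right fun ⟨a, b⟩ =>
      have := b.resolve_right fun e => s0 (us_eq_one.1 e.2)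
      ⟨this, by simpa using (N_iff h2 (s := -1) (y := 0)).2 ⟨by simpa, a⟩⟩
  have tc (s a : K9) (a0 : a ≠ 0) : R.t (us (a ^ 2 * s)) = R.t (us s) := by
    obtain ⟨h, k⟩ := us_tor a a0
    rw [← k, t_conj]
  obtain ⟨ε, a, b⟩ : ∃ ε : Bool, R.t (us 1) = (if true = ε then 1 else -2 : ℤ) ∧
      R.t (us ⟨1, 1⟩) = (if false = ε then 1 else -2 : ℤ) := by
    obtain a | a := t3 1 one_ne_zero <;> obtain b | b := t3 ⟨1, 1⟩ (by decide)
    · obtain ⟨h, k⟩ := us_tor (⟨1, -1⟩ : K9) (by decide)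
      have := pm_x h2 (R := R) (g := us 1) (h := h) (n := 3) (by decide +kernel) (by exact_mod_cast h3)
        (by rw [k]; decide +kernel)
      have l := gram h2 (R := R) (us 1) (h * us 1 * h⁻¹)
      have m := gram h2 (R := R) (us 1) (us 1)
      rw [t_conj, k, us_inv, ← us_add, ← us_add, show 1 + ⟨1, -1⟩ ^ 2 * 1 = (⟨1, 1⟩ : K9) by decide,
        show 1 + -(⟨1, -1⟩ ^ 2 * 1) = (⟨1, 1⟩ : K9) ^ 2 * ⟨1, 1⟩ by decide, tc _ _ (by decide), ← k, a, b] at l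
      rw [mul_inv_cancel, t_one, show us (1 : K9) * us 1 = (us 1)⁻¹ by decide +kernel, t_inv, a] at m
      have := mul_ne_zero h2 h3
      rcases ‹_ ∨ _› with e | e <;> simp only [e, bw_neg_right] at l <;> grind
    exacts [⟨true, by simp [a, b.1]⟩, ⟨false, by simp [a.1, b]⟩, (c.u9 h3 ⟨a.2, b.2⟩).elim]
  have tu {g} (e : τ g = 2) : R.t g = U9 ε g := by
    obtain ⟨h, s, rfl⟩ := conj_us e
    by_cases s0 : s = 0
    · simp [s0, us_eq_one.2 rfl, U9, t_one]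
    rw [t_conj, U9, if_neg (by simpa [us_eq_one] using s0)]
    obtain ⟨p, q, r, w, k, rfl⟩ := exists_sl h
    have := (by decide +kernel : ∀ s p r : K9, s ≠ 0 → (p ≠ 0 ∨ r ≠ 0) → ∃ a ≠ 0,
      s = a ^ 2 * 1 ∧ decide ((p * s * p) ^ 4 = 1 ∨ (r * s * r) ^ 4 = 1) = true ∨
      s = a ^ 2 * ⟨1, 1⟩ ∧ decide ((p * s * p) ^ 4 = 1 ∨ (r * s * r) ^ 4 = 1) = false) s p r s0 (by
        by_contra! l; simp [l] at k)
    have s1 {a b c d : K9} {h} : sl a b c d h 0 1 = b ∧ sl a b c d h 1 0 = c := ⟨rfl, rfl⟩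
    rw [show (_ : SL(2, K9)) 0 1 = p * s * p by simp only [us, sl_mul, sl_inv, s1]; ring,
      show (_ : SL(2, K9)) 1 0 ^ 4 = (r * s * r) ^ 4 by simp only [us, sl_mul, sl_inv, s1]; ring]
    obtain ⟨x, x0, ⟨l, m⟩ | ⟨l, m⟩⟩ := this <;> rw [m, l, tc _ _ x0] <;> assumption
  refine ⟨ε, fun g => ?_⟩
  unfold T9
  split_ifs with a b d e
  · simpa using a.elim (fun e => (four h2 (c.sq0 k2 e)).1) t8
  · simpa using t5 b
  · rw [← neg_neg g, t_neg (c.neg k2 _), t5 d]; simp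
  · exact tu e
  · conv_lhs => rw [← neg_neg g, t_neg (c.neg k2 _), tu (by
      rw [τ_neg] at d ⊢; revert a b d e; generalize τ g = t; revert t; decide)]
    simp

omit h3 in
theorem Core.not9 (h7 : (7 : F) = 0) : ¬ R.Mx := fun hM => by
  have k2 : (2 : K9) ≠ 0 := by decide
  have h2 := c.two
  have h3 : (3 : F) ≠ 0 := fun e => one_ne_zero (α := F) (by linear_combination h7 - 2 * e)
  obtain ⟨ε, t⟩ := c.t9 h3
  have b (g h) : 2 * bw (R.xv g) (R.xv h) = B9 ε g h := by simp [gram h2, t, B9]; field_simp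
  let v (i) := R.xv (c9 ε i)
  have gr : Gr v := fun i j => by
    rw [b, (by decide +kernel : ∀ ε i j, B9 ε (c9 ε i) (c9 ε j) = if i = j then 5 else -1)]
    constructor <;> intro e <;> simp [e]
  let S := subOf (fun g => ∀ i, ∃ k, act (R.ρ g) (v i) = v k) (fun i => ⟨i, by simp [act, wv_wm h2]⟩)
    fun g h k l i => by
      obtain ⟨a, e⟩ := l i
      rw [map_mul, act_mul h2 (R.sp h), e]; exact k a
  have m {g} (e : ∀ ε i, ∃ k, ∀ j : Fin 5, B9 ε (g * c9 ε i * g⁻¹) (c9 ε j.castSucc) =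
      B9 ε (c9 ε k) (c9 ε j.castSucc)) : g ∈ S := fun i => (e ε i).imp fun k e =>
    Gr.span h2 h3 (v := fun j => v j.castSucc) (fun i j => by simpa using gr i.castSucc j.castSucc)
      fun j => mul_left_cancel₀ h2 (by rw [← x_conj h2, b, b, e])
  have s : S = ⊤ := gen_top (m (by decide +kernel)) fun s => by
    obtain ⟨a, b, e⟩ := (by decide +kernel : ∀ s : K9, ∃ a b : Fin 3, us s = us 1 ^ a.1 * us ⟨0, 1⟩ ^ b.1) s
    exact e ▸ mul_mem (pow_mem (m (by decide +kernel)) _) (pow_mem (m (by decide +kernel)) _)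
  have n {B} (hB : R.Nm B) (i) : ∃ k, act B (v i) = v k ∨ act B (v i) = -v k := by
    obtain ⟨φ, inj, e⟩ := hB.hom
    have ⟨a, b⟩ := (by decide +kernel : ∀ ε i, c9 ε i ^ 5 = 1 ∧ c9 ε i ≠ 1) ε i
    have t5 := τ_five (g := φ (c9 ε i)) (by rw [← map_pow, a, map_one]) ((map_ne_one_iff φ inj).2 b) k2
    rw [← (x_conj' h2 hB.1 (e _)).2]
    generalize φ (c9 ε i) = g at *
    obtain ⟨l, ⟨o, o'⟩ | ⟨o, o'⟩⟩ := (by decide +kernel : ∀ ε, ∀ s : K9, s ^ 2 + s - 1 = 0 →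
      T9 ε (c9 ε 0) = -1 ∧ (τ (c9 ε 0) ^ 2 ≠ 4 ∧ s = τ (c9 ε 0) ∨
        τ (c9 ε 0 * c9 ε 0) ^ 2 ≠ 4 ∧ s = τ (c9 ε 0 * c9 ε 0))) ε _ t5 <;>
      obtain ⟨h, rfl⟩ := conj_of_τ k2 o o' <;> obtain ⟨j, hj⟩ := s.ge (Subgroup.mem_top h) 0 <;>
      exact ⟨j, by simp [x_conj h2, x_sq h2, t, l, ← hj, v]⟩
  have nm := hM.nm h2 h3 _ (gr.eq7 h2 h7) (i := 1) (j := 0) (k := 2) (l := 0) (fun B hB i j => by
    cases i using Fin.cases <;> cases j using Fin.cases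
    · exact ⟨0, 0, by simp⟩
    · obtain ⟨k, e | e⟩ := n hB ‹_›
      exacts [⟨0, k.succ, by simp [e]⟩, ⟨k.succ, 0, by simp [e]⟩]
    · obtain ⟨k, e | e⟩ := n hB ‹_›
      exacts [⟨k.succ, 0, by simp [e]⟩, ⟨0, k.succ, by simp [e]⟩]
    · rename_i i j
      obtain ⟨k, l, e⟩ := gr.sgn h2 (gr.act h2 hB.1) (n hB) i j
      exact ⟨k.succ, l.succ, by simpa using e⟩) (by decide) (by decide)
  obtain ⟨k, e⟩ := n nm 2
  have h4 := four_ne h2
  rw [show Fin.cons (α := fun _ => W5 F) 0 v 1 - Fin.cons (α := fun _ => W5 F) 0 v 0 = v 0 from sub_zero _,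
    show Fin.cons (α := fun _ => W5 F) 0 v 2 - Fin.cons (α := fun _ => W5 F) 0 v 0 = v 1 from sub_zero _,
    (act_refl h2 h3 (by simp [gr.eq h2]; grind) (by simp [gr.eq h2]; grind)).2] at e
  rcases e with e | e <;> have := congrArg (bw · (v 0)) e <;> simp [gr.eq h2] at this <;>
    split_ifs at this <;> grind

end nine

end Rep

end CF.MaxSub.O4
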