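/-
Maximal subgroups of `Sp₄` in odd characteristic in the residual class.
-/
import Cfsg.Agent.MaxSub.O4N
import Cfsg.Agent.MaxSub.E4J
import Cfsg.Agent.Classical.Transport

set_option autoImplicit false

namespace CF.MaxSub.O4

open Matrix Equiv Subgroup Cfsg Cfsg.Geo CF.Classical
open CF.MaxSub.E4 (M4 M2 subOf eq4)
open scoped MatrixGroups

variable {F : Type*} [Field F]

namespace Rep

variable {G : Type*} [Group G] {R : Rep G F} (c : R.Core) {g a b : G}
include c

theorem Core.mem_center : g ∈ center G ↔ R.ρ g = 1 ∨ R.ρ g = -1 := by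
  refine ⟨fun h => ?_, fun h => mem_center_iff.2 fun k => R.inj (by rcases h with h | h <;> simp [h])⟩
  obtain ⟨a, e⟩ := c.cen (M := R.ρ g) fun k => by rw [← map_mul, ← map_mul, mem_center_iff.1 h]
  obtain rfl | rfl := (e ▸ R.sp g).pm <;> simp [e]

variable [Finite F] [Finite G]

theorem Core.a7 (e : G ⧸ center G ≃* alternatingGroup (Fin 7)) (p : ℕ) [hp : Fact p.Prime] [CharP F p] :
    Nat.card F = 7 := by
  have h2 := c.two
  let π : G →* Perm (Fin 7) := (alternatingGroup _).subtype.comp (e.toMonoidHom.comp (QuotientGroup.mk' _))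
  have sur (σ) (h : Perm.sign σ = 1) : ∃ g, π g = σ := by
    obtain ⟨g, k⟩ := QuotientGroup.mk_surjective (e.symm ⟨σ, h⟩)
    exact ⟨g, by simp [π, k]⟩
  have ker {g} : π g = 1 ↔ R.ρ g = 1 ∨ R.ρ g = -1 := by simp [π, c.mem_center]
  have pm {a b} (h : π a = π b) : R.ρ a = R.ρ b ∨ R.ρ a = -R.ρ b := by
    rcases (ker (g := a * b⁻¹)).1 (by simp [h]) with k | k <;> have := congrArg (· * R.ρ b) k <;>
      simp only [← map_mul, inv_mul_cancel_right] at this <;> simp [this]
  have ne (g) : R.ρ g ≠ -R.ρ g := fun e => h2 (by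
    simpa [← map_mul, neg_eq_iff_add_eq_zero, one_add_one_eq_two] using
      (congrFun₂ (congrArg (· * R.ρ g⁻¹) e) 0 0).symm)
  have od {a b} {n} (o : Odd n) (h : π a = π b) (k : R.ρ (a ^ n) = R.ρ (b ^ n)) : a = b :=
    R.inj ((pm h).resolve_right fun l => ne (b ^ n) (by
      conv_lhs => rw [← k, map_pow, l, o.neg_pow, ← map_pow]))
  have ev {g} (h : π g = 1) : g ^ 2 = 1 := R.eq_one (by rcases ker.1 h with k | k <;> simp [k])
  have iv {g} (h : π g * π g = 1) (k : π g ≠ 1) : R.ρ (g * g) = -1 :=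
    (ker.1 (by simpa)).resolve_left fun l => k (ker.2 (c.no_inv (R.eq_one l)))
  have h7 : ((7 : ℕ) : F) = 0 := by
    by_contra h7
    obtain ⟨g, hg⟩ := sur c[0, 1, 2, 3, 4, 5, 6] (by decide +kernel)
    obtain ⟨h, hh⟩ := sur (c[1, 2, 4] * c[3, 6, 5]) (by decide +kernel)
    obtain ⟨u, u7, hu⟩ : ∃ u, u ^ 7 = 1 ∧ π u = π g := by
      have : π (g ^ 7) = 1 := by rw [map_pow, hg]; decide +kernel
      refine ⟨g ^ 8, ?_, by rw [pow_succ, map_mul, this, one_mul]⟩
      rw [← pow_mul, show 8 * 7 = 7 * 2 * 4 from rfl, pow_mul, pow_mul, ev this, one_pow]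
    have k : h * u * h⁻¹ = u ^ 2 := od (n := 7) (by decide) (by
      simp only [map_mul, map_inv, map_pow, hu, hg, hh]; decide +kernel)
      (by rw [conj_pow, ← pow_mul, mul_comm 2, pow_mul, u7]; simp)
    have := pm_comm h2 (R := R) (h := h) u7 h7 (by rw [k]; group)
    have r (n m : ℕ) (e : n = m + 7) : u ^ n = u ^ m := by rw [e, pow_add, u7, mul_one]
    rw [show h * h * u * (h * h)⁻¹ = h * (h * u * h⁻¹) * h⁻¹ by group, k, ← conj_pow, k, ← pow_mul] at this
    have := N_sub (R := R) (g := u ^ 6) (h := u ^ 5) (by group) (by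
      rw [← pow_add, r 11 4 rfl, this]; congr 1; group)
    rw [← pow_add, ← pow_add, r 12 5 rfl, r 10 3 rfl] at this
    have l : (R.ρ u - 1) ^ 2 = 0 := by
      have a := geom_sum_mul (R.ρ (u ^ 5)) 3
      have b := mul_geom_sum (R.ρ (u ^ 3)) 5
      rw [← map_pow, ← pow_mul, r _ 8 rfl, r _ 1 rfl, pow_one] at a b
      rw [pow_two]
      nth_rw 1 [← a]
      rw [← b, mul_assoc, ← mul_assoc (_ - 1), this]; simp
    have := congrArg π (R.eq_one (ss1 (by rw [← map_pow, u7, map_one]) h7 l))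
    rw [hu, hg, map_one] at this
    exact absurd this (by decide +kernel)
  obtain rfl := (Nat.prime_dvd_prime_iff_eq hp.1 (by norm_num)).1 ((CharP.cast_eq_zero_iff F p 7).1 h7)
  refine c.card_p 7 fun g => ?_
  have t := R.t_pow 7 g 1
  rw [pow_one] at t
  rcases a7_cases (π g) (e g).2 with k | k | k | ⟨σ, s, ⟨k, l⟩ | ⟨k, l, m, n, o, q⟩⟩
  · rw [← t, pow_succ, show 6 = 3 * 2 from rfl, pow_mul, ev (by simpa), one_mul]
  · rw [← t, ← t_inv, inv_eq_of_mul_eq_one_right (show g ^ 7 * g = 1 by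
      rw [← pow_succ, show 7 + 1 = 4 * 2 from rfl, pow_mul, ev (by simpa)])]
  · refine frobenius_inj F 7 ?_
    rw [frobenius_def, frobenius_def, ← t]
    rcases (ker (g := g ^ 7)).1 (by simpa) with k | k <;> simp only [Rep.t, k, trace_neg, trace_one] <;>
      simp <;> norm_num <;> grind
  · obtain ⟨h, rfl⟩ := sur σ s
    rw [← t, ← od (n := 5) (a := h * g * h⁻¹) (b := g ^ 7) (by decide) (by simpa) (by
      rw [conj_pow, ← pow_mul, mul_comm 7, pow_mul, map_pow, map_mul, map_mul]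
      rcases (ker (g := g ^ 5)).1 (by simpa) with k | k <;> rw [k] <;> simp [← map_mul]
      norm_num), t_conj]
  obtain ⟨h, rfl⟩ := sur σ s
  have l' := mul_inv_eq_iff_eq_mul.1 l
  have k' : π g ^ 3 * π g ^ 3 = 1 := by rwa [← pow_add]
  have : R.ρ (h * g * h⁻¹) = -R.ρ g := (pm (by simpa using l)).resolve_left fun e => ne 1 (by
    have cm : Commute h g := mul_inv_eq_iff_eq_mul.1 (R.inj e)
    have := iv (g := h * g ^ 3) (by
      simp only [map_mul, map_pow]
      rw [((show Commute (π h) (π g) from l').pow_right 3).symm.mul_mul_mul_comm, m, k', one_mul])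
      (by simpa using q)
    rw [(cm.pow_right 3).symm.mul_mul_mul_comm, map_mul, iv m n, iv (by simpa using k') (by simpa using o)]
      at this
    simpa using this)
  have := t_neg this
  rw [t_conj, eq_neg_iff_add_eq_zero, ← two_mul, mul_eq_zero] at this
  simp [this.resolve_left h2]

theorem Core.main (hM : R.Mx) (p : ℕ) [hp : Fact p.Prime] [CharP F p] :
    (Nonempty (G ⧸ center G ≃* alternatingGroup (Fin 6)) ∧ Nat.card F = p ∧ 5 ≤ p ∧ p ≠ 7) ∨
      (Nonempty (G ⧸ center G ≃* alternatingGroup (Fin 7)) ∧ Nat.card F = 7) ∨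
      (Nonempty (G ⧸ center G ≃* PSL(2, F)) ∧ 5 ≤ p ∧ 7 < Nat.card F) := by
  obtain ⟨_, o, h3, K, _, _, rfl, ⟨e⟩⟩ | ⟨-, ⟨e⟩, -⟩ := c.cls
  swap
  · exact .inr (.inl ⟨⟨e⟩, c.a7 e p⟩)
  have p5 (h : (3 : F) ≠ 0) : 5 ≤ p := hp.1.five_le_of_ne_two_of_ne_three
    (by rintro rfl; exact c.two (CharP.cast_eq_zero F 2)) (by rintro rfl; exact h (CharP.cast_eq_zero F 3))
  have k2 : (2 : K) ≠ 0 := fun e => by
    have := FiniteField.even_card_of_char_two (F := K) (ringChar.eq_iff.2 (CharTwo.of_one_ne_zero_of_two_eq_zero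
      one_ne_zero e))
    have := Nat.odd_iff.1 o
    omega
  have n5 : Fintype.card K ≠ 5 := fun h =>
    have f := (slCongr _ (FiniteField.ringEquivOfCardEq (K := ZMod 5) (by simp [h]))).trans e.symm
    (c.tr f).not5 (hM.tr f)
  obtain ⟨r, _⟩ := CharP.exists K
  have c' := c.tr e.symm
  by_cases h : (r : F) = 0
  · obtain rfl := (Nat.prime_dvd_prime_iff_eq hp.1 (CharP.char_is_prime K r)).1
      ((CharP.cast_eq_zero_iff F p r).1 h)
    have k3 : (3 : K) ≠ 0 ∧ (3 : F) ≠ 0 := by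
      have a := CharP.cast_eq_zero_iff F p 3
      have b := CharP.cast_eq_zero_iff K p 3
      by_contra n
      exact (c'.char3 k2 (by grind) (by grind)).not_gt h3
    have q := (c'.card_le k2 p).antisymm (c'.card_ge k2 p k3.1)
    obtain ⟨f⟩ := nonempty_ringEquiv_of_card_eq q
    refine .inr (.inr ⟨⟨(quotientCenterEquiv e).trans (pslCongr _ f.symm)⟩, p5 k3.2, ?_⟩)
    rw [Nat.card_eq_fintype_card (α := K)] at q
    have : Fintype.card K ≠ 7 := fun h => by
      have f := (slCongr _ (FiniteField.ringEquivOfCardEq (K := ZMod 7) (by simp [h]))).trans e.symm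
      have := Fintype.ofFinite F
      rw [h, Nat.card_eq_fintype_card] at q
      have := charP_of_card_eq_prime q
      exact (c.tr f).not7 (by simp [FiniteField.isSquare_neg_one_iff, q]) (hM.tr f)
    have := Nat.odd_iff.1 o
    omega
  have q : Fintype.card K = 9 := by
    have := c'.cross_card k2 r h
    have := Nat.le_of_dvd (by norm_num) this
    have := Nat.odd_iff.1 o
    obtain k | k : Fintype.card K = 7 ∨ Fintype.card K = 9 := by omega
    · simp [k] at *
    · exact k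
  have f := (slCongr _ (FiniteField.ringEquivOfCardEq (K := K9) (q ▸ by decide +kernel))).trans e.symm
  have f3 : (3 : F) ≠ 0 := by
    obtain ⟨n, a, b⟩ := FiniteField.card K r
    obtain rfl := (Nat.prime_dvd_prime_iff_eq a Nat.prime_three).1 (a.dvd_of_dvd_pow (n := 2) (by
      rw [show 3 ^ 2 = 9 from rfl, ← q, b]; exact dvd_pow_self _ n.ne_zero))
    exact_mod_cast h
  obtain ⟨ε, t⟩ := (c.tr f).t9 f3
  obtain ⟨i⟩ := PSL2_nine_equiv (Nat.card_eq_fintype_card.trans q)
  refine .inl ⟨⟨(quotientCenterEquiv e).trans i⟩, (c.tr f).card_p p fun g => ?_, p5 f3, ?_⟩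
  · rw [t, ← frobenius_def, map_intCast]
  · rintro rfl; exact (c.tr f).not9 (CharP.cast_eq_zero F 7) (hM.tr f)

end Rep

theorem symp_eq (u v : Fin 2 ⊕ Fin 2 → F) : sympForm 2 F u v = -bf (u ∘ eq4) (v ∘ eq4) := by
  simp [sympForm, J, bf, eq4, dotProduct, mulVec, Fintype.sum_sum_type]
  ring

theorem mem_spGL {g : GL (Fin 2 ⊕ Fin 2) F} : g ∈ spGL 2 F ↔ Sp (g.1.submatrix eq4 eq4) := by
  constructor
  · intro h
    refine ext_mv fun v => sub_eq_zero.1 (by_contra fun n => ?_)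
    obtain ⟨u, k⟩ := exists_bf n
    have := h (u ∘ eq4.symm) (v ∘ eq4.symm)
    rw [sub_eq_add_neg, bf_add_right, ← mulVec_mulVec, ← bf_adj, ← neg_one_smul F, bf_smul_right] at k
    simp [symp_eq, submatrix_mulVec_equiv, Function.comp_assoc] at this k
    simp [this] at k
  · intro h u v
    have := h.bf (u ∘ eq4) (v ∘ eq4)
    simpa [symp_eq, submatrix_mulVec_equiv, Function.comp_assoc] using this

theorem residual [Finite F] (h2 : (2 : F) ≠ 0) {H P : Subgroup (GL (Fin 2 ⊕ Fin 2) F)}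
    (hH : IsMaximalIn (spGL 2 F) H) (h : IsResidualCore H P) :
    ∃ R : Rep P F, R.Core ∧ R.Mx ∧ (scalars _ F).subgroupOf P = center P := by
  have sp (g) (k : g ∈ H) := mem_spGL.1 (hH.1.le k)
  let f : GL (Fin 2 ⊕ Fin 2) F →* M4 F :=
    { toFun g := g.1.submatrix eq4 eq4
      map_one' := by simp
      map_mul' a b := by simp [submatrix_mul_equiv] }
  have inj : Function.Injective f := fun a b e => Units.ext ((reindex eq4.symm eq4.symm).injective e)
  have sur {B : M4 F} (k : Sp B) : ∃ g ∈ spGL 2 F, f g = B :=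
    ⟨⟨B.submatrix eq4.symm eq4.symm, (adj B).submatrix eq4.symm eq4.symm,
      by simp [submatrix_mul_equiv, k.mul_adj], by simp [submatrix_mul_equiv, show adj B * B = 1 from k]⟩,
      mem_spGL.2 (by simpa), by simp [f]⟩
  let R : Rep P F := ⟨f.comp P.subtype, fun g => sp _ (h.le g.2), inj.comp Subtype.val_injective⟩
  have sc (g : P) : g ∈ (scalars _ F).subgroupOf P ↔ ∃ c : F, R.ρ g = c • 1 :=
    (mem_scalars_iff' _).trans (exists_congr fun c => ⟨fun e => by
      simpa [submatrix_smul, R, f] using congrArg (submatrix · eq4 eq4) e, fun e => by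
      simpa [submatrix_smul, R, f] using congrArg (submatrix · eq4.symm eq4.symm) e⟩)
  have c : R.Core := by
    refine ⟨h2, fun N hN g hg k => ?_, fun S hS => ?_, fun k => hH.1.not_ge fun g hg => ?_⟩
    · let q := QuotientGroup.mk' ((scalars _ F).subgroupOf P)
      have := (h.simple.eq_bot_or_eq_top_of_normal _ (hN.map q (QuotientGroup.mk'_surjective _))).resolve_left
        fun e => by
          obtain ⟨c, e⟩ := (sc g).1 ((QuotientGroup.eq_one_iff g).1 (e.le ⟨g, hg, rfl⟩))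
          exact k c e
      have d (a) : ∃ x ∈ N, ∃ z, (∀ y, z * y = y * z) ∧ a = x * z := by
        obtain ⟨x, hx, e⟩ := this.ge (mem_top (q a))
        obtain ⟨c, e⟩ := (sc _).1 (QuotientGroup.eq.1 e)
        exact ⟨x, hx, _, fun y => R.inj (by rw [map_mul, map_mul _ y, e]; simp), by simp⟩
      rw [← top_le_iff, ← (isPerfect_iff.2 h.perfect).commutator_eq_top]
      refine commutator_le.2 fun a _ b _ => ?_
      obtain ⟨x, hx, z, k, rfl⟩ := d a
      have := mul_mem hx (hN.conj_mem _ (inv_mem hx) b)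
      rwa [commutatorElement_def, mul_assoc x, k, show x * (b * z) * (x * z)⁻¹ * b⁻¹ =
        x * (b * x⁻¹ * b⁻¹) by group]
    have ir := (irr_iff P).2 h.absIrred.1
    · obtain ⟨B, hB⟩ := exists_rat_basis ir (genRing P)
        (fun g hg x hx => cj_mem_genRing (fun x hx => mul_mem (mul_mem hg hx) (inv_mem hg)) hx)
        fun z hz => h.absIrred.2 z (by rintro _ ⟨g, hg, rfl⟩; exact hz _ (coe_mem_genRing hg))
      have t : scalField (genRing P) = ⊤ := by_contra fun n => h.no_subfield _ n ⟨B⁻¹, by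
        rintro _ ⟨g, hg, rfl⟩
        exact mem_rat.1 ((hB _).1 (coe_mem_genRing hg))⟩
      refine (AddSubgroup.eq_top_iff' S).2 fun M => ?_
      simpa using genRing_induction (p := fun M => M.submatrix eq4 eq4 ∈ S) (fun g hg => hS ⟨g, hg⟩)
        S.zero_mem (fun _ _ => S.add_mem) (fun _ => S.neg_mem)
        ((hB (M.submatrix eq4.symm eq4.symm)).2 (mem_rat.2 fun _ _ => t ▸ trivial))
    · obtain ⟨x, e⟩ := k _ (mem_spGL.1 hg)
      exact (inj e : x.1 = g) ▸ h.le x.2
  refine ⟨R, c, fun p m k => ?_, Subgroup.ext fun g => (sc g).trans (c.mem_center.trans ⟨?_, ?_⟩).symm⟩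
  · have nm (g) (hg : g ∈ H) : R.Nm (f g) := ⟨sp g hg, fun x => ⟨⟨_, h.normal g hg _ x.2⟩, by
      rw [← Sp.eq_adj (M := f g) (sp g hg) (N := f g⁻¹) (by rw [← map_mul]; simp)]
      simp [R]⟩⟩
    refine (hH.2 (subOf (fun g => g ∈ spGL 2 F ∧ p (f g)) ⟨one_mem _, k _ (nm 1 (one_mem _))⟩
      fun a b ha hb => ⟨mul_mem ha.1 hb.1, map_mul f a b ▸ m _ _ (mem_spGL.1 ha.1) (mem_spGL.1 hb.1) ha.2 hb.2⟩)
      (fun g hg => ⟨hH.1.le hg, k _ (nm g hg)⟩) fun g hg => hg.1).symm.imp (fun e B hB => ?_) fun e B hB l => ?_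
    · obtain ⟨g, hg, rfl⟩ := sur hB
      exact (e.ge hg).2
    · obtain ⟨g, hg, rfl⟩ := sur hB
      exact nm g (e.le ⟨hg, l⟩)
  · rintro (e | e)
    exacts [⟨1, by simp [e]⟩, ⟨-1, by simp [e]⟩]
  · rintro ⟨a, e⟩
    obtain rfl | rfl := (e ▸ R.sp g).pm <;> simp [e]

end CF.MaxSub.O4
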