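/-
Subfield subgroups of classical groups in dimension six, I.
-/
import Cfsg.Agent.Geom.C5C

set_option autoImplicit false
set_option linter.unusedSectionVars false

namespace CF.MaxSub

open Module Geom

variable {F V : Type*} [Field F] [AddCommGroup V] [Module F V] {ι : Type} [Fintype ι]
  {σ : F →+* F} {ε : V ≃ₗ[F] (ι → F)} {F₀ : Subfield F}

/-- A form with a rational structure. -/
structure RF6 (B : V →ₛₗ[σ] V →ₗ[F] F) (Q : V → F) (G : Subgroup (V ≃ₗ[F] V))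
    (ε : V ≃ₗ[F] (ι → F)) (F₀ : Subfield F) : Prop where
  polar : PolarG B Q G
  invol : ∀ a, σ (σ a) = a
  sig : ∀ a ∈ F₀, σ a ∈ F₀
  ratB : ∀ x y, IsRat ε F₀ x → IsRat ε F₀ y → B x y ∈ F₀
  slide : ∀ p y, IsRat ε F₀ p → IsRat ε F₀ y → Q p = Q 0 → B p y ≠ 0 →
    ∃ c ∈ F₀, Q (y + c • p) = Q 0
  sing : ∀ a b, IsRat ε F₀ a → IsRat ε F₀ b → ∃ c, IsRat ε F₀ c ∧ Q c = Q 0 ∧ B a c = 0 ∧
    B b c = 0 ∧ c ∉ F ∙ a
  six : 6 ≤ finrank F V
  max : ∀ K : Subfield F, F₀ ≤ K → K = F₀ ∨ K = ⊤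
  ne_top : F₀ ≠ ⊤
namespace RF6

variable [Finite F] {B : V →ₛₗ[σ] V →ₗ[F] F} {Q : V → F} {G : Subgroup (V ≃ₗ[F] V)}
  (h : RF6 B Q G ε F₀)
include h

theorem fd : FiniteDimensional F V := ε.symm.finiteDimensional

theorem witt : IsWittPair σ B Q := h.polar.witt

theorem exists_not_perp {S : Set V} (hS : ∀ s ∈ S, IsRat ε F₀ s) {y : V}
    (hy : y ∉ Submodule.span F S) : ∃ x, IsRat ε F₀ x ∧ (∀ s ∈ S, B s x = 0) ∧ B y x ≠ 0 := by
  have := h.fd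
  obtain ⟨w, h1, h2⟩ := h.witt.exists_dual_vec hy
  obtain ⟨x, h3, h4, h5⟩ := exists_rat_notMem h.ratB hS
    (fun s hs => h2 s (Submodule.subset_span hs)) (Z := perp B (F ∙ y))
    (by rw [mem_perp_singleton, h1]; exact one_ne_zero)
  exact ⟨x, h3, h4, fun e => h5 (mem_perp_singleton.2 e)⟩

theorem exists_dual {S : Set V} (hS : ∀ s ∈ S, IsRat ε F₀ s) {y : V} (hy' : IsRat ε F₀ y)
    (hy : y ∉ Submodule.span F S) : ∃ x, IsRat ε F₀ x ∧ (∀ s ∈ S, B s x = 0) ∧ B y x = 1 := by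
  obtain ⟨x, h1, h2, h3⟩ := h.exists_not_perp hS hy
  exact ⟨(B y x)⁻¹ • x, h1.smul (inv_mem (h.ratB _ _ hy' h1)), fun s hs => by simp [h2 s hs],
    by simp [h3]⟩

theorem exists_partner {S : Set V} (hS : ∀ s ∈ S, IsRat ε F₀ s) {y : V} (hy' : IsRat ε F₀ y)
    (q : Q y = Q 0) (hy : y ∉ Submodule.span F S) (hp : ∀ s ∈ S, B s y = 0) :
    ∃ x, IsRat ε F₀ x ∧ Q x = Q 0 ∧ (∀ s ∈ S, B s x = 0) ∧ B y x = 1 := by
  obtain ⟨x, h1, h2, h3⟩ := h.exists_dual hS hy' hy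
  obtain ⟨c, hc, h4⟩ := h.slide y x hy' h1 q (by simp [h3])
  exact ⟨x + c • y, h1.add (hy'.smul hc), h4, fun s hs => by simp [h2 s hs, hp s hs],
    by simp [h3, h.witt.self_eq_zero q]⟩

theorem exists_hyp {e : V} (he : IsRat ε F₀ e) (q : Q e = Q 0) (h0 : e ≠ 0) :
    ∃ f, IsRat ε F₀ f ∧ Q f = Q 0 ∧ B e f = 1 :=
  let ⟨f, h1, h2, _, h3⟩ := h.exists_partner (S := ∅) (by simp) he q (by simpa using h0) (by simp)
  ⟨f, h1, h2, h3⟩

theorem exists_sing : ∃ e, IsRat ε F₀ e ∧ Q e = Q 0 ∧ e ≠ 0 :=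
  let ⟨e, h1, h2, _, _, h3⟩ := h.sing 0 0 IsRat.zero IsRat.zero
  ⟨e, h1, h2, by rintro rfl; exact h3 (zero_mem _)⟩

theorem sing₁ {e : V} (he : IsRat ε F₀ e) :
    ∃ c, IsRat ε F₀ c ∧ Q c = Q 0 ∧ B e c = 0 ∧ c ∉ F ∙ e :=
  let ⟨c, h1, h2, h3, _, h4⟩ := h.sing e e he he
  ⟨c, h1, h2, h3, h4⟩

theorem perp₂ {a b : V} (ha : IsRat ε F₀ a) (hb : IsRat ε F₀ b) :
    ∃ c, IsRat ε F₀ c ∧ B a c = 0 ∧ B b c = 0 ∧ c ∉ Submodule.span F {a, b} :=
  exists_rat_perp h.witt h.ratB ha hb (by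
    have := IsWittPair.finrank_span_pair_le (F := F) a b; have := h.six; omega)

theorem rat_mod {e y : V} (he : IsRat ε F₀ e)
    (hy : ∀ x, IsRat ε F₀ x → B e x = 0 → B x y ∈ F₀) : ∃ y₀, IsRat ε F₀ y₀ ∧ y - y₀ ∈ F ∙ e := by
  obtain ⟨y₀, h1, h2⟩ := exists_retract h.ratB y
  refine ⟨y₀, h1, by_contra fun hc => ?_⟩
  obtain ⟨x, h3, h4, h5⟩ := h.exists_not_perp (S := {e}) (by simpa using he) hc
  exact h5 (h.witt.refl (by rw [map_sub, h2 x h3 (hy x h3 (h4 e rfl)), sub_self]))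

theorem rat_of {y : V} (hy : ∀ x, IsRat ε F₀ x → B x y ∈ F₀) : IsRat ε F₀ y := by
  obtain ⟨y₀, h1, h2⟩ := h.rat_mod (e := 0) IsRat.zero fun x hx _ => hy x hx
  rwa [show y = y₀ from sub_eq_zero.1 (by simpa using h2)]

theorem coeff {e e' : V} (he : IsRat ε F₀ e) (he' : IsRat ε F₀ e') (hee : e ∉ F ∙ e') {a b : F}
    (hv : IsRat ε F₀ (a • e + b • e')) : a ∈ F₀ := by
  obtain ⟨x, h1, h2, h3⟩ := h.exists_dual (S := {e'}) (by simpa using he') he hee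
  have := h.sig _ (h.ratB _ _ hv h1)
  simpa [h3, h2 e' rfl, h.invol] using this

theorem span_sing {e z : V} (he : IsRat ε F₀ e) (hz : IsRat ε F₀ z) (q : Q z = Q 0)
    (hez : B e z = 0) (hz' : z ∉ F ∙ e) {P : V → Prop} (hadd : ∀ a b, P a → P b → P (a + b))
    (hsm : ∀ c ∈ F₀, ∀ a, P a → P (c • a)) (h1 : P z)
    (h2 : ∀ s, IsRat ε F₀ s → Q s = Q 0 → B e s = 0 → B z s ≠ 0 → P s) {w : V}
    (hw : IsRat ε F₀ w) (hew : B e w = 0) : P w := by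
  have key : ∀ w, IsRat ε F₀ w → B e w = 0 → B z w ≠ 0 → P w := fun w hw hew h0 => by
    obtain ⟨c, hc, h3⟩ := h.slide z w hz hw q h0
    simpa using hadd _ _ (h2 _ (hw.add (hz.smul hc)) h3 (by simp [hew, hez])
      (by simpa [h.witt.self_eq_zero q] using h0)) (hsm (-c) (neg_mem hc) _ h1)
  by_cases h0 : B z w = 0
  · obtain ⟨v, v1, v2, v3⟩ := h.exists_dual (S := {e}) (by simpa using he) hz hz'
    simpa using hadd _ _ (key (w + v) (hw.add v1) (by simp [hew, v2 e rfl]) (by simp [h0, v3]))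
      (hsm (-1) (neg_mem (one_mem _)) _ (key v v1 (v2 e rfl) (by simp [v3])))
  · exact key w hw hew h0

theorem exists_sing_not_perp {v : V} (hv : v ≠ 0) :
    ∃ e, IsRat ε F₀ e ∧ Q e = Q 0 ∧ B e v ≠ 0 := by
  by_contra! hc
  obtain ⟨z, z1, z2, z3⟩ := h.exists_sing
  obtain ⟨x, h1, -, h2⟩ := h.exists_not_perp (S := ∅) (by simp) (y := v) (by simpa using hv)
  exact h2 (h.witt.refl (h.span_sing (e := 0) IsRat.zero z1 z2 (by simp) (by simpa using z3)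
    (P := fun a => B a v = 0) (fun a b ha hb => by simp [ha, hb])
    (fun c _ a ha => by simp [ha]) (hc z z1 z2) (fun s s1 s2 _ _ => hc s s1 s2) h1 (by simp)))

theorem ratM_of_Rad {e y : V} (he : IsRat ε F₀ e) (q : Q e = Q 0) {k : V ≃ₗ[F] V}
    (hk : k ∈ Rad B Q e ⊤) (hy : IsRat ε F₀ y) (hy' : IsRat ε F₀ (k y)) (h0 : B e y ≠ 0) :
    RatM ε F₀ k := fun v hv => by
  have c1 := inv_mem (h.ratB _ _ he hy)
  obtain ⟨l, h1, h2⟩ := h.witt.Rad_perp_eq q hk (f := y) (w := k y - y)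
    (x := v - (B e v * (B e y)⁻¹) • y) (by simp) (by simp [h0])
  have c2 := mul_mem (h.ratB _ _ he hv) c1
  have h3 : B y e ≠ 0 := fun e => h0 (h.witt.refl e)
  have c3 : l ∈ F₀ := by
    rw [← mul_div_cancel_right₀ l h3, h2]
    exact div_mem (neg_mem (h.ratB _ _ (hy'.sub hy) (hv.sub (hy.smul c2)))) (h.ratB _ _ hy he)
  rw [map_sub, map_smul, sub_eq_iff_eq_add] at h1
  exact h1 ▸ ((hv.sub (hy.smul c2)).add (he.smul c3)).add (hy'.smul c2)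

theorem exists_ratRad₀ {e : V} (he : IsRat ε F₀ e) (q : Q e = Q 0) (h0 : e ≠ 0) :
    ∃ a ∈ F₀, a ≠ 0 ∧ ∀ w, IsRat ε F₀ w → B e w = 0 → ∃ k ∈ Rad B Q e ⊤, RatM ε F₀ k ∧
      (∀ f, B e f = 1 → k f - f - w ∈ F ∙ e) ∧ ∀ x, B e x = 0 → k x = x + (a * B w x) • e := by
  have := h.fd
  obtain ⟨f, f1, f2, f3⟩ := h.exists_hyp he q h0
  have h3 : B f e ≠ 0 := fun e => by simp [h.witt.refl e] at f3
  refine ⟨-(B f e)⁻¹, neg_mem (inv_mem (h.ratB _ _ f1 he)), by simpa using h3, fun w hw hew => ?_⟩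
  obtain ⟨c, hc, h1⟩ := h.slide e (f + w) he (f1.add hw) q (by simp [f3, hew])
  obtain ⟨k, hk, e1⟩ := h.witt.exists_Rad q (A := ⊤) trivial (y := f) (y' := f + w + c • e)
    (by simp [f3]) (by simp [hew, h.witt.self_eq_zero q]) (h1.trans f2.symm) trivial
  have e2 : k f - f - w ∈ F ∙ e := Submodule.mem_span_singleton.2 ⟨c, by rw [e1]; abel⟩
  refine ⟨k, hk, h.ratM_of_Rad he q hk f1 (e1 ▸ (f1.add hw).add (he.smul hc)) (by simp [f3]),
    fun f' hf' => ?_, fun x hx => ?_⟩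
  · obtain ⟨l, hl⟩ := Rad_disp_eq hk f3 e2 f'
    exact Submodule.mem_span_singleton.2 ⟨l, by rw [hl, hf']; module⟩
  · obtain ⟨l, h4, h5⟩ := h.witt.Rad_perp_eq q hk e2 hx
    rw [h4, show l = -(B f e)⁻¹ * B w x by field_simp; exact h5]

theorem exists_ratRad {e w : V} (he : IsRat ε F₀ e) (q : Q e = Q 0) (h0 : e ≠ 0)
    (hw : IsRat ε F₀ w) (hew : B e w = 0) : ∃ k ∈ Rad B Q e ⊤, RatM ε F₀ k ∧
      (∀ f, B e f = 1 → k f - f - w ∈ F ∙ e) ∧ ∀ x, B e x = 0 → B w x = 0 → k x = x :=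
  let ⟨_, _, _, h1⟩ := h.exists_ratRad₀ he q h0
  let ⟨k, h2, h3, h4, h5⟩ := h1 w hw hew
  ⟨k, h2, h3, h4, fun x e1 e2 => by simp [h5 x e1, e2]⟩

theorem exists_ratRad' {e w : V} (he : IsRat ε F₀ e) (q : Q e = Q 0) (h0 : e ≠ 0)
    (hw : IsRat ε F₀ w) (hew : B e w = 0) : ∃ k ∈ Rad B Q e ⊤, RatM ε F₀ k ∧
      ∀ x, B e x = 0 → k x = x + B w x • e :=
  let ⟨a, a1, a0, h1⟩ := h.exists_ratRad₀ he q h0
  let ⟨k, h2, h3, _, h5⟩ := h1 (σ a⁻¹ • w) (hw.smul (h.sig _ (inv_mem a1))) (by simp [hew])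
  ⟨k, h2, h3, fun x e1 => by simp [h5 x e1, h.invol, a0]⟩

theorem exists_ratM_map {e e' : V} (he : IsRat ε F₀ e) (q : Q e = Q 0) (h0 : e ≠ 0)
    (he' : IsRat ε F₀ e') (q' : Q e' = Q 0) (h0' : e' ≠ 0) :
    ∃ k ∈ G, RatM ε F₀ k ∧ ∃ a ∈ F₀, a ≠ 0 ∧ k e = a • e' := by
  have := h.fd
  obtain ⟨y, y1, y2, y3⟩ : ∃ y, IsRat ε F₀ y ∧ B e y ≠ 0 ∧ B e' y ≠ 0 := by
    obtain ⟨f, f1, -, f2⟩ := h.exists_hyp he q h0
    obtain ⟨f', f3, -, f4⟩ := h.exists_hyp he' q' h0'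
    by_cases e1 : B e' f = 0
    · by_cases e2 : B e f' = 0
      · exact ⟨f + f', f1.add f3, by simp [f2, e2], by simp [e1, f4]⟩
      · exact ⟨f', f3, e2, by simp [f4]⟩
    · exact ⟨f, f1, by simp [f2], e1⟩
  obtain ⟨c, c1, c2, c3, c4, y, y1, y2, y3, y4⟩ : ∃ c, IsRat ε F₀ c ∧ Q c = Q 0 ∧ B e c = 0 ∧
      B e' c = 0 ∧ ∃ y, IsRat ε F₀ y ∧ B e y ≠ 0 ∧ B e' y ≠ 0 ∧ B c y ≠ 0 := by
    by_cases e0 : B e' e = 0
    · exact ⟨e, he, q, h.witt.self_eq_zero q, e0, y, y1, y2, y3, y2⟩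
    obtain ⟨c, c1, c2, c3, c4, c5⟩ := h.sing e e' he he'
    refine ⟨c, c1, c2, c3, c4, ?_⟩
    by_cases e1 : B c y = 0
    · obtain ⟨d, d1, d2, d3⟩ := h.exists_dual (S := {e, e'}) (by simp [he, he']) c1 fun e2 => by
        obtain ⟨a, b, rfl⟩ := Submodule.mem_span_pair.1 e2
        simp [h.witt.self_eq_zero q, h.witt.self_eq_zero q', e0, mt h.witt.refl e0] at c3 c4
        simp [c3, c4] at c5
      exact ⟨y + d, y1.add d1, by simpa [d2 e (by simp)] using y2,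
        by simpa [d2 e' (by simp)] using y3, by simp [e1, d3]⟩
    · exact ⟨y, y1, y2, y3, e1⟩
  obtain ⟨t, ht, u2⟩ := h.slide c y c1 y1 c2 y4
  have u1 := y1.add (c1.smul ht)
  have u3 : B (y + t • c) e ≠ 0 := fun e => y2 (by simpa [c3] using h.witt.refl e)
  have u4 : B (y + t • c) e' ≠ 0 := fun e => y3 (by simpa [c4] using h.witt.refl e)
  generalize y + t • c = u at u1 u2 u3 u4
  have a1 := div_mem (h.ratB _ _ u1 he) (h.ratB _ _ u1 he')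
  obtain ⟨k, hk, e1⟩ := h.witt.exists_Rad u2 (A := ⊤) trivial (y := e)
    (y' := (B u e / B u e') • e') u3 (by simp [u4])
    ((h.witt.norm_smul_singular q' _).trans q.symm) trivial
  exact ⟨k, h.polar.rad_le u (by rintro rfl; simp at u3) u2 hk,
    h.ratM_of_Rad u1 u2 hk he (e1 ▸ he'.smul a1) u3, _, a1, div_ne_zero u3 u4, e1⟩

theorem not_le : ¬ G ≤ RG ε F₀ := fun hle => by
  have := h.fd
  obtain ⟨e, e1, e2, e3⟩ := h.exists_sing
  obtain ⟨f, f1, f2, f3⟩ := h.exists_hyp e1 e2 e3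
  obtain ⟨w, w1, -, w3, w4⟩ := h.sing₁ e1
  obtain ⟨γ, hγ⟩ : ∃ γ, γ ∉ F₀ := by
    by_contra! hc
    exact h.ne_top (eq_top_iff.2 fun c _ => hc c)
  obtain ⟨k, hk, c, e4⟩ := h.witt.exists_Rad_add e2 (A := ⊤) trivial (y := f) (w := γ • w)
    (by simp [f3]) (by simp [w3]) trivial
  obtain ⟨a, a0, ha⟩ := hle (h.polar.rad_le e e3 e2 hk)
  have h1 : a ∈ F₀ := e1.mem_of_smul e3 (by simpa [hk.2.1] using (ha e).1 e1)
  have h2 := (((ha f).1 f1).smul (inv_mem h1)).sub f1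
  rw [inv_smul_smul₀ a0, e4, add_assoc, add_sub_cancel_left] at h2
  exact hγ (h.coeff w1 e1 w4 h2)

end RF6

/-- A proper overgroup of the subfield subgroup. -/
structure RC6 (B : V →ₛₗ[σ] V →ₗ[F] F) (Q : V → F) (G : Subgroup (V ≃ₗ[F] V))
    (ε : V ≃ₗ[F] (ι → F)) (F₀ : Subfield F) (M : Subgroup (V ≃ₗ[F] V)) : Prop
    extends RF6 B Q G ε F₀ where
  le : G ⊓ RG ε F₀ ≤ M
  le' : M ≤ G
  not_ge : ¬ G ≤ M
  TT : ∀ e, IsRat ε F₀ e → Q e = Q 0 → e ≠ 0 → (∀ w, B e w = 0 → RD B Q M e w) →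
    Rad B Q e ⊤ ≤ M
namespace RC6

variable [Finite F] {B : V →ₛₗ[σ] V →ₗ[F] F} {Q : V → F} {G M : Subgroup (V ≃ₗ[F] V)}
  (h : RC6 B Q G ε F₀ M)
include h

theorem isom {g : V ≃ₗ[F] V} (hg : g ∈ M) : g ∈ Isom B Q := h.polar.le (h.le' hg)

theorem mapB {g : V ≃ₗ[F] V} (hg : g ∈ M) (x y : V) : B (g x) (g y) = B x y :=
  (mem_isom.1 (h.isom hg)).1 x y

theorem mapQ {g : V ≃ₗ[F] V} (hg : g ∈ M) (x : V) : Q (g x) = Q x :=
  (mem_isom.1 (h.isom hg)).2 x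

theorem mem_of_Rad {e : V} (q : Q e = Q 0) (h0 : e ≠ 0) {k : V ≃ₗ[F] V} (hk : k ∈ Rad B Q e ⊤)
    (hr : RatM ε F₀ k) : k ∈ M := h.le ⟨h.polar.rad_le e h0 q hk, hr.mem⟩

theorem ratRad {e w : V} (he : IsRat ε F₀ e) (q : Q e = Q 0) (h0 : e ≠ 0)
    (hw : IsRat ε F₀ w) (hew : B e w = 0) : ∃ k ∈ M, k ∈ Rad B Q e ⊤ ∧
      (∀ f, B e f = 1 → k f - f - w ∈ F ∙ e) ∧ ∀ x, B e x = 0 → B w x = 0 → k x = x :=
  let ⟨k, h1, h2, h3⟩ := h.exists_ratRad he q h0 hw hew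
  ⟨k, h.mem_of_Rad q h0 h1 h2, h1, h3⟩

theorem ratRad' {e w : V} (he : IsRat ε F₀ e) (q : Q e = Q 0) (h0 : e ≠ 0)
    (hw : IsRat ε F₀ w) (hew : B e w = 0) : ∃ k ∈ M, k ∈ Rad B Q e ⊤ ∧
      ∀ x, B e x = 0 → k x = x + B w x • e :=
  let ⟨k, h1, h2, h3⟩ := h.exists_ratRad' he q h0 hw hew
  ⟨k, h.mem_of_Rad q h0 h1 h2, h1, h3⟩

theorem rd_rat {e w : V} (he : IsRat ε F₀ e) (q : Q e = Q 0) (h0 : e ≠ 0)
    (hw : IsRat ε F₀ w) (hew : B e w = 0) : RD B Q M e w :=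
  let ⟨k, h1, h2, h3, _⟩ := h.ratRad he q h0 hw hew
  ⟨k, h1, h2, h3⟩

theorem DT {e y z : V} (he : IsRat ε F₀ e) (hy : RD B Q M e y) (hz : IsRat ε F₀ z)
    (q : Q z = Q 0) (hez : B e z = 0) (hz' : z ∉ F ∙ e) {ρ : F} (hρ : ρ ∈ F₀) :
    RD B Q M e ((ρ * B z y) • z) := by
  have z0 : z ≠ 0 := by rintro rfl; exact hz' (zero_mem _)
  have hze := h.witt.refl hez
  obtain ⟨a, a1, a2, a3, a4⟩ := h.perp₂ he hz
  obtain ⟨b, b1, b2, b3⟩ := h.exists_dual (S := {e, z}) (by simp [he, hz]) a1 a4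
  have b4 : B b a ≠ 0 := fun e => by simp [h.witt.refl e] at b3
  have b5 := b2 z (by simp)
  obtain ⟨f, -, -, hf⟩ := h.exists_hyp hz q z0
  obtain ⟨k, k1, k2, k3, k4⟩ := h.ratRad hz q z0 a1 a3
  obtain ⟨l, hl⟩ := Rad_disp_eq k2 hf (k3 f hf) y
  have r1 := hy.move (h.isom k1) k1 (k4 e hze (h.witt.refl a2))
  obtain ⟨k', m1, m2, m3⟩ := h.ratRad' hz q z0
    (b1.smul (h.sig _ (div_mem hρ (h.ratB _ _ b1 a1)))) (by simp [b5])
  have r2 := r1.move (h.isom m1) m1 (by simp [m3 e hze, h.witt.refl (b2 e (by simp))])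
  convert r2 using 1
  rw [hl, add_assoc, add_sub_cancel_left, m3 _ (by simp [a3, h.witt.self_eq_zero q]),
    add_sub_cancel_left]
  simp only [map_smulₛₗ, map_add, LinearMap.smul_apply, h.invol, smul_eq_mul, RingHom.id_apply,
    h.witt.refl b5]
  congr 1
  field_simp; ring

theorem G1 {e z : V} (he : IsRat ε F₀ e) (hz : IsRat ε F₀ z) (q : Q z = Q 0) (hez : B e z = 0)
    (hz' : z ∉ F ∙ e) {β : F} (hR : RD B Q M e (β • z)) : Gam B Q ε F₀ M e β := by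
  have key : ∀ {z s : V}, RD B Q M e (β • z) → IsRat ε F₀ z → B e z = 0 → IsRat ε F₀ s →
      Q s = Q 0 → B e s = 0 → B z s ≠ 0 → ∀ ρ ∈ F₀, RD B Q M e ((ρ * β) • s) :=
    fun {z s} hR hz hez s1 s2 s3 s4 ρ hρ => by
      have s5 : B s z ≠ 0 := fun e => s4 (h.witt.refl e)
      convert h.DT he hR s1 s2 s3 (fun e => by
        obtain ⟨c, rfl⟩ := Submodule.mem_span_singleton.1 e
        simp [hez] at s5) (div_mem hρ (h.ratB _ _ s1 hz)) using 2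
      simp only [map_smul, smul_eq_mul]; field_simp
  obtain ⟨v, v1, v2, v3, v4⟩ := h.exists_partner (S := {e}) (by simpa using he) hz q hz'
    (by simpa using hez)
  have r1 := key hR hz hez v1 v2 (v3 e rfl) (by simp [v4]) 1 (one_mem _)
  rw [one_mul] at r1
  intro w hw hew
  simpa using h.span_sing he hz q hez hz' (P := fun a => ∀ ρ ∈ F₀, RD B Q M e ((ρ * β) • a))
    (fun a b ha hb ρ hρ => by rw [smul_add]; exact (ha ρ hρ).add (hb ρ hρ))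
    (fun c hc a ha ρ hρ => by
      rw [smul_smul, mul_right_comm]; exact ha _ (mul_mem hρ hc))
    (key r1 v1 (v3 e rfl) hz q hez fun e => by simp [h.witt.refl e] at v4)
    (fun s s1 s2 s3 s4 => key hR hz hez s1 s2 s3 s4) hw hew 1 (one_mem _)

theorem G2 {e e' : V} (he : IsRat ε F₀ e) (q : Q e = Q 0) (h0 : e ≠ 0) (he' : IsRat ε F₀ e')
    (q' : Q e' = Q 0) (h0' : e' ≠ 0) {β : F} (hG : Gam B Q ε F₀ M e β) :
    Gam B Q ε F₀ M e' β := fun w hw hew => by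
  obtain ⟨k, k1, k2, a, a1, a0, k3⟩ := h.exists_ratM_map he q h0 he' q' h0'
  have kM : k ∈ M := h.le ⟨k1, k2.mem⟩
  have s0 : σ a ≠ 0 := (map_ne_zero σ).2 a0
  have := (hG (k⁻¹ ((σ a)⁻¹ • w)) (k2.inv _ (hw.smul (inv_mem (h.sig _ a1)))) (by
    rw [← h.mapB kM, apply_inv_apply, k3]; simp [hew])).map (h.isom kM) kM
  rw [k3, map_smul, apply_inv_apply] at this
  convert this.smul_base a0 using 1
  rw [smul_comm, smul_inv_smul₀ s0]

theorem G4 {e y x : V} (he : IsRat ε F₀ e) (q : Q e = Q 0) (h0 : e ≠ 0) (hy : RD B Q M e y)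
    (hx : IsRat ε F₀ x) (hex : B e x = 0) : Gam B Q ε F₀ M e (B x y) := by
  have := h.fd
  have key : ∀ s, IsRat ε F₀ s → Q s = Q 0 → B e s = 0 → Gam B Q ε F₀ M e (B s y) :=
    fun s s1 s2 s3 => by
    by_cases e1 : s ∈ F ∙ e
    · obtain ⟨c, rfl⟩ := Submodule.mem_span_singleton.1 e1
      intro w _ _
      simpa [h.witt.RD_perp h0 q hy] using RD.zero
    · exact h.G1 he s1 s2 s3 e1 (by simpa using h.DT he hy s1 s2 s3 e1 (one_mem _))
  obtain ⟨z, z1, z2, z3, z4⟩ := h.sing₁ he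
  exact h.span_sing he z1 z2 z3 z4 (P := fun a => Gam B Q ε F₀ M e (B a y))
    (fun a b ha hb w hw hew => by simpa [add_smul] using (ha w hw hew).add (hb w hw hew))
    (fun c hc a ha w hw hew => by
      simpa [smul_smul, mul_comm] using ha _ (hw.smul (h.sig _ hc)) (by simp [hew]))
    (key z z1 z2 z3) (fun s s1 s2 s3 _ => key s s1 s2 s3) hx hex

theorem G3 {e : V} (he : IsRat ε F₀ e) (q : Q e = Q 0) (h0 : e ≠ 0) {γ δ : F}
    (h1 : Gam B Q ε F₀ M e γ) (h2 : Gam B Q ε F₀ M e δ) : Gam B Q ε F₀ M e (γ * δ) := by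
  obtain ⟨u, u1, u2, u3, u4⟩ := h.sing₁ he
  have u0 : u ≠ 0 := by rintro rfl; exact u4 (zero_mem _)
  obtain ⟨z, z1, z3, z4, z5⟩ := h.perp₂ he u1
  obtain ⟨k, k1, k2, k3⟩ := h.G2 he q h0 u1 u2 u0 h1 z z1 z4
  obtain ⟨w, w1, w2, w3⟩ := h.exists_dual (S := {e}) (by simpa using he) u1 u4
  obtain ⟨l, l1, l2⟩ := h.witt.Rad_perp_eq u2 k2 (k3 w w3) (h.witt.refl u3)
  have l3 : l = 0 := by
    simpa [h.witt.refl z3, show B w u ≠ 0 from fun e => by simp [h.witt.refl e] at w3] using l2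
  obtain ⟨c, hc⟩ := Rad_disp_eq k2 w3 (k3 w w3) (δ • w)
  have r1 := (h2 w w1 (w2 e rfl)).move (h.isom k1) k1 (by simp [l1, l3])
  obtain ⟨y, y1, y3, y4⟩ := h.exists_dual (S := {e, u}) (by simp [he, u1]) z1 z5
  have y5 : B y z ≠ 0 := fun e => by simp [h.witt.refl e] at y4
  intro v hv hev
  convert h.G4 he q h0 r1 y1 (y3 e (by simp)) _ (hv.smul (inv_mem (h.ratB _ _ y1 z1)))
    (by simp [hev]) using 1
  simp [hc, w3, h.witt.refl (y3 u (by simp)), smul_smul]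
  congr 1
  field_simp

theorem mem_of_gam {e : V} (he : IsRat ε F₀ e) (q : Q e = Q 0) (h0 : e ≠ 0) {β : F}
    (hβ : Gam B Q ε F₀ M e β) : β ∈ F₀ := by
  have := h.fd
  let R : Subring F :=
    { carrier := {β | Gam B Q ε F₀ M e β}
      mul_mem' := h.G3 he q h0
      one_mem' := fun w hw hew => by simpa using h.rd_rat he q h0 hw hew
      add_mem' := fun h1 h2 w hw hew => by rw [add_smul]; exact (h1 w hw hew).add (h2 w hw hew)
      zero_mem' := fun w _ _ => by simpa using RD.zero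
      neg_mem' := fun h1 w hw hew => by rw [neg_smul]; exact (h1 w hw hew).neg }
  let K : Subfield F := ⟨R, fun a ha => by
    by_cases h0 : a = 0
    · rw [h0, inv_zero]; exact R.zero_mem
    · exact MaxSub.inv_mem_of_finite R ha (mul_inv_cancel₀ h0) (inv_mul_cancel₀ h0)⟩
  refine ((h.max K fun c hc w hw hew => h.rd_rat he q h0 (hw.smul hc)
    (by simp [hew])).resolve_right fun hK => h.not_ge ?_).le (show β ∈ K from hβ)
  have key : ∀ e', IsRat ε F₀ e' → Q e' = Q 0 → e' ≠ 0 → Rad B Q e' ⊤ ≤ M := fun e' h1 h2 h3 =>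
    h.TT e' h1 h2 h3 fun w hw => by_contra fun hc => by
      let Z : Submodule F V := Submodule.span F {x | IsRat ε F₀ x ∧ B e' x = 0}
      have hZ : w ∈ Z := by_contra fun e => by
        obtain ⟨x, x1, x2, x3⟩ := exists_rat_notMem h.ratB (S := {e'}) (by simpa using h1)
          (by simpa using hw) e
        exact x3 (Submodule.subset_span ⟨x1, x2 e' rfl⟩)
      have : ∀ c : F, RD B Q M e' (c • w) := by
        refine Submodule.span_induction (p := fun w _ => ∀ c : F, RD B Q M e' (c • w))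
          (fun x hx c => h.G2 he q h0 h1 h2 h3 (hK.ge trivial : c ∈ K) x hx.1 hx.2)
          (fun c => by simpa using RD.zero)
          (fun x y _ _ hx hy c => by rw [smul_add]; exact (hx c).add (hy c))
          (fun a x _ hx c => by rw [smul_smul]; exact hx _) hZ
      exact hc (by simpa using this 1)
  obtain ⟨f, f1, f2, f3⟩ := h.exists_hyp he q h0
  exact h.polar.le_of_pair q f2 (by simp [f3]) (key e he q h0)
    (key f f1 f2 (by rintro rfl; simp at f3))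

theorem P0 {e y x : V} (he : IsRat ε F₀ e) (q : Q e = Q 0) (h0 : e ≠ 0) (hy : RD B Q M e y)
    (hx : IsRat ε F₀ x) (hex : B e x = 0) : B x y ∈ F₀ :=
  h.mem_of_gam he q h0 (h.G4 he q h0 hy hx hex)

theorem P1 {e : V} (he : IsRat ε F₀ e) (q : Q e = Q 0) (h0 : e ≠ 0) {k : V ≃ₗ[F] V} (hM : k ∈ M)
    (hk : k ∈ Rad B Q e ⊤) : RatM ε F₀ k := by
  obtain ⟨f, -, -, f3⟩ := h.exists_hyp he q h0
  obtain ⟨y, y1, y2⟩ := h.rat_mod he fun x hx hex =>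
    h.P0 he q h0 (RD.of (w := k f - f) hM hk f3 (by simp)) hx hex
  obtain ⟨u, u1, u2, u3, u4, u6⟩ := h.sing e y he y1
  have u0 : u ≠ 0 := by rintro rfl; exact u6 (zero_mem _)
  have u7 : e ∉ F ∙ u := fun e1 => by
    obtain ⟨c, rfl⟩ := Submodule.mem_span_singleton.1 e1
    exact u6 ((Submodule.smul_mem_iff _ (left_ne_zero_of_smul h0)).1
      (Submodule.mem_span_singleton_self _))
  obtain ⟨l, l1, l2⟩ := h.witt.Rad_perp_eq q hk y2 u3
  have l3 : l = 0 := by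
    simpa [u4, show B f e ≠ 0 from fun e => by simp [h.witt.refl e] at f3] using l2
  obtain ⟨g, g1, g2, g3⟩ := h.exists_dual (S := {u}) (by simpa using u1) he u7
  obtain ⟨d, d1, d2, d3⟩ := h.exists_dual (S := {e}) (by simpa using he) u1 u6
  have r1 := (h.rd_rat u1 u2 u0 g1 (g2 u rfl)).conj (h.isom hM) hM (by simp [l1, l3])
  refine h.ratM_of_Rad he q hk g1 (h.rat_of fun x hx => ?_) (by simp [g3])
  have c1 := h.ratB _ _ u1 hx
  have e1 := h.P0 u1 u2 u0 r1 (hx.sub (d1.smul c1)) (by simp [d3])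
  have e2 := add_mem (h.P0 he q h0 (RD.of (w := k g - g) hM hk g3 (by simp)) (d1.smul c1)
    (by simp [d2 e rfl])) (h.ratB _ _ (d1.smul c1) g1)
  convert add_mem e1 e2 using 1
  simp; ring

theorem P2 {e : V} (he : IsRat ε F₀ e) (q : Q e = Q 0) (h0 : e ≠ 0) {k : V ≃ₗ[F] V} (hM : k ∈ M)
    {l : F} (hk : k e = l • e) :
    σ l * l ∈ F₀ ∧ ∀ v, IsRat ε F₀ v → IsRat ε F₀ (σ l • k v) := by
  have := h.fd
  have l0 : l ≠ 0 := by rintro rfl; exact h0 (by simpa using hk)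
  have s0 : σ l ≠ 0 := (map_ne_zero σ).2 l0
  obtain ⟨f, f1, f2, f3⟩ := h.exists_hyp he q h0
  have f4 : B f e ≠ 0 := fun e => by simp [h.witt.refl e] at f3
  have e0 := h.witt.self_eq_zero q
  have f0 := h.witt.self_eq_zero f2
  have e1 : B e (σ l • k f) = 1 := by
    have := h.mapB hM e f
    rw [hk, f3] at this
    simpa using this
  obtain ⟨k₁, r1, r2⟩ := h.witt.exists_Rad q (A := ⊤) trivial (y := f) (y' := σ l • k f)
    (by simp [f3]) (e1.trans f3.symm)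
    ((h.witt.norm_smul_singular ((h.mapQ hM f).trans f2) _).trans f2.symm) trivial
  have ri := inv_mem r1
  have hi : k₁⁻¹ * k ∈ Isom B Q := mul_mem ri.1 (h.isom hM)
  have a1 : (k₁⁻¹ * k) e = l • e := by rw [LinearEquiv.mul_apply, hk, map_smul, ri.2.1]
  have a2 : σ l • (k₁⁻¹ * k) f = f := by
    rw [LinearEquiv.mul_apply, ← map_smul, ← r2, inv_apply_apply]
  have a3 : ∀ w, IsRat ε F₀ w → B e w = 0 → B f w = 0 → IsRat ε F₀ (σ l • (k₁⁻¹ * k) w) :=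
    fun w hw h1 h2 => by
      have b1 := (h.rd_rat he q h0 hw h1).map (h.isom hM) hM
      rw [hk] at b1
      have b2 := b1.smul_base l0
      obtain ⟨c, hc⟩ := Submodule.mem_span_singleton.1
        (ri.2.2.1 _ (h.witt.RD_perp h0 q b2))
      have b3 : σ l • (k₁⁻¹ * k) w = σ l • k w + c • e := by
        rw [hc, LinearEquiv.mul_apply, ← map_smul]; abel
      refine h.rat_of fun x hx => ?_
      have c1 := h.ratB _ _ he hx
      have b4 := h.P0 he q h0 b2 (hx.sub (f1.smul c1)) (by simp [f3])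
      have b5 : B f (σ l • (k₁⁻¹ * k) w) = 0 := by
        rw [← a2]; simp only [map_smulₛₗ, LinearMap.smul_apply, (mem_isom.1 hi).1]; simp [h2]
      have b6 : B (x - B e x • f) e = 0 := h.witt.refl (by simp [f3])
      have b7 : ∀ y, B x y = B (x - B e x • f) y + σ (B e x) * B f y := fun y => by simp
      rw [b7, b5, b3, map_add, map_smul _ c, b6]
      simpa using b4
  have a4 : σ l * l ∈ F₀ := by
    obtain ⟨c, c1, c2, c3, c4⟩ := h.perp₂ he f1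
    obtain ⟨d, d1, d2, d3⟩ := h.exists_dual (S := {e, f}) (by simp [he, f1]) c1 c4
    have := h.ratB _ _ (a3 c c1 c2 c3) (a3 d d1 (d2 e (by simp)) (d2 f (by simp)))
    simp only [map_smulₛₗ, LinearMap.smul_apply, (mem_isom.1 hi).1, d3, h.invol] at this
    simpa [mul_comm] using this
  have a5 : ∀ v, IsRat ε F₀ v → IsRat ε F₀ (σ l • (k₁⁻¹ * k) v) := fun v hv => by
    have c1 := h.ratB _ _ he hv
    have c2 := div_mem (h.ratB _ _ f1 hv) (h.ratB _ _ f1 he)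
    have := ((a3 _ ((hv.sub (f1.smul c1)).sub (he.smul c2)) (by simp [f3, e0])
      (by simp [f0, f4])).add (f1.smul c1)).add (he.smul (mul_mem c2 a4))
    convert this using 1
    rw [map_sub, map_sub, map_smul, map_smul, a1]
    linear_combination (norm := module) (B e v) • a2
  have m1 : k₁⁻¹ * k ∈ M :=
    h.le ⟨mul_mem (h.polar.rad_le e h0 q ri) (h.le' hM), mem_RG_of s0 a5⟩
  have m2 : k₁ ∈ M := by simpa using mul_mem hM (inv_mem m1)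
  refine ⟨a4, fun v hv => ?_⟩
  have := h.P1 he q h0 m2 r1 _ (a5 v hv)
  rwa [map_smul, LinearEquiv.mul_apply, apply_inv_apply] at this

theorem ratM_of_fix {e : V} (he : IsRat ε F₀ e) (q : Q e = Q 0) (h0 : e ≠ 0) {k : V ≃ₗ[F] V}
    (hM : k ∈ M) (hk : k e = e) : RatM ε F₀ k := fun v hv => by
  simpa using (h.P2 he q h0 hM (l := 1) (by simpa using hk)).2 v hv

theorem mem_RG_of_point {g : V ≃ₗ[F] V} (hg : g ∈ M) {z : V} (hz : IsRat ε F₀ z) (q : Q z = Q 0)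
    (h0 : z ≠ 0) {c : F} (c0 : c ≠ 0) (hc : IsRat ε F₀ (c • g z)) : g ∈ RG ε F₀ := by
  obtain ⟨k, k1, k2, a, -, a0, k3⟩ := h.exists_ratM_map hc
    (h.witt.norm_smul_singular ((h.mapQ hg z).trans q) c) (by simp [c0, h0]) hz q h0
  refine (Subgroup.mul_mem_cancel_left _ k2.mem).1 (mem_RG_of ((map_ne_zero σ).2
    (mul_ne_zero (inv_ne_zero c0) a0)) (h.P2 hz q h0 (mul_mem (h.le ⟨k1, k2.mem⟩) hg) ?_).2)
  rw [LinearEquiv.mul_apply, mul_smul, ← k3, map_smul, inv_smul_smul₀ c0]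

end RC6

end CF.MaxSub
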