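/-
Bimodules of endomorphisms of a field extension of prime degree.
-/
import Cfsg.Agent.MaxSub.F3W

set_option autoImplicit false

namespace CF.MaxSub

open Module Geom TensorProduct

variable {F K : Type*} [Field F] [Field K] [Algebra F K]

variable (F) in
/-- Multiplication by `k`. -/
abbrev mL (k : K) : End F K := LinearMap.mulLeft F k

variable (F K) in
/-- Right multiplication of endomorphisms by scalars. -/
def rAct : K →ₐ[F] End F (End F K) where
  toFun k := LinearMap.mulRight F (mL F k)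
  map_one' := by ext; simp
  map_mul' a b := by ext; simp [mul_left_comm, mul_assoc]
  map_zero' := by ext; simp
  map_add' a b := by ext; simp [add_mul]
  commutes' a := by ext; simp [← Algebra.smul_def]

variable (F K) in
/-- The two-sided action of `K ⊗ K`. -/
noncomputable def biAct : K ⊗[F] K →ₐ[F] End F (End F K) :=
  Algebra.TensorProduct.lift ((Algebra.lmul F (End F K)).comp (Algebra.lmul F K)) (rAct F K)
    fun _ _ => rfl

theorem biAct_tmul (a b : K) (x : End F K) : biAct F K (a ⊗ₜ b) x = mL F a * x * mL F b := rfl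

theorem bimod_of_twist [Finite K] (hr : (finrank F K).Prime) (R : Submodule F (End F K))
    (h1 : ∀ k, mL F k ∈ R) {μ ρ : K} (hμ : ∀ a : F, μ ≠ algebraMap F K a)
    (hρ : ∀ a : F, ρ * ρ ≠ algebraMap F K a) (h2 : ∀ x ∈ R, mL F μ * x + x * mL F μ ∈ R)
    (h3 : ∀ x ∈ R, mL F μ * x * mL F μ ∈ R) (h4 : ∀ x ∈ R, mL F ρ * x * mL F ρ⁻¹ ∈ R)
    (a b : K) {x : End F K} (hx : x ∈ R) :
    mL F a * x * mL F b ∈ R := by
  have ρ0 : ρ ≠ 0 := by rintro rfl; exact hρ 0 (by simp)
  let Bs : Subalgebra F (K ⊗[F] K) :=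
    { carrier := {t | ∀ x ∈ R, biAct F K t x ∈ R}
      mul_mem' := fun ha hb x hx => by rw [map_mul]; exact ha _ (hb x hx)
      add_mem' := fun ha hb x hx => by rw [map_add]; exact add_mem (ha x hx) (hb x hx)
      algebraMap_mem' := fun c x hx => by
        rw [AlgHom.commutes]; exact R.smul_mem c hx }
  let l : K ⊗[F] K := μ ⊗ₜ 1
  let r : K ⊗[F] K := 1 ⊗ₜ μ
  have b1 : l + r ∈ Bs := fun x hx => by
    rw [map_add, LinearMap.add_apply, biAct_tmul, biAct_tmul]
    simpa [← End.one_eq_id] using h2 x hx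
  have b2 : l * r ∈ Bs := fun x hx => by
    simpa [l, r, biAct_tmul] using h3 x hx
  let P : Subalgebra F ((K ⊗[F] K) × (K ⊗[F] K)) :=
    { carrier := {p | ∃ a ∈ Bs, ∃ b ∈ Bs, p.1 = a + b * l ∧ p.2 = a + b * r}
      mul_mem' := by
        rintro ⟨_, _⟩ ⟨_, _⟩ ⟨a, ha, b, hb, rfl, rfl⟩ ⟨a', ha', b', hb', rfl, rfl⟩
        refine ⟨a * a' - b * b' * (l * r), sub_mem (mul_mem ha ha') (mul_mem (mul_mem hb hb') b2),
          a * b' + a' * b + b * b' * (l + r), add_mem (add_mem (mul_mem ha hb') (mul_mem ha' hb))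
            (mul_mem (mul_mem hb hb') b1), ?_, ?_⟩ <;> simp only [Prod.fst_mul, Prod.snd_mul] <;> ring
      add_mem' := by
        rintro ⟨_, _⟩ ⟨_, _⟩ ⟨a, ha, b, hb, rfl, rfl⟩ ⟨a', ha', b', hb', rfl, rfl⟩
        refine ⟨a + a', add_mem ha ha', b + b', add_mem hb hb', ?_, ?_⟩ <;>
          simp only [Prod.fst_add, Prod.snd_add] <;> ring
      algebraMap_mem' := fun c => ⟨_, Bs.algebraMap_mem c, 0, zero_mem _, by simp, by simp⟩ }
  have p1 : ∀ k : K, ((k ⊗ₜ 1, 1 ⊗ₜ k) : (K ⊗[F] K) × (K ⊗[F] K)) ∈ P := fun k =>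
    (subalgebra_top_of_prime hr (P.comap (Algebra.TensorProduct.includeLeft.prod
      Algebra.TensorProduct.includeRight)) (c := μ) ⟨0, zero_mem _, 1, one_mem _, by simp [l],
      by simp [r]⟩ hμ).ge (Algebra.mem_top (x := k))
  have p2 : ∀ k : K, ((1 ⊗ₜ k, k ⊗ₜ 1) : (K ⊗[F] K) × (K ⊗[F] K)) ∈ P := fun k =>
    (subalgebra_top_of_prime hr (P.comap (Algebra.TensorProduct.includeRight.prod
      Algebra.TensorProduct.includeLeft)) (c := μ) ⟨_, b1, -1, neg_mem (one_mem _), by simp [r],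
      by simp [l]⟩ hμ).ge (Algebra.mem_top (x := k))
  obtain ⟨c, hc, d, hd, e1, e2⟩ := mul_mem (p1 ρ) (p2 ρ⁻¹)
  simp only [Prod.mk_mul_mk, Algebra.TensorProduct.tmul_mul_tmul, mul_one, one_mul] at e1 e2
  have b3 : d * l ∈ Bs := by
    rw [← sub_eq_iff_eq_add'.2 e1]
    exact sub_mem (fun x hx => h4 x hx) hc
  have b4 : ∀ t, d * t ∈ Bs := fun t => by
    induction t with
    | zero => simp
    | add _ _ h h' => rw [mul_add]; exact add_mem h h'
    | tmul a b =>
      obtain ⟨c', hc', d', hd', e, -⟩ := mul_mem (p1 a) (p2 b)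
      simp only [Prod.mk_mul_mk, Algebra.TensorProduct.tmul_mul_tmul, mul_one, one_mul] at e
      rw [e, show d * (c' + d' * l) = d * c' + d' * (d * l) by ring]
      exact add_mem (mul_mem hd hc') (mul_mem hd' b3)
  have e3 : ((ρ * ρ) ⊗ₜ 1 - 1 ⊗ₜ (ρ * ρ) : K ⊗[F] K) = d * ((l - r) * ρ ⊗ₜ ρ) := by
    rw [← mul_assoc, mul_sub, ← sub_eq_iff_eq_add'.2 e1, ← sub_eq_iff_eq_add'.2 e2]
    simp [sub_mul, ρ0]
  let S : AddSubgroup (End F K) :=
    { carrier := {x | ∀ t, biAct F K t x ∈ R}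
      add_mem' := fun ha hb t => by rw [map_add]; exact add_mem (ha t) (hb t)
      zero_mem' := fun t => by simp
      neg_mem' := fun ha t => by rw [map_neg]; exact neg_mem (ha t) }
  refine bimod_mem hr S (fun a x hx t => ?_) (fun a x hx t => ?_) (fun t => ?_) hρ (fun t => ?_)
    (a ⊗ₜ b)
  · have := hx (t * a ⊗ₜ 1)
    rw [map_mul, End.mul_apply] at this
    convert this using 2
    ext; simp [biAct_tmul]
  · have := hx (t * 1 ⊗ₜ a)
    rw [map_mul, End.mul_apply] at this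
    convert this using 2
    ext; simp [biAct_tmul]
  · induction t with
    | zero => simp
    | add _ _ h h' => rw [map_add]; exact add_mem h h'
    | tmul a b => convert h1 (a * b) using 1; ext; simp [biAct_tmul, mul_assoc]
  · have := b4 ((l - r) * ρ ⊗ₜ ρ * t) x hx
    rw [← mul_assoc, ← e3, mul_comm, map_mul, End.mul_apply] at this
    convert this using 2
    ext; simp [biAct_tmul, mul_assoc]

theorem exists_nu_mul [FiniteDimensional F K] {ν : Dual F K} (hν : ν ≠ 0) (l : Dual F K) :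
    ∃ a, ∀ k, l k = ν (a * k) := by
  obtain ⟨φ, e⟩ := exists_dual_repr' (V := K) hν l
  exact ⟨φ 1, fun k => by rw [e, mul_comm, ← smul_eq_mul, ← map_smul, smul_eq_mul, mul_one]⟩

theorem exists_ev (hr : (finrank F K).Prime) {R : Submodule F (End F K)}
    (hR : ∀ (a b : K), ∀ x ∈ R, mL F a * x * mL F b ∈ R) (h1 : 1 ∈ R) {x₀ : End F K} (h0 : x₀ ∈ R)
    (h0' : ∀ k, x₀ ≠ mL F k) {ν : Dual F K} (hν : ν ≠ 0) {s s' t : K} (hs : s ≠ 0) (hs' : s' ≠ 0)
    (ht : ν (s' * t) = 0) : ∃ x ∈ R, x s = t ∧ ∀ w, ν (s' * x w) = 0 := by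
  have : FiniteDimensional F K := .of_finrank_pos hr.pos
  let Φ : End F K →ₗ[F] K × Dual F K :=
    (LinearMap.applyₗ s).prod (LinearMap.llcomp F K K F (ν ∘ₗ mL F s'))
  by_contra hc
  obtain ⟨Λ, e1, e2⟩ := exists_dual_one (W := R.map Φ) (v := (t, 0)) (by
    rintro ⟨x, hx, e⟩
    exact hc ⟨x, hx, congrArg Prod.fst e, fun w => LinearMap.congr_fun (congrArg Prod.snd e) w⟩)
  obtain ⟨a, ha⟩ := exists_nu_mul hν (Λ ∘ₗ .inl F _ _)
  obtain ⟨t', ht'⟩ := (evalEquiv F K).surjective (Λ ∘ₗ .inr F _ _)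
  have h2 : ∀ w μ, Λ (w, μ) = ν (a * w) + μ t' := fun w μ => by
    rw [← ha, show μ t' = _ from LinearMap.congr_fun ht' μ]
    simp [← map_add]
  have h3 : ∀ x ∈ R, a * x s + s' * x t' = 0 := fun x hx => eq_zero_of_nu hν fun k => by
    have := e2 _ ⟨_, hR k 1 x hx, rfl⟩
    simp only [Φ, LinearMap.prod_apply, Pi.prod, h2] at this
    simpa [mul_add, mul_left_comm] using this
  have h4 : t' = -a / s' * s := by
    have := h3 1 h1
    simp only [End.one_apply] at this
    field_simp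
    linear_combination this
  have h5 : ∀ k, x₀ (-a / s' * k) = -a / s' * x₀ k := fun k => by
    have := h3 _ (hR 1 (k / s) x₀ h0)
    simp only [h4, End.mul_apply, LinearMap.mulLeft_apply, one_mul, div_mul_cancel₀ _ hs] at this
    rw [mul_left_comm, div_mul_cancel₀ _ hs] at this
    field_simp
    rw [show -(a * k / s') = -a / s' * k by ring]
    linear_combination this
  let L : Subalgebra F K :=
    { carrier := {c | ∀ k, x₀ (c * k) = c * x₀ k}
      mul_mem' := fun {a b} ha hb k => by rw [mul_assoc, ha, hb, mul_assoc]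
      add_mem' := fun {a b} ha hb k => by rw [add_mul, map_add, ha, hb, add_mul]
      algebraMap_mem' := fun a k => by simp [← Algebra.smul_def] }
  by_cases h6 : ∀ c : F, -a / s' ≠ algebraMap F K c
  · refine h0' (x₀ 1) (LinearMap.ext fun k => ?_)
    simpa [mul_comm] using (subalgebra_top_of_prime hr L h5 h6).ge (Algebra.mem_top (x := k)) 1
  push Not at h6
  obtain ⟨c, hc⟩ := h6
  rw [h2, show a * t = -c • (s' * t) by
    rw [Algebra.smul_def, map_neg, ← hc]; field_simp, map_smul, ht] at e1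
  simp at e1

theorem exists_sing_end [FiniteDimensional F K] {R : Submodule F (End F K)}
    (hR : ∀ (a b : K), ∀ x ∈ R, mL F a * x * mL F b ∈ R) (h1 : 1 ∈ R) {x₀ : End F K} (h0 : x₀ ∈ R)
    (h0' : ∀ k, x₀ ≠ mL F k) {ν : Dual F K} (hν : ν ≠ 0) :
    ∃ x ∈ R, x ≠ 0 ∧ x 1 = 0 ∧ ∀ w, ν (x w) = 0 := by
  have h2 : x₀ - mL F (x₀ 1) ∈ R := sub_mem h0 (by simpa [← End.one_eq_id] using hR (x₀ 1) 1 1 h1)
  obtain ⟨y, hy⟩ : ∃ y, y ∉ LinearMap.range (x₀ - mL F (x₀ 1)) := by
    by_contra! hc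
    have := LinearMap.injective_iff_surjective.2 hc (a₁ := 1) (a₂ := 0) (by simp)
    simp at this
  obtain ⟨l, e1, e2⟩ := exists_dual_one hy
  obtain ⟨a, ha⟩ := exists_nu_mul hν l
  have a0 : a ≠ 0 := by rintro rfl; simp [ha] at e1
  refine ⟨_, hR a 1 _ h2, fun e => h0' (x₀ 1) (LinearMap.ext fun k => ?_), by simp, fun w => ?_⟩
  · simpa [a0, sub_eq_zero] using LinearMap.congr_fun e k
  · simpa [ha] using e2 _ ⟨w, rfl⟩

theorem not_conj_mL [Finite K] (hr : (finrank F K).Prime) (h3 : 3 ≤ finrank F K) {m : End F K}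
    (h1 : m * m = 0) (h0 : m ≠ 0) : ∃ k, ∀ k', (1 + m) * mL F k * (1 - m) ≠ mL F k' := by
  have : FiniteDimensional F K := .of_finrank_pos hr.pos
  by_contra! hc
  rcases semiG_lin_or (K := K) hr (g := unip m h1) (mem_semiG fun k => by
    obtain ⟨k', e⟩ := hc k
    refine ⟨k', fun v => ?_⟩
    have := LinearMap.congr_fun e (v + m v)
    simpa [unip_apply, ← End.mul_apply m m, h1] using this) with e | e
  · have e1 : ∀ k, m k = k * m 1 := fun k => by simpa [unip_apply, mul_add] using e k 1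
    have e2 : m 1 * m 1 = 0 := by rw [← e1, ← End.mul_apply, h1]; rfl
    exact h0 (LinearMap.ext fun k => by simpa [mul_self_eq_zero.1 e2] using e1 k)
  · have e1 := finrank_le_fixSp_add (g := unip m h1) (A := fixSp (unip m h1)) fun x =>
      mem_fixSp.2 (by simp [unip_apply, ← End.mul_apply m m, h1])
    rw [finrank_self] at e
    omega

end CF.MaxSub
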