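/-
Overgroups of `ΓU_d(q^r) ∩ SU_{dr}(q)` in `SU_{dr}(q)`: the local analysis.
-/
import Cfsg.Agent.MaxSub.UF1

set_option autoImplicit false

namespace CF.MaxSub

open Module Geom

variable {F K V : Type*} [Field F] [Field K] [Algebra F K]
  [AddCommGroup V] [Module F V] [Module K V] [IsScalarTower F K V] {σ : F →+* F} {τ : K →+* K}

/-- An overgroup of a unitary group over `K` in the special unitary group over `F`. -/
structure UK (B : V →ₛₗ[σ] V →ₗ[F] F) (Bk : V →ₛₗ[τ] V →ₗ[K] K) (ν : Dual F K)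
    (X : Subgroup (V ≃ₗ[F] V)) : Prop where
  herm : IsHerm B
  nd : B.Nondegenerate
  hk : IsHerm Bk
  ndk : Bk.Nondegenerate
  nu : ν ≠ 0
  eq : ∀ x y, B x y = ν (Bk x y)
  tau : ∀ a, τ (algebraMap F K a) = algebraMap F K (σ a)
  nt : ∀ k, ν (τ k) = σ (ν k)
  prime : (finrank F K).Prime
  three : 3 ≤ finrank F K
  two : 2 ≤ finrank K V
  le : X ≤ SUG B
  mem : SUG B ⊓ SemiG F K V ≤ X
  rho : ∃ ρ : K, τ ρ * ρ = 1 ∧ (∀ a : F, ρ * ρ ≠ algebraMap F K a) ∧
    (Algebra.norm F (ρ * ρ) = 1 ∨ 3 ≤ finrank K V)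

/-- `x ↦ φ (Bk u x) • u`. -/
def zn (Bk : V →ₛₗ[τ] V →ₗ[K] K) (u : V) (φ : End F K) : End F V :=
  rt (φ ∘ₗ (Bk u).restrictScalars F) u

theorem zn_apply (Bk : V →ₛₗ[τ] V →ₗ[K] K) (u : V) (φ : End F K) (x : V) :
    zn Bk u φ x = φ (Bk u x) • u := rfl

/-- The part of `X` in the centre of the radical of the stabiliser of `K u`. -/
def ZU (X : Subgroup (V ≃ₗ[F] V)) (Bk : V →ₛₗ[τ] V →ₗ[K] K) (u : V) : Set (End F K) :=
  {φ | Un X (zn Bk u φ)}

variable {B : V →ₛₗ[σ] V →ₗ[F] F} {Bk : V →ₛₗ[τ] V →ₗ[K] K} {ν : Dual F K}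
  {X : Subgroup (V ≃ₗ[F] V)}

theorem ZU.add {u : V} (hu : Bk u u = 0) {φ ψ : End F K} (h : φ ∈ ZU X Bk u) (h' : ψ ∈ ZU X Bk u) :
    φ + ψ ∈ ZU X Bk u :=
  (Un.add h h' (by ext; simp [zn_apply, hu]) (by ext; simp [zn_apply, hu])).congr fun x => by
    simp [zn_apply, add_smul]

theorem ZU.neg {u : V} {φ : End F K} (h : φ ∈ ZU X Bk u) : -φ ∈ ZU X Bk u :=
  (Un.neg h).congr fun x => by simp [zn_apply]

theorem ZU.sub {u : V} (hu : Bk u u = 0) {φ ψ : End F K} (h : φ ∈ ZU X Bk u) (h' : ψ ∈ ZU X Bk u) :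
    φ - ψ ∈ ZU X Bk u := sub_eq_add_neg φ ψ ▸ ZU.add hu h (ZU.neg h')

theorem ZU.zero {u : V} : 0 ∈ ZU X Bk u := Un.zero.congr fun x => by simp [zn_apply]

theorem ZU.conj {u u' : V} {g : V ≃ₗ[F] V} (hg : g ∈ X) {γ γ' : End F K}
    (h1 : ∀ k, g (k • u) = γ k • u') (h2 : ∀ v, γ' (Bk u' (g v)) = Bk u v) {φ : End F K}
    (h : φ ∈ ZU X Bk u) : γ * φ * γ' ∈ ZU X Bk u' :=
  Un.of_conj h hg fun v => by simp [zn_apply, h1, h2]

theorem ZU.conjK {u u' : V} {g : UG Bk} (hg : g.1.restrictScalars F ∈ X) {a : K}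
    (e : g.1 u = a • u') {φ : End F K} (h : φ ∈ ZU X Bk u) :
    mL F a * φ * mL F (τ a) ∈ ZU X Bk u' :=
  ZU.conj hg (fun k => by simp [e, smul_smul, mul_comm]) (fun v => by
    simp [← UG_map g u v, e]) h

theorem span_lin_mem {S S' : Set (End F K)} (T : End F (End F K)) (h : ∀ x ∈ S, T x ∈ S')
    {x : End F K} (hx : x ∈ Submodule.span F S) : T x ∈ Submodule.span F S' :=
  (Submodule.span_le (p := (Submodule.span F S').comap T)).2
    (fun x hx => Submodule.subset_span (h x hx)) hx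

theorem span_map_mem {S S' : Set (End F K)} {a b : End F K} (h : ∀ x ∈ S, a * x * b ∈ S')
    {x : End F K} (hx : x ∈ Submodule.span F S) : a * x * b ∈ Submodule.span F S' :=
  span_lin_mem (LinearMap.mulRight F b ∘ₗ LinearMap.mulLeft F a) h hx

theorem mem_line_of_plane (hH : IsHerm Bk) {u f v y : V} (hu : Bk u u = 0) (hf : Bk f f = 0)
    (e : Bk u f = 1) (hv : v ∈ Submodule.span K {u, f}) (hy : y ∈ Submodule.span K {u, f})
    (v0 : v ≠ 0) (h1 : Bk v v = 0) (h2 : Bk v y = 0) : y ∈ K ∙ v := by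
  obtain ⟨a, b, rfl⟩ := Submodule.mem_span_pair.1 hv
  obtain ⟨c, d, rfl⟩ := Submodule.mem_span_pair.1 hy
  simp [hu, hf, e, hH.flip_one e] at h1 h2
  by_cases ha : a = 0
  · have b0 : b ≠ 0 := by rintro rfl; simp [ha] at v0
    simp [ha, b0] at h2
    exact Submodule.mem_span_singleton.2 ⟨d / b, by simp [ha, h2, smul_smul, b0]⟩
  · refine Submodule.mem_span_singleton.2 ⟨c / a, ?_⟩
    have : τ a ≠ 0 := by simpa using ha
    rw [show d = c / a * b from mul_right_cancel₀ (mul_ne_zero ha this) (by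
      rw [show c / a * b * (a * τ a) = c / a * a * (b * τ a) by ring, div_mul_cancel₀ _ ha]
      linear_combination a * h2 - c * h1)]
    simp [smul_smul, ha]

namespace UK

variable (h : UK B Bk ν X)
include h

theorem finK : FiniteDimensional F K := .of_finrank_pos h.prime.pos

theorem fin : FiniteDimensional K V := .of_finrank_pos (by have := h.two; omega)

theorem finF : FiniteDimensional F V :=
  have := h.finK
  have := h.fin
  Module.Finite.trans K V

theorem witt : IsWittPair τ Bk fun x => Bk x x := h.hk.wittPair h.ndk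

theorem isom {g : V ≃ₗ[F] V} (hg : g ∈ X) (x y : V) : B (g x) (g y) = B x y :=
  (mem_SUG.1 (h.le hg)).1 x y

theorem memK {g : UG Bk} (hg : Algebra.norm F (LinearMap.det (g.1 : V →ₗ[K] V)) = 1) :
    g.1.restrictScalars F ∈ X :=
  h.mem ⟨mem_SUG.2 ⟨fun x y => by simp [h.eq, UG_map], by rw [det_restrict, hg]⟩,
    restrict_mem_semiG _⟩

theorem memS {g : UG Bk} (hg : g ∈ suSub Bk) : g.1.restrictScalars F ∈ X :=
  h.memK (by rw [mem_suSub.1 hg, map_one])

theorem perp_iff {u x : V} : (∀ k : K, B (k • u) x = 0) ↔ Bk u x = 0 :=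
  ⟨fun e => eq_zero_of_nu h.nu fun k => by simpa [h.eq, h.hk.invol] using e (τ k),
    fun e k => by simp [h.eq, e]⟩

theorem exists_hyp {u : V} (u0 : u ≠ 0) (hu : Bk u u = 0) : ∃ f, Bk f f = 0 ∧ Bk u f = 1 := by
  have := h.fin
  simpa using h.witt.exists_hyperbolic u0 (by simpa using hu)

theorem tau_smul (a : F) (k : K) : τ (a • k) = σ a • τ k := by simp [Algebra.smul_def, h.tau]

theorem exists_omega : ∃ ω : F, σ ω ≠ ω := by
  by_contra! hc
  exact h.herm.ne_id (RingHom.ext hc)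

theorem mem_span_fix {S : Submodule F K} (hS : ∀ k, τ k = k → k ∈ S) (k : K) : k ∈ S := by
  obtain ⟨ω, hω⟩ := h.exists_omega
  have h1 := sub_ne_zero.2 hω
  have h2 : σ ω - ω = -(ω - σ ω) := by ring
  have e : k = (σ ω - ω)⁻¹ • (σ ω • k - ω • τ k) + ω • (σ ω - ω)⁻¹ • (τ k - k) := by
    match_scalars <;> field_simp <;> ring
  rw [e]
  refine add_mem (hS _ ?_) (S.smul_mem _ (hS _ ?_))
  all_goals
    simp only [h.tau_smul, map_sub, map_inv₀, h.herm.invol, h.hk.invol]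
    rw [h2]
    match_scalars <;> field_simp <;> ring

theorem exists_mu : ∃ μ : K, τ μ = μ ∧ ∀ a : F, μ ≠ algebraMap F K a := by
  by_contra! hc
  obtain ⟨ω, hω⟩ := exists_notMem_base h.prime.two_le
  obtain ⟨a, ha⟩ := h.mem_span_fix (S := LinearMap.range (Algebra.linearMap F K))
    (fun k e => (hc k e).imp fun a e => e.symm) ω
  exact hω a ha.symm

section Z

variable {u : V} (hu : Bk u u = 0)
include hu

theorem skew_mem {c : K} (hc : τ c = -c) : mL F c ∈ ZU X Bk u :=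
  have := h.fin
  un_of_apply (fun v => by simp [zn_apply, hu]) (h.memS (mem_suSub.2 (det_uTrans h.hk hu hc)))
    fun v => by simp [uTrans_apply, zn_apply]

theorem mL_mem (k : K) : mL F k ∈ Submodule.span F (ZU X Bk u) := by
  obtain ⟨s, s0, hs⟩ := exists_skew_ne_zero h.herm.ne_id h.herm.invol
  refine h.mem_span_fix (S := (Submodule.span F (ZU X Bk u)).comap (LinearMap.mul F K))
    (fun k e => ?_) k
  have := Submodule.smul_mem _ s⁻¹ (Submodule.subset_span (R := F) (h.skew_mem hu (c := s • k)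
    (by rw [h.tau_smul, hs, e, neg_smul])))
  rw [Submodule.mem_comap]
  convert this using 1
  ext; simp [smul_smul, s0]

variable (u0 : u ≠ 0)
include u0

theorem skew {φ : End F K} (hφ : φ ∈ ZU X Bk u) (s t : K) :
    ν (τ s * φ t) + ν (τ (φ s) * t) = 0 := by
  obtain ⟨f, hf, e⟩ := h.exists_hyp u0 hu
  have := h.isom (Un.unip_mem hφ) (s • f) (t • f)
  simpa [unip_apply, zn_apply, h.eq, hu, hf, e, h.hk.flip_one e, mul_comm, add_comm] using this

theorem quad {μ : K} (hμ : τ μ = μ) {φ : End F K} (hφ : φ ∈ ZU X Bk u) :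
    mL F μ * φ * mL F μ ∈ ZU X Bk u := by
  have := h.fin
  by_cases μ0 : μ = 0
  · simpa [μ0] using ZU.zero
  obtain ⟨f, hf, e⟩ := h.exists_hyp u0 hu
  simpa [hμ] using ZU.conjK (h.memS (g := uDil h.hk hu hf e (Units.mk0 μ μ0))
    (mem_suSub.2 (by simp [det_uDil, hμ, μ0]))) (uDil_left ..) hφ

theorem lin {μ : K} (hμ : τ μ = μ) {φ : End F K} (hφ : φ ∈ ZU X Bk u) :
    mL F μ * φ + φ * mL F μ ∈ ZU X Bk u := by
  convert ZU.sub hu (ZU.sub hu (h.quad hu u0 (μ := μ + 1) (by simp [hμ]) hφ) (h.quad hu u0 hμ hφ))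
    hφ using 1
  ext; simp [add_mul]; ring

theorem smul_mem [Finite F] {a : F} (ha : σ a = a) {φ : End F K} (hφ : φ ∈ ZU X Bk u) :
    a • φ ∈ ZU X Bk u := by
  by_cases h2 : (2 : F) = 0
  · obtain ⟨b, rfl⟩ := isSquare_of_two_eq_zero h2 a
    have : σ b = b := by
      rw [map_mul] at ha
      exact sub_eq_zero.1 (mul_self_eq_zero.1 (by linear_combination ha + (b * b - b * σ b) * h2))
    convert h.quad hu u0 (μ := algebraMap F K b) (by rw [h.tau, this]) hφ using 1
    ext; simp [← Algebra.smul_def, smul_smul]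
  · convert h.lin hu u0 (μ := algebraMap F K (a / 2)) (by rw [h.tau]; simp [ha, map_ofNat]) hφ using 1
    ext; simp only [LinearMap.smul_apply, LinearMap.add_apply, End.mul_apply,
      LinearMap.mulLeft_apply, ← Algebra.smul_def, map_smul, ← add_smul]
    rw [← two_mul, mul_div_cancel₀ _ h2]

theorem dagger [Finite F] {x : End F K} (hx : x ∈ Submodule.span F (ZU X Bk u)) :
    ∃ z ∈ ZU X Bk u, ∀ w w', ν (τ w * z w') = ν (τ w * x w') - ν (τ (x w) * w') := by
  suffices ∀ a : F, ∃ z ∈ ZU X Bk u, ∀ w w',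
      ν (τ w * z w') = ν (τ w * (a • x) w') - ν (τ ((a • x) w) * w') by simpa using this 1
  induction hx using Submodule.span_induction with
  | mem x hx =>
    refine fun a => ⟨_, h.smul_mem hu u0 (a := a + σ a) (by simp [h.herm.invol, add_comm]) hx,
      fun w w' => ?_⟩
    simp only [LinearMap.smul_apply, mul_smul_comm, map_smul, h.tau_smul, smul_mul_assoc,
      smul_eq_mul]
    linear_combination σ a * h.skew hu u0 hx w w'
  | zero => exact fun a => ⟨0, ZU.zero, by simp⟩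
  | add x y _ _ h1 h2 =>
    intro a
    obtain ⟨z, hz, e⟩ := h1 a
    obtain ⟨z', hz', e'⟩ := h2 a
    refine ⟨_, ZU.add hu hz hz', fun w w' => ?_⟩
    simp only [smul_add, LinearMap.add_apply, mul_add, add_mul, map_add, e, e']
    ring
  | smul b x _ h1 => exact fun a => by simpa [smul_smul] using h1 (a * b)

theorem bimod [Finite K] (a b : K) {x : End F K} (hx : x ∈ Submodule.span F (ZU X Bk u)) :
    mL F a * x * mL F b ∈ Submodule.span F (ZU X Bk u) := by
  have := h.fin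
  obtain ⟨μ, hμ, hμ'⟩ := h.exists_mu
  obtain ⟨ρ, h1, h2, h3⟩ := h.rho
  have ρ0 : ρ ≠ 0 := by rintro rfl; simp at h1
  have h4 : τ ρ = ρ⁻¹ := eq_inv_of_mul_eq_one_left h1
  obtain ⟨f, hf, e⟩ := h.exists_hyp u0 hu
  obtain ⟨g, hg, e'⟩ : ∃ g : UG Bk, g.1.restrictScalars F ∈ X ∧ g.1 u = ρ • u := by
    rcases h3 with h3 | h3
    · exact ⟨uDil h.hk hu hf e (Units.mk0 ρ ρ0), h.memK (by simpa [det_uDil, h4] using h3),
        uDil_left ..⟩
    obtain ⟨w, hw, w0⟩ := exists_nonisotropic_mem (.inl h.hk.ne_id) h.hk.symm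
      (h.witt.disjoint_perp_perp (h.witt.disjoint_hyperbolic hu hf (e ▸ one_ne_zero))) fun e' => by
        have h4 := h.witt.finrank_perp (Submodule.span K {u, f})
        have h5 := IsWittPair.finrank_span_pair_le (F := K) u f
        rw [e', finrank_bot] at h4
        omega
    refine ⟨uDil h.hk hu hf e (Units.mk0 ρ ρ0) * uRank1 h.hk w ((ρ⁻¹ * ρ⁻¹ - 1) / Bk w w) (by
      simp only [map_div₀, map_sub, map_mul, map_inv₀, h4, h.hk.eq, map_one]
      field_simp; ring), h.memS (mem_suSub.2 ?_), ?_⟩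
    · rw [Subgroup.coe_mul, LinearEquiv.coe_toLinearMap_mul, map_mul, det_uDil, det_uRank1]
      simp only [Units.val_mk0, h4]
      field_simp; ring
    · simp [uRank1_apply, h.hk.refl (mem_perp_pair.1 hw).1, uDil_left]
  refine bimod_of_twist h.prime _ (h.mL_mem hu) hμ' h2 (fun x hx => ?_)
    (fun x => span_map_mem fun x => h.quad hu u0 hμ) (fun x => span_map_mem fun x hx => ?_) a b hx
  · exact span_lin_mem (LinearMap.mulLeft F (mL F μ) + LinearMap.mulRight F (mL F μ))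
      (fun x => h.lin hu u0 hμ) hx
  · exact h4 ▸ ZU.conjK hg e' hx

theorem one_mem_span : 1 ∈ Submodule.span F (ZU X Bk u) := by
  simpa [← End.one_eq_id] using h.mL_mem hu 1

variable [Finite K]

theorem ev {φ : End F K} (hφ : φ ∈ ZU X Bk u) (hφ' : ∀ k, φ ≠ mL F k) {s t : K} (hs : s ≠ 0)
    (ht : ν (τ s * t) = 0) : ∃ z ∈ ZU X Bk u, z s = t := by
  have : Finite F := .of_injective _ (algebraMap F K).injective
  obtain ⟨x, hx, e1, e2⟩ := exists_ev h.prime (fun a b x => h.bimod hu u0 a b)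
    (h.one_mem_span hu u0) (Submodule.subset_span hφ) hφ' h.nu hs (by simpa using hs) ht
  obtain ⟨z, hz, e⟩ := h.dagger hu u0 hx
  refine ⟨z, hz, sub_eq_zero.1 (eq_zero_of_nu h.nu fun k => ?_)⟩
  have h1 := congrArg σ (e2 (τ k))
  rw [← h.nt, map_mul, h.hk.invol, mul_comm, map_zero] at h1
  have := e (τ k) s
  rw [h1, h.hk.invol, e1] at this
  simp [mul_sub, this]

theorem sing {φ : End F K} (hφ : φ ∈ ZU X Bk u) (hφ' : ∀ k, φ ≠ mL F k) :
    ∃ z ∈ ZU X Bk u, z ≠ 0 ∧ z 1 = 0 := by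
  have : Finite F := .of_injective _ (algebraMap F K).injective
  have := h.finK
  obtain ⟨x, hx, x0, e1, e2⟩ := exists_sing_end (fun a b x => h.bimod hu u0 a b)
    (h.one_mem_span hu u0) (Submodule.subset_span hφ) hφ' h.nu
  have h1 : ∀ w, ν (τ (x w)) = 0 := fun w => by rw [h.nt, e2, map_zero]
  obtain ⟨ω, hω⟩ := h.exists_omega
  obtain ⟨z, hz, e⟩ := h.dagger hu u0 hx
  obtain ⟨z', hz', e'⟩ := h.dagger hu u0 (Submodule.smul_mem _ ω hx)
  simp only [LinearMap.smul_apply, h.tau_smul, mul_smul_comm, smul_mul_assoc, map_smul,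
    smul_eq_mul] at e'
  by_cases z0 : z = 0
  · refine ⟨z', hz', fun z0' => x0 (LinearMap.ext fun w => eq_zero_of_nu h.nu fun k => ?_),
      eq_zero_of_nu h.nu fun k => by simpa [h.hk.invol, e1, h1] using e' (τ k) 1⟩
    have a1 := e (τ k) w
    have a2 := e' (τ k) w
    simp only [z0, z0', LinearMap.zero_apply, mul_zero, map_zero, h.hk.invol] at a1 a2
    exact mul_left_cancel₀ (sub_ne_zero.2 hω) (by linear_combination a2 - σ ω * a1)
  · exact ⟨z, hz, z0, eq_zero_of_nu h.nu fun k => by simpa [h.hk.invol, e1, h1] using e (τ k) 1⟩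

omit [Finite K] in
theorem exists_gam {g : V ≃ₗ[F] V} (hg : g ∈ X) {γ : End F K} (e : ∀ k, g (k • u) = γ k • u) :
    ∃ γ' : End F K, ∀ v, γ' (Bk u (g v)) = Bk u v := by
  obtain ⟨f, hf, e1⟩ := h.exists_hyp u0 hu
  refine ⟨(Bk u).restrictScalars F ∘ₗ (g⁻¹).toLinearMap ∘ₗ
    (LinearMap.toSpanSingleton K V f).restrictScalars F, fun v => ?_⟩
  have h1 : Bk u (g⁻¹ (g v - Bk u (g v) • f)) = 0 := h.perp_iff.1 fun k => by
    rw [← h.isom hg, apply_inv_apply, e]
    exact h.perp_iff.2 (by simp [e1]) _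
  rw [map_sub, map_sub, inv_apply_apply, sub_eq_zero] at h1
  exact h1.symm

theorem top_of_stab {g : V ≃ₗ[F] V} (hg : g ∈ X) {m : End F K} (h1 : m * m = 0) (h0 : m ≠ 0)
    (e : ∀ k, g (k • u) = (1 + m) k • u) : Submodule.span F (ZU X Bk u) = ⊤ := by
  have e' : ∀ k, g⁻¹ (k • u) = (1 - m) k • u := fun k => g.injective (by
    rw [apply_inv_apply, e, ← End.mul_apply]
    simp [mul_sub, add_mul, h1])
  obtain ⟨γ, hγ⟩ := h.exists_gam hu u0 hg e
  obtain ⟨γ', hγ'⟩ := h.exists_gam hu u0 (inv_mem hg) e'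
  obtain ⟨f, hf, e1⟩ := h.exists_hyp u0 hu
  have h2 : γ' * γ = 1 := LinearMap.ext fun s => by
    have := hγ (g⁻¹ (s • f))
    have h3 := hγ' (s • f)
    rw [apply_inv_apply] at this
    rw [← this] at h3
    simpa [e1] using h3
  let A : Subalgebra F (End F K) :=
    { carrier := {a | ∀ x ∈ Submodule.span F (ZU X Bk u), a * x ∈ Submodule.span F (ZU X Bk u)}
      mul_mem' := fun ha hb x hx => by rw [mul_assoc]; exact ha _ (hb x hx)
      add_mem' := fun ha hb x hx => by rw [add_mul]; exact add_mem (ha x hx) (hb x hx)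
      algebraMap_mem' := fun c x hx => by rw [← Algebra.smul_def]; exact Submodule.smul_mem _ c hx }
  have h3 : ∀ k, mL F k ∈ A := fun k x hx => by
    simpa [← End.one_eq_id] using h.bimod hu u0 k 1 hx
  obtain ⟨k, hk⟩ := not_conj_mL h.prime h.three h1 h0
  have h4 := end_subalgebra_eq_top h.prime A h3 (z := (1 + m) * mL F k * (1 - m)) (fun x hx => by
    have := span_map_mem (fun x => ZU.conj hg e hγ) (h3 k _ (span_map_mem
      (fun x => ZU.conj (inv_mem hg) e' hγ') hx))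
    simpa only [mul_assoc, h2, mul_one] using this) hk
  exact Submodule.eq_top_iff'.2 fun x => by
    simpa using h4.ge (Algebra.mem_top (x := x)) 1 (h.one_mem_span hu u0)

theorem mem_of_top (hT : Submodule.span F (ZU X Bk u) = ⊤) {φ : End F K}
    (hφ : ∀ s t, ν (τ s * φ t) + ν (τ (φ s) * t) = 0) : φ ∈ ZU X Bk u := by
  have : Finite F := .of_injective _ (algebraMap F K).injective
  obtain ⟨b, hb⟩ := exists_trace_eq σ (.inl h.herm.ne_id) h.herm.invol 1 (map_one σ)
  obtain ⟨z, hz, e⟩ := h.dagger hu u0 (hT.ge (Submodule.mem_top (x := b • φ)))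
  convert hz using 1
  refine LinearMap.ext fun w => sub_eq_zero.1 (eq_zero_of_nu h.nu fun k => ?_)
  have h1 := e (τ k) w
  have h2 := hφ (τ k) w
  simp only [LinearMap.smul_apply, h.tau_smul, mul_smul_comm, smul_mul_assoc, map_smul,
    smul_eq_mul, h.hk.invol] at h1 h2
  rw [mul_sub, map_sub, h1]
  linear_combination σ b * h2 - ν (k * φ w) * hb

theorem mem_of_fix (hT : Submodule.span F (ZU X Bk u) = ⊤) {g : V ≃ₗ[F] V}
    (hg : ∀ x y, B (g x) (g y) = B x y) (e : ∀ x, Bk u x = 0 → g x = x) : g ∈ X := by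
  have := h.fin
  obtain ⟨f, hf, e1⟩ := h.exists_hyp u0 hu
  have h1 : ∀ x, g x - x = Bk f (g x - x) • u := fun x => by
    have : g x - x ∈ K ∙ u := (h.witt.perp_perp (K ∙ u)).le (mem_perp.2 fun w hw =>
      h.perp_iff.1 fun k => by
        have h2 := e (k • w) (by simp [mem_perp_singleton.1 hw])
        rw [map_sub]
        conv_lhs => rw [← h2, hg, h2, sub_self])
    obtain ⟨c, hc⟩ := Submodule.mem_span_singleton.1 this
    rw [← hc]
    simp [h.hk.flip_one e1]
  let φ : End F K := (Bk f).restrictScalars F ∘ₗ (g.toLinearMap - 1) ∘ₗ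
    (LinearMap.toSpanSingleton K V f).restrictScalars F
  have h2 : ∀ s, g (s • f) = s • f + φ s • u := fun s => eq_add_of_sub_eq' (h1 _)
  have h3 := h.mem_of_top hu u0 hT (φ := φ) fun s t => by
    simpa [h2, h.eq, hu, hf, e1, h.hk.flip_one e1, mul_comm, add_comm] using hg (s • f) (t • f)
  convert Un.unip_mem h3 using 1
  ext x
  have := e (x - Bk u x • f) (by simp [e1])
  rw [map_sub, h2, sub_eq_iff_eq_add] at this
  rw [this, unip_apply, zn_apply]
  abel

end Z

theorem exists_move {u u' : V} (u0 : u ≠ 0) (u0' : u' ≠ 0) (hu : Bk u u = 0) (hu' : Bk u' u' = 0) :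
    ∃ g : UG Bk, g.1.restrictScalars F ∈ X ∧ ∃ a : K, a ≠ 0 ∧ g.1 u = a • u' := by
  have := h.fin
  obtain ⟨f, hf, e⟩ := h.exists_hyp u0 hu
  obtain ⟨t, ht, h1⟩ := exists_uEich_move_point h.hk h.ndk hu hf e hu' u0'
  exact ⟨t, h.memS (uEichSub_le_suSub h.hk ht), h1⟩

theorem le_of_top [Finite K] {u : V} (u0 : u ≠ 0) (hu : Bk u u = 0)
    (hT : Submodule.span F (ZU X Bk u) = ⊤) : SUG B ≤ X := by
  have : Finite F := .of_injective _ (algebraMap F K).injective
  have := h.fin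
  have := h.finF
  have hT' : ∀ v, v ≠ 0 → Bk v v = 0 → Submodule.span F (ZU X Bk v) = ⊤ := fun v v0 hv => by
    obtain ⟨g, hg, a, a0, e⟩ := h.exists_move u0 v0 hu hv
    refine Submodule.eq_top_iff'.2 fun x => ?_
    convert span_map_mem (fun x => ZU.conjK hg e) (hT.ge (Submodule.mem_top
      (x := mL F a⁻¹ * x * mL F (τ a)⁻¹))) using 1
    ext; simp [a0]
  have H : ∀ v (hv : B v v = 0) (s : F) (hs : σ s = -s) (g : V ≃ₗ[F] V) (hg : g ∈ X),
      (uTrans h.herm (v := g v) (by rwa [h.isom hg]) hs).1 ∈ X → (uTrans h.herm hv hs).1 ∈ X := by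
    intro v hv s hs g hg e
    convert mul_mem (mul_mem (inv_mem hg) e) hg using 1
    ext x
    simp [uTrans_apply, h.isom hg]
  have H1 : ∀ v (hv : B v v = 0) (s : F) (hs : σ s = -s), Bk v v = 0 →
      (uTrans h.herm hv hs).1 ∈ X := fun v hv s hs e => by
    by_cases v0 : v = 0
    · convert one_mem X
      ext; simp [uTrans_apply, v0]
    exact h.mem_of_fix e v0 (hT' v v0 e) (UG_map _) fun x hx => by simp [uTrans_apply, h.eq, hx]
  have h2 := finrank_mul_finrank F K V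
  have h3 := h.three
  have h4 := h.two
  intro g hg
  have : uTransSub h.herm ≤ X.subgroupOf _ := (Subgroup.closure_le _).2 (by
    rintro _ ⟨v, s, hv, hs, rfl⟩
    change (uTrans h.herm hv hs).1 ∈ X
    by_cases e : Bk v v = 0
    · exact H1 v hv s hs e
    obtain ⟨f, hf, e1⟩ := h.exists_hyp u0 hu
    obtain ⟨t, ht, a, b, e2⟩ := exists_uEich_move_plane h.hk hu hf e1 e
    have h5 := h.memS (uEichSub_le_suSub h.hk ht)
    have h6 : B (a • u + b • f) (a • u + b • f) = 0 := by rw [← e2, ← hv]; exact h.isom h5 v v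
    have b0 : b ≠ 0 := by
      rintro rfl
      exact e (by rw [← UG_map t, e2]; simp [hu])
    obtain ⟨ρ, c1, -, c2, c3⟩ := (h.herm.wittPair h.nd).step ((LinearMap.ker (Bk u)).restrictScalars F)
      (a • u + b • f) (b • f) (by simp [hu, e1, b0]) (by simp [e1, b0]) (by rw [h6]; simp [h.eq, hf])
      fun x hx => by simp [h.eq, h.hk.refl hx]
    have h8 := mul_mem (h.mem_of_fix hu u0 hT c1 c2) h5
    refine H v hv s hs _ h8 (H1 _ _ s hs ?_)
    simp [e2, c3, hf])
  exact this ((uTransSub_eq_suSub h.herm h.nd (by nlinarith) (.inr (by nlinarith))).ge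
    (mem_SUG_iff.1 (show (⟨g, mem_UG.2 (mem_SUG.1 hg).1⟩ : UG B).1 ∈ _ from hg)))

end UK

end CF.MaxSub
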