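/-
Overgroups of `ΓU_d(q^r) ∩ SU_{dr}(q)` in `SU_{dr}(q)`: pairs with maximal intersection and the
stabiliser of a maximal totally isotropic subspace.
-/
import Cfsg.Agent.MaxSub.UF2

set_option autoImplicit false

namespace CF.MaxSub

open Module Geom

variable {F K V : Type*} [Field F] [Field K] [Algebra F K]
  [AddCommGroup V] [Module F V] [Module K V] [IsScalarTower F K V] {σ : F →+* F} {τ : K →+* K}
  {B : V →ₛₗ[σ] V →ₗ[F] F} {Bk : V →ₛₗ[τ] V →ₗ[K] K} {ν : Dual F K} {X : Subgroup (V ≃ₗ[F] V)}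

/-- `1 + n ∈ X` with `n V ≤ W` and `n W = 0`. -/
structure ZW (X : Subgroup (V ≃ₗ[F] V)) (W : Submodule K V) (n : End F V) : Prop where
  un : Un X n
  im : ∀ x, n x ∈ W
  ker : ∀ x ∈ W, n x = 0

omit [Algebra F K] [IsScalarTower F K V] in
theorem ZW.add {W : Submodule K V} {n n' : End F V} (h : ZW X W n) (h' : ZW X W n') :
    ZW X W (n + n') :=
  ⟨h.un.add h'.un (LinearMap.ext fun x => h.ker _ (h'.im x))
    (LinearMap.ext fun x => h'.ker _ (h.im x)), fun x => add_mem (h.im x) (h'.im x),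
    fun x hx => by simp [h.ker x hx, h'.ker x hx]⟩

omit [Algebra F K] [IsScalarTower F K V] in
theorem ZW.sub {W : Submodule K V} {n n' : End F V} (h : ZW X W n) (h' : ZW X W n') :
    ZW X W (n - n') :=
  ⟨h.un.sub h'.un (LinearMap.ext fun x => h.ker _ (h'.im x))
    (LinearMap.ext fun x => h'.ker _ (h.im x)), fun x => sub_mem (h.im x) (h'.im x),
    fun x hx => by simp [h.ker x hx, h'.ker x hx]⟩

omit [Algebra F K] [IsScalarTower F K V] in
theorem ZW.conj {W : Submodule K V} {n : End F V} (h : ZW X W n) {g : V ≃ₗ[F] V} (hg : g ∈ X)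
    (h1 : ∀ w ∈ W, g w ∈ W) (h2 : ∀ w ∈ W, g⁻¹ w ∈ W) :
    ZW X W ((g : End F V) * n * ((g⁻¹ : V ≃ₗ[F] V) : End F V)) :=
  ⟨h.un.conj hg, fun x => h1 _ (h.im _), fun x hx => by simpa using h.ker _ (h2 x hx)⟩

omit [Algebra F K] [IsScalarTower F K V] in
theorem zw_of_mem {W : Submodule K V} {g : V ≃ₗ[F] V} (hg : g ∈ X) (h1 : ∀ w ∈ W, g w = w)
    (h2 : ∀ x, g x - x ∈ W) : ZW X W ((g : End F V) - 1) :=
  ⟨un_of_apply (fun v => by simpa [sub_eq_zero] using h1 _ (h2 v)) hg fun v => by simp, h2,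
    fun x hx => by simp [h1 x hx]⟩

omit [Module F V] [IsScalarTower F K V] in
theorem quad_ne_zero (hr : (finrank F K).Prime) (h3 : 3 ≤ finrank F K) {μ : K}
    (hμ : ∀ a : F, μ ≠ algebraMap F K a) : μ * μ + μ + 1 ≠ 0 := fun e => by
  have hm : ∀ {x}, x ∈ Submodule.span F {1, μ} ↔ ∃ a b : F, a • (1 : K) + b • μ = x :=
    Submodule.mem_span_pair
  let L : Subalgebra F K := (Submodule.span F {1, μ}).toSubalgebra (hm.2 ⟨1, 0, by simp⟩) (by
    intro x y hx hy
    obtain ⟨a, b, rfl⟩ := hm.1 hx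
    obtain ⟨c, d, rfl⟩ := hm.1 hy
    refine hm.2 ⟨a * c - b * d, a * d + b * c - b * d, ?_⟩
    simp only [Algebra.smul_def, map_sub, map_mul, map_add]
    linear_combination -(algebraMap F K b * algebraMap F K d) * e)
  have h1 := subalgebra_top_of_prime hr L (c := μ) (hm.2 ⟨0, 1, by simp⟩) hμ
  have h2 := IsWittPair.finrank_span_pair_le (F := F) (1 : K) μ
  rw [Submodule.eq_top_iff'.2 fun x => h1.ge (Algebra.mem_top (x := x)), finrank_top] at h2
  omega

namespace UK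

variable (h : UK B Bk ν X)
include h

theorem adj (k : K) (x y : V) : B (k • x) y = B x (τ k • y) := by simp [h.eq]

theorem le_of_nonlin [Finite K] {u : V} (u0 : u ≠ 0) (hu : Bk u u = 0) {φ : End F K}
    (hφ : φ ∈ ZU X Bk u) (hφ' : ∀ k, φ ≠ mL F k) : SUG B ≤ X := by
  have := h.fin
  have := h.finF
  have NL : ∀ v, v ≠ 0 → Bk v v = 0 → ∃ ψ ∈ ZU X Bk v, ∀ k, ψ ≠ mL F k := fun v v0 hv => by
    obtain ⟨g, hg, a, a0, e⟩ := h.exists_move u0 v0 hu hv
    refine ⟨_, ZU.conjK hg e hφ, fun k e => hφ' (a⁻¹ * k * (τ a)⁻¹) (LinearMap.ext fun s => ?_)⟩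
    have := LinearMap.congr_fun e ((τ a)⁻¹ * s)
    simp [a0] at this
    simp [mul_assoc, ← this, a0]
  obtain ⟨f, hf, e⟩ := h.exists_hyp u0 hu
  have f0 : f ≠ 0 := by rintro rfl; simp at e
  let T := perp Bk (Submodule.span K {u, f})
  let Y := fixSub X (T.restrictScalars F)
  have hT : ∀ {v}, v ∈ Submodule.span K {u, f} ↔ ∀ w ∈ T, Bk w v = 0 := by
    intro v
    rw [← mem_perp, h.witt.perp_perp]
  have hY : ∀ g ∈ Y, ∀ v ∈ Submodule.span K {u, f}, g v ∈ Submodule.span K {u, f} :=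
    fun g hg v hv => hT.2 fun w hw => h.perp_iff.1 fun k => by
      rw [← hg.2 _ (T.smul_mem k hw), h.isom hg.1]
      exact h.perp_iff.2 (hT.1 hv w hw) k
  have hZ : ∀ v ∈ Submodule.span K {u, f}, ∀ z ∈ ZU X Bk v, Un Y (zn Bk v z) := fun v hv z hz =>
    un_of_apply (Un.apply_apply hz) (g := unip _ hz.sq) ⟨Un.unip_mem hz, fun w hw => by
      simp [unip_apply, zn_apply, h.hk.refl (hT.1 hv w hw)]⟩ fun _ => rfl
  obtain ⟨z, hz, z0, z1⟩ := h.sing hu u0 hφ hφ'
  have hf' : f ∈ Submodule.span K {u, f} ∧ Bk f f = 0 := ⟨Submodule.subset_span (by simp), hf⟩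
  obtain ⟨u', U, u0', hu', h1, hM⟩ := exists_MP2_kl (X := Y)
    (P := fun v => v ∈ Submodule.span K {u, f} ∧ Bk v v = 0)
    (fun k v hv => ⟨Submodule.smul_mem _ k hv.1, by simp [hv.2]⟩) (kl_mem_SOrb f0 hf')
    (map_mem_SOrb (hZ u (Submodule.subset_span (by simp)) z hz).unip_mem _ (kl_mem_SOrb f0 hf'))
    (fun e' => z0 (LinearMap.ext fun s => by
      obtain ⟨k, hk⟩ := mem_kl.1 (e'.ge ⟨_, smul_mem_kl s f, rfl⟩)
      simpa [unip_apply, zn_apply, hf, e, h.hk.flip_one e, eq_comm] using congrArg (Bk f) hk))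
    fun e' => f0 (by
      simpa using e'.le ⟨self_mem_kl f, f, self_mem_kl f, by simp [unip_apply, zn_apply, e, z1]⟩)
  obtain ⟨y, hy, hy'⟩ := hM.symm.exists_notMem
  obtain ⟨g, hg, v, v0, hv, rfl⟩ := hM.mU
  obtain ⟨t, ht⟩ := mem_kl.1 (mem_map_equiv'.1 h1)
  obtain ⟨c, rfl⟩ := mem_kl.1 hy
  obtain ⟨ψ, h2, h3⟩ := NL v v0 hv.2
  obtain ⟨z', h4, h5⟩ := h.ev hv.2 v0 h2 h3 (s := Bk v (g⁻¹ (c • u'))) (t := t) (fun e' =>
    hy' (mem_map_equiv'.2 (mem_line_of_plane h.hk hu hf e hv.1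
      (hY _ (inv_mem hg) _ (Submodule.smul_mem _ c hu'.1)) v0 hv.2 e'))) (by
    rw [h.hk.eq, mul_comm, ← smul_eq_mul, ← map_smul, ht, ← h.eq, h.isom (inv_mem hg.1), h.eq]
    simp [hu'.2])
  obtain ⟨n, h6, h7⟩ : ∃ n, Un Y n ∧ ∀ x, n x = g (z' (Bk v (g⁻¹ x)) • v) :=
    ⟨_, (hZ v hv.1 z' h4).conj hg, fun _ => rfl⟩
  have h8 : n (c • u') = u' := by rw [h7, h5, ht, apply_inv_apply]
  have h9 : ∀ k : K, n (k • u') ∈ K ∙ u' := fun k => by
    have := hM.symm.dich (map_mem_SOrb h6.unip_mem _ hM.mA) (fun w hw _ => by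
      obtain ⟨k, hk⟩ := mem_kl.1 (mem_map_equiv'.1 hw)
      simp [unip_apply, h7, ← hk, hv.2]) hy hy' (by
        rw [unip_apply, h8]; exact add_mem hy (self_mem_kl _)) (smul_mem_kl k u')
    exact (Submodule.add_mem_iff_right _ (smul_mem_kl k u')).1 this
  obtain ⟨f', hf', e'⟩ := h.exists_hyp u0' hu'.2
  let m : End F K := (Bk f').restrictScalars F ∘ₗ n ∘ₗ
    (LinearMap.toSpanSingleton K V u').restrictScalars F
  have h10 : ∀ k, m k • u' = n (k • u') := fun k => by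
    obtain ⟨a, ha⟩ := Submodule.mem_span_singleton.1 (h9 k)
    change Bk f' (n (k • u')) • u' = _
    simp [← ha, h.hk.flip_one e']
  refine h.le_of_top u0' hu'.2 (h.top_of_stab hu'.2 u0' h6.unip_mem.1 (m := m)
    (LinearMap.ext fun k => smul_left_injective K u0' ?_) (fun e => u0' ?_) fun k => ?_)
  · simp [h10, h6.apply_apply]
  · simpa [e, h8] using (h10 c).symm
  · simp [unip_apply, add_smul, h10]

theorem sesq_zero {ψ : End F V} (e : ∀ z, Bk z (ψ z) = 0) (z : V) : ψ z = 0 := by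
  obtain ⟨ω, hω⟩ := h.exists_omega
  have h1 : ∀ y z, Bk y (ψ z) + Bk z (ψ y) = 0 := fun y z => by simpa [e, add_comm] using e (y + z)
  refine h.ndk.2 _ fun y => ?_
  have h2 := h1 (algebraMap F K ω • y) z
  rw [show ψ (algebraMap F K ω • y) = algebraMap F K ω • ψ y by simp] at h2
  simp only [map_smul, LinearMap.map_smulₛₗ₂, h.tau, smul_eq_mul] at h2
  exact mul_left_cancel₀ (sub_ne_zero.2 fun e => hω ((algebraMap F K).injective e))
    (by linear_combination h2 - algebraMap F K ω * h1 y z)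

theorem lin_of_line {u : V} (u0 : u ≠ 0) (hu : Bk u u = 0) (hZ : ∀ φ ∈ ZU X Bk u, ∃ k, φ = mL F k)
    {W : Submodule K V} (h1 : W ≤ K ∙ u) (h2 : ∀ x, Bk u x = 0 → x ∈ W) {n : End F V}
    (hn : ZW X W n) (k : K) (x : V) : n (k • x) = k • n x := by
  obtain ⟨f, hf, e⟩ := h.exists_hyp u0 hu
  let φ : End F K := (Bk f).restrictScalars F ∘ₗ n ∘ₗ
    (LinearMap.toSpanSingleton K V f).restrictScalars F
  have h3 : ∀ x, n x = zn Bk u φ x := fun x => by
    have := hn.ker _ (h2 (x - Bk u x • f) (by simp [e]))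
    rw [map_sub, sub_eq_zero] at this
    obtain ⟨a, ha⟩ := Submodule.mem_span_singleton.1 (h1 (hn.im x))
    change _ = Bk f (n (Bk u x • f)) • u
    simp [← this, ← ha, h.hk.flip_one e]
  obtain ⟨c, hc⟩ := hZ φ (hn.un.congr h3)
  simp [h3, hc, zn_apply, smul_smul, mul_left_comm]

theorem lin_of_two (hZ : ∀ u, u ≠ 0 → Bk u u = 0 → ∀ φ ∈ ZU X Bk u, ∃ k, φ = mL F k)
    {W : Submodule K V} (hW : W ≤ perp Bk W) (h2 : ∀ z, ∃ e ∈ W, e ≠ 0 ∧ Bk e z = 0) {n : End F V}
    (hn : ZW X W n) (k : K) (x : V) : n (k • x) = k • n x := by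
  have := h.fin
  refine sub_eq_zero.1 (h.sesq_zero (ψ := n ∘ₗ (LinearMap.lsmul K V k).restrictScalars F -
    (LinearMap.lsmul K V k).restrictScalars F ∘ₗ n) (fun z => ?_) x)
  obtain ⟨e, he, e0, e1⟩ := h2 z
  have h3 : ∀ w ∈ W, Bk e w = 0 := fun w hw => mem_perp.1 (hW hw) e he
  let N : V → End F V := fun z => (1 - ((Bk z).smulRight e).restrictScalars F) * n *
    (1 - ((Bk e).smulRight z).restrictScalars F)
  have h4 : ∀ z x, N z x = n (x - Bk e x • z) - Bk z (n (x - Bk e x • z)) • e := fun _ _ => rfl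
  have h5 : ∀ z, Bk e z = 0 → ZW X W (N z) := fun z hz => by
    obtain ⟨c, hc⟩ := h.hk.exists_trace z
    refine ⟨hn.un.of_conj (h.memS (uEichSub_le_suSub h.hk (uEich_mem h.hk (h3 e he) hz hc)))
      fun v => ?_, fun x => sub_mem (hn.im _) (W.smul_mem _ he), fun x hx => by
        simp [h4, h3 x hx, hn.ker x hx]⟩
    have : n (v + Bk e v • z - Bk z v • e - (c * Bk e v) • e - Bk e v • z) = n v := by
      rw [← sub_eq_zero, ← map_sub]
      convert hn.ker _ (W.smul_mem (-Bk z v - c * Bk e v) he) using 2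
      module
    have h6 : Bk e (v + Bk e v • z - Bk z v • e - (c * Bk e v) • e) = Bk e v := by
      simp [h3 e he, hz]
    simp only [h4, LinearEquiv.restrictScalars_apply, uEich_apply, h6, this, h3 _ (hn.im v)]
    simp
  obtain ⟨t, ht⟩ := exists_trace_ne_zero σ (.inl h.herm.ne_id)
  let φ : End F K := (t + σ t) • (Bk z).restrictScalars F ∘ₗ n ∘ₗ
    (LinearMap.toSpanSingleton K V z).restrictScalars F
  obtain ⟨c, hc⟩ := hZ e e0 (h3 e he) φ (((((h5 (z + algebraMap F K t • z) (by simp [e1])).sub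
    (h5 z e1)).sub (h5 (algebraMap F K t • z) (by simp [e1]))).add hn).un.congr fun x => by
      have a1 : ∀ y, Bk (t • z) y = σ t • Bk z y := fun y => by
        rw [← algebraMap_smul K, LinearMap.map_smulₛₗ₂, h.tau, algebraMap_smul]
      simp only [LinearMap.add_apply, LinearMap.sub_apply, h4, zn_apply, φ, smul_add, map_sub,
        map_add, smul_comm (Bk e x), algebraMap_smul, map_smul, a1, add_smul,
        LinearMap.smul_apply, LinearMap.comp_apply, LinearMap.restrictScalars_apply,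
        LinearMap.toSpanSingleton_apply, LinearMap.map_smul_of_tower]
      simp only [Algebra.smul_def, map_add]
      module)
  have h6 : ∀ s : K, (t + σ t) • Bk z (n (s • z)) = c * s := fun s => LinearMap.congr_fun hc s
  have h7 := h6 1
  rw [one_smul, mul_one] at h7
  refine smul_right_injective K ht ?_
  simp [smul_sub, h6, ← h7, mul_comm]

section Stab

variable [Finite K] {W : Submodule K V} (hW : perp Bk W = W)
include hW

theorem zw_of_skew {n : End F V} (h1 : ∀ x, n x ∈ W) (h2 : ∀ x ∈ W, n x = 0)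
    (h3 : ∀ x y, B (n x) y + B x (n y) = 0) (h4 : ∀ (k : K) x, n (k • x) = k • n x) : ZW X W n := by
  have : Finite F := .of_injective _ (algebraMap F K).injective
  have := h.finF
  have h5 : n * n = 0 := LinearMap.ext fun x => h2 _ (h1 x)
  have h6 : ∀ x ∈ W, ∀ y ∈ W, B x y = 0 := fun x hx y hy => by
    simp [h.eq, mem_perp.1 (hW.ge hy) x hx]
  have h7 : ∀ x y, B (unip n h5 x) (unip n h5 y) = B x y := fun x y => by
    simp only [unip_apply, h6 _ (h1 x) _ (h1 y), map_add, LinearMap.add_apply]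
    linear_combination h3 x y
  have h8 := finrank_mul_finrank F K V
  have h9 := h.three
  have h10 := h.two
  refine ⟨un_of_apply (fun x => h2 _ (h1 x)) (h.mem ⟨mem_of_radical (polarG_su' h.herm h.nd
    (by nlinarith)) (W.restrictScalars F) (fun m hm => by simp [h6 m hm m hm])
    (fun m hm => mem_perp.2 fun x hx => h6 x hx m hm) ⟨h7, fun x => h7 x x⟩
    (fun m hm => by simp [unip_apply, h2 m hm]) fun x _ => by simpa [unip_apply] using h1 x,
    lin_mem_semiG fun k x => by simp [unip_apply, h4]⟩) fun _ => rfl, h1, h2⟩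

omit [Finite K] hW in
theorem ZW_skew {n : End F V} (hn : ZW X W n) (hW : W ≤ perp Bk W) (x y : V) :
    B (n x) y + B x (n y) = 0 := by
  have := h.isom hn.un.unip_mem x y
  simp only [unip_apply, map_add, LinearMap.add_apply, h.eq (n x) (n y),
    mem_perp.1 (hW (hn.im y)) _ (hn.im x), map_zero] at this
  linear_combination this

variable (hL : ∀ n, ZW X W n → ∀ (k : K) x, n (k • x) = k • n x) {g : V ≃ₗ[F] V} (hg : g ∈ X)
  (h1 : ∀ w ∈ W, g w ∈ W) (h2 : ∀ w ∈ W, g⁻¹ w ∈ W)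
include hL hg h1 h2

theorem semi_on {κ : K} (hκ : τ κ = κ) :
    ∃ κ', τ κ' = κ' ∧ ∀ w ∈ W, g (κ • g⁻¹ w) = κ' • w := by
  have := h.fin
  obtain ⟨c, c0, hc⟩ := exists_skew_ne_zero h.hk.ne_id h.hk.invol
  have h3 : ∀ w ∈ W, Bk w w = 0 := fun w hw => mem_perp.1 (hW.ge hw) w hw
  have H : ∀ w ∈ W, w ≠ 0 → ∃ a, τ a = a ∧ ∀ k : K, g (κ • g⁻¹ (k • w)) = k • a • w :=
    fun w hw w0 => by
    have a1 : ZW X W (zn Bk w (mL F c)) := ⟨h.skew_mem (h3 w hw) hc, fun x => W.smul_mem _ hw,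
      fun x hx => by simp [zn_apply, mem_perp.1 (hW.ge hx) w hw]⟩
    have a2 := a1.conj (inv_mem hg) h2 h1
    have a3 := (h.zw_of_skew hW (n := (LinearMap.lsmul K V κ).restrictScalars F * _)
      (fun x => W.smul_mem _ (a2.im x)) (fun x hx => by
        rw [End.mul_apply, a2.ker x hx, map_zero]) (fun x y => by
        have := h.ZW_skew a2 hW.ge x (κ • y)
        rwa [hL _ a2, ← hκ, ← h.adj, hκ] at this) fun k x => by
          rw [End.mul_apply, hL _ a2]; exact smul_comm _ _ _).conj hg h1 h2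
    obtain ⟨n, a4, a5⟩ : ∃ n, ZW X W n ∧ ∀ x, n x = g (κ • g⁻¹ ((c * Bk w x) • w)) :=
      ⟨_, a3, fun x => by simp [zn_apply]⟩
    obtain ⟨f, hf, e⟩ := h.exists_hyp w0 (h3 w hw)
    obtain ⟨a, ha⟩ := Submodule.mem_span_singleton.1 ((h.witt.perp_perp (K ∙ w)).le
      (mem_perp.2 fun y hy => h.perp_iff.1 fun k => by
        simpa [a5, mem_perp_singleton.1 hy] using h.ZW_skew a4 hW.ge (k • y) (c⁻¹ • f)) :
          n (c⁻¹ • f) ∈ K ∙ w)
    have a6 : ∀ k : K, g (κ • g⁻¹ (k • w)) = k • a • w := fun k => by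
      rw [ha, ← hL _ a4, a5]
      simp [e, c0, mul_left_comm c]
    refine ⟨a, sub_eq_zero.1 ((mul_eq_zero.1 (eq_zero_of_nu h.nu fun k => ?_)).resolve_left c0), a6⟩
    have := h.ZW_skew a4 hW.ge (τ k • f) f
    simp only [a5, a6, h.eq, map_smul, LinearMap.map_smulₛₗ₂, e, h.hk.flip_one e, smul_eq_mul,
      map_mul, hc, h.hk.invol, mul_one, ← map_add] at this
    rw [← neg_eq_zero, ← map_neg, ← this]
    congr 1
    ring
  by_cases h0 : W = ⊥
  · exact ⟨0, map_zero τ, fun w hw => by simp [(Submodule.eq_bot_iff W).1 h0 w hw]⟩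
  obtain ⟨w₀, b1, b2⟩ := (Submodule.ne_bot_iff W).1 h0
  obtain ⟨a, b3, b4⟩ := H w₀ b1 b2
  refine ⟨a, b3, fun w hw => ?_⟩
  by_cases h4 : w ∈ K ∙ w₀
  · obtain ⟨k, rfl⟩ := Submodule.mem_span_singleton.1 h4
    rw [b4, smul_comm]
  obtain ⟨a', -, b5⟩ := H w hw (by rintro rfl; simp at h4)
  obtain ⟨a'', -, b6⟩ := H (w + w₀) (add_mem hw b1) fun e => h4 (by
    rw [eq_neg_of_add_eq_zero_left e]; exact neg_mem (Submodule.mem_span_singleton_self _))
  have b7 := b6 1
  have b8 := b5 1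
  have b9 := b4 1
  simp only [one_smul, map_add, smul_add] at b7 b8 b9
  rw [b8, b9] at b7
  have e : (a' - a'') • w = (a'' - a) • w₀ := by linear_combination (norm := module) b7
  have e1 : a' = a'' := by
    by_contra hc
    exact h4 ((Submodule.smul_mem_iff _ (sub_ne_zero.2 hc)).1
      (e ▸ Submodule.smul_mem _ _ (Submodule.mem_span_singleton_self _)))
  rw [e1, sub_self, zero_smul, eq_comm, smul_eq_zero_iff_left b2, sub_eq_zero] at e
  rw [b8, e1, e]

theorem stab {π : End K V} (p1 : ∀ x, π x ∈ W) (p2 : ∀ w ∈ W, π w = w)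
    (p3 : ∀ κ, κ ≠ 0 → τ κ = κ → ∃ t ∈ X, ∀ x, t x = κ • π x + κ⁻¹ • (x - π x)) :
    g ∈ SemiG F K V := by
  have := h.fin
  have : Nontrivial V := nontrivial_of_finrank_pos (R := K) (by have := h.two; omega)
  obtain ⟨w₀, b1, b2⟩ := (Submodule.ne_bot_iff W).1 fun e => by
    obtain ⟨v, hv⟩ := exists_ne (0 : V)
    rw [e, perp_bot] at hW
    exact hv (by simpa using hW.le (Submodule.mem_top (x := v)))
  choose! s s1 s2 using fun κ => h.semi_on hW hL hg h1 h2 (κ := κ)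
  have s3 : ∀ κ, τ κ = κ → ∀ v, g (κ • g⁻¹ v) - s κ • v ∈ W := fun κ hκ v =>
    hW.le (mem_perp.2 fun w hw => h.perp_iff.1 fun k => by
      rw [map_sub, ← apply_inv_apply g (k • w), h.isom hg, ← hκ, ← h.adj, ← h.isom hg, hκ,
        s2 κ hκ _ (W.smul_mem k hw), h.adj, s1 κ hκ, apply_inv_apply, apply_inv_apply, sub_self])
  have s4 : ∀ κ, τ κ = κ → κ ≠ 0 → s κ ≠ 0 := fun κ hκ κ0 e => by
    simpa [e, κ0, b2] using s2 κ hκ w₀ b1
  have s5 : ∀ κ, τ κ = κ → κ ≠ 0 → s κ⁻¹ = (s κ)⁻¹ := fun κ hκ κ0 =>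
    eq_inv_of_mul_eq_one_left (smul_left_injective K b2 (by
      have := s2 κ⁻¹ (by simp [hκ]) _ (W.smul_mem (s κ) b1)
      rw [← s2 κ hκ w₀ b1, inv_apply_apply, inv_smul_smul₀ κ0, apply_inv_apply, s2 κ hκ w₀ b1,
        smul_smul] at this
      simpa using this.symm))
  have key : ∀ (k : K) v, g (π (g⁻¹ (k • v))) = k • g (π (g⁻¹ v)) := fun k => by
    let ψ : V → V := fun v => g (π (g⁻¹ (k • v))) - k • g (π (g⁻¹ v))
    have c1 : ∀ v, ψ v ∈ W := fun v => sub_mem (h1 _ (p1 _)) (W.smul_mem _ (h1 _ (p1 _)))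
    have c2 : ∀ x y, ψ (x + y) = ψ x + ψ y := fun x y => by
      simp only [ψ, smul_add, map_add]; abel
    have c3 : ∀ w ∈ W, ψ w = 0 := fun w hw => by
      simp only [ψ, p2 _ (h2 _ hw), p2 _ (h2 _ (W.smul_mem k hw)), apply_inv_apply, sub_self]
    have c4 : ∀ κ, τ κ = κ → κ ≠ 0 → ∀ v, ψ ((s κ)⁻¹ • v) = s κ • ψ v := fun κ hκ κ0 v => by
      obtain ⟨t, ht, e⟩ := p3 κ κ0 hκ
      obtain ⟨t', ht', e'⟩ := p3 (s κ)⁻¹ (inv_ne_zero (s4 κ hκ κ0)) (by simp [s1 κ hκ])
      have d1 : ∀ w ∈ W, (g * t * g⁻¹) w = s κ • w := fun w hw => by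
        simp only [LinearEquiv.mul_apply, e, p2 _ (h2 w hw), sub_self, smul_zero, add_zero,
          s2 κ hκ w hw]
      have d2 : ∀ v, (g * t * g⁻¹) v - (s κ)⁻¹ • v ∈ W := fun v => by
        have := add_mem (s3 κ⁻¹ (by simp [hκ]) v) (h1 _ (W.smul_mem (κ - κ⁻¹) (p1 (g⁻¹ v))))
        rw [s5 κ hκ κ0] at this
        convert this using 1
        simp only [LinearEquiv.mul_apply, e, smul_sub, sub_smul, map_add, map_sub]
        abel
      have d3 := hL _ (zw_of_mem (mul_mem ht' (mul_mem (mul_mem hg ht) (inv_mem hg)))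
        (fun w hw => by
          rw [LinearEquiv.mul_apply, d1 w hw, e', p2 _ (W.smul_mem _ hw)]
          simp [s4 κ hκ κ0]) fun v => by
          have := add_mem (W.smul_mem (s κ) (d2 v))
            (W.smul_mem ((s κ)⁻¹ - s κ) (p1 ((g * t * g⁻¹) v)))
          convert this using 1
          rw [LinearEquiv.mul_apply, e', inv_inv, smul_sub, smul_sub, smul_inv_smul₀ (s4 κ hκ κ0)]
          module) k
      have d4 : ∀ v, (g * t * g⁻¹) (k • v) = k • (g * t * g⁻¹) v := fun v => t'.injective (by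
        have := d3 v
        simp only [LinearMap.sub_apply, End.one_apply, smul_sub, sub_left_inj,
          LinearEquiv.coe_coe] at this
        rw [← LinearEquiv.mul_apply, this, LinearEquiv.mul_apply t', e', e']
        simp only [map_smul, smul_add, smul_sub, smul_smul, mul_comm])
      have d5 : ∀ v, g (π (g⁻¹ ((g * t * g⁻¹) v))) = s κ • g (π (g⁻¹ v)) := fun v => by
        rw [← d1 _ (h1 _ (p1 _))]
        simp [e, p2 _ (p1 _)]
      have d6 := c2 ((s κ)⁻¹ • v) ((g * t * g⁻¹) v - (s κ)⁻¹ • v)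
      rw [c3 _ (d2 v), add_zero, add_sub_cancel] at d6
      simp only [← d6, ψ, ← d4, d5, smul_sub, smul_comm k]
    obtain ⟨μ, m1, m2⟩ := h.exists_mu
    have m3 : μ ≠ 0 := by simpa using m2 0
    have m4 : μ + 1 ≠ 0 := fun e => m2 (-1) (by simpa using eq_neg_of_add_eq_zero_left e)
    have m5 : τ (μ + 1) = μ + 1 := by simp [m1]
    have m6 : s (μ + 1) = s μ + 1 := smul_left_injective K b2 (by
      simp only [add_smul, ← s2 _ m5 w₀ b1, ← s2 _ m1 w₀ b1, map_add, one_smul, apply_inv_apply])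
    have m7 : s μ * s μ + s μ + 1 ≠ 0 := fun e => quad_ne_zero h.prime h.three m2
      (smul_left_injective K (show g⁻¹ w₀ ≠ 0 by simpa using b2) (g.injective (by
        have := s2 μ m1 _ (W.smul_mem (s μ) b1)
        rw [← s2 μ m1 w₀ b1, inv_apply_apply, s2 μ m1 w₀ b1] at this
        simp only [add_smul, mul_smul, map_add, this, s2 μ m1 w₀ b1, one_smul, apply_inv_apply,
          zero_smul, map_zero]
        linear_combination (norm := module) e • w₀)))
    intro v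
    have e1 := c4 μ m1 m3 (s μ • v)
    have e2 := c4 _ m5 m4 (s (μ + 1) • v)
    rw [inv_smul_smul₀ (s4 _ m1 m3)] at e1
    rw [inv_smul_smul₀ (s4 _ m5 m4), m6, add_smul (s μ) 1 v, c2, one_smul] at e2
    refine sub_eq_zero.1 (smul_right_injective V m7 ?_)
    change _ • ψ v = _ • (0 : V)
    linear_combination (norm := module) (s μ + 1) • e1 - s μ • e2
  refine mem_semiG (h.mem_span_fix (S :=
    { carrier := {k : K | ∃ k' : K, ∀ v, g (k • v) = k' • g v}
      add_mem' := fun ⟨a, ha⟩ ⟨b, hb⟩ => ⟨a + b, fun v => by simp [add_smul, ha, hb]⟩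
      zero_mem' := ⟨0, by simp⟩
      smul_mem' := fun c _ ⟨a, ha⟩ => ⟨c • a, fun v => by simp [ha]⟩ }) fun κ hκ => ⟨s κ, fun v => ?_⟩)
  have e1 := p2 _ (h2 _ (s3 κ hκ (g (v - π v))))
  have e2 := s2 κ hκ _ (h1 _ (p1 v))
  apply_fun g at e1
  rw [apply_inv_apply, map_sub g⁻¹, map_sub π, map_sub g, key] at e1
  simp only [inv_apply_apply, map_smul, map_sub, p2 _ (p1 _), sub_self, smul_zero, map_zero,
    smul_sub] at e1 e2
  linear_combination (norm := module) e2 - e1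

end Stab

end UK

end CF.MaxSub
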