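/-
Maximality of `ΓU_d(q^r) ∩ SU_{dr}(q)` in `SU_{dr}(q)` for `d = 2, 4`.
-/
import Cfsg.Agent.MaxSub.UF3

set_option autoImplicit false

namespace CF.MaxSub

open Module Geom

variable {F K V : Type*} [Field F] [Field K] [Algebra F K]
  [AddCommGroup V] [Module F V] [Module K V] [IsScalarTower F K V] {σ : F →+* F} {τ : K →+* K}
  {B : V →ₛₗ[σ] V →ₗ[F] F} {Bk : V →ₛₗ[τ] V →ₗ[K] K} {ν : Dual F K} {X : Subgroup (V ≃ₗ[F] V)}

/-- Restriction of scalars to a subfield. -/
def rsHom (S : Subfield F) : (V ≃ₗ[F] V) →* V ≃ₗ[S] V where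
  toFun g := g.restrictScalars S
  map_one' := rfl
  map_mul' _ _ := rfl

theorem rsHom_apply (S : Subfield F) (g : V ≃ₗ[F] V) (v : V) : rsHom S g v = g v := rfl

theorem PD.of_eq {A ι M : Type*} [AddCommGroup A] [Module F A] [AddCommGroup M] [Module F M]
    [Fintype ι] {b : A ≃ₗ[F] (ι → F)} {d : ℕ} {f g : A → M} (h : PD b d f) (e : ∀ a, f a = g a) :
    PD b d g := funext e ▸ h

theorem aux_pow_le {q r : ℕ} (hq : 2 ≤ q) (h3 : 3 ≤ r) (hd : 3 ≤ q ∨ 5 ≤ r) :
    (q + 1) * 2 * r ≤ q ^ r := by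
  have key : ∀ a, 1 ≤ a → (q + 1) * 2 * a ≤ q ^ a → ∀ r, a ≤ r → (q + 1) * 2 * r ≤ q ^ r :=
    fun a a1 ha r hr => by
      induction r, hr using Nat.le_induction with
      | base => exact ha
      | succ r hr ih =>
        rw [pow_succ]
        nlinarith [Nat.mul_le_mul ih hq, Nat.mul_le_mul_left ((q + 1) * 2) (a1.trans hr)]
  rcases hd with hd | hd
  · refine key 3 (by omega) ?_ r h3
    obtain ⟨q, rfl⟩ : ∃ n, q = n + 3 := ⟨q - 3, by omega⟩
    nlinarith [sq_nonneg q, Nat.zero_le (q ^ 3)]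
  · refine key 5 (by omega) ?_ r hd
    obtain ⟨q, rfl⟩ : ∃ n, q = n + 2 := ⟨q - 2, by omega⟩
    nlinarith [Nat.zero_le (q ^ 2), Nat.zero_le (q ^ 3), Nat.zero_le (q ^ 4), Nat.zero_le (q ^ 5)]

theorem exists_pow_not_fix [Finite K] {Q M : ℕ} (hK : Nat.card K = Q ^ 2) (hτ : τ ≠ RingHom.id K)
    (h0 : 0 < M) (hM : M ≤ Q) : ∃ k : K, k ≠ 0 ∧ τ (k ^ M) ≠ k ^ M := by
  by_contra! hc
  let S := τ.eqLocusField (RingHom.id K)
  obtain ⟨g, hg⟩ := IsCyclic.exists_ofOrder_eq_natCard (α := Kˣ)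
  have h1 : Nat.card K = Nat.card S ^ finrank S K := Module.natCard_eq_pow_finrank
  have h2 : 2 ≤ finrank S K := by
    by_contra h2
    obtain ⟨v, hv⟩ := finrank_le_one_iff.1 (show finrank S K ≤ 1 by omega)
    obtain ⟨c, e⟩ := hv 1
    refine hτ (RingHom.ext fun k => ?_)
    obtain ⟨d, rfl⟩ := hv k
    have h3 : τ c = c := c.2
    have h4 : τ d = d := d.2
    have h5 := congrArg τ e
    change (c : K) * v = 1 at e
    change τ ((c : K) * v) = _ at h5
    change τ ((d : K) * v) = d * v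
    rw [map_mul, h3, map_one, ← e] at h5
    rw [map_mul, h4, mul_left_cancel₀ (left_ne_zero_of_mul_eq_one e) h5]
  have h3 : 1 < Nat.card S := Finite.one_lt_card
  have h4 : Nat.card S ≤ Q := Nat.pow_le_pow_iff_left two_ne_zero |>.1
    (hK ▸ h1 ▸ Nat.pow_le_pow_right (by omega) h2)
  have := Fintype.ofFinite S
  have h5 := congrArg Subtype.val (FiniteField.pow_card_sub_one_eq_one
    (⟨_, hc g g.ne_zero⟩ : S) fun e => pow_ne_zero M g.ne_zero (congrArg Subtype.val e))
  have h6 := Nat.le_of_dvd (Nat.mul_pos h0 (by rw [← Nat.card_eq_fintype_card]; omega))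
    (orderOf_dvd_of_pow_eq_one (x := g) (n := M * (Fintype.card S - 1))
      (Units.ext (by simpa [pow_mul] using h5)))
  rw [hg, Nat.card_units, hK, ← Nat.card_eq_fintype_card] at h6
  have h7 := h6.trans (Nat.mul_le_mul hM (Nat.sub_le_sub_right h4 1))
  obtain ⟨Q, rfl⟩ : ∃ n, Q = n + 2 := ⟨Q - 2, by omega⟩
  have : (Q + 2) ^ 2 = (Q + 2) * (Q + 2 - 1) + Q + 2 := by simp; ring
  omega

namespace UK

variable (h : UK B Bk ν X) [Finite K]
include h

theorem le_semiG {W : Submodule K V} (hW : perp Bk W = W)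
    (hL : ∀ n, ZW X W n → ∀ (k : K) x, n (k • x) = k • n x) {π : End K V} (p1 : ∀ x, π x ∈ W)
    (p2 : ∀ w ∈ W, π w = w)
    (p3 : ∀ κ, κ ≠ 0 → τ κ = κ → ∃ t ∈ X, ∀ x, t x = κ • π x + κ⁻¹ • (x - π x))
    {S : Subfield F} {A : Type*} [AddCommGroup A] [Module S A] [Finite A] (N : A →ₗ[S] End K V)
    (n1 : ∀ a x, N a x ∈ W) (n2 : ∀ a, ∀ x ∈ W, N a x = 0)
    (n3 : ∀ a x y, Bk (N a x) y + Bk x (N a y) = 0) (n4 : ∀ a, a ≠ 0 → ∀ w ∈ W, ∃ x, N a x = w)
    (hc : 4 < (Nat.card S - 1) * finrank S A) : X ≤ SemiG F K V := by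
  have : Finite F := .of_injective _ (algebraMap F K).injective
  have := h.fin
  have := h.finK
  have := h.finF
  have := Fintype.ofFinite S
  have : Finite V := Module.finite_of_finite K
  have : Nontrivial V := nontrivial_of_finrank_pos (R := K) (by have := h.two; omega)
  have h1 : ∀ a, ZW X W ((N a).restrictScalars F) := fun a => h.zw_of_skew hW (n1 a) (n2 a)
    (fun x y => by simpa [h.eq] using congrArg ν (n3 a x y)) fun k x => by simp
  let l : End K V →ₗ[S] End S V := LinearMap.restrictScalarsₗ S K V V S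
  have h2 : ∀ ε : S, PD (finBasis S A).equivFun 1 fun a => 1 + (ε • l ∘ₗ N) a := fun ε =>
    (PD.const 1).add (PD.lin _)
  intro x hx
  refine le_semiG_of_free (F := S) (K := K) (X := X.map (rsHom S))
    (e := fun a => rsHom S (unip _ (h1 a).un.sq)) (fun a b => ?_)
    (fun a => ⟨_, (h1 a).un.unip_mem, rfl⟩) (fun a => lin_mem_semiG fun k v => by
      simp [rsHom_apply, unip_apply]) ((h2 1).of_eq fun a => LinearMap.ext fun v => by
      change v + (1 : S) • N a v = v + N a v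
      rw [one_smul])
    ((h2 (-1)).of_eq fun a => LinearMap.ext fun v => by
      change v + (-1 : S) • N a v = v - N a v
      rw [neg_one_smul, sub_eq_add_neg])
    (by simpa using hc) ?_ ⟨x, hx, rfl⟩
  · ext v
    simp [rsHom_apply, unip_apply, n2 _ _ (n1 _ _)]
    abel
  rintro _ ⟨x, hx, rfl⟩ a a0 hs
  change x ∈ SemiG F K V
  have h3 := h.witt.finrank_perp W
  rw [hW] at h3
  have h4 := (semiG_lin_or (g := x⁻¹ * unip _ (h1 a).un.sq * x) h.prime hs).resolve_right fun e => by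
    have := Submodule.finrank_mono (s := (W.restrictScalars F).map (x⁻¹ : V ≃ₗ[F] V).toLinearMap)
      (t := fixSp (x⁻¹ * unip _ (h1 a).un.sq * x)) (by
        rintro _ ⟨m, hm, rfl⟩
        exact mem_fixSp.2 (by simp [unip_apply, n2 a m hm]))
    rw [LinearEquiv.finrank_map_eq] at this
    have h5 : finrank F K * finrank K W = finrank F (W.restrictScalars F) :=
      finrank_mul_finrank F K W
    have := h.three
    have := h.two
    nlinarith
  let W₁ : Submodule K V :=
    { carrier := {v | x v ∈ W}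
      add_mem' := fun ha hb => by simpa using add_mem ha hb
      zero_mem' := by simp
      smul_mem' := fun k v hv => by
        obtain ⟨y, hy⟩ := n4 a a0 _ hv
        have e1 := congrArg x (h4 k (x⁻¹ y))
        simp only [LinearEquiv.mul_apply, apply_inv_apply, unip_apply, map_add, smul_add,
          LinearMap.restrictScalars_apply, hy, inv_apply_apply, add_right_inj] at e1
        exact (show x (k • v) ∈ W from e1 ▸ n1 _ _) }
  have h5 : perp Bk W₁ = W₁ := le_antisymm (fun v hv => hW.le (mem_perp.2 fun w hw =>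
    h.perp_iff.1 fun k => by
      rw [← apply_inv_apply x (k • w), h.isom hx, h.eq, mem_perp.1 hv _ (by
        simpa [W₁] using W.smul_mem k hw), map_zero]))
    fun v hv => mem_perp.2 fun w hw => h.perp_iff.1 fun k => by
      rw [← h.isom hx, h.eq, mem_perp.1 (hW.ge hv) _ (W₁.smul_mem k hw), map_zero]
  have h6 := h.witt.finrank_perp W₁
  rw [h5] at h6
  obtain ⟨b, hb, e⟩ := h.witt.exists_isom_totally_singular (U := W₁) (W := W)
    (fun u hu => by simpa using mem_perp.1 (h5.ge hu) u hu)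
    (fun u hu => by simpa using mem_perp.1 (hW.ge hu) u hu) h5.ge hW.ge (by omega)
  obtain ⟨u, hu, u0⟩ := (Submodule.ne_bot_iff W).1 fun e => by
    have := h.two
    rw [e, finrank_bot] at h3
    omega
  have h7 : ∀ w ∈ W, Bk u w = 0 := fun w hw => mem_perp.1 (hW.ge hw) u hu
  obtain ⟨f, hf, e1⟩ := h.exists_hyp u0 (h7 u hu)
  obtain ⟨c, hc⟩ := exists_uDil_mul_mem h.hk h.ndk (h7 u hu) hf e1 ⟨b, hb⟩
  have h8 : ∀ c, ∀ w ∈ W, (uDil h.hk (h7 u hu) hf e1 c).1 w ∈ W := fun c w hw => by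
    simpa [uDil_apply, h7 w hw] using add_mem hw (W.smul_mem _ hu)
  have h9 := h.stab hW hL (mul_mem hx (inv_mem (h.memS hc))) (fun w hw => ?_) (fun w hw => ?_)
    p1 p2 p3
  · simpa using mul_mem h9 (restrict_mem_semiG (uDil h.hk (h7 u hu) hf e1 c * ⟨b, hb⟩).1)
  · have := h8 c⁻¹ w hw
    rw [map_inv] at this
    have h10 := (mem_map_equiv' (g := b)).1 (e.ge this)
    exact h10
  · exact h8 c _ (e.le ⟨x⁻¹ w, by simpa [W₁] using hw, rfl⟩)

omit [Finite K] in
theorem tau_fix (c : σ.eqLocusField (RingHom.id F)) (k : K) : τ (c • k) = c • τ k :=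
  (h.tau_smul c k).trans (congrArg (· • τ k) c.2)

variable (hZ : ∀ u, u ≠ 0 → Bk u u = 0 → ∀ φ ∈ ZU X Bk u, ∃ k, φ = mL F k)
  (h2 : 2 ≤ finrank (σ.eqLocusField (RingHom.id F)) F)
include hZ h2

theorem le_semiG_two (hd : finrank K V = 2)
    (hc : 4 < (Nat.card (σ.eqLocusField (RingHom.id F)) - 1) * finrank F K) : X ≤ SemiG F K V := by
  have := h.fin
  have := h.finK
  obtain ⟨u, u0, hu⟩ := exists_isotropic_of_two_le h.hk.ne_id h.hk.invol h.hk.symm h.two
  obtain ⟨f, hf, e⟩ := h.exists_hyp u0 hu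
  have e' := h.hk.flip_one e
  have hW : perp Bk (K ∙ u) = K ∙ u := (Submodule.eq_of_le_of_finrank_eq
    ((Submodule.span_singleton_le_iff_mem _ _).2 (mem_perp_singleton.2 hu)) (by
      have := h.witt.finrank_perp (K ∙ u)
      rw [finrank_span_singleton u0] at this ⊢
      omega)).symm
  have h1 : ∀ x, Bk u x = 0 → x ∈ K ∙ u := fun x hx => hW.le (mem_perp_singleton.2 hx)
  let S := σ.eqLocusField (RingHom.id F)
  let T : K →ₗ[S] K :=
    { toFun := fun k => τ k + k
      map_add' := fun a b => by rw [map_add]; ring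
      map_smul' := fun c k => by simp [h.tau_fix] }
  have hT : ∀ a : LinearMap.ker T, τ a = -a := fun a => eq_neg_of_add_eq_zero_left a.2
  refine h.le_semiG hW (fun n => h.lin_of_line u0 hu (hZ u u0 hu) le_rfl h1)
    (π := (Bk f).smulRight u) (fun x => Submodule.smul_mem _ _ (Submodule.mem_span_singleton_self u)) (fun w hw => ?_)
    (fun κ κ0 hκ => ⟨_, h.memS (g := uDil h.hk hu hf e (Units.mk0 κ κ0))
      (mem_suSub.2 (by simp [det_uDil, hκ, κ0])), fun x => ?_⟩) (S := S) (A := LinearMap.ker T)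
    ((LinearMap.toSpanSingleton K _ ((Bk u).smulRight u)).restrictScalars S ∘ₗ Submodule.subtype _)
    (fun a x => Submodule.smul_mem _ _ (Submodule.smul_mem _ _ (Submodule.mem_span_singleton_self u))) (fun a w hw => ?_)
    (fun a x y => ?_) (fun a a0 w hw => ?_) (hc.trans_le (Nat.mul_le_mul_left _ ?_))
  · obtain ⟨c, rfl⟩ := Submodule.mem_span_singleton.1 hw
    simp [e']
  · obtain ⟨c, hc⟩ := Submodule.mem_span_singleton.1 (h1 (x - Bk u x • f) (by simp [e]))
    have : Bk f x = c := by simpa [e', hf] using (congrArg (Bk f) hc).symm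
    simp only [LinearEquiv.restrictScalars_apply, uDil_apply, LinearMap.smulRight_apply, this,
      Units.val_mk0, hκ]
    linear_combination (norm := module) (κ⁻¹ - 1) • hc
  · obtain ⟨c, rfl⟩ := Submodule.mem_span_singleton.1 hw
    simp [hu]
  · simp [hT, h.hk.eq]
    ring
  · obtain ⟨c, rfl⟩ := Submodule.mem_span_singleton.1 hw
    exact ⟨(c / a) • f, by simp [e, smul_smul, div_mul_cancel₀ _ (show (a : K) ≠ 0 by simpa using a0)]⟩
  obtain ⟨c, c0, hc⟩ := exists_skew_ne_zero h.hk.ne_id h.hk.invol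
  have : Finite F := .of_injective _ (algebraMap F K).injective
  have h3 := T.finrank_range_add_finrank_ker
  have h4 : finrank S (LinearMap.range T) ≤ finrank S (LinearMap.ker T) :=
    LinearMap.finrank_le_finrank_of_injective (f := ((LinearMap.mulLeft S c) ∘ₗ
      (LinearMap.range T).subtype).codRestrict _ (by
        rintro ⟨_, k, rfl⟩
        simp [T, hc, h.hk.invol]
        ring)) fun a b e => Subtype.ext (mul_left_cancel₀ c0 (congrArg Subtype.val e))
  have h5 := finrank_mul_finrank S F K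
  change 2 ≤ finrank S F at h2
  nlinarith

theorem le_semiG_four (hd : finrank K V = 4) : X ≤ SemiG F K V := by
  have := h.fin
  have := h.finK
  have : Finite F := .of_injective _ (algebraMap F K).injective
  obtain ⟨u, u0, hu⟩ := exists_isotropic_of_two_le h.hk.ne_id h.hk.invol h.hk.symm h.two
  obtain ⟨f, hf, e⟩ := h.exists_hyp u0 hu
  have e' := h.hk.flip_one e
  have a1 := h.witt.finrank_perp (Submodule.span K {u, f})
  have a2 := IsWittPair.finrank_span_pair_le (F := K) u f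
  obtain ⟨w, a3, w0, hw⟩ := exists_isotropic_mem h.hk.ne_id h.hk.invol h.hk.symm
    (U := perp Bk (Submodule.span K {u, f})) (by omega)
  obtain ⟨g, hg, e1, a4⟩ := h.witt.exists_partner (x := w) (Z := Submodule.span K {u, f})
    (fun e' => w0 (Submodule.disjoint_def.1 (h.witt.disjoint_hyperbolic hu hf (e ▸ one_ne_zero))
      w e' a3)) (by simpa using hw) (mem_perp.1 a3)
  have e1' := h.hk.flip_one e1
  obtain ⟨b1, b2⟩ := mem_perp_pair.1 a3
  obtain ⟨b3, b4⟩ := mem_perp_pair.1 (mem_perp.2 a4)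
  have b5 := h.hk.refl b1
  have b6 := h.hk.refl b2
  have b7 := h.hk.refl b3
  have b8 := h.hk.refl b4
  simp only [map_zero] at hg
  have hm : ∀ {x}, x ∈ Submodule.span K {u, w} ↔ ∃ a b : K, a • u + b • w = x :=
    Submodule.mem_span_pair
  have hW : perp Bk (Submodule.span K {u, w}) = Submodule.span K {u, w} :=
    (Submodule.eq_of_le_of_finrank_eq (fun x hx => mem_perp_pair.2 (by
      obtain ⟨a, b, rfl⟩ := hm.1 hx
      simp [hu, hw, b1, b5])) (by
      have := h.witt.finrank_perp (Submodule.span K {u, w})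
      rw [finrank_span_pair (linearIndependent_pair_of_notMem u0 fun e => by
        obtain ⟨c, rfl⟩ := Submodule.mem_span_singleton.1 e
        simp [b3] at e1)] at this ⊢
      omega)).symm
  let S := σ.eqLocusField (RingHom.id F)
  let N : K →ₗ[S] End K V :=
    { toFun := fun a => a • (Bk u).smulRight w - τ a • (Bk w).smulRight u
      map_add' := fun a b => by simp only [map_add, add_smul]; abel
      map_smul' := fun c k => by simp [h.tau_fix, smul_sub] }
  have hN : ∀ a x, N a x = a • Bk u x • w - τ a • Bk w x • u := fun _ _ => rfl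
  refine h.le_semiG hW (fun n => h.lin_of_two hZ hW.ge fun z => ?_)
    (π := (Bk f).smulRight u + (Bk g).smulRight w) (fun x => hm.2 ⟨_, _, rfl⟩) (fun x hx => ?_)
    (fun κ κ0 hκ => ⟨_, h.memS (g := uDil h.hk hu hf e (Units.mk0 κ κ0) *
      uDil h.hk hw hg e1 (Units.mk0 κ κ0)) (mul_mem (mem_suSub.2 (by simp [det_uDil, hκ, κ0]))
      (mem_suSub.2 (by simp [det_uDil, hκ, κ0]))), fun x => ?_⟩) N
    (fun a x => hm.2 ⟨-(τ a * Bk w x), a * Bk u x, by rw [hN]; module⟩) (fun a x hx => ?_)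
    (fun a x y => ?_) (fun a a0 x hx => ?_) ?_
  · by_cases hz : Bk u z = 0
    · exact ⟨u, hm.2 ⟨1, 0, by simp⟩, u0, hz⟩
    · exact ⟨_, hm.2 ⟨τ (-Bk w z / Bk u z), 1, rfl⟩, fun e => by
        simpa [b7, e1'] using congrArg (Bk g) e, by simp [h.hk.invol, hz]⟩
  · obtain ⟨a, b, rfl⟩ := hm.1 hx
    simp [e', e1', b2, b7]
  · obtain ⟨c, d, hc⟩ := hm.1 (hW.le (mem_perp_pair.2 (show Bk u (x - Bk u x • f - Bk w x • g) = 0 ∧ _
      by simp [e, e1, b3, b6])))
    have c1 : Bk f x = c := by simpa [e', hf, b2, b4] using (congrArg (Bk f) hc).symm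
    have c2 : Bk g x = d := by simpa [e1', hg, b7, b8] using (congrArg (Bk g) hc).symm
    simp only [LinearEquiv.restrictScalars_apply, Subgroup.coe_mul, LinearEquiv.mul_apply,
      uDil_apply, LinearMap.smulRight_apply, c1, c2, Units.val_mk0, hκ, map_add, map_smul, b1, b2,
      b3, b4, LinearMap.add_apply, smul_zero, add_zero]
    linear_combination (norm := module) (κ⁻¹ - 1) • hc
  · obtain ⟨c, d, rfl⟩ := hm.1 hx
    simp [hN, hu, hw, b1, b5]
  · simp [hN, h.hk.eq, h.hk.invol]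
    ring
  · obtain ⟨c, d, rfl⟩ := hm.1 hx
    refine ⟨(d / a) • f - (c / τ a) • g, ?_⟩
    have : τ a ≠ 0 := by simpa using a0
    simp only [hN, map_sub, map_smul, e, e1, b3, b6, smul_eq_mul]
    match_scalars <;> field_simp <;> ring
  have h5 := finrank_mul_finrank S F K
  have h6 : 1 < Nat.card S := Finite.one_lt_card
  have := h.three
  change 2 ≤ finrank S F at h2
  have : 1 ≤ Nat.card S - 1 := by omega
  nlinarith

end UK

theorem su_maxIn_field [Fintype F] [Finite K] {q : ℕ} (hF : Fintype.card F = q ^ 2)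
    (hσ : ∀ x, σ x = x ^ q) (hH : IsHerm B) (hB : B.Nondegenerate) (hr : (finrank F K).Prime)
    (h3 : 3 ≤ finrank F K) (hs : ∀ k : K, ∃ k' : K, ∀ x y, B (k • x) y = B x (k' • y))
    (hd : finrank K V = 4 ∨ finrank K V = 2 ∧ (3 ≤ q ∨ 5 ≤ finrank F K)) :
    MaxIn (SUG B) (SemiG F K V) := by
  have : FiniteDimensional F K := .of_finrank_pos hr.pos
  have : FiniteDimensional K V := .of_finrank_pos (by omega)
  have : FiniteDimensional F V := Module.Finite.trans K V
  have : Nontrivial V := Module.nontrivial_of_finrank_pos (R := K) (by omega)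
  have hq := two_le_of_card_eq_sq hF
  have hd2 : 2 ≤ finrank K V := by omega
  obtain ⟨τ, h1, h2⟩ := exists_tau B hB.2 hs
  have h4 : ∀ k, τ (τ k) = k := fun k => by
    obtain ⟨y, hy⟩ := exists_ne (0 : V)
    refine smul_left_injective K hy (sub_eq_zero.1 (hB.2 _ fun x => ?_))
    simp only [map_sub]
    rw [← h1, ← hH.eq, ← h1, hH.eq, sub_self]
  have h5 : τ ≠ RingHom.id K := fun e => hH.ne_id (RingHom.ext fun a =>
    (algebraMap F K).injective (by rw [← h2, e]; rfl))
  let σ' : F ≃+* F := RingEquiv.ofRingHom σ σ (RingHom.ext hH.invol) (RingHom.ext hH.invol)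
  let τ' : K ≃+* K := RingEquiv.ofRingHom τ τ (RingHom.ext h4) (RingHom.ext h4)
  have h6 : (algebraMap F K).comp σ'.toRingHom = τ'.toRingHom.comp (algebraMap F K) :=
    RingHom.ext fun a => (h2 a).symm
  have h7 : ∀ k, Algebra.trace F K (τ k) = σ (Algebra.trace F K k) := fun k => by
    rw [Algebra.trace_eq_of_equiv_equiv σ' τ' h6 k]
    exact (hH.invol _).symm
  have h8 : ∀ k, Algebra.norm F (τ k) = σ (Algebra.norm F k) := fun k => by
    rw [Algebra.norm_eq_of_equiv_equiv σ' τ' h6 k]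
    exact (hH.invol _).symm
  have ν0 := Algebra.trace_ne_zero F K
  obtain ⟨Bk, e⟩ := exists_kform B h1 ν0
  have hS : Bk.IsSymm := ⟨fun x y => sub_eq_zero.1 (eq_zero_of_nu ν0 fun k => by
    have := hH.eq x (τ k • y)
    rw [e, e, ← h7] at this
    simpa [h4, mul_sub, sub_eq_zero] using this)⟩
  have hB' : ∀ x, (∀ y, Bk x y = 0) → x = 0 := fun x h => hB.1 x fun y => by simp [e, h]
  have hH' : IsHerm Bk := ⟨h5, h4, hS⟩
  have h9 := finrank_mul_finrank F K V
  have hK : Nat.card K = (q ^ finrank F K) ^ 2 := by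
    rw [Module.natCard_eq_pow_finrank (K := F), Nat.card_eq_fintype_card, hF, ← pow_mul, ← pow_mul,
      mul_comm]
  have hS1 : Nat.card (σ.eqLocusField (RingHom.id F)) = q := Eq.trans
    (Nat.card_congr (Equiv.subtypeEquivRight fun x => by rw [← hσ]; rfl)) (card_fixed_eq hF)
  have hS2 : 2 = finrank (σ.eqLocusField (RingHom.id F)) F := Nat.pow_right_injective hq (by
    simp only
    rw [← hF, ← hS1, ← Module.natCard_eq_pow_finrank, Nat.card_eq_fintype_card])
  have hρ : ∃ ρ : K, τ ρ * ρ = 1 ∧ (∀ a : F, ρ * ρ ≠ algebraMap F K a) ∧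
      (Algebra.norm F (ρ * ρ) = 1 ∨ 3 ≤ finrank K V) := by
    have h10 : ∀ k : K, k ≠ 0 → τ (τ k / k) * (τ k / k) = 1 := fun k k0 => by simp [h4, k0]
    rcases hd with hd | ⟨-, hd⟩
    · obtain ⟨k, k0, hk⟩ := exists_pow_not_fix hK h5 (M := 2 * (q + 1)) (by omega)
        (le_trans (by nlinarith [mul_le_mul hq hq]) (Nat.pow_le_pow_right (by omega) h3))
      refine ⟨_, h10 k k0, fun a e => hk ?_, .inr (by omega)⟩
      have e1 : σ a * a = 1 := (algebraMap F K).injective (by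
        rw [map_mul, ← h2, ← e, map_mul, mul_mul_mul_comm, h10 k k0, mul_one, map_one])
      rw [map_pow, ← div_eq_one_iff_eq (pow_ne_zero _ k0), ← div_pow, pow_mul, sq, e, ← map_pow,
        pow_succ, ← hσ, e1, map_one]
    obtain ⟨k, k0, hk⟩ := exists_pow_not_fix hK h5 (M := (q + 1) * 2 * finrank F K) (by positivity)
      (aux_pow_le hq h3 hd)
    have e1 : Algebra.norm F ((τ k / k) ^ (q + 1) * (τ k / k) ^ (q + 1)) = 1 := by
      rw [map_mul, map_pow, pow_succ, ← hσ, ← h8, ← map_mul, h10 k k0]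
      simp
    refine ⟨(τ k / k) ^ (q + 1), by rw [map_pow, ← mul_pow, h10 k k0, one_pow], fun a e => hk ?_,
      .inl e1⟩
    rw [e, Algebra.norm_algebraMap] at e1
    rw [map_pow, ← div_eq_one_iff_eq (pow_ne_zero _ k0), ← div_pow, pow_mul, pow_mul, sq, e,
      ← map_pow, e1, map_one]
  refine ⟨fun hle => ?_, fun M a1 a2 m hm hm' => ?_⟩
  · obtain ⟨a, a0, ha⟩ := exists_isotropic_of_two_le hH.ne_id hH.invol hH.symm
      (show 2 ≤ finrank F V by nlinarith)
    obtain ⟨x, -, hx⟩ := (hH.wittPair hB).exists_hyperbolic a0 (by simpa using ha)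
    obtain ⟨s, s0, hs⟩ := exists_skew_ne_zero hH.ne_id hH.invol
    refine notMem_semiG hr (a := a) (b := 0) (x := s⁻¹ • x) (fun x => ?_) ?_ a0 (.inl rfl) ?_
      (hle (mem_SUG_iff.2 (mem_suSub.2 (det_uTrans hH ha hs))))
    · simpa [uTrans_apply] using
        Submodule.smul_mem _ (s * B a x) (Submodule.subset_span (s := {a, 0}) (by simp))
    · simp [uTrans_apply, hx, s0]
    · have := finrank_span_zero_le (F := F) a
      nlinarith
  have h : UK B Bk _ M := ⟨hH, hB, hH', ⟨hB', fun y h => hB' y fun x => hH'.refl (h x)⟩, ν0, e, h2,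
    h7, hr, h3, hd2, a2, a1, hρ⟩
  by_contra hc
  have hZ : ∀ u, u ≠ 0 → Bk u u = 0 → ∀ φ ∈ ZU M Bk u, ∃ k, φ = mL F k := fun u u0 hu φ hφ =>
    by_contra fun e => hc (h.le_of_nonlin u0 hu hφ (by simpa using e))
  rcases hd with hd | ⟨hd, hd'⟩
  · exact hm' (h.le_semiG_four hZ hS2.le hd hm)
  refine hm' (h.le_semiG_two hZ hS2.le hd ?_ hm)
  rw [hS1]
  rcases hd' with hd' | hd'
  · exact lt_of_lt_of_le (by norm_num) (Nat.mul_le_mul (show 2 ≤ _ by omega) h3)
  · exact lt_of_lt_of_le (by norm_num) (Nat.mul_le_mul (show 1 ≤ _ by omega) hd')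

open Matrix Cfsg Cfsg.Geo in
theorem isMaximalIn_su_field {F : Type*} [Field F] [Fintype F] {n q r : ℕ}
    (hF : Fintype.card F = q ^ 2) (hr : r.Prime) (h3 : 3 ≤ r)
    (hd : n = r * 4 ∨ n = r * 2 ∧ (3 ≤ q ∨ 5 ≤ r)) {K : Subalgebra F (Matrix (Fin n) (Fin n) F)}
    (hK : IsFieldSubalgebra r K) (hs : IsAdjointClosedFor (hermForm n F q) K) :
    IsMaximalIn (GU n F q ⊓ specialLinear (Fin n) F)
      (subalgebraNormalizer K ⊓ (GU n F q ⊓ specialLinear (Fin n) F)) := by
  have : Nonempty (Fin n) := ⟨⟨0, by omega⟩⟩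
  obtain ⟨σ, hσ, a1, a2⟩ := exists_conj hF
  have hH := isHerm_hermSesq (ι := Fin n) a1 a2
  refine isMaximalIn_field hK (mem_SU_iff hσ) fun L _ _ _ _ _ _ h1 h2 h4 h5 =>
    su_maxIn_field hF hσ hH (hermSesq_nondegenerate σ) (h1 ▸ hr) (h1 ▸ h3) (fun k => ?_) ?_
  · obtain ⟨z, hz, e⟩ := h4 k
    obtain ⟨z', hz', e'⟩ := hs z hz
    obtain ⟨k', e''⟩ := h5 z' hz'
    refine ⟨k', fun x y => ?_⟩
    rw [e, e'', ← hH.eq, ← hermForm_eq hσ, e', hermForm_eq hσ, hH.eq]
  · rw [Fintype.card_fin] at h2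
    rw [h1]
    exact hd.imp (fun h => Nat.eq_of_mul_eq_mul_left hr.pos (h2.trans h))
      fun h => ⟨Nat.eq_of_mul_eq_mul_left hr.pos (h2.trans h.1), h.2⟩

end CF.MaxSub
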