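import Cfsg.Agent.MaxSub.TM
import Cfsg.Agent.MaxSub.UF4
import Cfsg.Agent.Geom.MaxC1T
import Cfsg.Agent.Geom.FrU4
import Cfsg.Agent.Geom.MaxTSP2
import Cfsg.Agent.Geom.C5C
import Cfsg.Agent.Geom.StdQuad

/-! Matrix forms of the unitary maximality theorems, for the low-dimensional tables. -/

set_option autoImplicit false

namespace CF.MaxSub

open Cfsg Cfsg.Geo CF.Geom Module

variable {F : Type*} [Field F] [Fintype F] {n q : ℕ} (hF : Fintype.card F = q ^ 2)
include hF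

theorem tabU_ts (W : Submodule F (Fin n → F)) (hW0 : W ≠ ⊥)
    (hW : IsTotallySingularFor (hermForm n F q) W) :
    IsMaximalIn (GU n F q ⊓ specialLinear (Fin n) F)
      (subspaceStabilizer W ⊓ (GU n F q ⊓ specialLinear (Fin n) F)) := by
  obtain ⟨σ, hσ, h1, h2⟩ := exists_conj hF
  exact (su_maxIn_ts (isHerm_hermSesq h1 h2) (hermSesq_nondegenerate σ) hW0
    (le_perp_of_orthogonalFor (isRefl_of_isSymm (hermSesq_isSymm h2))
      (Or.inr (hermForm_eq hσ)) hW)).isMaximalIn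
    (Geom.glEquiv _ F) (mem_SU_iff hσ) (mem_subspaceStabilizer_iff W)

theorem tabU_nd (hn : 9 ≤ n) (W : Submodule F (Fin n → F)) (hW0 : W ≠ ⊥)
    (hW : IsNondegenerateOn (hermForm n F q) W) (hdim : 2 * finrank F W < n) :
    IsMaximalIn (GU n F q ⊓ specialLinear (Fin n) F)
      (subspaceStabilizer W ⊓ (GU n F q ⊓ specialLinear (Fin n) F)) := by
  obtain ⟨σ, hσ, h1, h2⟩ := exists_conj hF
  exact (su_maxIn_nondeg (isHerm_hermSesq h1 h2) (hermSesq_nondegenerate σ) hW0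
    (disjoint_perp_of_nondegOn (Or.inr (hermForm_eq hσ)) hW) (by simpa using hdim)
    (by simp; omega)).isMaximalIn (Geom.glEquiv _ F) (mem_SU_iff hσ) (mem_subspaceStabilizer_iff W)

theorem tabU_tsp {k : ℕ} (hk : 3 ≤ k) (D : Fin 2 → Submodule F (Fin n → F))
    (hD : IsMDecomposition k D) (hts : ∀ i, IsTotallySingularFor (hermForm n F q) (D i)) :
    IsMaximalIn (GU n F q ⊓ specialLinear (Fin n) F)
      (decompositionStabilizer D ⊓ (GU n F q ⊓ specialLinear (Fin n) F)) := by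
  obtain ⟨σ, hσ, h1, h2⟩ := exists_conj hF
  exact (su_maxIn_tsp (isHerm_hermSesq h1 h2) (hermSesq_nondegenerate σ)
    (tsp_of ((isHerm_hermSesq h1 h2).wittPair (hermSesq_nondegenerate σ)) hD
      (fun i x hx => by simpa [← hermForm_eq hσ] using hts i x hx x hx)
      fun i x hx y hy => by rw [← hermForm_eq hσ]; exact hts i y hy x hx)
    (by rw [hD.finrank_eq]; omega)).isMaximalIn (Geom.glEquiv _ F) (mem_SU_iff hσ)
    (mem_decompositionStabilizer_iff D)

theorem tabU_sub (hn : 7 ≤ n) (F₀ : Subfield F) (r : ℕ) (P : GL (Fin n) F) (hr : r.Prime)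
    (hro : Odd r) (hcard : Fintype.card F = Nat.card F₀ ^ r)
    (hP : IsFormRationalStructure (hermForm n F q) F₀ 1 P) :
    IsMaximalIn (GU n F q ⊓ specialLinear (Fin n) F)
      (subfieldSubgroup F₀ P ⊓ (GU n F q ⊓ specialLinear (Fin n) F)) := by
  obtain ⟨σ, hσ, h1, h2⟩ := exists_conj hF
  exact (su_maxIn_RG (ε := (Geom.glEquiv _ F P).symm) (isHerm_hermSesq h1 h2)
    (hermSesq_nondegenerate σ) (by simp; omega) hr (by rw [← hcard, Nat.card_eq_fintype_card])
    (fun a ha => hσ a ▸ pow_mem ha q)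
    (fun x y hx hy => by simpa [hermForm_eq hσ] using rat_of_structure hP hy hx)
    (Or.inl (by rintro rfl; exact absurd hro (by decide)))).isMaximalIn (Geom.glEquiv _ F)
    (mem_SU_iff hσ) (mem_subfieldSubgroup_iff P)

theorem tabU_o (hn : 7 ≤ n) (hodd : Odd q) (F₀ : Subfield F) (P : GL (Fin n) F)
    (hcard : Fintype.card F = Nat.card F₀ ^ 2)
    (hP : IsFormRationalStructure (hermForm n F q) F₀ 1 P) :
    IsMaximalIn (GU n F q ⊓ specialLinear (Fin n) F)
      (subfieldSubgroup F₀ P ⊓ (GU n F q ⊓ specialLinear (Fin n) F)) := by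
  obtain ⟨σ, hσ, h1, h2⟩ := exists_conj hF
  exact (su_maxIn_RG (ε := (Geom.glEquiv _ F P).symm) (isHerm_hermSesq h1 h2)
    (hermSesq_nondegenerate σ) (by simp; omega) Nat.prime_two
    (by rw [← hcard, Nat.card_eq_fintype_card]) (fun a ha => hσ a ▸ pow_mem ha q)
    (fun x y hx hy => by simpa [hermForm_eq hσ] using rat_of_structure hP hy hx)
    (Or.inr (Geom.two_ne_zero_of_odd_card (hF ▸ hodd.pow)))).isMaximalIn (Geom.glEquiv _ F)
    (mem_SU_iff hσ) (mem_subfieldSubgroup_iff P)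

theorem tabU_sp (hn : 6 ≤ n) (F₀ : Subfield F) (P : GL (Fin n) F) (ζ : F)
    (hcard : Fintype.card F = Nat.card F₀ ^ 2) (hζ0 : ζ ≠ 0)
    (hP : IsFormRationalStructure (hermForm n F q) F₀ ζ P)
    (halt : ∀ u : Fin n → F, (∀ i, u i ∈ F₀) → hermForm n F q
      (Matrix.mulVec (P : Matrix (Fin n) (Fin n) F) u)
      (Matrix.mulVec (P : Matrix (Fin n) (Fin n) F) u) = 0) :
    IsMaximalIn (GU n F q ⊓ specialLinear (Fin n) F)
      (subfieldSubgroup F₀ P ⊓ (GU n F q ⊓ specialLinear (Fin n) F)) := by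
  obtain ⟨σ, hσ, h1, h2⟩ := exists_conj hF
  exact (su_maxIn_RG_alt (ε := (Geom.glEquiv _ F P).symm) (isHerm_hermSesq h1 h2)
    (hermSesq_nondegenerate σ) (by simp; omega) (by rw [← hcard, Nat.card_eq_fintype_card])
    (fun a ha => hσ a ▸ pow_mem ha q) hζ0
    (fun x y hx hy => by simpa [hermForm_eq hσ] using rat_of_structure hP hy hx)
    (fun x hx => by
      obtain ⟨u, hu, rfl⟩ := hx.exists_mulVec
      simpa [hermForm_eq hσ] using halt u hu)).isMaximalIn (Geom.glEquiv _ F)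
    (mem_SU_iff hσ) (mem_subfieldSubgroup_iff P)

end CF.MaxSub
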