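/-
Subfield subgroups of classical groups in dimension six, II.
-/
import Cfsg.Agent.MaxSub.R6A
import Cfsg.Agent.MaxSub.TabU

set_option autoImplicit false
set_option linter.unusedSectionVars false

namespace CF.MaxSub

open Module Geom

variable {F V : Type*} [Field F] [AddCommGroup V] [Module F V] {ι : Type} [Fintype ι]
  {σ : F →+* F} {ε : V ≃ₗ[F] (ι → F)} {F₀ : Subfield F}

namespace RC6

variable [Finite F] {B : V →ₛₗ[σ] V →ₗ[F] F} {Q : V → F} {G M : Subgroup (V ≃ₗ[F] V)}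
  (h : RC6 B Q G ε F₀ M)
include h

theorem conj_Rad {g k : V ≃ₗ[F] V} (hg : g ∈ M) {z : V} (hk : k ∈ Rad B Q z ⊤) :
    g * k * g⁻¹ ∈ Rad B Q (g z) ⊤ := Rad_mono _ le_top (conj_mem_Rad (h.isom hg) hk)

theorem le_of_two {θ : F} (hθ : ∀ a : F, ∃ x ∈ F₀, ∃ y ∈ F₀, a = x + θ * y) : M ≤ RG ε F₀ :=
  fun g hg => by
  have := h.fd
  obtain ⟨e, e1, e2, e0⟩ := h.exists_sing
  obtain ⟨x, y, x1, y1, e3⟩ := exists_rat_two ε hθ (g⁻¹ e)
  obtain ⟨z, z1, z2, z3, z4, z5⟩ := h.sing x y x1 y1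
  have z0 : z ≠ 0 := by rintro rfl; exact z5 (zero_mem _)
  obtain ⟨x', y', x2, y2, e4⟩ := exists_rat_two ε hθ (g z)
  obtain ⟨w, w1, w2⟩ := Geom.exists_notMem_of_finrank_lt (X := perp B (Submodule.span F {x, y, z}))
    (Z := (Submodule.span F {x', y'}).map (g⁻¹ : V ≃ₗ[F] V).toLinearMap) (by
      have h1 := h.witt.finrank_perp (Submodule.span F {x, y, z})
      have h2 : finrank F (Submodule.span F ({x, y, z} : Set V)) ≤ 3 := by
        classical
        have := (finrank_span_finset_le_card (R := F) {x, y, z}).trans Finset.card_le_three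
        rwa [Finset.coe_insert, Finset.coe_insert, Finset.coe_singleton] at this
      have h3 := IsWittPair.finrank_span_pair_le (F := F) x' y'
      have h4 := h.six
      rw [LinearEquiv.finrank_map_eq]; omega)
  obtain ⟨w, w1, w3, w2⟩ := exists_rat_notMem h.ratB (S := {x, y, z}) (by simp [x1, y1, z1])
    (mem_perp_span.1 w1) w2
  obtain ⟨v, v1, v2, v3⟩ := h.exists_not_perp (S := {x', y'}) (by simp [x2, y2]) (y := g w)
    fun e => w2 ⟨_, e, inv_apply_apply g w⟩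
  obtain ⟨k, k1, k2, k3⟩ := h.ratRad' z1 z2 z0 w1 (w3 z (by simp))
  have := (h.ratM_of_fix e1 e2 e0 (mul_mem (mul_mem hg k1) (inv_mem hg)) (by
    rw [LinearEquiv.mul_apply, LinearEquiv.mul_apply, k3 _ (by
      simp [e3, h.witt.refl z3, h.witt.refl z4]), e3, map_add (B w)]
    simp [h.witt.refl (w3 x (by simp)), h.witt.refl (w3 y (by simp)), ← e3, apply_inv_apply])
    v v1).sub v1
  rw [LinearEquiv.mul_apply, LinearEquiv.mul_apply, k3 _ (by
    rw [← h.mapB hg, apply_inv_apply, e4]; simp [v2 x' (by simp), v2 y' (by simp)]), map_add,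
    apply_inv_apply, add_sub_cancel_left, map_smul, ← h.mapB hg, apply_inv_apply] at this
  exact h.mem_RG_of_point hg z1 z2 z0 v3 this

theorem Q3 {u : V} (u0 : u ≠ 0) (hu : ∀ c : F, c ≠ 0 → ¬ IsRat ε F₀ (c • u)) :
    ∃ e e', IsRat ε F₀ e ∧ IsRat ε F₀ e' ∧ Q e = Q 0 ∧ Q e' = Q 0 ∧ B e e' = 0 ∧ B e u ≠ 0 ∧
      B e' u / B e u ∉ F₀ := by
  by_contra! hc
  have key : ∀ e, IsRat ε F₀ e → Q e = Q 0 → B e u ≠ 0 → ∀ x, IsRat ε F₀ x → B e x = 0 →
      B x u / B e u ∈ F₀ := fun e e1 e2 e3 x hx hex => by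
    obtain ⟨z, z1, z2, z3, z4⟩ := h.sing₁ e1
    exact h.span_sing e1 z1 z2 z3 z4 (P := fun a => B a u / B e u ∈ F₀)
      (fun a b ha hb => by simpa [add_div] using add_mem ha hb)
      (fun c hc a ha => by simpa [mul_div_assoc] using mul_mem (h.sig _ hc) ha)
      (hc e z e1 z1 e2 z2 z3 e3) (fun s s1 s2 s3 _ => hc e s e1 s1 e2 s2 s3 e3) hx hex
  obtain ⟨e, e1, e2, e3⟩ := h.exists_sing_not_perp u0
  obtain ⟨z, z1, z2, z3, z4⟩ := h.sing₁ e1
  have c1 := add_mem (one_mem F₀) (neg_mem (h.sig _ (hc e z e1 z1 e2 z2 z3 e3)))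
  have f1 := z1.add (e1.smul c1)
  have f2 : Q (z + (1 + -σ (B z u / B e u)) • e) = Q 0 := by
    rw [h.witt.norm_add_singular (h.witt.norm_smul_singular e2 _) (by simp [h.witt.refl z3]), z2]
  have f3 : B (z + (1 + -σ (B z u / B e u)) • e) u = B e u := by
    simp only [map_add, map_smulₛₗ, LinearMap.add_apply, LinearMap.smul_apply, map_one, map_neg,
      h.invol, smul_eq_mul]
    field_simp; ring
  have f4 : z + (1 + -σ (B z u / B e u)) • e ∉ F ∙ e := fun e4 => z4 (by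
    simpa using sub_mem e4 (Submodule.smul_mem _ (1 + -σ (B z u / B e u))
      (Submodule.mem_span_singleton_self e)))
  generalize z + (1 + -σ (B z u / B e u)) • e = e' at f1 f2 f3 f4
  obtain ⟨d, d1, d2, d3⟩ := h.exists_dual (S := {e}) (by simpa using e1) f1 f4
  refine hu _ (inv_ne_zero e3) (h.rat_of fun x hx => ?_)
  have c2 := h.ratB _ _ f1 hx
  have g1 := key e' f1 f2 (f3 ▸ e3) _ (hx.sub (d1.smul c2)) (by simp [d3])
  have g2 := key e e1 e2 e3 _ (d1.smul c2) (by simp [d2 e rfl])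
  rw [f3] at g1
  convert add_mem g1 g2 using 1
  simp; field_simp; ring

theorem trans_mem {s : F} (hs : s ∈ F₀) (ht : TransC B Q s) {v : V} (hv : IsRat ε F₀ v)
    (q : Q v = Q 0) (h0 : v ≠ 0) : ∃ t ∈ M, ∀ x, t x = x + (s * B v x) • v := by
  obtain ⟨t, t1, t2⟩ := ht v q
  exact ⟨t, h.mem_of_Rad q h0 (Rad_mono _ le_top (h.witt.mem_Rad_of_trans q t1 t2)) fun x hx =>
    t2 x ▸ hx.add (hv.smul (mul_mem hs (h.ratB _ _ hv hx))), t2⟩

theorem le_of_trans (hq : NoQuad F₀) {F₁ : Subfield F} (h1 : F₁ ≤ F₀) {c : F} (hc : c ∈ F₀)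
    (c0 : c ≠ 0) (ht : ∀ i ∈ F₁, TransC B Q (c * i)) : M ≤ RG ε F₀ := fun g hg => by
  obtain ⟨z, z1, z2, z0⟩ := h.exists_sing
  by_contra hn
  obtain ⟨e, e', e1, e2, q1, q2, e3, e4, e5⟩ := h.Q3 (u := g z) (by simpa using z0)
    fun c c0 hc => hn (h.mem_RG_of_point hg z1 z2 z0 c0 hc)
  have ht1 : TransC B Q c := by simpa using ht 1 (one_mem _)
  obtain ⟨t, t1, t2⟩ := h.trans_mem hc ht1 z1 z2 z0
  have s1 := mul_mem (mul_mem hg t1) (inv_mem hg)
  have s2 : ∀ x, (g * t * g⁻¹) x = x + (c * B (g z) x) • g z := fun x => by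
    rw [LinearEquiv.mul_apply, LinearEquiv.mul_apply, t2, map_add, map_smul, ← h.mapB hg,
      apply_inv_apply]
  have qu := h.witt.self_eq_zero ((h.mapQ hg z).trans z2)
  generalize g * t * g⁻¹ = s at s1 s2
  generalize g z = u at e4 e5 s2 qu
  have e0 : e ≠ 0 := by rintro rfl; simp at e4
  have ee := h.witt.self_eq_zero q1
  have ee' := h.witt.self_eq_zero q2
  have e6 := h.witt.refl e3
  set τ := σ (B e' u / B e u) with hτ
  have τ1 : τ ∉ F₀ := fun e => e5 (by simpa [hτ, h.invol] using h.sig _ e)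
  have τ2 : σ τ * B e u = B e' u := by rw [hτ, h.invol]; field_simp
  clear_value τ
  have n1 : e' ∉ F ∙ e := fun e7 => by
    obtain ⟨a, rfl⟩ := Submodule.mem_span_singleton.1 e7
    exact e5 (by simpa [e4] using h.sig _ (e1.mem_of_smul e0 e2))
  have n2 := not_mem_span_symm e0 n1
  obtain ⟨α, α1, hα⟩ : ∃ α ∈ F₀, (α + τ) * σ (α + τ) ∉ F₀ := by
    by_contra! hc
    have a0 := hc 0 (zero_mem _)
    have a1 := sub_mem (sub_mem (hc 1 (one_mem _)) a0) (one_mem _)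
    exact hq τ τ1 _ a1 _ (neg_mem a0) (by simp; ring)
  have x1 := (e1.smul α1).add e2
  have x2 : Q (α • e + e') = Q 0 := by
    rw [h.witt.norm_add_singular q2 (by simp [e3])]; exact h.witt.norm_smul_singular q1 _
  have x0 : α • e + e' ≠ 0 := fun e7 => n1 (by
    rw [eq_neg_of_add_eq_zero_right e7]
    exact neg_mem (Submodule.smul_mem _ _ (Submodule.mem_span_singleton_self e)))
  have r1 : B u (e' - τ • e) = 0 := h.witt.refl (by simp [τ2])
  obtain ⟨k, ⟨k1, k2⟩, l, m, -, k3, -, k4⟩ := MaxSub.exists_slope_vec F₁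
    (M ⊓ MulAction.stabilizer _ (e' - τ • e)) (F ∙ (e' - τ • e)) e u
    (fun k hk x hx => by
      obtain ⟨a, rfl⟩ := Submodule.mem_span_singleton.1 hx
      rw [map_smul, show k (e' - τ • e) = e' - τ • e from hk.2]; exact hx)
    {a | ∃ k ∈ M ⊓ MulAction.stabilizer _ (e' - τ • e), k e - e ∈ F ∙ (e' - τ • e) ∧
      k u - (u + a • e) ∈ F ∙ (e' - τ • e)} (fun a ha => ha)
    (card_sq_le_ncard F₁ (a := c * B e u) (b := c * B e u * ((α + τ) * σ (α + τ)))
      (mul_ne_zero c0 e4) (fun e => hα (h1 (by simpa [c0, e4] using e))) fun i hi j hj => by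
      obtain ⟨a, a1, a2⟩ := h.trans_mem (mul_mem hc (h1 hi)) (ht i hi) e1 q1 e0
      obtain ⟨b, b1, b2⟩ := h.trans_mem (mul_mem hc (h1 hj)) (ht j hj) x1 x2 x0
      refine ⟨a * b, ⟨mul_mem a1 b1, show (a * b) (e' - τ • e) = _ by
        simp [a2, b2, ee, ee', e3, e6]⟩, by simp [a2, b2, ee, e6],
        Submodule.mem_span_singleton.2 ⟨c * j * B (α • e + e') u, ?_⟩⟩
      simp only [LinearEquiv.mul_apply, a2, b2, map_add, map_smulₛₗ, LinearMap.add_apply,
        LinearMap.smul_apply, smul_eq_mul, ee, e3, ← τ2, RingHom.id_apply]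
      module)
    (s := s) ⟨s1, show s (e' - τ • e) = _ by rw [s2, r1]; simp⟩ (b := c * B u e)
    (mul_ne_zero c0 fun e => e4 (h.witt.refl e)) (by simp [s2]) (by simp [s2, qu])
  replace k2 : k (e' - τ • e) = e' - τ • e := k2
  obtain ⟨m, hm⟩ := Submodule.mem_span_singleton.1 k3
  have k5 : k e = l • e + m • (e' - τ • e) := by rw [hm]; abel
  obtain ⟨a, a1, a2⟩ := h.trans_mem hc ht1 e1 q1 e0
  have a3 : ∀ x, (k * a * k⁻¹) x = x + (c * B (k e) x) • k e := fun x => by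
    rw [LinearEquiv.mul_apply, LinearEquiv.mul_apply, a2, map_add, map_smul, ← h.mapB k1,
      apply_inv_apply]
  obtain ⟨v, v1, -, v2⟩ := h.exists_sing_not_perp (v := k e) (by simpa using e0)
  have a4 := (h.ratM_of_fix e1 q1 e0 (mul_mem (mul_mem k1 a1) (inv_mem k1))
    (by rw [a3, k5]; simp [ee, e6]) v v1).sub v1
  rw [a3, add_sub_cancel_left] at a4
  obtain ⟨κ, κ0, hκ⟩ := h.mem_RG_of_point k1 e1 q1 e0
    (mul_ne_zero c0 fun e => v2 (h.witt.refl e)) a4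
  have b1 := (hκ e).1 e1
  have b2 := (hκ e').1 e2
  rw [show κ • k e = (κ * (l - m * τ)) • e + (κ * m) • e' by rw [k5]; module] at b1
  rw [show κ • k e' = (κ * τ * (l - 1 - τ * m)) • e + (κ * (1 + τ * m)) • e' by
    rw [← sub_add_cancel e' (τ • e), map_add, k2, map_smul, k5]; module] at b2
  have p1 := h.coeff e1 e2 n2 b1
  have p2 := h.coeff e2 e1 n1 (by rwa [add_comm] at b1)
  have p3 := h.coeff e1 e2 n2 b2
  have p4 := h.coeff e2 e1 n1 (by rwa [add_comm] at b2)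
  have m0 : m = 0 := by_contra fun m0 => hq τ τ1 _ (div_mem (sub_mem p4 p1) p2) _ (div_mem p3 p2)
    (by field_simp; ring)
  have l1 : l = 1 := by_contra fun l1 => τ1 (by
    have := div_mem p3 (sub_mem p1 p4)
    have l2 := sub_ne_zero.2 l1
    rwa [m0, show κ * τ * (l - 1 - τ * 0) / (κ * (l - 0 * τ) - κ * (1 + τ * 0)) = τ by
      rw [div_eq_iff (by simpa [← mul_sub_one, κ0] using l2)]; ring] at this)
  exact k4 (by simp [l1])

end RC6

theorem RF6.maxIn [Finite F] {B : V →ₛₗ[σ] V →ₗ[F] F} {Q : V → F} {G : Subgroup (V ≃ₗ[F] V)}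
    (h : RF6 B Q G ε F₀) (hT : ComT B Q)
    (hc : (∃ θ : F, ∀ a : F, ∃ x ∈ F₀, ∃ y ∈ F₀, a = x + θ * y) ∨
      (NoQuad F₀ ∧ ∃ F₁ ≤ F₀, ∃ c ∈ F₀, c ≠ 0 ∧ ∀ i ∈ F₁, TransC B Q (c * i))) :
    MaxIn G (RG ε F₀) := by
  have := h.fd
  refine ⟨h.not_le, fun M h1 h2 m hm hm' => by_contra fun hn => hm' ?_⟩
  have h' : RC6 B Q G ε F₀ M := ⟨h, h1, h2, hn, fun e he q h0 hR => by
    obtain ⟨z, z1, -, z3, z4⟩ := h.sing₁ he
    obtain ⟨w, -, w2, w3⟩ := h.exists_dual (S := {e}) (by simpa using he) z1 z4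
    exact h.witt.Rad_le_of_RD hT h0 q hR z3 (w2 e rfl) w3⟩
  rcases hc with ⟨θ, hθ⟩ | ⟨h3, F₁, h4, c, h5, h6, h7⟩
  exacts [h'.le_of_two hθ hm, h'.le_of_trans h3 h4 h5 h6 h7 hm]

section SU

variable [Finite F] {B : V →ₛₗ[σ] V →ₗ[F] F} {Q : V → F}

theorem sing_of_three' (h : IsWittPair σ B Q)
    (hB : ∀ x y, IsRat ε F₀ x → IsRat ε F₀ y → B x y ∈ F₀) (h7 : 6 ≤ finrank F V)
    (hQ : ∀ u v w, IsRat ε F₀ u → IsRat ε F₀ v → IsRat ε F₀ w → ∃ x ∈ F₀, ∃ y ∈ F₀, ∃ z ∈ F₀,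
      ¬ (x = 0 ∧ y = 0 ∧ z = 0) ∧ Q (x • u + y • v + z • w) = Q 0)
    (a b : V) (ha : IsRat ε F₀ a) (hb : IsRat ε F₀ b) :
    ∃ c, IsRat ε F₀ c ∧ Q c = Q 0 ∧ B a c = 0 ∧ B b c = 0 ∧ c ∉ F ∙ a := by
  have : FiniteDimensional F V := ε.symm.finiteDimensional
  have h0 := finrank_span_singleton_le (F := F) a
  generalize F ∙ a = Z at h0 ⊢
  obtain ⟨u, u1, u2, u3, u4⟩ := exists_rat_perp h hB ha hb (Z := Z) (by omega)
  have h1 := finrank_sup_span_le Z u
  obtain ⟨v, v1, v2, v3, v4⟩ := exists_rat_perp h hB ha hb (Z := Z ⊔ F ∙ u) (by omega)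
  have h2 := finrank_sup_span_le (Z ⊔ F ∙ u) v
  obtain ⟨w, w1, w2, w3, w4⟩ := exists_rat_perp h hB ha hb (Z := (Z ⊔ F ∙ u) ⊔ F ∙ v) (by omega)
  obtain ⟨x, hx, y, hy, z, hz, h3, h4⟩ := hQ u v w u1 v1 w1
  refine ⟨_, ((u1.smul hx).add (v1.smul hy)).add (w1.smul hz), h4, by simp [u2, v2, w2],
    by simp [u3, v3, w3], fun e => h3 ?_⟩
  have key : ∀ {Z : Submodule F V} {u t : V} {x : F}, u ∉ Z → t ∈ Z → t + x • u ∈ Z → x = 0 :=
    fun {Z u t x} h1 h2 h3 => by_contra fun h0 =>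
      h1 ((Z.smul_mem_iff h0).1 ((Z.add_mem_iff_right h2).1 h3))
  have m : ∀ (Z : Submodule F V) (u : V) (x : F), x • u ∈ Z ⊔ F ∙ u := fun Z u x =>
    Submodule.mem_sup_right (Submodule.smul_mem _ _ (Submodule.mem_span_singleton_self u))
  have z0 := key w4 (add_mem (Submodule.mem_sup_left (m Z u x)) (m _ v y))
    (Submodule.mem_sup_left (Submodule.mem_sup_left e))
  rw [z0, zero_smul, add_zero] at e
  have y0 := key v4 (m Z u x) (Submodule.mem_sup_left e)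
  rw [y0, zero_smul, add_zero] at e
  exact ⟨key u4 Z.zero_mem (by simpa using e), y0, z0⟩

theorem rf6_su (hH : IsHerm B) (hB : B.Nondegenerate) (h7 : 6 ≤ finrank F V) {r : ℕ}
    (hr : r.Prime) (hc : Nat.card F₀ ^ r = Nat.card F) (hs : ∀ a ∈ F₀, σ a ∈ F₀)
    (hR : ∀ x y, IsRat ε F₀ x → IsRat ε F₀ y → B x y ∈ F₀) {ν : F} (h1 : ν ∈ F₀)
    (h2 : ν + σ ν ≠ 0) : RF6 B (fun x => B x x) (SUG B) ε F₀ := by
  have : FiniteDimensional F V := ε.symm.finiteDimensional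
  have := Fintype.ofFinite F
  have hG := polarG_su' hH hB (by omega)
  refine ⟨hG, hH.invol, hs, hR, fun p y hp hy q h0 => ?_,
    sing_of_three' hG.witt hR h7 fun u v w hu hv hw => ?_, by omega,
    fun K => Classical.subfield_eq_or_eq_top hr hc,
    MaxSub.ne_top_of_card_eq_pow hr.two_le (by rw [hc, Nat.card_eq_fintype_card])⟩
  · have h3 : B y p ≠ 0 := fun e => h0 (hG.witt.refl e)
    refine ⟨-(B y y * ν / ((ν + σ ν) * B y p)), neg_mem (div_mem (mul_mem (hR _ _ hy hy) h1)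
      (mul_mem (add_mem h1 (hs _ h1)) (hR _ _ hy hp))), ?_⟩
    simp only [map_zero] at q
    simp only [map_add, map_smulₛₗ, LinearMap.add_apply, LinearMap.smul_apply, q, map_neg,
      map_div₀, map_mul, hH.eq, hH.invol, RingHom.id_apply, smul_eq_mul, map_zero,
      add_comm (σ ν) ν]
    field_simp; ring
  · have k1 : ∀ x, IsRat ε F₀ x → B x x ∈ F₀ ⊓ σ.eqLocusField (RingHom.id F) := fun x hx =>
      ⟨hR _ _ hx hx, hH.eq x x⟩
    have k2 : ∀ x y, IsRat ε F₀ x → IsRat ε F₀ y →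
        B x y + B y x ∈ F₀ ⊓ σ.eqLocusField (RingHom.id F) := fun x y hx hy =>
      ⟨add_mem (hR _ _ hx hy) (hR _ _ hy hx), show σ _ = _ by simp [hH.eq, add_comm]⟩
    obtain ⟨x, ⟨x1, x2⟩, y, ⟨y1, y2⟩, z, ⟨z1, z2⟩, h3, h4⟩ := exists_ternary _ (k1 u hu) (k1 v hv)
      (k1 w hw) (k2 u v hu hv) (k2 u w hu hw) (k2 v w hv hw)
    refine ⟨x, x1, y, y1, z, z1, h3, ?_⟩
    simp only [map_add, map_smulₛₗ, LinearMap.add_apply, LinearMap.smul_apply,
      show σ x = x from x2, show σ y = y from y2, show σ z = z from z2, RingHom.id_apply,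
      smul_eq_mul, map_zero]
    linear_combination h4

theorem su_maxIn_RG6 (hH : IsHerm B) (hB : B.Nondegenerate) (h7 : 6 ≤ finrank F V) {r : ℕ}
    (hr : r.Prime) (hc : Nat.card F₀ ^ r = Nat.card F) (hs : ∀ a ∈ F₀, σ a ∈ F₀)
    (hR : ∀ x y, IsRat ε F₀ x → IsRat ε F₀ y → B x y ∈ F₀) (h2 : r ≠ 2 ∨ (2 : F) ≠ 0) :
    MaxIn (SUG B) (RG ε F₀) := by
  have : FiniteDimensional F V := ε.symm.finiteDimensional
  have hν : r ≠ 2 → ∃ ν ∈ F₀, σ ν ≠ ν := fun h2 => by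
    by_contra! hn
    have h3 := (Classical.subfield_eq_or_eq_top hr hc (K' := σ.eqLocusField (RingHom.id F))
      hn).resolve_right fun e => hH.ne_id (RingHom.ext fun a => (e.ge trivial : a ∈ _))
    obtain ⟨τ, hτ⟩ : ∃ τ, σ τ ≠ τ := by
      by_contra! hn
      exact hH.ne_id (RingHom.ext hn)
    exact noQuad hr h2 hc τ (fun e => hτ (hn τ e)) (τ + σ τ)
      (h3.le (show σ _ = _ by simp [hH.invol, add_comm])) (-(τ * σ τ))
      (h3.le (show σ _ = _ by simp [hH.invol, mul_comm])) (by ring)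
  obtain ⟨ν, h3, h4⟩ : ∃ ν ∈ F₀, ν + σ ν ≠ 0 := by
    by_cases h5 : (2 : F) = 0
    · obtain ⟨ν, h3, h4⟩ := hν (h2.resolve_right (not_not.2 h5))
      exact ⟨ν, h3, fun e => h4 (by linear_combination e - ν * h5)⟩
    · exact ⟨1, one_mem _, by rwa [map_one, one_add_one_eq_two]⟩
  refine (rf6_su hH hB h7 hr hc hs hR h3 h4).maxIn (comT_herm hH) ?_
  by_cases h5 : r = 2
  · exact Or.inl (exists_theta (h5 ▸ hc))
  · obtain ⟨μ, h6, h7⟩ := hν h5
    exact Or.inr ⟨noQuad hr h5 hc, F₀ ⊓ σ.eqLocusField (RingHom.id F), inf_le_left,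
      μ - σ μ, sub_mem h6 (hs _ h6), sub_ne_zero.2 h7.symm, fun i hi => transC_herm hH (by
        simp only [map_mul, map_sub, hH.invol, show σ i = i from hi.2]; ring)⟩

omit [Finite F] in
/-- Overgroups of the stabiliser of a non-degenerate subspace, using transvections. -/
theorem le_of_nondeg_tv [FiniteDimensional F V] {G M : Subgroup (V ≃ₗ[F] V)} (h : PolarG B Q G)
    {c : F} (c0 : c ≠ 0) (ht : TransC B Q c) {d : ℕ} (hd : SingDim F Q d) {U : Submodule F V}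
    (hn : Disjoint U (perp B U)) (hb : Big B Q U) (hdim : d + 2 ≤ finrank F U)
    (hne : finrank F (perp B U) < finrank F U)
    (hirr : ∀ X, U < X → (∀ g ∈ G, g ∈ subStab U → g ∈ subStab X) → X = ⊤)
    (hM : G ⊓ subStab U ≤ M) (hM' : M ≤ Isom B Q) {m : V ≃ₗ[F] V} (hm : m ∈ M)
    (hmU : m ∉ subStab U) : G ≤ M := by
  have hW := h.witt
  have hU : Good B Q M U := h.good_of_fix fun g hg hgU _ => hM ⟨hg, hgU⟩
  have a1 := (hM' (inv_mem hm)).1
  obtain ⟨s, b1, b2, b3, t, b4, b5, b6⟩ : ∃ s ∈ U, Q s = Q 0 ∧ s ≠ 0 ∧ ∃ t ∈ Isom B Q,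
      (∀ z, t z = z + (c * B s z) • s) ∧ m * t * m⁻¹ ∉ subStab U := by
    by_contra! H
    have H' : ∀ s ∈ U, Q s = Q 0 → ∀ x ∈ U, B s (m⁻¹ x) ≠ 0 → m s ∈ U := fun s a b x hx e => by
      obtain ⟨t, t1, t2⟩ := ht s b
      have := sub_mem (subStab_apply (H s a b (by rintro rfl; simp at e) t t1 t2) hx) hx
      simpa [t2, apply_inv_apply, U.smul_mem_iff (mul_ne_zero c0 e), -LinearEquiv.coe_inv]
        using this
    obtain ⟨x, hx, e⟩ := SetLike.not_le_iff_exists.1 (not_le_map_of_finrank_lt hne m)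
    obtain ⟨u, hu, v, hv, q1, q2, huv⟩ := hb.pair
    obtain ⟨s, c1, c2, c3, c4⟩ := hW.exists_sing_not_perp hu hv q1 q2 huv (x := m⁻¹ x)
      fun e' => e ⟨_, e', apply_inv_apply m x⟩
    refine hmU (mem_subStab_iff_le.2 fun w hw => all_ind (hW.restrict hn) (s := ⟨s, c1⟩)
      (fun e => c3 (by rw [show s = 0 from congrArg Subtype.val e]; exact zero_mem _)) c2
      (P := fun w => m w ∈ U) (fun a b ha hb => by simpa using add_mem ha hb)
      (fun a => by simpa using U.smul_mem a (H' s c1 c2 x hx c4)) (fun t q e => H' t t.2 q _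
        (H' s c1 c2 x hx c4) (by rw [inv_apply_apply]; exact mt hW.refl e)) ⟨w, hw⟩)
  have b7 := hU s b1 b2 (fun e => b3 (Submodule.disjoint_def.1 hn _ b1 e))
    (Rad_mono _ ((Submodule.span_singleton_le_iff_mem _ _).2 b1) (hW.mem_Rad_of_trans b2 b4 b5))
  obtain ⟨A, hA, hA'⟩ := hW.exists_good_lt_of_small hd hn hU hb
    (mul_mem (mul_mem (hM' hm) b4) (inv_mem (hM' hm))) (mul_mem (mul_mem hm b7) (inv_mem hm)) b6
    (X := F ∙ m s) (fun x hx => by
      have := a1 (m s) x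
      rw [inv_apply_apply, mem_perp_singleton.1 hx] at this
      simp [b5, this, apply_inv_apply, -LinearEquiv.coe_inv])
    (by have := finrank_span_singleton_le (F := F) (m s); omega)
  exact h.le_of_good_lt hU hb.pair hA hA' hM' fun X hX hX' =>
    hirr X hX fun g hg hgU => hX' g (hM ⟨hg, hgU⟩) hgU

theorem su_maxIn_nondeg6 [FiniteDimensional F V] (hH : IsHerm B) (hB : B.Nondegenerate)
    {W : Submodule F V} (h0 : W ≠ ⊥) (hW : Disjoint W (perp B W))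
    (hd : 2 * finrank F W < finrank F V) (h4 : finrank F W + 4 ≤ finrank F V) :
    MaxIn (SUG B) (subStab W) := by
  have h := polarG_su' hH hB (by omega)
  have hn := h.witt.disjoint_perp_perp hW
  have hf := h.witt.finrank_perp W
  obtain ⟨s, s0, hs⟩ := exists_skew_ne_zero hH.ne_id hH.invol
  refine MaxIn.congr (H := subStab (perp B W)) ⟨h.not_le_subStab
    (big_herm hH hB ⊤ h.witt.disjoint_top (by rw [finrank_top]; omega))
    (fun e => by rw [e, finrank_bot] at hf; omega) (h.witt.perp_ne_top h0),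
    fun M hM hM' m hm hmW => le_of_nondeg_tv h s0 (transC_herm hH hs) (singDim_herm hH) hn
      (big_herm hH hB _ hn (by omega)) (by omega) (by rw [h.witt.perp_perp]; omega)
      (fun X hX hX' => ?_) hM (hM'.trans h.le) hm hmW⟩
    fun g hg => h.witt.subStab_perp_iff (h.le hg)
  by_cases h1 : finrank F W ≤ 1
  · exact eq_top_of_lt_of_finrank hX (by omega)
  · exact h.irr_quot hn (by rw [h.witt.perp_perp]; exact big_herm hH hB W hW (by omega)) X hX hX'

end SU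

section Tab

open Cfsg Cfsg.Geo

variable [Fintype F] {n q : ℕ} (hF : Fintype.card F = q ^ 2)
include hF

theorem tabU_nd6 (W : Submodule F (Fin n → F)) (hW0 : W ≠ ⊥)
    (hW : IsNondegenerateOn (hermForm n F q) W) (hdim : 2 * finrank F W < n)
    (hn : finrank F W + 4 ≤ n) : IsMaximalIn (GU n F q ⊓ specialLinear (Fin n) F)
      (subspaceStabilizer W ⊓ (GU n F q ⊓ specialLinear (Fin n) F)) := by
  obtain ⟨σ, hσ, h1, h2⟩ := exists_conj hF
  exact (su_maxIn_nondeg6 (isHerm_hermSesq h1 h2) (hermSesq_nondegenerate σ) hW0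
    (disjoint_perp_of_nondegOn (Or.inr (hermForm_eq hσ)) hW) (by simpa using hdim)
    (by simpa using hn)).isMaximalIn (Geom.glEquiv _ F) (mem_SU_iff hσ)
      (mem_subspaceStabilizer_iff W)

theorem tabU_sub6 (hn : 6 ≤ n) (F₀ : Subfield F) {r : ℕ} (P : GL (Fin n) F) (hr : r.Prime)
    (hro : r ≠ 2 ∨ Odd q) (hcard : Fintype.card F = Nat.card F₀ ^ r)
    (hP : IsFormRationalStructure (hermForm n F q) F₀ 1 P) :
    IsMaximalIn (GU n F q ⊓ specialLinear (Fin n) F)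
      (subfieldSubgroup F₀ P ⊓ (GU n F q ⊓ specialLinear (Fin n) F)) := by
  obtain ⟨σ, hσ, h1, h2⟩ := exists_conj hF
  exact (su_maxIn_RG6 (ε := (Geom.glEquiv _ F P).symm) (isHerm_hermSesq h1 h2)
    (hermSesq_nondegenerate σ) (by simp; omega) hr (by rw [← hcard, Nat.card_eq_fintype_card])
    (fun a ha => hσ a ▸ pow_mem ha q)
    (fun x y hx hy => by simpa [hermForm_eq hσ] using rat_of_structure hP hy hx)
    (hro.imp_right fun h => Geom.two_ne_zero_of_odd_card (hF ▸ h.pow))).isMaximalIn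
    (Geom.glEquiv _ F) (mem_SU_iff hσ) (mem_subfieldSubgroup_iff P)

end Tab

end CF.MaxSub
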