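import Cfsg.Agent.MaxSub.TM
import Cfsg.Agent.MaxSub.F3B
import Cfsg.Agent.MaxSub.F3U
import Cfsg.Agent.Geom.MaxC1T
import Cfsg.Agent.Geom.MaxC2
import Cfsg.Agent.Geom.MaxTSP2
import Cfsg.Agent.Geom.C5C
import Cfsg.Agent.Geom.C8S

/-! Matrix forms of the symplectic maximality theorems, for the low-dimensional tables. -/

set_option autoImplicit false

namespace CF.MaxSub

open Cfsg Cfsg.Geo CF.Geom Module

variable {F : Type*} [Field F] [Fintype F] {m : ℕ}

theorem tabS_ts (W : Submodule F (Fin m ⊕ Fin m → F)) (hW0 : W ≠ ⊥)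
    (hW : IsTotallySingularFor (sympForm m F) W) :
    IsMaximalIn (spGL m F) (subspaceStabilizer W ⊓ spGL m F) :=
  (sp_maxIn_ts (sympBilin_nondegenerate m) (sympBilin_isAlt m) hW0
    (le_perp_of_orthogonalFor (isWittPair_symp m).isRefl
      (Or.inl fun u v => (sympBilin_apply m u v).symm) hW)).isMaximalIn
    (Geom.glEquiv _ F) (mem_spGL_iff m) (mem_subspaceStabilizer_iff W)

theorem tabS_nd (hm : 4 ≤ m) (W : Submodule F (Fin m ⊕ Fin m → F)) (hW0 : W ≠ ⊥)
    (hW : IsNondegenerateOn (sympForm m F) W) (hdim : finrank F W < m) :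
    IsMaximalIn (spGL m F) (subspaceStabilizer W ⊓ spGL m F) :=
  (sp_maxIn_nondeg (sympBilin_nondegenerate m) (sympBilin_isAlt m) hW0
    (disjoint_perp_of_nondegOn (Or.inl fun u v => (sympBilin_apply m u v).symm) hW)
    (by simp; omega) (by simp; omega)).isMaximalIn (Geom.glEquiv _ F) (mem_spGL_iff m)
    (mem_subspaceStabilizer_iff W)

theorem tabS_dec {t k : ℕ} (hk : 4 ≤ k ∨ 3 ≤ Fintype.card F)
    (D : Fin t → Submodule F (Fin m ⊕ Fin m → F))
    (hD : IsNondegenerateMDecomposition (sympForm m F) k D) :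
    IsMaximalIn (spGL m F) (decompositionStabilizer D ⊓ spGL m F) := by
  have := nontrivial_fin hD.decomp
  exact (sp_maxIn_dec (sympBilin_nondegenerate m) (sympBilin_isAlt m) (odec_sp hD)
    (hk.imp id fun h => exists_ne_zero_ne_one_of_card
      (by rw [Nat.card_eq_fintype_card]; omega))).isMaximalIn
    (Geom.glEquiv _ F) (mem_spGL_iff m) (mem_decompositionStabilizer_iff D)

theorem tabS_tsp (hm : 3 ≤ m) (hodd : Odd (Fintype.card F))
    (D : Fin 2 → Submodule F (Fin m ⊕ Fin m → F)) (hD : IsMDecomposition m D)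
    (hts : ∀ i, IsTotallySingularFor (sympForm m F) (D i)) :
    IsMaximalIn (spGL m F) (decompositionStabilizer D ⊓ spGL m F) :=
  (sp_maxIn_tsp (sympBilin_nondegenerate m) (sympBilin_isAlt m) (Geom.two_ne_zero_of_odd_card hodd)
    (tsp_of (isWittPair_alt _ (sympBilin_nondegenerate m) (sympBilin_isAlt m)) hD (fun _ _ _ => rfl)
      fun i x hx y hy => by rw [sympBilin_apply]; exact hts i x hx y hy)
    (by rw [hD.finrank_eq]; omega)).isMaximalIn (Geom.glEquiv _ F) (mem_spGL_iff m)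
    (mem_decompositionStabilizer_iff D)

theorem tabS_sub (hm : 3 ≤ m) (F₀ : Subfield F) (r : ℕ) (P : GL (Fin m ⊕ Fin m) F) (ζ : F)
    (hr : r.Prime) (hcard : Fintype.card F = Nat.card F₀ ^ r) (hζ : ζ ≠ 0)
    (hP : IsFormRationalStructure (sympForm m F) F₀ ζ P) :
    IsMaximalIn (spGL m F) (subfieldSubgroup F₀ P ⊓ spGL m F) := by
  refine (sp_maxIn_RG (B := ζ • sympBilin m F) (ε := (Geom.glEquiv _ F P).symm) (F₀ := F₀)
    (((polarG_sp (sympBilin_nondegenerate m) (sympBilin_isAlt m)).smul_form hζ).witt.nondegenerate)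
    (fun x => by simp [sympBilin_isAlt m x]) (by simp; omega) hr
    (by rw [← hcard, Nat.card_eq_fintype_card]) fun x y hx hy => ?_).isMaximalIn (Geom.glEquiv _ F)
    (fun g => by rw [mem_spGL_iff, SpG, SpG, Isom_smul hζ]) (mem_subfieldSubgroup_iff P)
  simpa [sympBilin_apply] using rat_of_structure hP hx hy

theorem tabS_o (hm : 2 ≤ m) (heven : ¬ Odd (Fintype.card F)) (Q : (Fin m ⊕ Fin m → F) → F)
    (hQ : IsNondegenerateQuadraticForm Q)
    (hpol : ∀ u v, QuadraticMap.polar Q u v = sympForm m F u v) :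
    IsMaximalIn (spGL m F) (quadSimilarityGroup Q ⊓ spGL m F) := by
  obtain ⟨Q, rfl, h⟩ := exists_quadraticForm hQ
  have e : sympBilin m F = QuadraticMap.polarBilin Q :=
    LinearMap.ext₂ fun u v => (sympBilin_apply m u v).trans (hpol u v).symm
  exact (o_sim_in_sp_maxIn h (two_eq_zero_of_not_odd_card heven) (by simp; omega)).isMaximalIn
    (Geom.glEquiv _ F) (fun g => by rw [mem_spGL_iff, e]) (mem_quadSimilarityGroup_iff Q)

end CF.MaxSub
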