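/-
Subfield subgroups of symplectic groups in characteristic two (dimension `≥ 4`).
-/
import Cfsg.Agent.MaxSub.TabS

set_option autoImplicit false

namespace CF.MaxSub

open Module Geom

variable {F V : Type*} [Field F] [AddCommGroup V] [Module F V] {ι : Type} [Fintype ι]
  {ε : V ≃ₗ[F] (ι → F)} {F₀ : Subfield F} {B : LinearMap.BilinForm F V}
  {M : Subgroup (V ≃ₗ[F] V)}

/-- `M` contains the element `γ y² + β y z + δ z²`. -/
def NS (B : LinearMap.BilinForm F V) (M : Subgroup (V ≃ₗ[F] V)) (y z : V) (γ β δ : F) : Prop :=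
  ∃ g ∈ M, ∀ x, g x = x + (γ * B y x + β * B z x) • y + (β * B y x + δ * B z x) • z

namespace NS

variable {y z : V} {γ β δ γ' β' δ' : F}

theorem add (hA : B.IsAlt) (hyz : B y z = 0) (h : NS B M y z γ β δ) (h' : NS B M y z γ' β' δ') :
    NS B M y z (γ + γ') (β + β') (δ + δ') := by
  obtain ⟨g, g1, g2⟩ := h
  obtain ⟨k, k1, k2⟩ := h'
  refine ⟨g * k, mul_mem g1 k1, fun x => ?_⟩
  simp only [LinearEquiv.mul_apply, g2, k2, map_add, map_smul, hA y, hA z, hyz,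
    hA.isRefl _ _ hyz, smul_eq_mul]
  module

theorem sub (hA : B.IsAlt) (hyz : B y z = 0) (h : NS B M y z γ β δ) (h' : NS B M y z γ' β' δ') :
    NS B M y z (γ - γ') (β - β') (δ - δ') := by
  obtain ⟨g, g1, g2⟩ := h
  obtain ⟨k, k1, k2⟩ := h'
  refine ⟨k⁻¹ * g, mul_mem (inv_mem k1) g1, fun x => k.injective ?_⟩
  simp only [LinearEquiv.mul_apply, apply_inv_apply]
  simp only [g2, k2, map_add, map_smul, hA y, hA z, hyz, hA.isRefl _ _ hyz, smul_eq_mul]
  module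

theorem map (h : NS B M y z γ β δ) {m : V ≃ₗ[F] V} (hm : m ∈ M) (hm' : m ∈ SpG B) :
    NS B M (m y) (m z) γ β δ := by
  obtain ⟨g, g1, g2⟩ := h
  refine ⟨m * g * m⁻¹, mul_mem (mul_mem hm g1) (inv_mem hm), fun x => ?_⟩
  obtain ⟨x, rfl⟩ := m.surjective x
  simp [g2, (mem_isom.1 hm').1]

theorem swap (h : NS B M y z γ β δ) : NS B M z y δ β γ :=
  let ⟨g, g1, g2⟩ := h
  ⟨g, g1, fun x => by rw [g2]; module⟩

theorem comb {a b : F} (h : NS B M (a • y + b • z) z γ β δ) :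
    NS B M y z (γ * a ^ 2) (a * (β + γ * b)) (δ + 2 * β * b + γ * b ^ 2) :=
  let ⟨g, g1, g2⟩ := h
  ⟨g, g1, fun x => by simp only [g2, map_add, map_smul, LinearMap.add_apply,
    LinearMap.smul_apply, smul_eq_mul]; module⟩

theorem left (h : NS B M y z γ 0 0) (w : V) : NS B M y w γ 0 0 := by simpa [NS] using h

end NS

/-- A subgroup of `Sp(V)` containing the rational isometries. -/
structure S4 (B : LinearMap.BilinForm F V) (ε : V ≃ₗ[F] (ι → F)) (F₀ : Subfield F)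
    (M : Subgroup (V ≃ₗ[F] V)) : Prop where
  nd : B.Nondegenerate
  alt : B.IsAlt
  rat : ∀ x y, IsRat ε F₀ x → IsRat ε F₀ y → B x y ∈ F₀
  four : 4 ≤ finrank F V
  le : SpG B ⊓ RG ε F₀ ≤ M
  le' : M ≤ SpG B

/-- The parameters of `M ∩ Rad y` in the direction of a rational vector. -/
def PS (B : LinearMap.BilinForm F V) (ε : V ≃ₗ[F] (ι → F)) (F₀ : Subfield F)
    (M : Subgroup (V ≃ₗ[F] V)) (β γ : F) : Prop :=
  ∀ y z, IsRat ε F₀ y → IsRat ε F₀ z → B y z = 0 → y ≠ 0 → z ∉ F ∙ y → NS B M y z γ β 0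

namespace S4

variable [Finite F] (h : S4 B ε F₀ M)
include h

theorem fd : FiniteDimensional F V := ε.symm.finiteDimensional

theorem witt : IsWittPair (RingHom.id F) B fun _ => (0 : F) :=
  haveI := h.fd
  isWittPair_alt B h.nd h.alt

theorem exists_not_perp {S : Set V} (hS : ∀ s ∈ S, IsRat ε F₀ s) {y : V}
    (hy : y ∉ Submodule.span F S) : ∃ x, IsRat ε F₀ x ∧ (∀ s ∈ S, B s x = 0) ∧ B y x ≠ 0 := by
  have := h.fd
  obtain ⟨w, h1, h2⟩ := h.witt.exists_dual_vec hy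
  obtain ⟨x, h3, h4, h5⟩ := exists_rat_notMem h.rat hS
    (fun s hs => h2 s (Submodule.subset_span hs)) (Z := perp B (F ∙ y))
    (by rw [mem_perp_singleton, h1]; exact one_ne_zero)
  exact ⟨x, h3, h4, fun e => h5 (mem_perp_singleton.2 e)⟩

theorem exists_dual {S : Set V} (hS : ∀ s ∈ S, IsRat ε F₀ s) {y : V} (hy' : IsRat ε F₀ y)
    (hy : y ∉ Submodule.span F S) : ∃ x, IsRat ε F₀ x ∧ (∀ s ∈ S, B s x = 0) ∧ B y x = 1 := by
  obtain ⟨x, h1, h2, h3⟩ := h.exists_not_perp hS hy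
  exact ⟨(B y x)⁻¹ • x, h1.smul (inv_mem (h.rat _ _ hy' h1)), fun s hs => by simp [h2 s hs],
    by simp [h3]⟩

theorem rat_of {y : V} (hy : ∀ x, IsRat ε F₀ x → B x y ∈ F₀) : IsRat ε F₀ y := by
  obtain ⟨y₀, h1, h2⟩ := exists_retract h.rat y
  rwa [show y = y₀ from sub_eq_zero.1 (by_contra fun hc => by
    obtain ⟨x, h3, -, h5⟩ := h.exists_not_perp (S := ∅) (by simp) (y := y - y₀) (by simpa using hc)
    exact h5 (h.witt.refl (by rw [map_sub, h2 x h3 (hy x h3), sub_self])))]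

theorem exists_perp {e : V} (he : IsRat ε F₀ e) :
    ∃ z, IsRat ε F₀ z ∧ B e z = 0 ∧ z ∉ F ∙ e := by
  obtain ⟨z, h1, h2, -, h3⟩ := exists_rat_perp h.witt h.rat he he (Z := F ∙ e) (by
    have := finrank_span_singleton_le (F := F) e
    have := h.four
    omega)
  exact ⟨z, h1, h2, h3⟩

theorem trans {v : V} (hv : IsRat ε F₀ v) {c : F} (hc : c ∈ F₀) (w : V) : NS B M v w c 0 0 := by
  have := h.fd
  obtain ⟨t, t1, t2⟩ := transC_alt h.alt c v rfl
  exact ⟨t, h.le ⟨t1, RatM.mem fun x hx => t2 x ▸ hx.add (hv.smul (mul_mem hc (h.rat _ _ hv hx)))⟩,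
    by simpa using t2⟩

theorem ps_rat {β γ : F} (hβ : β ∈ F₀) (hγ : γ ∈ F₀) : PS B ε F₀ M β γ :=
  fun y z hy hz hyz _ _ => by
    simpa using (((h.trans ((hy.smul (one_mem _)).add (hz.smul (one_mem _))) hβ z).comb.add h.alt
      hyz (h.trans hy (sub_mem hγ hβ) z)).sub h.alt hyz (h.trans hz hβ y).swap)

theorem exists_map {S : Set V} (hS : ∀ s ∈ S, IsRat ε F₀ s) {a b : V} (ha : IsRat ε F₀ a)
    (hb : IsRat ε F₀ b) (a1 : ∀ s ∈ S, B s a = 0) (b1 : ∀ s ∈ S, B s b = 0)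
    (a2 : a ∉ Submodule.span F S) (b2 : b ∉ Submodule.span F S) :
    ∃ m ∈ M, RatM ε F₀ m ∧ (∀ s ∈ S, m s = s) ∧ m a = b := by
  have key : ∀ a b, IsRat ε F₀ a → IsRat ε F₀ b → (∀ s ∈ S, B s a = 0) → (∀ s ∈ S, B s b = 0) →
      B b a ≠ 0 → ∃ m ∈ M, RatM ε F₀ m ∧ (∀ s ∈ S, m s = s) ∧ m a = b :=
    fun a b ha hb a1 b1 e => by
      have c1 := inv_mem (h.rat _ _ hb ha)
      obtain ⟨t, t1, t2⟩ := h.trans (hb.sub ha) c1 0
      refine ⟨t, t1, fun x hx => ?_, fun s hs => ?_, ?_⟩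
      · simpa [t2] using hx.add ((hb.sub ha).smul (mul_mem c1 (h.rat _ _ (hb.sub ha) hx)))
      · simp [t2, h.witt.refl (a1 s hs), h.witt.refl (b1 s hs)]
      · simp [t2, h.alt a, e]
  obtain ⟨c, c1, c2, c3, c4⟩ : ∃ c, IsRat ε F₀ c ∧ (∀ s ∈ S, B s c = 0) ∧ B a c ≠ 0 ∧
      B b c ≠ 0 := by
    obtain ⟨f, f1, f2, f3⟩ := h.exists_not_perp hS a2
    obtain ⟨g, g1, g2, g3⟩ := h.exists_not_perp hS b2
    by_cases e1 : B b f = 0
    · by_cases e2 : B a g = 0
      · exact ⟨f + g, f1.add g1, fun s hs => by simp [f2 s hs, g2 s hs], by simpa [e2] using f3,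
          by simpa [e1] using g3⟩
      · exact ⟨g, g1, g2, e2, g3⟩
    · exact ⟨f, f1, f2, f3, e1⟩
  obtain ⟨m, m1, m2, m3, m4⟩ := key a c ha c1 a1 c2 fun e => c3 (h.witt.refl e)
  obtain ⟨k, k1, k2, k3, k4⟩ := key c b c1 hb c2 b1 c4
  exact ⟨k * m, mul_mem k1 m1, k2.mul m2, fun s hs => by simp [m3 s hs, k3 s hs],
    by simp [m4, k4]⟩

theorem ps_of {y z : V} (hy : IsRat ε F₀ y) (hz : IsRat ε F₀ z) (hyz : B y z = 0) (y0 : y ≠ 0)
    (hz' : z ∉ F ∙ y) {β γ : F} (hN : NS B M y z γ β 0) : PS B ε F₀ M β γ :=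
  fun y' z' hy' hw hyw y0' hw' => by
    obtain ⟨m, m1, m2, -, rfl⟩ := h.exists_map (S := ∅) (by simp) hy hy' (by simp) (by simp)
      (by simpa using y0) (by simpa using y0')
    obtain ⟨k, k1, -, k3, rfl⟩ := h.exists_map (S := {m y}) (by simpa using hy') (m2 z hz) hw
      (by simpa [(mem_isom.1 (h.le' m1)).1] using hyz) (by simpa using hyw) (fun e => by
        obtain ⟨c, e⟩ := Submodule.mem_span_singleton.1 e
        exact hz' (Submodule.mem_span_singleton.2 ⟨c, m.injective (by simpa using e)⟩)) hw'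
    simpa [k3] using (hN.map m1 (h.le' m1)).map k1 (h.le' k1)

theorem ps_mul (h2 : (2 : F) = 0) {β γ β' γ' : F} (hP : PS B ε F₀ M β γ)
    (hP' : PS B ε F₀ M β' γ') : PS B ε F₀ M (β' * γ) (β' ^ 2 * γ) := fun z y hz hy hzy z0 hy' => by
  have hz' := not_mem_span_symm z0 hy'
  have hyz := h.witt.refl hzy
  obtain ⟨f, f1, f2, f3⟩ := h.exists_dual (S := {z}) (by simpa using hz) hy hy'
  have f4 : B f y = 1 := by
    rw [← h.alt.neg_eq, f3]
    linear_combination -h2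
  obtain ⟨k, k1, k2⟩ := hP' z f hz f1 (f2 z rfl) z0 fun e => by
    obtain ⟨c, rfl⟩ := Submodule.mem_span_singleton.1 e
    simp [hzy] at f4
  have h1 := hP y z hy hz hyz (by rintro rfl; exact hy' (zero_mem _)) hz'
  have h3 := h1.map k1 (h.le' k1)
  rw [show k y = (1 : F) • y + β' • z by simp [k2, hzy, f4], show k z = z by
    simp [k2, h.alt z, h.witt.refl (f2 z rfl)]] at h3
  convert (h3.comb.sub h.alt hyz h1).swap using 1
  · rw [h2]; ring
  · ring
  · ring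

theorem ge_of_ps (hP : ∀ β γ, PS B ε F₀ M β γ) : SpG B ≤ M := by
  have := h.fd
  have key : ∀ e, IsRat ε F₀ e → e ≠ 0 → Rad B (fun _ => (0 : F)) e ⊤ ≤ M := fun e he e0 => by
    refine h.witt.Rad_le_of_centre e0 rfl (fun w hw => ?_) fun c => ?_
    · have hZ : w ∈ Submodule.span F {x | IsRat ε F₀ x ∧ B e x = 0} := by_contra fun e1 => by
        obtain ⟨x, x1, x2, x3⟩ := exists_rat_notMem h.rat (S := {e}) (by simpa using he)
          (by simpa using hw) e1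
        exact x3 (Submodule.subset_span ⟨x1, x2 e rfl⟩)
      simpa using Submodule.span_induction
        (p := fun w _ => ∀ c : F, RD B (fun _ => (0 : F)) M e (c • w))
        (fun x hx c => by
          by_cases e1 : x ∈ F ∙ e
          · obtain ⟨d, rfl⟩ := Submodule.mem_span_singleton.1 e1
            simpa [smul_smul] using RD.self (c * d)
          obtain ⟨g, g1, g2⟩ := hP c 0 e x he hx.1 hx.2 e0 e1
          exact ⟨g, g1, ⟨h.le' g1, by simp [g2, h.alt e, h.witt.refl hx.2], fun y hy =>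
            Submodule.mem_span_singleton.2 ⟨c * B x y, by simp [g2, hy]⟩, fun _ => trivial⟩,
            fun f hf => Submodule.mem_span_singleton.2 ⟨c * B x f, by rw [g2, hf]; module⟩⟩)
        (fun c => by simpa using RD.zero)
        (fun x y _ _ hx hy c => by rw [smul_add]; exact (hx c).add (hy c))
        (fun a x _ hx c => by rw [smul_smul]; exact hx _) hZ 1
    · obtain ⟨z, z1, z2, z3⟩ := h.exists_perp he
      obtain ⟨t, t1, t2⟩ := hP 0 c e z he z1 z2 e0 z3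
      have t3 : ∀ x, t x = x + (c * B e x) • e := by simpa using t2
      exact ⟨t, t1, Rad_mono _ le_top (h.witt.mem_Rad_of_trans rfl (h.le' t1) t3), t3⟩
  obtain ⟨e, e1, -, e2⟩ := h.exists_perp IsRat.zero
  have e0 : e ≠ 0 := by simpa using e2
  obtain ⟨f, f1, -, f2⟩ := h.exists_dual (S := ∅) (by simp) e1 (by simpa using e0)
  exact (polarG_sp h.nd h.alt).le_of_pair rfl rfl (by simp [f2]) (key e e1 e0)
    (key f f1 (by rintro rfl; simp at f2))

variable (h2 : (2 : F) = 0) (hmax : ∀ K : Subfield F, F₀ ≤ K → K = F₀ ∨ K = ⊤)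
  (hM : ¬ SpG B ≤ M)
include h2 hmax hM

theorem mem_of_ps {β γ : F} (hP : PS B ε F₀ M β γ) : β ∈ F₀ := by
  have h1 : ∀ {β γ β' γ'}, PS B ε F₀ M β γ → PS B ε F₀ M β' γ' → PS B ε F₀ M (β - β') (γ - γ') :=
    fun a b y z hy hz hyz y0 hz' => by
      simpa using (a y z hy hz hyz y0 hz').sub h.alt hyz (b y z hy hz hyz y0 hz')
  have h0 := h.ps_rat (zero_mem F₀) (zero_mem _)
  have h3 := h.ps_rat (one_mem F₀) (zero_mem _)
  have h4 : ∀ β γ, PS B ε F₀ M β γ → ∃ δ, PS B ε F₀ M δ β := fun β γ a => by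
    obtain ⟨⟨b, c, hb⟩, e⟩ := (Finite.injective_iff_surjective
      (f := fun x : {β // ∃ γ, PS B ε F₀ M β γ} => (⟨x.1 ^ 2, by
        obtain ⟨c, hc⟩ := x.2
        exact ⟨_, by simpa using (h.ps_mul h2 (h.ps_mul h2 (h.ps_rat (zero_mem _) (one_mem _)) hc)
          h3)⟩⟩ : {β // ∃ γ, PS B ε F₀ M β γ}))).1 (fun x y e => Subtype.ext (by
        have e : x.1 ^ 2 = y.1 ^ 2 := congrArg Subtype.val e
        exact sub_eq_zero.1 (pow_eq_zero_iff two_ne_zero |>.1 (by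
          linear_combination e + (y.1 ^ 2 - x.1 * y.1) * h2)))) ⟨β, γ, a⟩
    obtain rfl : b ^ 2 = β := congrArg Subtype.val e
    exact ⟨_, by simpa using h.ps_mul h2 (h.ps_rat (zero_mem _) (one_mem _)) hb⟩
  let R : Subring F :=
    { carrier := {β | ∃ γ, PS B ε F₀ M β γ}
      mul_mem' := fun ⟨c, hc⟩ ⟨d, hd⟩ => let ⟨_, e⟩ := h4 _ _ hd; ⟨_, h.ps_mul h2 e hc⟩
      one_mem' := ⟨0, h3⟩
      add_mem' := fun ⟨c, hc⟩ ⟨d, hd⟩ => ⟨_, by simpa using h1 hc (h1 h0 hd)⟩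
      zero_mem' := ⟨0, h0⟩
      neg_mem' := fun ⟨c, hc⟩ => ⟨_, by simpa using h1 h0 hc⟩ }
  let K : Subfield F := ⟨R, fun a ha => by
    by_cases h0 : a = 0
    · rw [h0, inv_zero]; exact R.zero_mem
    · exact inv_mem_of_finite R ha (mul_inv_cancel₀ h0) (inv_mul_cancel₀ h0)⟩
  by_contra hβ
  have hK := (hmax K fun c hc => ⟨0, h.ps_rat hc (zero_mem _)⟩).resolve_left
    fun e => hβ (e.le ⟨γ, hP⟩)
  have h5 : ∀ c : F, ∃ δ, PS B ε F₀ M δ c := fun c =>
    (show c ∈ K from hK.ge trivial).elim fun _ e => h4 _ _ e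
  have h6 : ∀ c : F, PS B ε F₀ M c c := fun c =>
    let ⟨_, e⟩ := h5 c; by simpa using h.ps_mul h2 e h3
  have h7 : β - β ^ 2 ≠ 0 := fun e => hβ (by
    rcases mul_eq_zero.1 (show β * (1 - β) = 0 by linear_combination e) with e | e
    exacts [e ▸ zero_mem _, sub_eq_zero.1 e ▸ one_mem _])
  refine hM (h.ge_of_ps fun a c => ?_)
  obtain ⟨_, e⟩ := h5 ((c - a) / (β - β ^ 2))
  convert h1 (h6 c) (h1 (h.ps_mul h2 e hP) (h6 (β ^ 2 * ((c - a) / (β - β ^ 2))))) using 1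
  · rw [← sub_mul, mul_div_cancel₀ _ h7, sub_sub_cancel]
  · ring

theorem coeff_mem {y z : V} (hy : IsRat ε F₀ y) (hz : IsRat ε F₀ z) (hyz : B y z = 0) (y0 : y ≠ 0)
    (hz' : z ∉ F ∙ y) {a b : F} (hT : NS B M (a • y + b • z) 0 1 0 0) : b ^ 2 ∈ F₀ := by
  obtain ⟨k, k1, -, k3, k4⟩ := h.exists_map (S := {y}) (by simpa using hy) hz (hz.add hy)
    (by simpa using hyz) (by simp [hyz, h.alt y]) hz' fun e => hz' (by
      simpa using sub_mem e (Submodule.mem_span_singleton_self y))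
  have h1 := hT.map k1 (h.le' k1)
  rw [show k (a • y + b • z) = (a + b) • y + b • z by simp [k3, k4]; module] at h1
  refine h.mem_of_ps h2 hmax hM (h.ps_of hy hz hyz y0 hz' (γ := b ^ 2) ?_)
  convert ((h1.left z).comb.sub h.alt hyz (hT.left z).comb) using 1
  · linear_combination -a * b * h2
  · ring
  · ring

theorem rat_of_trans {u : V} (hT : NS B M u 0 1 0 0) : IsRat ε F₀ u := by
  have hsq : ∀ a : F, a ^ 2 ∈ F₀ → a ∈ F₀ := fun a ha => by
    have := CharTwo.of_one_ne_zero_of_two_eq_zero (one_ne_zero (α := F)) h2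
    obtain ⟨b, hb⟩ : IsSquare (⟨_, ha⟩ : F₀) :=
      FiniteField.isSquare_of_char_two (ringChar.eq F₀ 2) _
    have hb : a ^ 2 = b * b := congrArg Subtype.val hb
    rw [show a = b from sub_eq_zero.1 (pow_eq_zero_iff two_ne_zero |>.1 (by
      linear_combination hb + (b ^ 2 - a * b) * h2))]
    exact b.2
  rcases eq_or_ne u 0 with rfl | u0
  · exact IsRat.zero
  by_cases hc : ∃ e e', IsRat ε F₀ e ∧ IsRat ε F₀ e' ∧ B e e' = 0 ∧ B e u ≠ 0 ∧
      B e' u / B e u ∉ F₀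
  · obtain ⟨e, e', e1, e2, e3, e4, e5⟩ := hc
    have e0 : e ≠ 0 := by rintro rfl; simp at e4
    have e6 := h.witt.refl e3
    have n1 : e' ∉ F ∙ e := fun e7 => by
      obtain ⟨a, rfl⟩ := Submodule.mem_span_singleton.1 e7
      exact e5 (by simpa [e4] using e1.mem_of_smul e0 e2)
    obtain ⟨τ, τ2⟩ : ∃ τ, B e' u = τ * B e u := ⟨B e' u / B e u, by field_simp⟩
    rw [τ2, mul_div_cancel_right₀ _ e4] at e5
    obtain ⟨s, s1, s2⟩ := hT
    have r1 : B u (e' - τ • e) = 0 := h.witt.refl (by simp [τ2])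
    obtain ⟨k, ⟨k1, k2⟩, l, m, -, k3, -, k4⟩ := exists_slope_vec F₀
      (M ⊓ MulAction.stabilizer _ (e' - τ • e)) (F ∙ (e' - τ • e)) e u
      (fun k hk x hx => by
        obtain ⟨a, rfl⟩ := Submodule.mem_span_singleton.1 hx
        rw [map_smul, show k (e' - τ • e) = e' - τ • e from hk.2]; exact hx)
      {a | ∃ k ∈ M ⊓ MulAction.stabilizer _ (e' - τ • e), k e - e ∈ F ∙ (e' - τ • e) ∧
        k u - (u + a • e) ∈ F ∙ (e' - τ • e)} (fun a ha => ha)
      (card_sq_le_ncard F₀ (a := B e u) (b := B e u * τ ^ 2) e4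
        (fun e => e5 (hsq _ (by simpa [e4] using e))) fun i hi j hj => by
        obtain ⟨a, a1, a2⟩ := (h.trans e1 hi e').add h.alt e3 (h.trans e2 hj e).swap
        refine ⟨a, ⟨a1, show a (e' - τ • e) = _ by simp [a2, h.alt e, h.alt e', e3, e6]⟩,
          by simp [a2, h.alt e, e6], Submodule.mem_span_singleton.2 ⟨j * B e' u, ?_⟩⟩
        rw [a2, τ2]
        module)
      (s := s) ⟨s1, show s (e' - τ • e) = _ by rw [s2, r1]; simp⟩ (b := B u e)
      (fun e => e4 (h.witt.refl e)) (by simp [s2]) (by simp [s2, h.alt u])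
    replace k2 : k (e' - τ • e) = e' - τ • e := k2
    obtain ⟨m, hm⟩ := Submodule.mem_span_singleton.1 k3
    have k5 : k e = l • e + m • (e' - τ • e) := by rw [hm]; abel
    have b1 := ((h.trans e1 (one_mem _) 0).map k1 (h.le' k1)).left 0
    have b2 := ((h.trans e2 (one_mem _) 0).map k1 (h.le' k1)).left 0
    rw [show k e = (l - m * τ) • e + m • e' by rw [k5]; module] at b1
    rw [show k e' = (τ * (l - 1 - τ * m)) • e + (1 + τ * m) • e' by
      rw [← sub_add_cancel e' (τ • e), map_add, k2, map_smul, k5]; module] at b2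
    have p1 := hsq _ (h.coeff_mem h2 hmax hM e1 e2 e3 e0 n1 b1)
    have p2 := hsq _ (h.coeff_mem h2 hmax hM e1 e2 e3 e0 n1 b2)
    have m0 : m = 0 := by_contra fun m0 => e5 (by
      simpa [m0] using div_mem (sub_mem p2 (one_mem _)) p1)
    rw [add_comm] at b1
    have p3 := h.coeff_mem h2 hmax hM e2 e1 e6 (by rintro rfl; exact n1 (zero_mem _))
      (not_mem_span_symm e0 n1) b1
    exact (k4 (by simpa [m0] using p3)).elim
  push Not at hc
  obtain ⟨e, e1, -, e3⟩ := h.exists_not_perp (S := ∅) (by simp) (y := u) (by simpa using u0)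
  replace e3 : B e u ≠ 0 := fun e => e3 (h.witt.refl e)
  obtain ⟨z, z1, z3, z4⟩ := h.exists_perp e1
  have c1 := sub_mem (one_mem F₀) (hc e z e1 z1 z3 e3)
  have f1 := z1.add (e1.smul c1)
  have f3 : B (z + (1 - B z u / B e u) • e) u = B e u := by
    simp only [map_add, map_smul, LinearMap.add_apply, LinearMap.smul_apply, smul_eq_mul]
    field_simp; ring
  have f4 : z + (1 - B z u / B e u) • e ∉ F ∙ e := fun e4 => z4 (by
    simpa using sub_mem e4 (Submodule.smul_mem _ (1 - B z u / B e u)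
      (Submodule.mem_span_singleton_self e)))
  generalize z + (1 - B z u / B e u) • e = e' at f1 f3 f4
  obtain ⟨d, d1, d2, d3⟩ := h.exists_dual (S := {e}) (by simpa using e1) f1 f4
  have hu : IsRat ε F₀ ((B e u)⁻¹ • u) := h.rat_of fun x hx => by
    have c2 := h.rat _ _ f1 hx
    have g1 := hc e' _ f1 (hx.sub (d1.smul c2)) (by simp [d3]) (f3 ▸ e3)
    have g2 := hc e _ e1 (d1.smul c2) (by simp [d2 e rfl]) e3
    rw [f3] at g1
    convert add_mem g1 g2 using 1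
    simp; field_simp; ring
  obtain ⟨w, w1, w2, w3⟩ := h.exists_perp hu
  simpa [e3] using hu.smul (hsq _ (h.coeff_mem h2 hmax hM w1 hu (h.witt.refl w2)
    (by rintro rfl; exact w3 (zero_mem _)) (not_mem_span_symm (by simp [e3, u0]) w3)
    (a := 0) (b := B e u) (by simpa [e3] using hT)))

end S4

theorem sp_maxIn_RG_two [Finite F] (hB : B.Nondegenerate) (hA : B.IsAlt) (h4 : 4 ≤ finrank F V)
    (h2 : (2 : F) = 0) {r : ℕ} (hr : r.Prime) (hc : Nat.card F₀ ^ r = Nat.card F)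
    (hR : ∀ x y, IsRat ε F₀ x → IsRat ε F₀ y → B x y ∈ F₀) : MaxIn (SpG B) (RG ε F₀) := by
  have := Fintype.ofFinite F
  have : FiniteDimensional F V := ε.symm.finiteDimensional
  refine ⟨fun hle => ?_, fun M h1 h3 m hm hm' => by_contra fun hn => hm' (RatM.mem fun x hx => ?_)⟩
  · have h : S4 B ε F₀ (SpG B) := ⟨hB, hA, hR, h4, inf_le_left, le_rfl⟩
    obtain ⟨e, e1, -, e2⟩ := h.exists_perp IsRat.zero
    have e0 : e ≠ 0 := by simpa using e2
    obtain ⟨f, f1, -, f2⟩ := h.exists_dual (S := ∅) (by simp) e1 (by simpa using e0)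
    refine ne_top_of_card_eq_pow hr.two_le (by rw [hc, Nat.card_eq_fintype_card])
      (eq_top_iff.2 fun γ _ => ?_)
    obtain ⟨t, t1, t2⟩ := transC_alt hA γ e rfl
    obtain ⟨a, a0, ha⟩ := hle t1
    have h5 : a ∈ F₀ := e1.mem_of_smul e0 (by simpa [t2, hA e] using (ha e).1 e1)
    exact e1.mem_of_smul e0 (by
      simpa [t2, f2, a0] using (((ha f).1 f1).smul (inv_mem h5)).sub f1)
  · have h : S4 B ε F₀ M := ⟨hB, hA, hR, h4, h1, h3⟩
    exact h.rat_of_trans h2 (fun K => Classical.subfield_eq_or_eq_top hr hc) hn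
      (((h.trans hx (one_mem _) 0).map hm (h3 hm)).left 0)

open Cfsg Cfsg.Geo in
theorem tabS_sub_two [Fintype F] {m : ℕ} (hm : 2 ≤ m) (heven : ¬ Odd (Fintype.card F))
    (F₀ : Subfield F) (r : ℕ) (P : GL (Fin m ⊕ Fin m) F) (ζ : F)
    (hr : r.Prime) (hcard : Fintype.card F = Nat.card F₀ ^ r) (hζ : ζ ≠ 0)
    (hP : IsFormRationalStructure (sympForm m F) F₀ ζ P) :
    IsMaximalIn (spGL m F) (subfieldSubgroup F₀ P ⊓ spGL m F) := by
  refine (sp_maxIn_RG_two (B := ζ • sympBilin m F) (ε := (Geom.glEquiv _ F P).symm) (F₀ := F₀)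
    (((polarG_sp (sympBilin_nondegenerate m) (sympBilin_isAlt m)).smul_form hζ).witt.nondegenerate)
    (fun x => by simp [sympBilin_isAlt m x]) (by simp; omega) (two_eq_zero_of_not_odd_card heven) hr
    (by rw [← hcard, Nat.card_eq_fintype_card]) fun x y hx hy => ?_).isMaximalIn (Geom.glEquiv _ F)
    (fun g => by rw [mem_spGL_iff, SpG, SpG, Isom_smul hζ]) (mem_subfieldSubgroup_iff P)
  simpa [sympBilin_apply] using rat_of_structure hP hx hy

end CF.MaxSub
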