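import Cfsg.Agent.Classical.LowDim2
import Cfsg.Agent.Geom.UC2

/-! Transfer of maximality along representations; the subgroups `GL₂(q).2` and `GU₂(q).2` of
`Sp₄(q)`, `q ≥ 5` odd, through the five-dimensional orthogonal model. -/

set_option autoImplicit false

namespace CF.MaxSub

open Cfsg Cfsg.Geo CF.Geom CF.Classical Module Matrix QuadraticMap

theorem maxIn_of_rep {A G G' : Type*} [Group A] [Group G] [Group G'] (φ : A →* G) (ρ : A →* G')
    {H : Subgroup G} {H' : Subgroup G'} (h : MaxIn ρ.range H')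
    (hH : ∀ a, φ a ∈ H ↔ ρ a ∈ H') : MaxIn φ.range H := by
  refine ⟨fun hK => h.1 ?_, ?_⟩
  · rintro _ ⟨a, rfl⟩
    exact (hH a).1 (hK ⟨a, rfl⟩)
  intro M hM hM' m hm hmH
  obtain ⟨a, rfl⟩ := hM' hm
  have h1 := h.2 ((M.comap φ).map ρ) (by
      rintro _ ⟨⟨b, rfl⟩, hb⟩
      exact ⟨b, hM ⟨⟨b, rfl⟩, (hH b).2 hb⟩, rfl⟩)
    (by rintro _ ⟨b, -, rfl⟩; exact ⟨b, rfl⟩) (ρ a) ⟨a, hm, rfl⟩ fun e => hmH ((hH a).2 e)
  rintro _ ⟨b, rfl⟩
  obtain ⟨c, hc, e⟩ := h1 ⟨b, rfl⟩
  have h2 : φ (b * c⁻¹) ∈ M := hM ⟨⟨_, rfl⟩, (hH _).2 (by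
    rw [map_mul, map_inv, ← e, mul_inv_cancel]; exact H'.one_mem)⟩
  have h3 := M.mul_mem h2 hc
  rwa [← map_mul, inv_mul_cancel_right] at h3

theorem MaxIn.isMaximalIn' {G : Type*} [Group G] {K H : Subgroup G} (h : MaxIn K H) :
    IsMaximalIn K (H ⊓ K) :=
  h.isMaximalIn (MulEquiv.refl G) (fun _ => Iff.rfl) fun _ => Iff.rfl

theorem range_OG {A F V : Type*} [Group A] [Field F] [AddCommGroup V] [Module F V]
    {Q : QuadraticForm F V} (ρ : A →* OG Q) (h : ρ.range = commutator _) :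
    ((OG Q).subtype.comp ρ).range = OmG Q := by
  rw [MonoidHom.range_comp, h]; rfl

variable {F : Type*} [Field F]

theorem eq_of_dot {ι : Type*} [Fintype ι] [DecidableEq ι] {X Y : Matrix ι ι F}
    (h : ∀ u v, u ⬝ᵥ X *ᵥ v = u ⬝ᵥ Y *ᵥ v) : X = Y := by
  ext i j
  simpa using h (Pi.single i 1) (Pi.single j 1)

theorem symp_adj {m : ℕ} {X Y : Matrix (Fin m ⊕ Fin m) (Fin m ⊕ Fin m) F} :
    (∀ u v, sympForm m F (X *ᵥ u) v = sympForm m F u (Y *ᵥ v)) ↔
      Xᵀ * J (Fin m) F = J (Fin m) F * Y := by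
  have e : ∀ u v, (sympForm m F (X *ᵥ u) v = sympForm m F u (Y *ᵥ v)) ↔
      u ⬝ᵥ (Xᵀ * J (Fin m) F) *ᵥ v = u ⬝ᵥ (J (Fin m) F * Y) *ᵥ v := fun u v => by
    rw [sympForm, sympForm, mulVec_mulVec, ← mulVec_mulVec v Xᵀ, dotProduct_mulVec u Xᵀ,
      vecMul_transpose]
  exact ⟨fun h => eq_of_dot fun u v => (e u v).1 (h u v), fun h u v => (e u v).2 (by rw [h])⟩

theorem range_spGL (m : ℕ) :
    (symplecticGroup (Fin m) F).subtype.toHomUnits.range = spGL m F := by
  have e : ∀ (g : Matrix (Fin m ⊕ Fin m) (Fin m ⊕ Fin m) F) u v,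
      sympForm m F (g *ᵥ u) (g *ᵥ v) = u ⬝ᵥ (gᵀ * J (Fin m) F * g) *ᵥ v := fun g u v => by
    rw [sympForm, ← mulVec_mulVec, ← mulVec_mulVec, dotProduct_mulVec u gᵀ, vecMul_transpose]
  ext g
  constructor
  · rintro ⟨a, rfl⟩ u v
    exact (e a.1 u v).trans (by rw [SymplecticGroup.mem_iff'.1 a.2]; rfl)
  · intro h
    exact ⟨⟨g.1, SymplecticGroup.mem_iff'.2 (eq_of_dot fun u v => (e g.1 u v).symm.trans (h u v))⟩,
      Units.ext rfl⟩

/-- The five-dimensional space of self-adjoint matrices of trace zero. -/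
def ymat (F : Type*) [Field F] :
    (Unit ⊕ (Fin 2 ⊕ Fin 2) → F) →ₗ[F] Matrix (Fin 2 ⊕ Fin 2) (Fin 2 ⊕ Fin 2) F where
  toFun v := fromBlocks !![v (.inl ()), v (.inr (.inl 1)); v (.inr (.inr 1)), -v (.inl ())]
    !![0, -v (.inr (.inl 0)); v (.inr (.inl 0)), 0] !![0, v (.inr (.inr 0)); -v (.inr (.inr 0)), 0]
    !![v (.inl ()), v (.inr (.inr 1)); v (.inr (.inl 1)), -v (.inl ())]
  map_add' u v := by ext (i | i) (j | j) <;> fin_cases i <;> fin_cases j <;> simp [add_comm]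
  map_smul' c v := by ext (i | i) (j | j) <;> fin_cases i <;> fin_cases j <;> simp

theorem ymat_apply (v : Unit ⊕ (Fin 2 ⊕ Fin 2) → F) : ymat F v =
    fromBlocks !![v (.inl ()), v (.inr (.inl 1)); v (.inr (.inr 1)), -v (.inl ())]
    !![0, -v (.inr (.inl 0)); v (.inr (.inl 0)), 0] !![0, v (.inr (.inr 0)); -v (.inr (.inr 0)), 0]
    !![v (.inl ()), v (.inr (.inr 1)); v (.inr (.inl 1)), -v (.inl ())] := rfl

theorem ymat_eq (v : Unit ⊕ (Fin 2 ⊕ Fin 2) → F) : ymat F v =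
    (altM F (five F v)).submatrix finSumFinEquiv finSumFinEquiv * J (Fin 2) F := by
  have e : (altM F (five F v)).submatrix (finSumFinEquiv (m := 2) (n := 2)) finSumFinEquiv =
      fromBlocks !![0, v (.inr (.inl 0)); -v (.inr (.inl 0)), 0]
        !![v (.inl ()), v (.inr (.inl 1)); v (.inr (.inr 1)), -v (.inl ())]
        !![-v (.inl ()), -v (.inr (.inr 1)); -v (.inr (.inl 1)), v (.inl ())]
        !![0, v (.inr (.inr 0)); -v (.inr (.inr 0)), 0] := by
    ext (i | i) (j | j) <;> fin_cases i <;> fin_cases j <;> rfl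
  rw [e, J, fromBlocks_multiply, ymat_apply]
  ext (i | i) (j | j) <;> fin_cases i <;> fin_cases j <;> simp

theorem ymat_sq (v : Unit ⊕ (Fin 2 ⊕ Fin 2) → F) : ymat F v * ymat F v = qOdd 2 F v • 1 := by
  rw [ymat_apply, fromBlocks_multiply, qOdd_apply]
  ext (i | i) (j | j) <;> fin_cases i <;> fin_cases j <;> simp [Fin.sum_univ_two] <;> ring

theorem ymat_polar (u v : Unit ⊕ (Fin 2 ⊕ Fin 2) → F) :
    ymat F u * ymat F v + ymat F v * ymat F u = polar (qOdd 2 F) u v • 1 := by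
  rw [polar, sub_smul, sub_smul, ← ymat_sq, ← ymat_sq, ← ymat_sq, map_add]
  noncomm_ring

theorem ymat_adj (v : Unit ⊕ (Fin 2 ⊕ Fin 2) → F) :
    (ymat F v)ᵀ * J (Fin 2) F = J (Fin 2) F * ymat F v := by
  rw [ymat_apply, J, fromBlocks_transpose, fromBlocks_multiply, fromBlocks_multiply]
  ext (i | i) (j | j) <;> fin_cases i <;> fin_cases j <;> simp

theorem ymat_trace (v : Unit ⊕ (Fin 2 ⊕ Fin 2) → F) : (ymat F v).trace = 0 := by
  simp [ymat_apply, trace, Fintype.sum_sum_type, Fin.sum_univ_two]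

theorem ymat_injective : Function.Injective (ymat F) := by
  refine (injective_iff_map_eq_zero _).2 fun v h => ?_
  have h1 := congrFun (congrFun h (.inl 0)) (.inl 0)
  have h2 := congrFun (congrFun h (.inl 0)) (.inl 1)
  have h3 := congrFun (congrFun h (.inl 1)) (.inl 0)
  have h4 := congrFun (congrFun h (.inl 1)) (.inr 0)
  have h5 := congrFun (congrFun h (.inr 0)) (.inl 1)
  simp [ymat_apply] at h1 h2 h3 h4 h5
  ext (i | i | i) <;> fin_cases i <;> simp [*]

theorem exists_ymat (h2 : (2 : F) ≠ 0) {X : Matrix (Fin 2 ⊕ Fin 2) (Fin 2 ⊕ Fin 2) F}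
    (h : Xᵀ * J (Fin 2) F = J (Fin 2) F * X) (ht : X.trace = 0) : ∃ v, ymat F v = X := by
  refine ⟨Sum.elim (fun _ => X (.inl 0) (.inl 0)) (Sum.elim ![X (.inl 1) (.inr 0), X (.inl 0) (.inl 1)]
    ![X (.inr 0) (.inl 1), X (.inl 1) (.inl 0)]), ?_⟩
  have e := fun i j => congrFun (congrFun h i) j
  have e1 := e (.inl 0) (.inl 0)
  have e2 := e (.inl 0) (.inl 1)
  have e3 := e (.inl 1) (.inl 1)
  have e4 := e (.inr 0) (.inr 0)
  have e5 := e (.inr 0) (.inr 1)
  have e6 := e (.inr 1) (.inr 1)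
  have e7 := e (.inl 0) (.inr 0)
  have e8 := e (.inl 0) (.inr 1)
  have e9 := e (.inl 1) (.inr 0)
  have e10 := e (.inl 1) (.inr 1)
  simp [mul_apply, J, Fintype.sum_sum_type, Fin.sum_univ_two, trace, one_apply]
    at e1 e2 e3 e4 e5 e6 e7 e8 e9 e10 ht
  have c : ∀ {x : F}, 2 * x = 0 → x = 0 := fun hx => (mul_eq_zero.1 hx).resolve_left h2
  have f1 : X (.inr 0) (.inl 0) = 0 := c (by linear_combination e1)
  have f3 : X (.inr 1) (.inl 1) = 0 := c (by linear_combination e3)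
  have f4 : X (.inl 0) (.inr 0) = 0 := c (by linear_combination -e4)
  have f6 : X (.inl 1) (.inr 1) = 0 := c (by linear_combination -e6)
  have f7 : X (.inl 1) (.inl 1) + X (.inl 0) (.inl 0) = 0 := c (by linear_combination ht + e7 + e10)
  ext (i | i) (j | j) <;> fin_cases i <;> fin_cases j <;> simp [ymat_apply] <;>
    first | exact f1.symm | exact f3.symm | exact f4.symm | exact f6.symm | grind

theorem scalar_of_comm_ymat {X : Matrix (Fin 2 ⊕ Fin 2) (Fin 2 ⊕ Fin 2) F} (h2 : (2 : F) ≠ 0)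
    (h : ∀ v, ymat F v * X = X * ymat F v) : X = X (.inl 0) (.inl 0) • 1 := by
  have e := fun k i j => congrFun (congrFun (h (Pi.single k 1)) i) j
  have a1 := e (.inr (.inl 0))
  have a2 := e (.inr (.inr 0))
  have a3 := e (.inr (.inl 1))
  have a4 := e (.inr (.inr 1))
  simp only [Sum.forall, Fin.forall_fin_two] at a1 a2 a3 a4
  simp [mul_apply, ymat_apply, Fintype.sum_sum_type, Fin.sum_univ_two] at a1 a2 a3 a4
  ext (i | i) (j | j) <;> fin_cases i <;> fin_cases j <;> simp <;> grind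

theorem exists_model_five [Finite F] (h2 : (2 : F) ≠ 0) :
    ∃ ρ : symplecticGroup (Fin 2) F →* ((Unit ⊕ (Fin 2 ⊕ Fin 2) → F) ≃ₗ[F] _),
      ρ.range = OmG (qOdd 2 F) ∧ ∀ g v, ymat F (ρ g v) * g.1 = g.1 * ymat F v := by
  obtain ⟨ρ, h1, h⟩ := exists_rep_five h2
  have hQ := qOdd_nondegenerate h2 2
  refine ⟨(OG _).subtype.comp ρ, range_OG ρ (range_eq_commutator' hQ (by simp) ρ ?_
    spFour_injective (fun g => (h g).1) (commutator_Sp_four (three_le_card_of_two_ne_zero h2))),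
    fun g v => ?_⟩
  · rw [card_OG_odd hQ (m := 2) (by simp), card_symplecticGroup, mul_assoc]
  · have e : (spFour F g * altM F (five F v) * (spFour F g)ᵀ).submatrix
        (finSumFinEquiv (m := 2) (n := 2)) finSumFinEquiv =
        g.1 * (altM F (five F v)).submatrix finSumFinEquiv finSumFinEquiv * g.1ᵀ := by
      rw [← submatrix_mul_equiv _ _ _ (finSumFinEquiv (m := 2) (n := 2)),
        ← submatrix_mul_equiv _ _ _ (finSumFinEquiv (m := 2) (n := 2)), spFour_apply]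
      simp
    rw [ymat_eq, ymat_eq]
    change (altM F (five F ((ρ g).1 v))).submatrix _ _ * _ * _ = _
    rw [h1, altM_wedge, e, mul_assoc, mul_assoc, ← mul_assoc g.1ᵀ, SymplecticGroup.mem_iff'.1 g.2,
      mul_assoc]

theorem trace_of_adj {m : ℕ} {X Y : Matrix (Fin m ⊕ Fin m) (Fin m ⊕ Fin m) F}
    (h : Xᵀ * J (Fin m) F = J (Fin m) F * Y) : X.trace = Y.trace := by
  have e : Xᵀ = -(J (Fin m) F * Y * J (Fin m) F) := by
    rw [← h, mul_assoc, J_squared]; simp
  rw [← trace_transpose X, e, trace_neg, trace_mul_comm, ← mul_assoc, J_squared]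
  simp

theorem sq_eq_one_iff_of_ne_zero_aux {y δ : F} (h : δ = y ^ 2 * δ) (hδ : δ ≠ 0) :
    y = 1 ∨ y = -1 :=
  mul_self_eq_one_iff.1 (mul_right_cancel₀ hδ (by linear_combination -h))

/-- The stabiliser in `Sp₄(q)` of `±θ`, for a skew-adjoint `θ` with non-zero scalar square. -/
theorem sp4_theta [Finite F] (h2 : (2 : F) ≠ 0) (h3 : 3 < Nat.card F)
    {θ : Matrix (Fin 2 ⊕ Fin 2) (Fin 2 ⊕ Fin 2) F} (ha : θᵀ * J (Fin 2) F = J (Fin 2) F * -θ)
    {δ : F} (hδ : δ ≠ 0) (hθ : θ * θ = δ • 1) {H : Subgroup (GL (Fin 2 ⊕ Fin 2) F)}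
    (hH : ∀ g ∈ spGL 2 F, g ∈ H ↔ g.1 * θ = θ * g.1 ∨ g.1 * θ = -(θ * g.1)) :
    IsMaximalIn (spGL 2 F) (H ⊓ spGL 2 F) := by
  obtain ⟨ρ, hr, hρ⟩ := exists_model_five h2
  have hQ := qOdd_nondegenerate h2 2
  have hW := isWittPair_quad _ hQ
  have c2 : ∀ {X : Matrix (Fin 2 ⊕ Fin 2) (Fin 2 ⊕ Fin 2) F}, X + X = 0 → X = 0 := fun {X} h => by
    rw [← two_smul F] at h; exact (smul_eq_zero.1 h).resolve_left h2
  have cθ : ∀ {X : Matrix (Fin 2 ⊕ Fin 2) (Fin 2 ⊕ Fin 2) F}, θ * X = 0 → X = 0 := fun {X} h => by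
    have e : θ * (θ * X) = 0 := by rw [h, mul_zero]
    rw [← mul_assoc, hθ, smul_mul_assoc, one_mul] at e
    exact (smul_eq_zero.1 e).resolve_left hδ
  have h4 : (Fintype.card (Fin 2 ⊕ Fin 2) : F) ≠ 0 := by
    simp only [Fintype.card_sum, Fintype.card_fin]
    exact_mod_cast (by rw [show (4 : F) = 2 * 2 by norm_num]; exact mul_ne_zero h2 h2 : (4 : F) ≠ 0)
  have θ0 : θ ≠ 0 := fun e => one_ne_zero (cθ (X := 1) (by rw [e, zero_mul]))
  have tθ : θ.trace = 0 := by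
    have e := trace_of_adj ha
    rw [trace_neg] at e
    exact (mul_eq_zero.1 (by linear_combination e : 2 * θ.trace = 0)).resolve_left h2
  set U : Submodule F (Unit ⊕ (Fin 2 ⊕ Fin 2) → F) :=
    LinearMap.ker ((LinearMap.mulRight F θ - LinearMap.mulLeft F θ) ∘ₗ ymat F) with hUd
  set W : Submodule F (Unit ⊕ (Fin 2 ⊕ Fin 2) → F) :=
    LinearMap.ker ((LinearMap.mulRight F θ + LinearMap.mulLeft F θ) ∘ₗ ymat F) with hWd
  have mU : ∀ v, v ∈ U ↔ ymat F v * θ = θ * ymat F v := fun v => by simp [hUd, sub_eq_zero]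
  have mW : ∀ v, v ∈ W ↔ ymat F v * θ = -(θ * ymat F v) := fun v => by
    simp [hWd, eq_neg_iff_add_eq_zero]
  have f1 : ∀ v ∈ W, ∃ v' ∈ W, ymat F v' = θ * ymat F v := fun v hv => by
    rw [mW] at hv
    obtain ⟨v', h⟩ := exists_ymat h2 (X := θ * ymat F v) (by
        rw [transpose_mul, mul_assoc, ha, ← mul_assoc, ymat_adj, mul_assoc, mul_neg, hv, neg_neg])
      (by
        have e := congrArg trace hv
        rw [trace_neg, trace_mul_comm] at e
        exact (mul_eq_zero.1 (by linear_combination e : 2 * (θ * ymat F v).trace = 0)).resolve_left h2)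
    exact ⟨v', (mW _).2 (by rw [h, mul_assoc, hv, mul_neg]), h⟩
  have f3 : ∀ u ∈ U, ∀ w ∈ W, polar (qOdd 2 F) u w = 0 := fun u hu w hw => by
    rw [mU] at hu; rw [mW] at hw
    have e := ymat_polar u w
    have e1 : polar (qOdd 2 F) u w • θ = -(polar (qOdd 2 F) u w • θ) := by
      calc polar (qOdd 2 F) u w • θ = (ymat F u * ymat F w + ymat F w * ymat F u) * θ := by
            rw [e, smul_mul_assoc, one_mul]
        _ = -(θ * (ymat F u * ymat F w + ymat F w * ymat F u)) := by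
            rw [add_mul, mul_assoc, hw, mul_assoc, hu, ← mul_assoc (ymat F w), hw, mul_neg,
              ← mul_assoc, hu]
            noncomm_ring
        _ = _ := by rw [e, mul_smul_comm, mul_one]
    exact (smul_eq_zero.1 (c2 (eq_neg_iff_add_eq_zero.1 e1))).resolve_right θ0
  have f4 : ∀ v, ∃ u ∈ U, ∃ w ∈ W, v = u + w := fun v => by
    obtain ⟨v', h⟩ := exists_ymat h2 (X := θ * ymat F v * θ) (by
        rw [transpose_mul, transpose_mul, mul_assoc, mul_assoc, ha, ← mul_assoc (ymat F v)ᵀ, ymat_adj,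
          ← mul_assoc, ← mul_assoc, ha]
        noncomm_ring)
      (by rw [trace_mul_comm, ← mul_assoc, hθ, smul_mul_assoc, one_mul, trace_smul, ymat_trace,
        smul_zero])
    have e1 : (δ⁻¹ • (θ * ymat F v * θ)) * θ = θ * ymat F v := by
      rw [smul_mul_assoc, mul_assoc, hθ, mul_smul_comm, mul_one, inv_smul_smul₀ hδ]
    have e2 : θ * (δ⁻¹ • (θ * ymat F v * θ)) = ymat F v * θ := by
      rw [mul_smul_comm, ← mul_assoc, ← mul_assoc, hθ, smul_mul_assoc, one_mul, smul_mul_assoc,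
        inv_smul_smul₀ hδ]
    refine ⟨(2 : F)⁻¹ • (v + δ⁻¹ • v'), U.smul_mem _ ((mU _).2 ?_), (2 : F)⁻¹ • (v - δ⁻¹ • v'),
      W.smul_mem _ ((mW _).2 ?_), ?_⟩
    · rw [map_add, map_smul, h, add_mul, mul_add, e1, e2, add_comm]
    · rw [map_sub, map_smul, h, sub_mul, mul_sub, e1, e2, neg_sub]
    · rw [← smul_add, add_add_sub_cancel, ← two_smul F v, inv_smul_smul₀ h2]
  have f5 : ∀ x, (∀ u ∈ U, polar (qOdd 2 F) u x = 0) → (∀ w ∈ W, polar (qOdd 2 F) w x = 0) →
      x = 0 := fun x h h' => hQ.2 x fun y => by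
    obtain ⟨u, hu, w, hw, rfl⟩ := f4 y
    rw [polarBilin_apply_apply, polar_add_left, h u hu, h' w hw, add_zero]
  have pU : perp (polarBilin (qOdd 2 F)) U = W := by
    refine le_antisymm (fun x hx => ?_) fun w hw u hu => f3 u hu w hw
    obtain ⟨u, hu, w, hw, rfl⟩ := f4 x
    rw [f5 u (fun a ha => by
      have := hx a ha
      rwa [polarBilin_apply_apply, polar_add_right, f3 a ha w hw, add_zero] at this)
      fun a ha => by rw [polar_comm]; exact f3 u hu a ha, zero_add]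
    exact hw
  have hU : Disjoint U (perp (polarBilin (qOdd 2 F)) U) := by
    rw [Submodule.disjoint_def]
    exact fun x hx hx' => f5 x hx' fun w hw => by rw [polar_comm]; exact f3 x hx w hw
  have hUt : U ≠ ⊤ := fun e => by
    have e1 := scalar_of_comm_ymat h2 fun v => (mU v).1 (e ▸ Submodule.mem_top)
    have e2 := tθ
    rw [e1, trace_smul, trace_one, smul_eq_mul] at e2
    exact θ0 (by rw [e1, (mul_eq_zero.1 e2).resolve_right h4, zero_smul])
  obtain ⟨w₁, hw₁, q₁⟩ : ∃ w ∈ W, qOdd 2 F w ≠ 0 := by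
    by_contra! hc
    refine hW.perp_ne_bot hUt (pU.trans (eq_bot_iff.2 fun x hx => f5 x (fun u hu => f3 u hu x hx)
      fun w hw => ?_))
    rw [polar, hc _ (W.add_mem hw hx), hc w hw, hc x hx]; simp
  obtain ⟨w₂, hw₂, e₂⟩ := f1 w₁ hw₁
  have f6 : ∀ w ∈ W, ∃ a b : F, w = a • w₁ + b • w₂ := fun w hw => by
    have p12 : polar (qOdd 2 F) w₁ w₂ = 0 := by
      have e := ymat_polar w₁ w₂
      rw [e₂, ← mul_assoc, (mW _).1 hw₁, neg_mul, neg_add_cancel] at e
      exact (smul_eq_zero.1 e.symm).resolve_right one_ne_zero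
    have q₂ : qOdd 2 F w₂ = -δ * qOdd 2 F w₁ := by
      have e := ymat_sq w₂
      rw [e₂, mul_assoc, ← mul_assoc (ymat F w₁), (mW _).1 hw₁, neg_mul, mul_assoc, ymat_sq, mul_neg,
        mul_smul_comm, mul_one, mul_smul_comm, hθ, smul_smul, ← neg_smul] at e
      rw [← smul_left_injective F one_ne_zero e]; ring
    refine ⟨polar (qOdd 2 F) w₁ w / (2 * qOdd 2 F w₁),
      polar (qOdd 2 F) w₂ w / (2 * qOdd 2 F w₂), sub_eq_zero.1 (ymat_injective ?_)⟩
    set z := w - ((polar (qOdd 2 F) w₁ w / (2 * qOdd 2 F w₁)) • w₁ +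
      (polar (qOdd 2 F) w₂ w / (2 * qOdd 2 F w₂)) • w₂) with hz
    have zW : z ∈ W := W.sub_mem hw (W.add_mem (W.smul_mem _ hw₁) (W.smul_mem _ hw₂))
    have z1 : polar (qOdd 2 F) w₁ z = 0 := by
      rw [hz, polar_sub_right, polar_add_right, polar_smul_right, polar_smul_right, polar_self, p12]
      simp only [smul_eq_mul, nsmul_eq_mul]; field_simp; ring
    have z2 : polar (qOdd 2 F) w₂ z = 0 := by
      rw [hz, polar_sub_right, polar_add_right, polar_smul_right, polar_smul_right, polar_self,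
        polar_comm _ w₂ w₁, p12, q₂]
      simp only [smul_eq_mul, nsmul_eq_mul]; field_simp; ring
    have e1 := ymat_polar w₁ z
    have e2 := ymat_polar w₂ z
    rw [z1, zero_smul] at e1
    rw [z2, zero_smul, e₂, ← mul_assoc, (mW _).1 zW] at e2
    have e3 : ymat F w₁ * ymat F z = 0 := c2 (cθ (by
      rw [← e2, neg_mul, mul_assoc θ (ymat F z), eq_neg_of_add_eq_zero_right e1]; noncomm_ring))
    have e4 : ymat F w₁ * (ymat F w₁ * ymat F z) = 0 := by rw [e3, mul_zero]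
    rw [← mul_assoc, ymat_sq, smul_mul_assoc, one_mul] at e4
    rw [map_zero]; exact (smul_eq_zero.1 e4).resolve_left q₁
  have fW : finrank F W ≤ 2 := by
    refine (Submodule.finrank_mono fun w hw => ?_).trans (IsWittPair.finrank_span_pair_le w₁ w₂)
    obtain ⟨a, b, rfl⟩ := f6 w hw
    exact Submodule.mem_span_pair.2 ⟨a, b, rfl⟩
  have fU : 3 ≤ finrank F U := by
    have := hW.finrank_perp U
    rw [pU] at this
    simp at this; omega
  have hmax := omega_maxIn_nondeg_odd hQ h2 (by simp) hU hUt fU (fun _ => h3) (fun g _ e => by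
    have := Submodule.finrank_mono e
    rw [finrank_map_equiv, pU] at this; omega) fun _ => Or.inl h3
  rw [← hr] at hmax
  rw [← range_spGL]
  refine MaxIn.isMaximalIn' (maxIn_of_rep _ ρ hmax fun g => ?_)
  have cg : ∀ {X Y : Matrix (Fin 2 ⊕ Fin 2) (Fin 2 ⊕ Fin 2) F}, X * g.1 = Y * g.1 → X = Y :=
    fun {X Y} h => by
      have e := congrArg (· * (g⁻¹).1) h
      simpa only [mul_assoc, ← Submonoid.coe_mul, mul_inv_cancel, Submonoid.coe_one, mul_one] using e
  rw [hH _ (range_spGL (F := F) 2 ▸ ⟨g, rfl⟩), mem_subStab_iff_le]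
  change g.1 * θ = θ * g.1 ∨ g.1 * θ = -(θ * g.1) ↔ _
  constructor
  · rintro (e | e) v hv <;> rw [mU] at hv ⊢ <;> refine cg ?_
    · rw [mul_assoc, ← e, ← mul_assoc, hρ, mul_assoc, hv, ← mul_assoc, e, mul_assoc, mul_assoc, hρ]
    · rw [mul_assoc, ← neg_eq_iff_eq_neg.2 e, mul_neg, ← mul_assoc, hρ, mul_assoc, hv, ← mul_assoc, e,
        mul_assoc, hρ, neg_mul, neg_neg, mul_assoc]
  · intro h
    have hg : ρ g ∈ subStab W := pU ▸ subStab_perp (OmG_le (hr ▸ ⟨g, rfl⟩)) (mem_subStab_iff_le.2 h)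
    obtain ⟨a, b, e1⟩ := f6 _ (subStab_apply hg hw₁)
    obtain ⟨c, d, e2⟩ := f6 _ (subStab_apply hg hw₂)
    have e3 : qOdd 2 F w₁ • (g.1 * θ) =
        qOdd 2 F w₁ • (((c * a - d * b * δ) • 1 + (d * a - c * b) • θ) * g.1) := by
      calc qOdd 2 F w₁ • (g.1 * θ) = g.1 * ymat F w₂ * ymat F w₁ := by
            rw [e₂, mul_assoc, mul_assoc, ymat_sq]; simp
        _ = ymat F (ρ g w₂) * ymat F (ρ g w₁) * g.1 := by rw [← hρ, mul_assoc, ← hρ, mul_assoc]
        _ = _ := by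
            rw [e1, e2, map_add, map_add, map_smul, map_smul, map_smul, map_smul, e₂,
              ← smul_mul_assoc]
            congr 1
            have k1 := ymat_sq w₁
            have k2 : ymat F w₁ * (θ * ymat F w₁) = -(qOdd 2 F w₁ • θ) := by
              rw [← mul_assoc, (mW _).1 hw₁, neg_mul, mul_assoc, k1]; simp
            simp only [add_mul, mul_add, smul_mul_assoc, mul_smul_comm, mul_assoc, k1, k2, mul_neg,
              hθ, mul_one, neg_mul]
            module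
    replace e3 := smul_right_injective _ q₁ e3
    have e4 : g.1 * θ * (g⁻¹).1 = (c * a - d * b * δ) • 1 + (d * a - c * b) • θ := cg (by
      rw [mul_assoc, ← Submonoid.coe_mul, inv_mul_cancel, Submonoid.coe_one, mul_one]; exact e3)
    have e5 := congrArg trace e4
    rw [trace_mul_comm, ← mul_assoc, ← Submonoid.coe_mul, inv_mul_cancel, Submonoid.coe_one, one_mul,
      tθ, trace_add, trace_smul, trace_smul, tθ, trace_one] at e5
    have e6 : c * a - d * b * δ = 0 := by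
      simp only [smul_eq_mul, mul_zero, add_zero] at e5
      exact (mul_eq_zero.1 e5.symm).resolve_right h4
    simp only [e6, zero_smul, zero_add, smul_mul_assoc] at e3
    have e7 : δ • g.1 = ((d * a - c * b) ^ 2 * δ) • g.1 := by
      calc δ • g.1 = g.1 * θ * θ := by rw [mul_assoc, hθ]; simp
        _ = _ := by
          rw [e3, smul_mul_assoc, mul_assoc, e3, mul_smul_comm, ← mul_assoc, hθ]
          simp [smul_smul, pow_two, mul_assoc]
    have e8 : δ = (d * a - c * b) ^ 2 * δ := smul_left_injective F (fun e => one_ne_zero (cg (X := 1)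
      (Y := 0) (by rw [e]; simp))) e7
    rcases sq_eq_one_iff_of_ne_zero_aux e8 hδ with e | e
    · left; rw [e3, e, one_smul]
    · right; rw [e3, e, neg_one_smul]

end CF.MaxSub
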