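import Cfsg.Agent.MaxSub.T4A
import Cfsg.Agent.Geom.MaxTSP2

/-! The rows `GL₂(q).2` and `GU₂(q).2` of the table of `Sp₄(q)`, `q` odd. -/

set_option autoImplicit false

namespace CF.MaxSub

open Cfsg Cfsg.Geo CF.Geom CF.Classical Module Matrix QuadraticMap

section Invol

variable {F V : Type*} [Field F] [AddCommGroup V] [Module F V]

theorem exists_invol {X X' : Submodule F V} (hc : IsCompl X X') :
    ∃ θ : V →ₗ[F] V, (∀ x ∈ X, θ x = x) ∧ ∀ x ∈ X', θ x = -x :=
  ⟨LinearMap.ofIsCompl hc X.subtype (-X'.subtype),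
    fun x hx => LinearMap.ofIsCompl_apply_left hc ⟨x, hx⟩,
    fun x hx => LinearMap.ofIsCompl_apply_right hc ⟨x, hx⟩⟩

theorem compl_decomp {X X' : Submodule F V} (hc : IsCompl X X') (v : V) :
    ∃ x ∈ X, ∃ y ∈ X', v = x + y := by
  obtain ⟨x, hx, y, hy, e⟩ := Submodule.mem_sup.1 (hc.sup_eq_top ▸ Submodule.mem_top : v ∈ X ⊔ X')
  exact ⟨x, hx, y, hy, e.symm⟩

theorem mem_of_invol (h2 : (2 : F) ≠ 0) {X X' : Submodule F V} (hc : IsCompl X X')
    {θ : V →ₗ[F] V} (h0 : ∀ x ∈ X, θ x = x) (h1 : ∀ x ∈ X', θ x = -x) (v : V) :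
    (θ v = v → v ∈ X) ∧ (θ v = -v → v ∈ X') := by
  obtain ⟨x, hx, y, hy, rfl⟩ := compl_decomp hc v
  rw [map_add, h0 x hx, h1 y hy]
  refine ⟨fun e => ?_, fun e => ?_⟩
  · have : (2 : F) • y = 0 := by linear_combination (norm := module) -e
    rwa [(smul_eq_zero.1 this).resolve_left h2, add_zero]
  · have : (2 : F) • x = 0 := by linear_combination (norm := module) e
    rwa [(smul_eq_zero.1 this).resolve_left h2, zero_add]

theorem decStab_two_iff [FiniteDimensional F V] (h2 : (2 : F) ≠ 0) {D : Fin 2 → Submodule F V}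
    (hc : IsCompl (D 0) (D 1)) (hd : finrank F (D 0) = finrank F (D 1))
    {θ : V →ₗ[F] V} (h0 : ∀ x ∈ D 0, θ x = x) (h1 : ∀ x ∈ D 1, θ x = -x) (g : V ≃ₗ[F] V) :
    g ∈ decStab D ↔ (∀ v, g (θ v) = θ (g v)) ∨ ∀ v, g (θ v) = -θ (g v) := by
  have hm := mem_of_invol h2 hc h0 h1
  have key : ∀ i j, (∀ x ∈ D i, g x ∈ D j) → (D i).map (g : V →ₗ[F] V) = D j := fun i j h =>
    Submodule.eq_of_le_of_finrank_eq (by rintro _ ⟨v, hv, rfl⟩; exact h v hv) (by
      rw [finrank_map_equiv]; fin_cases i <;> fin_cases j <;> simp [hd])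
  constructor
  · rintro ⟨s, hs⟩
    have a : ∀ i, ∀ x ∈ D i, g x ∈ D (s i) := fun i x hx => hs i ▸ ⟨x, hx, rfl⟩
    have b : (s 0 = 0 ∧ s 1 = 1) ∨ (s 0 = 1 ∧ s 1 = 0) := by
      have := s.injective.ne (by decide : (0 : Fin 2) ≠ 1)
      revert this; generalize s 0 = a; generalize s 1 = b; revert a b; decide
    rcases b with ⟨b0, b1⟩ | ⟨b0, b1⟩
    · refine Or.inl fun v => ?_
      obtain ⟨x, hx, y, hy, rfl⟩ := compl_decomp hc v
      rw [map_add, h0 x hx, h1 y hy, map_add, map_add, map_add, h0 _ (b0 ▸ a 0 x hx),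
        h1 _ (b1 ▸ a 1 y hy), map_neg]
    · refine Or.inr fun v => ?_
      obtain ⟨x, hx, y, hy, rfl⟩ := compl_decomp hc v
      rw [map_add, h0 x hx, h1 y hy, map_add, map_add, map_add, h1 _ (b0 ▸ a 0 x hx),
        h0 _ (b1 ▸ a 1 y hy), map_neg, neg_add, neg_neg]
  · rintro (h | h)
    · exact ⟨1, Fin.forall_fin_two.2 ⟨key 0 0 fun x hx => (hm _).1 (by rw [← h, h0 x hx]),
        key 1 1 fun x hx => (hm _).2 (by rw [← h, h1 x hx, map_neg])⟩⟩
    · exact ⟨Equiv.swap 0 1, Fin.forall_fin_two.2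
        ⟨key 0 1 fun x hx => (hm _).2 (by rw [← neg_eq_iff_eq_neg, ← h, h0 x hx]),
        key 1 0 fun x hx => (hm _).1 (by rw [← neg_inj, ← h, h1 x hx, map_neg])⟩⟩

end Invol

variable {F : Type*} [Field F] [Fintype F]

theorem isCompl_of_isMDec {ι : Type} {k : ℕ} {D : Fin 2 → Submodule F (ι → F)}
    (hD : IsMDecomposition k D) : IsCompl (D 0) (D 1) := by
  refine ⟨hD.indep.pairwiseDisjoint (by decide), codisjoint_iff.2 ?_⟩
  rw [eq_top_iff, ← hD.iSup_eq_top]
  exact iSup_le (Fin.forall_fin_two.2 ⟨le_sup_left, le_sup_right⟩)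

theorem mul_eq_iff_mulVec {ι : Type} [Fintype ι] [DecidableEq ι] {X Y : Matrix ι ι F} :
    X = Y ↔ ∀ v, X *ᵥ v = Y *ᵥ v :=
  ⟨fun e _ => e ▸ rfl, fun h => toLin'.injective (LinearMap.ext h)⟩

theorem tabS4_tsp (hodd : Odd (Fintype.card F)) (h5 : 5 ≤ Fintype.card F)
    (D : Fin 2 → Submodule F (Fin 2 ⊕ Fin 2 → F)) (hD : IsMDecomposition 2 D)
    (hts : ∀ i, IsTotallySingularFor (sympForm 2 F) (D i)) :
    IsMaximalIn (spGL 2 F) (decompositionStabilizer D ⊓ spGL 2 F) := by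
  have h2 := Geom.two_ne_zero_of_odd_card hodd
  have hc := isCompl_of_isMDec hD
  obtain ⟨θ, h0, h1⟩ := exists_invol hc
  have e : ∀ v, LinearMap.toMatrix' θ *ᵥ v = θ v := LinearMap.toMatrix'_mulVec θ
  refine sp4_theta h2 (by rw [Nat.card_eq_fintype_card]; omega) (θ := LinearMap.toMatrix' θ)
    (symp_adj.1 fun u v => ?_) one_ne_zero (mul_eq_iff_mulVec.2 fun v => ?_) fun g _ => ?_
  · obtain ⟨x, hx, y, hy, rfl⟩ := compl_decomp hc u
    obtain ⟨x', hx', y', hy', rfl⟩ := compl_decomp hc v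
    have a := hts 0 x hx x' hx'
    have b := hts 1 y hy y' hy'
    rw [neg_mulVec, e, e, map_add, map_add, h0 x hx, h0 x' hx', h1 y hy, h1 y' hy']
    simp only [← sympBilin_apply, map_add, map_neg, LinearMap.add_apply, LinearMap.neg_apply]
      at a b ⊢
    linear_combination 2 * a - 2 * b
  · obtain ⟨x, hx, y, hy, rfl⟩ := compl_decomp hc v
    rw [← mulVec_mulVec, e, e, map_add, h0 x hx, h1 y hy, map_add, map_neg, h0 x hx, h1 y hy]
    simp
  · rw [mem_decompositionStabilizer_iff, decStab_two_iff h2 hc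
      (by rw [hD.finrank_eq, hD.finrank_eq]) h0 h1, mul_eq_iff_mulVec, mul_eq_iff_mulVec]
    simp only [← mulVec_mulVec, neg_mulVec, e, glEquiv_apply]

omit [Fintype F] in
/-- A two-dimensional subalgebra is spanned by `1` and a non-scalar element. -/
theorem mem_span_of_finrank_two {A : Type*} [Ring A] [Algebra F A] [Nontrivial A]
    {K : Subalgebra F A} (hK : finrank F K = 2) {θ : A} (hθ : θ ∈ K) (hs : ∀ c : F, θ ≠ c • 1)
    {k : A} (hk : k ∈ K) : ∃ a b : F, k = a • 1 + b • θ := by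
  have hl : LinearIndependent F ![(1 : K), ⟨θ, hθ⟩] := by
    rw [LinearIndependent.pair_iff' one_ne_zero]
    exact fun a e => hs a (congrArg Subtype.val e).symm
  have : FiniteDimensional F K := Module.finite_of_finrank_pos (by omega)
  have h := hl.span_eq_top_of_card_eq_finrank (by simp [hK])
  have hm : (⟨k, hk⟩ : K) ∈ Submodule.span F {(1 : K), ⟨θ, hθ⟩} := by
    rw [← Matrix.range_cons_cons_empty 1 _ ![], h]; trivial
  obtain ⟨a, b, e⟩ := Submodule.mem_span_pair.1 hm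
  exact ⟨a, b, (congrArg Subtype.val e).symm⟩

theorem tabS4_gu (hodd : Odd (Fintype.card F)) (h5 : 5 ≤ Fintype.card F)
    (K : Subalgebra F (Matrix (Fin 2 ⊕ Fin 2) (Fin 2 ⊕ Fin 2) F)) (hK : IsFieldSubalgebra 2 K)
    (ha : IsAdjointClosedFor (sympForm 2 F) K) (hn : ¬ IsSelfAdjointFor (sympForm 2 F) K) :
    IsMaximalIn (spGL 2 F) (subalgebraNormalizer K ⊓ spGL 2 F) := by
  have h2 := Geom.two_ne_zero_of_odd_card hodd
  have cJ : ∀ {X Y : Matrix (Fin 2 ⊕ Fin 2) (Fin 2 ⊕ Fin 2) F},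
      J (Fin 2) F * X = J (Fin 2) F * Y → X = Y := fun {X Y} h => by
    have e := congrArg (J (Fin 2) F * ·) h
    simpa only [← mul_assoc, J_squared, neg_mul, one_mul, neg_inj] using e
  obtain ⟨θ, hθ, θ0, had⟩ : ∃ θ ∈ K, θ ≠ 0 ∧ θᵀ * J (Fin 2) F = J (Fin 2) F * -θ := by
    simp only [IsSelfAdjointFor, not_forall] at hn
    obtain ⟨k, hk, hn⟩ := hn
    obtain ⟨k', hk', e⟩ := ha k hk
    rw [symp_adj] at e
    have e' := congrArg transpose e
    rw [transpose_mul, transpose_mul, J_transpose, transpose_transpose, neg_mul, mul_neg,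
      neg_inj] at e'
    refine ⟨k - k', K.sub_mem hk hk', fun h => ?_, by
      rw [transpose_sub, sub_mul, e, ← e', neg_sub, mul_sub]⟩
    rw [← sub_eq_zero.1 h, ← symp_adj] at e
    obtain ⟨u, v, hn⟩ := hn
    exact hn (e u v)
  have hs : ∀ a b : F, (a • 1 + b • θ)ᵀ * J (Fin 2) F = J (Fin 2) F * (a • 1 - b • θ) :=
    fun a b => by simp [add_mul, mul_sub, had, sub_eq_add_neg, mul_add]
  have c2 : ∀ {c : F} {X : Matrix (Fin 2 ⊕ Fin 2) (Fin 2 ⊕ Fin 2) F}, X ≠ 0 →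
      c • X = -(c • X) → c = 0 := fun {c X} hX h => by
    rw [eq_neg_iff_add_eq_zero, ← two_smul F, smul_smul] at h
    exact (mul_eq_zero.1 ((smul_eq_zero.1 h).resolve_right hX)).resolve_left h2
  have hsc : ∀ c : F, θ ≠ c • 1 := fun c e => θ0 (by
    rw [e, c2 (c := c) one_ne_zero (cJ (by rw [← e, ← had, e]; simp)), zero_smul])
  have hsp := fun k hk => mem_span_of_finrank_two hK.finrank_eq hθ hsc (k := k) hk
  obtain ⟨δ, y, hδ⟩ := hsp _ (K.mul_mem hθ hθ)
  have hy : y = 0 := c2 θ0 (by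
    have e := hs δ y
    rw [← hδ, transpose_mul, mul_assoc, had, ← mul_assoc, had, mul_assoc, neg_mul_neg, hδ] at e
    have e' := cJ e
    rwa [sub_eq_add_neg, add_right_inj] at e')
  rw [hy, zero_smul, add_zero] at hδ
  have δ0 : δ ≠ 0 := fun e => by
    obtain ⟨z, -, hz⟩ := hK.inv θ hθ θ0
    exact θ0 (by rw [← mul_one θ, ← hz, ← mul_assoc, hδ, e, zero_smul, zero_mul])
  refine sp4_theta h2 (by rw [Nat.card_eq_fintype_card]; omega) had δ0 hδ fun g hg => ⟨fun h => ?_,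
    fun h k => ?_⟩
  · obtain ⟨a, b, e⟩ := hsp _ ((h θ).1 hθ)
    have e1 := congrArg trace e
    have t0 : θ.trace = 0 := by
      have e := trace_of_adj had
      rw [trace_neg] at e
      exact (mul_eq_zero.1 (by linear_combination e : 2 * θ.trace = 0)).resolve_left h2
    rw [trace_mul_comm, ← mul_assoc, Units.inv_mul, one_mul, trace_add, trace_smul, trace_smul, t0,
      trace_one, smul_zero, add_zero, smul_eq_mul] at e1
    have a0 : a = 0 := (mul_eq_zero.1 e1.symm).resolve_right (by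
      simp only [Fintype.card_sum, Fintype.card_fin]
      exact_mod_cast (by rw [show (4 : F) = 2 * 2 by norm_num]; exact mul_ne_zero h2 h2 :
        (4 : F) ≠ 0))
    rw [a0, zero_smul, zero_add] at e
    have e2 : g.1 * θ = b • (θ * g.1) := by rw [← smul_mul_assoc, ← e, Units.inv_mul_cancel_right]
    have e3 : δ • (1 : Matrix (Fin 2 ⊕ Fin 2) (Fin 2 ⊕ Fin 2) F) = (b ^ 2 * δ) • 1 := by
      calc δ • (1 : Matrix (Fin 2 ⊕ Fin 2) (Fin 2 ⊕ Fin 2) F)
          = (g.1 * θ * (g⁻¹).1) * (g.1 * θ * (g⁻¹).1) := by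
            rw [mul_assoc, ← mul_assoc (g⁻¹).1, ← mul_assoc (g⁻¹).1, Units.inv_mul, one_mul,
              mul_assoc, ← mul_assoc θ, hδ]
            simp
        _ = _ := by rw [e, smul_mul_smul_comm, hδ, smul_smul, pow_two]
    rcases sq_eq_one_iff_of_ne_zero_aux (smul_left_injective F one_ne_zero e3) δ0 with e | e
    · left; rw [e2, e, one_smul]
    · right; rw [e2, e, neg_one_smul]
  · obtain ⟨c, hc, e⟩ : ∃ c : F, c * c = 1 ∧ g.1 * θ = c • (θ * g.1) :=
      h.elim (fun e => ⟨1, by simp, by simpa using e⟩) fun e => ⟨-1, by simp, by simpa using e⟩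
    have e1 : g.1 * θ * (g⁻¹).1 = c • θ := by
      rw [e, smul_mul_assoc, Units.mul_inv_cancel_right]
    have e2 : (g⁻¹).1 * θ * g.1 = c • θ := by
      rw [mul_assoc, ← one_smul F (θ * g.1), ← hc, ← smul_smul, ← e, mul_smul_comm,
        Units.inv_mul_cancel_left]
    constructor
    · intro hk
      obtain ⟨a, b, rfl⟩ := hsp k hk
      rw [mul_add, add_mul, mul_smul_comm, mul_smul_comm, smul_mul_assoc, smul_mul_assoc, e1, mul_one,
        Units.mul_inv]
      exact K.add_mem (K.smul_mem K.one_mem _) (K.smul_mem (K.smul_mem hθ _) _)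
    · intro hk
      obtain ⟨a, b, e3⟩ := hsp _ hk
      have e4 : k = (g⁻¹).1 * (a • 1 + b • θ) * g.1 := by
        rw [← e3, mul_assoc, Units.inv_mul_cancel_right, Units.inv_mul_cancel_left]
      rw [e4, mul_add, add_mul, mul_smul_comm, mul_smul_comm, smul_mul_assoc, smul_mul_assoc, e2,
        mul_one, Units.inv_mul]
      exact K.add_mem (K.smul_mem K.one_mem _) (K.smul_mem (K.smul_mem hθ _) _)

end CF.MaxSub
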