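/-
Subfield subgroups of symplectic groups in odd characteristic (dimension `≥ 4`).
-/
import Cfsg.Agent.MaxSub.S4A

set_option autoImplicit false

namespace CF.MaxSub

open Module Geom

variable {F V : Type*} [Field F] [AddCommGroup V] [Module F V] {ι : Type} [Fintype ι]
  {ε : V ≃ₗ[F] (ι → F)} {F₀ : Subfield F}

theorem rat_coeff {u v : V} (hu : IsRat ε F₀ u) (hv : IsRat ε F₀ v) (huv : u ∉ F ∙ v) {a b : F}
    (h : IsRat ε F₀ (a • u + b • v)) : a ∈ F₀ := by
  by_cases v0 : v = 0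
  · exact hu.mem_of_smul (by rintro rfl; exact huv (zero_mem _)) (by simpa [v0] using h)
  obtain ⟨j, hj⟩ : ∃ j, ε v j ≠ 0 := by
    by_contra! hc
    exact v0 (ε.injective (by rw [map_zero]; exact funext hc))
  obtain ⟨i, hi⟩ : ∃ i, ε u i * ε v j - ε u j * ε v i ≠ 0 := by
    by_contra! hc
    refine huv (Submodule.mem_span_singleton.2 ⟨ε u j / ε v j, ε.injective (funext fun i => ?_)⟩)
    rw [map_smul, Pi.smul_apply, smul_eq_mul]
    field_simp
    linear_combination -hc i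
  have e : a = (ε (a • u + b • v) i * ε v j - ε (a • u + b • v) j * ε v i) /
      (ε u i * ε v j - ε u j * ε v i) := by
    rw [eq_div_iff hi]; simp; ring
  rw [e]
  exact div_mem (sub_mem (mul_mem (h i) (hv j)) (mul_mem (h j) (hv i)))
    (sub_mem (mul_mem (hu i) (hv j)) (mul_mem (hu j) (hv i)))

theorem mem_RG_of_lines [Finite F] {g : V ≃ₗ[F] V}
    (h : ∀ x, IsRat ε F₀ x → ∃ c : F, c ≠ 0 ∧ IsRat ε F₀ (c • g x)) : g ∈ RG ε F₀ := by
  by_cases h0 : ∀ e, IsRat ε F₀ e → e = 0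
  · exact mem_RG_of one_ne_zero fun v hv => by simpa [h0 v hv] using IsRat.zero
  push Not at h0
  obtain ⟨e, he, e0⟩ := h0
  obtain ⟨c, c0, hc⟩ := h e he
  refine mem_RG_of c0 fun x hx => ?_
  by_cases hxe : x ∈ F ∙ e
  · obtain ⟨a, rfl⟩ := Submodule.mem_span_singleton.1 hxe
    rw [map_smul, smul_comm]
    exact hc.smul (he.mem_of_smul e0 hx)
  obtain ⟨d, d0, hd⟩ := h x hx
  obtain ⟨f, f0, hf⟩ := h _ (he.add hx)
  have n1 : d • g x ∉ F ∙ (c • g e) := fun e1 => by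
    obtain ⟨a, ha⟩ := Submodule.mem_span_singleton.1 e1
    exact hxe (Submodule.mem_span_singleton.2 ⟨d⁻¹ * a * c, g.injective (by
      rw [map_smul, mul_smul, mul_smul, ha, inv_smul_smul₀ d0])⟩)
  have n2 := not_mem_span_symm (by simp [c0, e0]) n1
  have e1 : f • g (e + x) = (f / c) • c • g e + (f / d) • d • g x := by
    rw [smul_smul, smul_smul, div_mul_cancel₀ _ c0, div_mul_cancel₀ _ d0, map_add, smul_add]
  have p1 := rat_coeff hc hd n2 (e1 ▸ hf)
  have p2 := rat_coeff hd hc n1 (add_comm ((f / c) • c • g e) _ ▸ e1 ▸ hf)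
  have := hd.smul (div_mem p2 p1)
  rwa [smul_smul, show f / d / (f / c) * d = c by field_simp] at this

variable {B : LinearMap.BilinForm F V} {M : Subgroup (V ≃ₗ[F] V)}

theorem NS.smul_right {y z : V} {γ β δ c : F} (h : NS B M y (c • z) γ β δ) :
    NS B M y z γ (c * β) (c ^ 2 * δ) :=
  let ⟨g, g1, g2⟩ := h
  ⟨g, g1, fun x => by simp only [g2, map_smul, LinearMap.smul_apply, smul_eq_mul]; module⟩

theorem NS.add_right {y z : V} {γ β δ : F} (h : NS B M y (z + y) γ β δ) :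
    NS B M y z (γ + 2 * β + δ) (β + δ) δ :=
  let ⟨g, g1, g2⟩ := h
  ⟨g, g1, fun x => by simp only [g2, map_add, LinearMap.add_apply]; module⟩

namespace S4

variable [Finite F] (h : S4 B ε F₀ M)
include h

theorem move {y z z' : V} (hy : IsRat ε F₀ y) (hz : IsRat ε F₀ z) (hyz : B y z = 0)
    (hz1 : z ∉ F ∙ y) (hz' : IsRat ε F₀ z') (hyz' : B y z' = 0) (hz2 : z' ∉ F ∙ y) {γ β δ : F}
    (hN : NS B M y z γ β δ) : NS B M y z' γ β δ := by
  obtain ⟨k, k1, -, k3, rfl⟩ := h.exists_map (S := {y}) (by simpa using hy) hz hz'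
    (by simpa using hyz) (by simpa using hyz') hz1 hz2
  simpa [k3] using hN.map k1 (h.le' k1)

variable (h2 : (2 : F) ≠ 0)
include h2

theorem mid {y z : V} (hy : IsRat ε F₀ y) (hz : IsRat ε F₀ z) (hyz : B y z = 0) (y0 : y ≠ 0)
    (hz1 : z ∉ F ∙ y) {γ β δ : F} (hN : NS B M y z γ β δ) : PS B ε F₀ M β 0 := by
  have sc : ∀ c ∈ F₀, c ≠ 0 → ∀ {γ β δ : F}, NS B M y z γ β δ →
      NS B M y z γ (c * β) (c ^ 2 * δ) := fun c hc c0 _ _ _ hN =>
    (h.move hy hz hyz hz1 (hz.smul hc) (by simp [hyz])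
      (fun e => hz1 ((Submodule.smul_mem_iff _ c0).1 e)) hN).smul_right
  have h1 := hN.sub h.alt hyz (sc (-1) (neg_mem (one_mem _)) (by simp) hN)
  have h3 := sc 2⁻¹ (inv_mem (ofNat_mem _ 2)) (inv_ne_zero h2) h1
  refine h.ps_of hy hz hyz y0 hz1 ?_
  convert h3 using 1
  · ring
  · field_simp; ring
  · ring

omit h h2 [Finite F] in
theorem ps_smul {β c : F} (hc : c ∈ F₀) (c0 : c ≠ 0) (hP : PS B ε F₀ M β 0) :
    PS B ε F₀ M (c * β) 0 := fun y z hy hz hyz y0 hz1 => by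
  simpa using (hP y _ hy (hz.smul hc) (by simp [hyz]) y0
    fun e => hz1 ((Submodule.smul_mem_iff _ c0).1 e)).smul_right

theorem ps_centre {β : F} (hP : PS B ε F₀ M β 0) : PS B ε F₀ M 0 β := fun y z hy hz hyz y0 hz1 => by
  have hP' := ps_smul (inv_mem (ofNat_mem F₀ 2)) (inv_ne_zero h2) hP
  have h1 := (hP' y (z + y) hy (hz.add hy) (by simp [hyz, h.alt y]) y0 fun e =>
    hz1 (by simpa using sub_mem e (Submodule.mem_span_singleton_self y))).add_right
  convert h1.sub h.alt hyz (hP' y z hy hz hyz y0 hz1) using 1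
  · field_simp; ring
  · ring
  · ring

theorem ps_mul' {γ β : F} (hP : PS B ε F₀ M γ 0) (hP' : PS B ε F₀ M β 0) :
    PS B ε F₀ M (γ * β) 0 := by
  obtain ⟨z, z1, -, z2⟩ := h.exists_perp IsRat.zero
  have z0 : z ≠ 0 := by simpa using z2
  obtain ⟨y, hy, hzy, hy'⟩ := h.exists_perp z1
  have hz' := not_mem_span_symm z0 hy'
  have hyz := h.witt.refl hzy
  have y0 : y ≠ 0 := by rintro rfl; exact hy' (zero_mem _)
  obtain ⟨f, f1, f2, f3⟩ := h.exists_dual (S := {z}) (by simpa using z1) hy hy'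
  have f4 : B (-f) y = 1 := by rw [map_neg, LinearMap.neg_apply, h.alt.neg_eq, f3]
  obtain ⟨k, k1, k2⟩ := hP' z (-f) z1 f1.neg (by simp [f2 z rfl]) z0 fun e => by
    obtain ⟨c, hc⟩ := Submodule.mem_span_singleton.1 e
    simp [← hc, hzy] at f4
  have h3 := (h.ps_centre h2 hP y z hy z1 hyz y0 hz').map k1 (h.le' k1)
  rw [show k y = (1 : F) • y + β • z by rw [k2, f4]; simp [hzy], show k z = z by
    simp [k2, h.alt z, h.witt.refl (f2 z rfl)]] at h3
  simpa using h.mid h2 hy z1 hyz y0 hz' h3.comb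

variable (hmax : ∀ K : Subfield F, F₀ ≤ K → K = F₀ ∨ K = ⊤) (hM : ¬ SpG B ≤ M)
include hmax hM

theorem mem_of_ps' {β : F} (hP : PS B ε F₀ M β 0) : β ∈ F₀ := by
  have h1 : ∀ {β γ β' γ'}, PS B ε F₀ M β γ → PS B ε F₀ M β' γ' → PS B ε F₀ M (β + β') (γ + γ') :=
    fun a b y z hy hz hyz y0 hz' => by
      simpa using (a y z hy hz hyz y0 hz').add h.alt hyz (b y z hy hz hyz y0 hz')
  let R : Subring F :=
    { carrier := {β | PS B ε F₀ M β 0}
      mul_mem' := fun a b => h.ps_mul' h2 a b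
      one_mem' := h.ps_rat (one_mem _) (zero_mem _)
      add_mem' := fun a b => by simpa using h1 a b
      zero_mem' := h.ps_rat (zero_mem _) (zero_mem _)
      neg_mem' := fun a => by simpa using ps_smul (neg_mem (one_mem _)) (by simp) a }
  let K : Subfield F := ⟨R, fun a ha => by
    by_cases h0 : a = 0
    · rw [h0, inv_zero]; exact R.zero_mem
    · exact inv_mem_of_finite R ha (mul_inv_cancel₀ h0) (inv_mul_cancel₀ h0)⟩
  by_contra hβ
  have hK := (hmax K fun c hc => h.ps_rat hc (zero_mem _)).resolve_left fun e => hβ (e.le hP)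
  have h5 : ∀ c : F, PS B ε F₀ M c 0 := fun c => show c ∈ K from hK.ge trivial
  exact hM (h.ge_of_ps fun a c => by simpa using h1 (h5 a) (h.ps_centre h2 (h5 c)))

theorem coeff_mem' {y z : V} (hy : IsRat ε F₀ y) (hz : IsRat ε F₀ z) (hyz : B y z = 0)
    (y0 : y ≠ 0) (hz1 : z ∉ F ∙ y) {γ β δ : F} (hN : NS B M y z γ β δ) : β ∈ F₀ ∧ δ ∈ F₀ := by
  have h1 := h.mem_of_ps' h2 hmax hM (h.mid h2 hy hz hyz y0 hz1 hN)
  have h3 := h.mem_of_ps' h2 hmax hM (h.mid h2 hy hz hyz y0 hz1 (h.move hy hz hyz hz1 (hz.add hy)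
    (by simp [hyz, h.alt y]) (fun e => hz1 (by
      simpa using sub_mem e (Submodule.mem_span_singleton_self y))) hN).add_right)
  exact ⟨h1, by simpa using sub_mem h3 h1⟩

theorem sq_mem {y z : V} (hy : IsRat ε F₀ y) (hz : IsRat ε F₀ z) (hyz : B y z = 0)
    (y0 : y ≠ 0) (hz1 : z ∉ F ∙ y) {a b : F} (hT : NS B M (a • y + b • z) 0 1 0 0) :
    a ^ 2 ∈ F₀ ∧ a * b ∈ F₀ ∧ b ^ 2 ∈ F₀ := by
  have h1 := (hT.left z).comb
  have h3 := h.coeff_mem' h2 hmax hM hy hz hyz y0 hz1 h1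
  have h4 := h.coeff_mem' h2 hmax hM hz hy (h.witt.refl hyz) (by rintro rfl; exact hz1 (zero_mem _))
    (not_mem_span_symm y0 hz1) h1.swap
  exact ⟨by simpa using h4.2, by simpa using h3.1, by simpa using h3.2⟩

theorem rat_of_trans' {u : V} (hT : NS B M u 0 1 0 0) : ∃ c : F, c ≠ 0 ∧ IsRat ε F₀ (c • u) := by
  rcases eq_or_ne u 0 with rfl | u0
  · exact ⟨1, one_ne_zero, by simpa using IsRat.zero⟩
  by_cases hc : ∃ e e', IsRat ε F₀ e ∧ IsRat ε F₀ e' ∧ B e e' = 0 ∧ B e u ≠ 0 ∧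
      B e' u / B e u ∉ F₀
  · obtain ⟨e, e', e1, e2, e3, e4, e5⟩ := hc
    have e0 : e ≠ 0 := by rintro rfl; simp at e4
    have e6 := h.witt.refl e3
    have n1 : e' ∉ F ∙ e := fun e7 => by
      obtain ⟨a, rfl⟩ := Submodule.mem_span_singleton.1 e7
      exact e5 (by simpa [e4] using e1.mem_of_smul e0 e2)
    obtain ⟨τ, τ2⟩ : ∃ τ, B e' u = τ * B e u := ⟨B e' u / B e u, by field_simp⟩
    rw [τ2, mul_div_cancel_right₀ _ e4] at e5
    obtain ⟨s, s1, s2⟩ := hT
    have r1 : B u (e' - τ • e) = 0 := h.witt.refl (by simp [τ2])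
    obtain ⟨k, ⟨k1, k2⟩, l, m, -, k3, -, k4⟩ := exists_slope_vec F₀
      (M ⊓ MulAction.stabilizer _ (e' - τ • e)) (F ∙ (e' - τ • e)) e u
      (fun k hk x hx => by
        obtain ⟨a, rfl⟩ := Submodule.mem_span_singleton.1 hx
        rw [map_smul, show k (e' - τ • e) = e' - τ • e from hk.2]; exact hx)
      {a | ∃ k ∈ M ⊓ MulAction.stabilizer _ (e' - τ • e), k e - e ∈ F ∙ (e' - τ • e) ∧
        k u - (u + a • e) ∈ F ∙ (e' - τ • e)} (fun a ha => ha)
      (card_sq_le_ncard F₀ (a := B e u) (b := B e u * (2 * τ)) e4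
        (fun e => e5 (by
          have := mul_mem (inv_mem (ofNat_mem F₀ 2)) e
          rwa [mul_div_cancel_left₀ _ e4, inv_mul_cancel_left₀ h2] at this)) fun i hi j hj => by
        obtain ⟨a, a1, a2⟩ := h.ps_rat hj hi e e' e1 e2 e3 e0 n1
        refine ⟨a, ⟨a1, show a (e' - τ • e) = _ by simp [a2, h.alt e, h.alt e', e3, e6]⟩,
          by simp [a2, h.alt e, e6], Submodule.mem_span_singleton.2 ⟨j * B e u, ?_⟩⟩
        rw [a2, τ2]
        module)
      (s := s) ⟨s1, show s (e' - τ • e) = _ by rw [s2, r1]; simp⟩ (b := B u e)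
      (fun e => e4 (h.witt.refl e)) (by simp [s2]) (by simp [s2, h.alt u])
    replace k2 : k (e' - τ • e) = e' - τ • e := k2
    obtain ⟨m, hm⟩ := Submodule.mem_span_singleton.1 k3
    have k5 : k e = (l - m * τ) • e + m • e' := by
      rw [show k e = l • e + m • (e' - τ • e) by rw [hm]; abel]; module
    have k6 : k e' = (τ * (l - 1 - τ * m)) • e + (1 + τ * m) • e' := by
      rw [← sub_add_cancel e' (τ • e), map_add, k2, map_smul, k5]; module
    have b1 := ((h.trans e1 (one_mem _) 0).map k1 (h.le' k1)).left 0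
    have b2 := ((h.trans e2 (one_mem _) 0).map k1 (h.le' k1)).left 0
    have b3 := ((h.trans (e1.add e2) (one_mem _) 0).map k1 (h.le' k1)).left 0
    rw [show k (e + e') = (l - m * τ + τ * (l - 1 - τ * m)) • e + (m + (1 + τ * m)) • e' by
      rw [map_add, k5, k6]; module] at b3
    rw [k5] at b1
    rw [k6] at b2
    obtain ⟨p1, p2, p3⟩ := h.sq_mem h2 hmax hM e1 e2 e3 e0 n1 b1
    obtain ⟨q1, q2, q3⟩ := h.sq_mem h2 hmax hM e1 e2 e3 e0 n1 b2
    obtain ⟨r1, r2, r3⟩ := h.sq_mem h2 hmax hM e1 e2 e3 e0 n1 b3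
    refine (k4 ?_).elim
    convert sub_mem (pow_mem (sub_mem (sub_mem r2 p2) q2) 2)
      (mul_mem (sub_mem (sub_mem r1 p1) q1) (sub_mem (sub_mem r3 p3) q3)) using 1
    ring
  push Not at hc
  obtain ⟨e, e1, -, e3⟩ := h.exists_not_perp (S := ∅) (by simp) (y := u) (by simpa using u0)
  replace e3 : B e u ≠ 0 := fun e => e3 (h.witt.refl e)
  obtain ⟨z, z1, z3, z4⟩ := h.exists_perp e1
  have c1 := sub_mem (one_mem F₀) (hc e z e1 z1 z3 e3)
  have f1 := z1.add (e1.smul c1)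
  have f3 : B (z + (1 - B z u / B e u) • e) u = B e u := by
    simp only [map_add, map_smul, LinearMap.add_apply, LinearMap.smul_apply, smul_eq_mul]
    field_simp; ring
  have f4 : z + (1 - B z u / B e u) • e ∉ F ∙ e := fun e4 => z4 (by
    simpa using sub_mem e4 (Submodule.smul_mem _ (1 - B z u / B e u)
      (Submodule.mem_span_singleton_self e)))
  generalize z + (1 - B z u / B e u) • e = e' at f1 f3 f4
  obtain ⟨d, d1, d2, d3⟩ := h.exists_dual (S := {e}) (by simpa using e1) f1 f4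
  refine ⟨_, inv_ne_zero e3, h.rat_of fun x hx => ?_⟩
  have c2 := h.rat _ _ f1 hx
  have g1 := hc e' _ f1 (hx.sub (d1.smul c2)) (by simp [d3]) (f3 ▸ e3)
  have g2 := hc e _ e1 (d1.smul c2) (by simp [d2 e rfl]) e3
  rw [f3] at g1
  convert add_mem g1 g2 using 1
  simp; field_simp; ring

end S4

theorem sp_maxIn_RG_odd [Finite F] (hB : B.Nondegenerate) (hA : B.IsAlt) (h4 : 4 ≤ finrank F V)
    (h2 : (2 : F) ≠ 0) {r : ℕ} (hr : r.Prime) (hc : Nat.card F₀ ^ r = Nat.card F)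
    (hR : ∀ x y, IsRat ε F₀ x → IsRat ε F₀ y → B x y ∈ F₀) : MaxIn (SpG B) (RG ε F₀) := by
  have := Fintype.ofFinite F
  have : FiniteDimensional F V := ε.symm.finiteDimensional
  refine ⟨fun hle => ?_, fun M h1 h3 m hm hm' => by_contra fun hn =>
    hm' (mem_RG_of_lines fun x hx => ?_)⟩
  · have h : S4 B ε F₀ (SpG B) := ⟨hB, hA, hR, h4, inf_le_left, le_rfl⟩
    obtain ⟨e, e1, -, e2⟩ := h.exists_perp IsRat.zero
    have e0 : e ≠ 0 := by simpa using e2
    obtain ⟨f, f1, -, f2⟩ := h.exists_dual (S := ∅) (by simp) e1 (by simpa using e0)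
    refine ne_top_of_card_eq_pow hr.two_le (by rw [hc, Nat.card_eq_fintype_card])
      (eq_top_iff.2 fun γ _ => ?_)
    obtain ⟨t, t1, t2⟩ := transC_alt hA γ e rfl
    obtain ⟨a, a0, ha⟩ := hle t1
    have h5 : a ∈ F₀ := e1.mem_of_smul e0 (by simpa [t2, hA e] using (ha e).1 e1)
    exact e1.mem_of_smul e0 (by
      simpa [t2, f2, a0] using (((ha f).1 f1).smul (inv_mem h5)).sub f1)
  · have h : S4 B ε F₀ M := ⟨hB, hA, hR, h4, h1, h3⟩
    exact h.rat_of_trans' h2 (fun K => Classical.subfield_eq_or_eq_top hr hc) hn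
      (((h.trans hx (one_mem _) 0).map hm (h3 hm)).left 0)

open Cfsg Cfsg.Geo in
theorem tabS_sub_odd [Fintype F] {m : ℕ} (hm : 2 ≤ m) (hodd : Odd (Fintype.card F))
    (F₀ : Subfield F) (r : ℕ) (P : GL (Fin m ⊕ Fin m) F) (ζ : F)
    (hr : r.Prime) (hcard : Fintype.card F = Nat.card F₀ ^ r) (hζ : ζ ≠ 0)
    (hP : IsFormRationalStructure (sympForm m F) F₀ ζ P) :
    IsMaximalIn (spGL m F) (subfieldSubgroup F₀ P ⊓ spGL m F) := by
  refine (sp_maxIn_RG_odd (B := ζ • sympBilin m F) (ε := (Geom.glEquiv _ F P).symm) (F₀ := F₀)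
    (((polarG_sp (sympBilin_nondegenerate m) (sympBilin_isAlt m)).smul_form hζ).witt.nondegenerate)
    (fun x => by simp [sympBilin_isAlt m x]) (by simp; omega) (Geom.two_ne_zero_of_odd_card hodd) hr
    (by rw [← hcard, Nat.card_eq_fintype_card]) fun x y hx hy => ?_).isMaximalIn (Geom.glEquiv _ F)
    (fun g => by rw [mem_spGL_iff, SpG, SpG, Isom_smul hζ]) (mem_subfieldSubgroup_iff P)
  simpa [sympBilin_apply] using rat_of_structure hP hx hy

end CF.MaxSub
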