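/-
The geometric maximal subgroups of `SL_n(q)`, collected for the tables in small dimension.
-/
import Cfsg.Agent.MaxSub.C5L
import Cfsg.Agent.MaxSub.C3C
import Cfsg.Agent.MaxSub.C4B
import Cfsg.Agent.Geom.SLDec
import Cfsg.Agent.Geom.C8

set_option autoImplicit false

namespace CF.MaxSub

open Matrix Cfsg Cfsg.Geo CF.Geom

variable {F : Type*} [Field F] [Fintype F] {n : ℕ}

omit [Fintype F] in
theorem tabL1 (W : Submodule F (Fin n → F)) (h0 : W ≠ ⊥) (h1 : W ≠ ⊤) :
    IsMaximalIn (specialLinear (Fin n) F) (subspaceStabilizer W ⊓ specialLinear (Fin n) F) :=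
  (sl_maxIn_sub h0 h1).isMaximalIn (Geom.glEquiv _ F) mem_specialLinear_iff
    (mem_subspaceStabilizer_iff W)

theorem tabL2 (hn : 6 ≤ n) {t m : ℕ} (h1 : m = 1 → 5 ≤ Fintype.card F)
    (h2 : m = 2 → 3 ≤ Fintype.card F) (D : Fin t → Submodule F (Fin n → F))
    (hD : IsMDecomposition m D) :
    IsMaximalIn (specialLinear (Fin n) F) (decompositionStabilizer D ⊓ specialLinear (Fin n) F) :=
  isMaximalIn_sl_dec (by rwa [Fintype.card_fin]) hD (by omega) (by omega)

theorem tabL3 {r : ℕ} (hr : r.Prime) (hlt : r < n) (K : Subalgebra F (Matrix (Fin n) (Fin n) F))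
    (hK : IsFieldSubalgebra r K) :
    IsMaximalIn (specialLinear (Fin n) F) (subalgebraNormalizer K ⊓ specialLinear (Fin n) F) :=
  isMaximalIn_sl_field hr (by simpa using hlt) hK

theorem tabL4 {a b : ℕ} (h1 : 2 ≤ a) (h2 : a < b) (h3 : a = 2 → 3 ≤ Fintype.card F)
    (e : Fin n ≃ Fin a × Fin b) (P : GL (Fin n) F) :
    IsMaximalIn (specialLinear (Fin n) F) (tensorProductSubgroup a b e P ⊓ specialLinear (Fin n) F) :=
  isMaximalIn_sl_tensor h1 h2 (by omega) e P

theorem tabL5 (hn : 4 ≤ n) (F₀ : Subfield F) (r : ℕ) (P : GL (Fin n) F) (hr : r.Prime)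
    (h : Fintype.card F = Nat.card F₀ ^ r) :
    IsMaximalIn (specialLinear (Fin n) F) (subfieldSubgroup F₀ P ⊓ specialLinear (Fin n) F) :=
  isMaximalIn_sl_subfield (by simpa using hn) hr h P

theorem tabLO (hn : 6 ≤ n) (hodd : Odd (Fintype.card F)) (Q : (Fin n → F) → F)
    (hQ : IsNondegenerateQuadraticForm Q) :
    IsMaximalIn (specialLinear (Fin n) F) (quadSimilarityGroup Q ⊓ specialLinear (Fin n) F) := by
  obtain ⟨Q, rfl, h⟩ := exists_quadraticForm hQ
  exact (omega_sim_maxIn h (two_ne_zero_of_odd_card hodd) (by simpa using hn)).isMaximalIn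
    (Geom.glEquiv _ F) mem_specialLinear_iff (mem_quadSimilarityGroup_iff Q)

theorem tabLS (hn : 5 ≤ n) (f : (Fin n → F) → (Fin n → F) → F) (hf : IsSymplecticForm f) :
    IsMaximalIn (specialLinear (Fin n) F) (similarityGroup f ⊓ specialLinear (Fin n) F) := by
  obtain ⟨B, h1, h2⟩ := exists_bilin hf.bilinear hf.nondegenerate
  exact (sp_sim_maxIn h2 (fun x => by rw [← h1, hf.alternating]) (by simpa using hn)).isMaximalIn
    (Geom.glEquiv _ F) mem_specialLinear_iff (mem_similarityGroup_iff (Or.inl h1))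

theorem tabLU (hn : 5 ≤ n) (σ : F ≃+* F) (f : (Fin n → F) → (Fin n → F) → F)
    (hf : IsUnitaryForm σ f) :
    IsMaximalIn (specialLinear (Fin n) F) (similarityGroup f ⊓ specialLinear (Fin n) F) := by
  obtain ⟨B, h1, h2, h3⟩ := exists_sesq_of_unitary hf
  exact (su_sim_maxIn h2 h3 (by simpa using hn)).isMaximalIn (Geom.glEquiv _ F)
    mem_specialLinear_iff (mem_similarityGroup_iff (Or.inr h1))

end CF.MaxSub
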