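/-
Symplectic and unitary similarity groups are maximal in the special linear group in dimension
`≥ 4`.
-/
import Cfsg.Agent.MaxSub.TabL
import Cfsg.Agent.Geom.FrU1

set_option autoImplicit false

namespace CF.MaxSub

open Module Geom

variable {F V : Type*} [Field F] [AddCommGroup V] [Module F V] {M : Subgroup (V ≃ₗ[F] V)}
  {σ : F →+* F}

theorem exists_UF [Fintype F] (h1 : σ ≠ RingHom.id F) (h2 : ∀ a, σ (σ a) = a) : ∃ q, UF σ q := by
  classical
  let K : Subfield F := σ.eqLocusField (RingHom.id F)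
  have memK : ∀ {a : F}, a ∈ K ↔ σ a = a := Iff.rfl
  obtain ⟨s, hs⟩ : ∃ s, σ s ≠ s := by
    by_contra! h; exact h1 (RingHom.ext h)
  have dec : ∀ s, σ s ≠ s → ∀ a : F, ∃ x ∈ K, ∃ y ∈ K, a = x + y * s := fun s hs a => by
    have s0 : s - σ s ≠ 0 := sub_ne_zero.2 hs.symm
    have s1 : σ s - s ≠ 0 := sub_ne_zero.2 hs
    refine ⟨a - (a - σ a) / (s - σ s) * s, memK.2 ?_, (a - σ a) / (s - σ s), memK.2 ?_, by ring⟩
    · simp only [map_sub, map_mul, map_div₀, h2]; field_simp; ring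
    · simp only [map_sub, map_div₀, h2]; field_simp; ring
  have hc : Fintype.card F = Fintype.card K ^ 2 := by
    rw [pow_two, ← Fintype.card_prod]
    refine (Fintype.card_of_bijective (f := fun p : K × K => (p.1 : F) + p.2 * s) ⟨?_, fun a => ?_⟩).symm
    · rintro ⟨x, y⟩ ⟨x', y'⟩ e
      have e : (x : F) + y * s = x' + y' * s := e
      have e' := congrArg σ e
      simp only [map_add, map_mul, memK.1 x.2, memK.1 y.2, memK.1 x'.2, memK.1 y'.2] at e'
      have e1 : (y : F) = y' := mul_right_cancel₀ (sub_ne_zero.2 hs) (by linear_combination e' - e)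
      rw [e1] at e
      exact Prod.ext (Subtype.ext (add_right_cancel e)) (Subtype.ext e1)
    · obtain ⟨x, hx, y, hy, e⟩ := dec s hs a
      exact ⟨(⟨x, hx⟩, ⟨y, hy⟩), e.symm⟩
  obtain ⟨τ, t1, t2, -⟩ := exists_conj hc
  have t3 : ∀ x ∈ K, τ x = x := fun x hx => by
    rw [t1]; exact congrArg Subtype.val (FiniteField.pow_card (⟨x, hx⟩ : K))
  refine ⟨_, hc, fun x => (t1 x).symm ▸ ?_, h1, h2⟩
  have e1 := t3 (x + σ x) (memK.2 (by rw [map_add, h2, add_comm]))
  have e2 := t3 (x * σ x) (memK.2 (by rw [map_mul, h2, mul_comm]))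
  rw [map_add] at e1
  rw [map_mul] at e2
  rcases mul_eq_zero.1 (show (τ x - x) * (τ x - σ x) = 0 by
    linear_combination τ x * e1 - e2) with e | e
  · by_contra hx
    refine t2 (RingHom.ext fun a => ?_)
    obtain ⟨y, hy, z, hz, rfl⟩ := dec x (fun e' => hx (by rw [e', sub_eq_zero.1 e])) a
    rw [map_add, map_mul, t3 y hy, t3 z hz, sub_eq_zero.1 e]; rfl
  · exact (sub_eq_zero.1 e).symm

variable [FiniteDimensional F V]

theorem sl_le_of_tvSub {B : V →ₛₗ[σ] V →ₗ[F] F} {Q : V → F} (h : IsWittPair σ B Q)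
    (hR : ∀ s, s ≠ 0 → Q s = Q 0 → Rad B Q s ⊤ ≤ M) (hb : ∀ b, Big B Q (perp B (F ∙ b)))
    {s b : V} (hs : s ∈ tvSub M (B b)) (hp : s ∉ F ∙ b) (b0 : b ≠ 0) : SLG F V ≤ M := by
  set A := perp B (F ∙ b) with hA
  have hR' : ∀ s ∈ A, Q s = Q 0 → s ∉ perp B A → ∀ g ∈ Rad B Q s A, g ∈ M ∧
      ∀ x, B b (g x) = B b x := fun s _ q p g hg =>
    ⟨hR s (by rintro rfl; exact p (zero_mem _)) q (Rad_mono s le_top hg), fun x => by
      conv_lhs => rw [← h.Rad_fix hg (h.le_perp_perp _ (Submodule.mem_span_singleton_self b))]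
      exact (mem_isom.1 hg.1).1 b x⟩
  have h1 : A ≤ tvSub M (B b) := (h.irr_of_big (hb b) fun s hs q p g hg =>
    mem_subStab_iff_le.2 fun y hy => by
      obtain ⟨g3, g4⟩ := hR' s hs q p g hg
      exact ⟨by rw [g4, hy.1], fun c hc => tvE_map_mem (hy.2 c (by simp [hy.1])) g3 g4
        (map_smul _ _ _) hc⟩).resolve_right fun e => hp (by simpa [hA, h.perp_perp] using e hs)
  have h2 : b ∈ (axSub M).comap B := fun y hy => by
    simpa using (h1 (mem_perp_singleton.2 hy)).2 1 (by simpa using hy)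
  have hb0 := hb 0
  rw [Submodule.span_zero_singleton, perp_bot] at hb0
  have h3 : ⊤ ≤ (axSub M).comap B := (h.irr_of_big hb0 fun s _ q p g hg =>
    mem_subStab_iff_le.2 fun y hy => Ax.map hy
      (hR s (by rintro rfl; exact p (zero_mem _)) q hg)
      fun x => (mem_isom.1 hg.1).1 y x).resolve_right fun e => b0 (by
        have := e h2
        rwa [h.perp_top] at this)
  refine SLG_le_of_axSub (eq_top_iff.2 fun φ _ => ?_)
  obtain ⟨r, rfl⟩ := exists_repr_dual h.surj B h.nondeg φ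
  exact h3 trivial

theorem sp_sim_maxIn4 {B : LinearMap.BilinForm F V} (hB : B.Nondegenerate)
    (hA : B.IsAlt) (h4 : 4 ≤ finrank F V) : MaxIn (SLG F V) (SimG B) := by
  have h := isWittPair_alt B hB hA
  have hb : ∀ b, Big B (fun _ => (0 : F)) (perp B (F ∙ b)) := fun b =>
    ⟨h.exists_pair_of_rank singDim_alt (by have := h.finrank_perp_singleton b; omega),
      Or.inl hasTrans_alt⟩
  obtain ⟨e, he, f, hf, -, -, hef⟩ := (hb 0).pair
  refine ⟨fun hle => ?_, fun M hM hM' m hm hmH => ?_⟩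
  · obtain ⟨w, hw, w0⟩ := (perp B (Submodule.span F {e, f})).exists_mem_ne_zero_of_ne_bot (by
      intro e'
      have h1 := h.finrank_perp (Submodule.span F {e, f})
      have h2 := IsWittPair.finrank_span_pair_le (F := F) e f
      rw [e', finrank_bot] at h1; omega)
    obtain ⟨φ, h1, h2⟩ := exists_dual_one (W := Submodule.span F {e, f}) (v := w) fun e' =>
      w0 (Submodule.disjoint_def.1 (h.disjoint_hyperbolic (hA e) (hA f) hef) w e' hw)
    obtain ⟨c, hc⟩ := hle (tvE_mem_SLG (h2 f (Submodule.subset_span (by simp))))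
    have := hc e w
    rw [tvE_apply, tvE_apply, h1, h2 e (Submodule.subset_span (by simp))] at this
    simp [(mem_perp_pair.1 hw).1, hef] at this
  have hG : SpG B ≤ M := fun g hg =>
    hM ⟨SpG_le_SLG hB hA hg, 1, fun x y => by simp [mem_SpG.1 hg]⟩
  obtain ⟨u, b, hb', hu⟩ : ∃ u b, (∀ x, B b (m x) = B u x) ∧ m u ∉ F ∙ b := by
    by_contra! hc
    have h1 : ∀ u, ∃ l : F, ∀ x, B (m u) (m x) = l * B u x := fun u => by
      obtain ⟨b, hb⟩ := h.exists_conj_tv m u
      obtain ⟨l, hl⟩ := Submodule.mem_span_singleton.1 (hc u b hb)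
      exact ⟨l, fun x => by rw [← hl]; simp [hb]⟩
    choose l hl using h1
    have h2 : ∀ u v, B u v ≠ 0 → l u = l v := fun u v huv => mul_right_cancel₀ huv (by
      rw [← hl, ← neg_inj, hA.neg_eq, hl, ← hA.neg_eq u v, mul_neg])
    have e0 : e ≠ 0 := by rintro rfl; simp at hef
    refine hmH ⟨Units.mk0 (l e) fun e' => e0 ?_, fun u v => ?_⟩
    · simpa using h.nondeg (m e) fun y => by simpa [e', apply_inv_apply] using hl e (m⁻¹ y)
    by_cases u0 : u = 0
    · simp [u0]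
    obtain ⟨φ, -, h3, h4⟩ := exists_dual_two (H := (⊥ : Submodule F V)) (u := u) (u' := e)
      (by simpa using u0) (by simpa using e0)
    obtain ⟨r, rfl⟩ := exists_repr_dual h.surj B h.nondeg φ
    rw [hl, ← h2 r u (by simp [h3]), h2 r e h4]; rfl
  have e1 : B u u = 0 := hA u
  have t1 : tvE e1 ∈ M := by
    convert hG (spTrans hA u (-1)).2
    ext x; simp [tvE_apply, spTrans_apply, hA.neg_eq]
  have e2 : B b (m u) = 0 := by rw [hb', e1]
  have t2 := tvE_map_mem t1 hm hb' rfl e2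
  obtain ⟨s, s1, s2⟩ := h.exists_dual_vec hu
  have s3 : B b s = 0 := s2 b (Submodule.mem_span_singleton_self b)
  have s4 : B s (m u) = -1 := by rw [← hA.neg_eq, s1]
  refine sl_le_of_tvSub h (fun s h0 q => ((polarG_sp hB hA).rad_le s h0 q).trans hG) hb (s := s)
    ⟨s3, fun c hc => ?_⟩ (fun e => ?_) fun e => hu ?_
  · obtain ⟨t, t3, t4⟩ := transC_alt hA (-c) s rfl
    have t5 : ∀ x, B b (t x) = B b x := fun x => by simp [t4, s3]
    exact tvE_sub_mem (tvE_map_mem t2 (hG t3) t5 rfl (by rw [t5, e2])) t2 (by simp [t4, s4]) hc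
  · obtain ⟨c, rfl⟩ := Submodule.mem_span_singleton.1 e
    simp [e2] at s4
  · have : u = 0 := h.nondeg u fun y => by rw [← hb', e]; simp
    simp [this]

theorem exists_SU_smul {B : V →ₛₗ[σ] V →ₗ[F] F} (hH : IsHerm B) {a a' : V} (ha : B a a ≠ 0)
    (ha' : B a' a' ≠ 0) (e : B a a' = 0) {ζ : F} (hζ : σ ζ * ζ = 1) :
    ∃ g ∈ SUG B, g a = ζ • a ∧ g a' = σ ζ • a' ∧ ∀ x, B a x = 0 → B a' x = 0 → g x = x := by
  obtain ⟨g, g1, g2, g3, g4⟩ := exists_uRefl hH ha hζ
  obtain ⟨k, k1, k2, k3, k4⟩ := exists_uRefl hH ha' (l := σ ζ) (by rw [hH.invol, mul_comm, hζ])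
  refine ⟨g * k, mem_SUG.2 ⟨(mem_isom.1 (mul_mem g1.1 k1.1)).1, ?_⟩, ?_, ?_, fun x h1 h2 => ?_⟩
  · rw [LinearEquiv.coe_toLinearMap_mul, map_mul, g3, k3, mul_comm, hζ]
  · rw [LinearEquiv.mul_apply, k4, hH.refl e, mul_zero, zero_smul, add_zero, g2]
  · rw [LinearEquiv.mul_apply, k2, map_smul, g4, e, mul_zero, zero_smul, add_zero]
  · simp [g4, k4, h1, h2]

theorem exists_nonisotropic_perp [Finite F] {B : V →ₛₗ[σ] V →ₗ[F] F} (hH : IsHerm B)
    (hB : B.Nondegenerate) (h4 : 4 ≤ finrank F V) {a b : V} (ha : B a a ≠ 0) (e : B a b = 0) :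
    ∃ w, B w w ≠ 0 ∧ B a w = 0 ∧ B b w = 0 := by
  have h := hH.wittPair hB
  obtain ⟨u, hu, v, hv, huv⟩ : ∃ u ∈ perp B (F ∙ a) ⊓ perp B (F ∙ b),
      ∃ v ∈ perp B (F ∙ a) ⊓ perp B (F ∙ b), B u v ≠ 0 := by
    by_contra! hc
    have h1 := h.two_mul_finrank_le' (A := perp B (F ∙ a)) (Z := perp B (F ∙ a) ⊓ perp B (F ∙ b))
      (h.disjoint_perp_perp (IsWittPair.disjoint_singleton ha)) inf_le_left
      fun y hy => mem_perp.2 fun x hx => hc x hx y hy
    have h2 := h.finrank_inf_perp_ge (perp B (F ∙ a)) (F ∙ b)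
    have h3 := h.finrank_perp (F ∙ a)
    have h5 := finrank_span_singleton_le (F := F) a
    have h6 := finrank_span_singleton_le (F := F) b
    omega
  obtain ⟨x, y, e⟩ := exists_nonisotropic (Or.inl hH.ne_id) hH.symm huv
  have := add_mem (Submodule.smul_mem _ x hu) (Submodule.smul_mem _ y hv)
  exact ⟨_, e, mem_perp_singleton.1 this.1, mem_perp_singleton.1 this.2⟩

theorem su_sim_maxIn4 [Finite F] {B : V →ₛₗ[σ] V →ₗ[F] F} (hH : IsHerm B) (hB : B.Nondegenerate)
    (h4 : 4 ≤ finrank F V) : MaxIn (SLG F V) (SimG B) := by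
  have := Fintype.ofFinite F
  have h := hH.wittPair hB
  refine ⟨fun hle => ?_, fun M hM _ m hm hmH => ?_⟩
  · obtain ⟨e, e0, he⟩ := exists_isotropic_of_two_le hH.ne_id hH.invol hH.symm (V := V) (by omega)
    obtain ⟨v, -, hv⟩ := exists_nonisotropic_mem (Or.inl hH.ne_id) hH.symm h.disjoint_top
      (top_ne_bot_of_finrank (lt_of_lt_of_le (by norm_num) h4))
    obtain ⟨g, hg, e1⟩ := exists_SLG_map (F := F) e0 (v := v) (fun e => by
      obtain ⟨c, rfl⟩ := Submodule.mem_span_singleton.1 e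
      simp [he] at hv)
    obtain ⟨c, hc⟩ := hle hg
    exact hv (by rw [← e1, hc, he, mul_zero])
  have hG : SUG B ≤ M := fun g hg =>
    hM ⟨mem_SLG.2 (mem_SUG.1 hg).2, 1, fun u v => by simp [(mem_SUG.1 hg).1]⟩
  obtain ⟨u, hu, hmu⟩ : ∃ u, B u u = 0 ∧ B (m u) (m u) ≠ 0 := by
    by_contra! hc; exact hmH (mem_SimG_of_isotropic hH hB h4 hc)
  obtain ⟨s, s0, hs⟩ := exists_skew_ne_zero hH.ne_id hH.invol
  obtain ⟨b, hb⟩ := h.exists_conj_tv m u
  have e1 : B u (s • u) = 0 := by simp [hu]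
  have t1 : tvE e1 ∈ M := by
    convert hG (mem_SUG_iff.2 (mem_suSub.2 (det_uTrans hH hu hs)))
    ext x; simp [tvE_apply, uTrans_apply, smul_smul, mul_comm]
  have e3 : B b (m u) = 0 := by rw [hb, hu]
  have e2 : B b (s • m u) = 0 := by simp [e3]
  have t2 := tvE_map_mem t1 hm hb (map_smul _ _ _) e2
  obtain ⟨w, w1, w2, w3⟩ := exists_nonisotropic_perp hH hB h4 hmu (hH.refl e3)
  obtain ⟨q, hq⟩ := exists_UF hH.ne_id hH.invol
  let A : AddSubgroup F :=
    { carrier := {c | ∀ h : B b (c • m u) = 0, tvE h ∈ M}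
      add_mem' := fun {c d} hc hd e => by
        have := mul_mem (hc (by simp [e3])) (hd (by simp [e3]))
        rw [← tvE_mul_left _ _ (by simp [e3])] at this
        convert this using 2
        module
      zero_mem' := fun e => by rw [tvE_eq_one e fun x => by simp]; exact one_mem _
      neg_mem' := fun {c} hc e => by
        have := inv_mem (hc (by simp [e3]))
        rw [tvE_inv _ (by simp [e3])] at this
        convert this using 2
        module }
  refine sl_le_of_tvSub h (fun s h0 q => ((polarG_su' hH hB (by omega)).rad_le s h0 q).trans hG)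
    (big_perp_herm hH hB h4) (s := m u) ⟨e3, fun c => hq.span_one (A := A) (fun ζ hζ c hc e => ?_)
      (a := s) (fun _ => t2) s0 c⟩ (fun e => ?_) (fun e => ?_)
  · obtain ⟨g, g1, g2, -, g4⟩ := exists_SU_smul hH hmu w1 w2 hζ
    refine tvE_map_mem (hc (by simp [e3])) (hG g1) (fun x => ?_) (by
      rw [map_smul, g2, smul_smul, mul_comm]) e
    conv_lhs => rw [← g4 b (hH.refl e3) (hH.refl w3)]
    exact (mem_SUG.1 g1).1 b x
  · obtain ⟨c, hc⟩ := Submodule.mem_span_singleton.1 e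
    exact hmu (by nth_rewrite 1 [← hc]; simp [e3])
  · have : u = 0 := h.nondeg u fun y => by rw [← hb, e]; simp
    simp [this] at hmu

open Cfsg Cfsg.Geo

theorem tabLS4 {n : ℕ} (hn : 4 ≤ n) (f : (Fin n → F) → (Fin n → F) → F)
    (hf : IsSymplecticForm f) :
    IsMaximalIn (specialLinear (Fin n) F) (similarityGroup f ⊓ specialLinear (Fin n) F) := by
  obtain ⟨B, h1, h2⟩ := exists_bilin hf.bilinear hf.nondegenerate
  exact (sp_sim_maxIn4 h2 (fun x => by rw [← h1, hf.alternating]) (by simpa using hn)).isMaximalIn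
    (Geom.glEquiv _ F) mem_specialLinear_iff (mem_similarityGroup_iff (Or.inl h1))

theorem tabLU4 [Finite F] {n : ℕ} (hn : 4 ≤ n) (σ : F ≃+* F) (f : (Fin n → F) → (Fin n → F) → F)
    (hf : IsUnitaryForm σ f) :
    IsMaximalIn (specialLinear (Fin n) F) (similarityGroup f ⊓ specialLinear (Fin n) F) := by
  obtain ⟨B, h1, h2, h3⟩ := exists_sesq_of_unitary hf
  exact (su_sim_maxIn4 h2 h3 (by simpa using hn)).isMaximalIn (Geom.glEquiv _ F)
    mem_specialLinear_iff (mem_similarityGroup_iff (Or.inr h1))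

end CF.MaxSub
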