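/-
The stabiliser of a decomposition into two planes is maximal in `SL₄(q)`, `q ≥ 4`.
-/
import Cfsg.Agent.Geom.SLDec
import Cfsg.Agent.Geom.C5B

set_option autoImplicit false

namespace CF.MaxSub

open Module Geom

variable {F U : Type*} [Field F] [AddCommGroup U] [Module F U] [FiniteDimensional F U]
  {M : Subgroup ((Fin 2 → U) ≃ₗ[F] (Fin 2 → U))}

theorem R1_add {V : Type*} [AddCommGroup V] [Module F V] {M : Subgroup (V ≃ₗ[F] V)}
    {φ : Dual F V} {v w : V} (h : R1 M φ v) (h' : R1 M φ w) (h0 : φ w = 0) : R1 M φ (v + w) := by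
  obtain ⟨g, g1, g2⟩ := h
  obtain ⟨k, k1, k2⟩ := h'
  exact ⟨g * k, mul_mem g1 k1, fun x => by simp [g2, k2, h0, smul_add]; abel⟩

theorem bstep1 [Finite F] (h : BCtx M) (hU : finrank F U = 2) (hq : 4 ≤ Nat.card F)
    {ψ : Dual F (Fin 2 → U)} {b : Fin 2 → U} (hR : R1 M ψ b) (hb : ψ b = 0) {j : Fin 2}
    (h0 : ∀ i, b i ≠ 0) : ∃ c, c ≠ 0 ∧ ψ (bv c j) = 0 ∧ R1 M ψ (bv c j) := by
  have := h.nontrivial
  have := Fintype.ofFinite F
  by_cases e : ∃ c, ψ (bv c j) = 0 ∧ c ∉ F ∙ b j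
  · obtain ⟨c, h1, h2⟩ := e
    have c0 : c ≠ 0 := by rintro rfl; exact h2 (zero_mem _)
    obtain ⟨χ, h3, h4⟩ := exists_dual_sep (F := F) (not_mem_span_symm (h0 j) h2)
    obtain ⟨g, hg, e1, -⟩ := h.tv h4 j
    exact ⟨c, c0, h1, (hR.conj hg (ψ := ψ) (fun x => by simp [e1, h1]) rfl).sub_left hR h1
      (by simp [e1, h3])⟩
  push Not at e
  obtain ⟨c, c0, hc⟩ := exists_ker_ne_zero h.two (ψ ∘ₗ LinearMap.single F (fun _ => U) j)
  obtain ⟨s, rfl⟩ := Submodule.mem_span_singleton.1 (e c hc)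
  have h1 : ψ (bv (b j) j) = 0 := by
    simpa [Pi.single_smul, show s ≠ 0 by rintro rfl; simp at c0] using hc
  obtain ⟨r, hjr, hd⟩ : ∃ r, j ≠ r ∧ ∀ x : Fin 2 → U, x = bv (x j) j + bv (x r) r := by
    fin_cases j
    · exact ⟨1, by decide, fun x => by ext i; fin_cases i <;> simp⟩
    · exact ⟨0, by decide, fun x => by ext i; fin_cases i <;> simp⟩
  have h2 : ψ (bv (b r) r) = 0 := by rw [hd b, map_add, h1, zero_add] at hb; exact hb
  obtain ⟨χ, hχ⟩ := exists_dual_eq_one (F := F) (h0 j)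
  obtain ⟨χ', hχ'⟩ := exists_dual_eq_one (F := F) (h0 r)
  have z : ∀ x y : F, ψ (x • bv (b j) j + y • bv (b r) r) = 0 := fun x y => by simp [h1, h2]
  have fin : ∀ x : F, x ≠ 0 → R1 M ψ (x • bv (b j) j + (0 : F) • bv (b r) r) →
      ∃ c, c ≠ 0 ∧ ψ (bv c j) = 0 ∧ R1 M ψ (bv c j) := fun x x0 hx =>
    ⟨x • b j, smul_ne_zero x0 (h0 j), by simp [Pi.single_smul, h1], by
      simpa [Pi.single_smul] using hx⟩
  have T1 : R1 M ψ ((1 : F) • bv (b j) j + (1 : F) • bv (b r) r) := by simpa [← hd] using hR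
  obtain ⟨a, ha⟩ := exists_notMem_list [(0 : F), 1, -1] (by
    rw [← Nat.card_eq_fintype_card]; exact hq)
  simp only [List.mem_cons, List.not_mem_nil, or_false, not_or] at ha
  obtain ⟨a0, a1, a2⟩ := ha
  by_cases a4 : a ^ 4 = 1
  · have T2 : ∀ a : F, a ≠ 0 → R1 M ψ (a • bv (b j) j + a⁻¹ • bv (b r) r) := fun a a0 => by
      have e1 : 1 + bd ((a - 1) • χ) j (bv (b j) j) ≠ 0 := by simpa [hχ] using a0
      have e2 : 1 + bd ((a⁻¹ - 1) • χ') r (bv (b r) r) ≠ 0 := by simpa [hχ'] using a0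
      refine hR.conj (h.le ⟨mem_SLG.2 (by
        rw [det_mul_equiv, det_dl, det_dl]; simp [hχ, hχ', a0]), mul_mem (dl_mem_blk _ _ _ e1)
        (dl_mem_blk _ _ _ e2)⟩) (ψ := ψ) (fun x => by simp [dl_apply, h1, h2]) ?_
      simp only [LinearEquiv.mul_apply, dl_apply, LinearMap.comp_apply, LinearMap.proj_apply,
        LinearMap.smul_apply, Pi.add_apply, Pi.smul_apply, Pi.single_eq_of_ne hjr, smul_zero,
        add_zero, hχ, hχ', smul_eq_mul]
      linear_combination (norm := module) hd b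
    have a3 : a + 1 ≠ 0 := fun e => a2 (by linear_combination e)
    have a5 : a ^ 2 + 1 = 0 := mul_left_cancel₀ (mul_ne_zero (sub_ne_zero.2 a1) a3)
      (by linear_combination a4)
    refine fin (a / (a + 1)) (div_ne_zero a0 a3) ((R1_add (T2 a a0) T1 (z _ _)).sub_left
      (T2 (a / (a + 1)) (div_ne_zero a0 a3)) (z _ _) ?_)
    match_scalars
    · field_simp; linear_combination a5
    · field_simp; ring
  · have e1 : 1 + bd (((a ^ 4)⁻¹ - 1) • χ) j (bv (b j) j) ≠ 0 := by simpa [hχ] using a0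
    have T3 : R1 M (a⁻¹ • ψ) (a • ((a ^ 4)⁻¹ • bv (b j) j + (1 : F) • bv (b r) r)) := by
      refine hR.conj (h.le (x := LinearEquiv.smulOfNeZero F _ a a0 * dl _ _ e1) ⟨mem_SLG.2 ?_,
        mul_mem (mem_decStab_blk fun i => ⟨i, fun c l hl => by simp [hl]⟩) (dl_mem_blk _ _ _ e1)⟩)
        (fun x => by simp [dl_apply, h1, a0]) ?_
      · rw [det_mul_equiv, det_dl, show (LinearEquiv.smulOfNeZero F (Fin 2 → U) a a0 :
          (Fin 2 → U) →ₗ[F] (Fin 2 → U)) = a • LinearMap.id from rfl, LinearMap.det_smul]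
        simp [hχ, a0, finrank_pi_fintype, hU]
      · simp only [LinearEquiv.mul_apply, dl_apply, LinearMap.comp_apply, LinearMap.proj_apply,
          LinearMap.smul_apply, hχ, smul_eq_mul, LinearEquiv.smulOfNeZero_apply]
        linear_combination (norm := module) a • hd b
    refine fin (1 - (a ^ 4)⁻¹) (fun e => a4 (inv_eq_one.1 (sub_eq_zero.1 e).symm)) (T1.sub_left
      (T3.congr (ψ := ψ) (w := (a ^ 4)⁻¹ • bv (b j) j + (1 : F) • bv (b r) r) fun x => by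
        rw [smul_smul, LinearMap.smul_apply, smul_eq_mul, mul_right_comm, inv_mul_cancel₀ a0,
          one_mul]) (z _ _) ?_)
    module

theorem ble_of_notMem [Finite F] (h : BCtx M) (hU : finrank F U = 2) (hq : 4 ≤ Nat.card F)
    {g : (Fin 2 → U) ≃ₗ[F] (Fin 2 → U)} (hg : g ∈ M) (hg' : g ∉ decStab (Geom.blk (τ := Fin 2) F U)) :
    SLG F (Fin 2 → U) ≤ M := by
  have := h.nontrivial
  obtain ⟨i, a, j, k, hjk, h1, h2⟩ : ∃ i a j k, j ≠ k ∧ g (bv a i) j ≠ 0 ∧ g (bv a i) k ≠ 0 := by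
    by_contra! hn
    refine hg' (mem_decStab_blk fun i => ?_)
    obtain ⟨c, c0⟩ := exists_ne (0 : U)
    obtain ⟨j, hj⟩ : ∃ j, g (bv c i) j ≠ 0 := by
      by_contra! e
      exact c0 (by simpa using congrFun (g.map_eq_zero_iff.1 (funext e)) i)
    refine ⟨j, fun a l hl => by_contra fun e => e ?_⟩
    have := hn i (a + c) j l hl.symm (by simpa [Pi.single_add, hn i a l j hl e] using hj)
    simpa [Pi.single_add, hn i c j l hl.symm hj] using this
  have h0 : ∀ s, g (bv a i) s ≠ 0 := fun s => by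
    rcases (by decide : ∀ j k s : Fin 2, j ≠ k → s = j ∨ s = k) j k s hjk with rfl | rfl <;>
      assumption
  obtain ⟨x, hx⟩ := exists_notMem_span_singleton (F := F) h.two a
  obtain ⟨χ, e1, e2⟩ := exists_dual_sep hx
  obtain ⟨t, ht, e3, -⟩ := h.tv e2 i
  have hR : R1 M (bd χ i ∘ₗ (g⁻¹ : (Fin 2 → U) ≃ₗ[F] (Fin 2 → U)).toLinearMap) (g (bv a i)) :=
    R1.conj (φ := bd χ i) ⟨t, ht, e3⟩ hg (fun x => by simp [inv_apply_apply]) rfl
  have h3 : (bd χ i ∘ₗ (g⁻¹ : (Fin 2 → U) ≃ₗ[F] (Fin 2 → U)).toLinearMap) (g (bv x i)) ≠ 0 := by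
    simp [inv_apply_apply, e1]
  have h4 : (bd χ i ∘ₗ (g⁻¹ : (Fin 2 → U) ≃ₗ[F] (Fin 2 → U)).toLinearMap) (g (bv a i)) = 0 := by
    simp [inv_apply_apply, e2]
  generalize bd χ i ∘ₗ (g⁻¹ : (Fin 2 → U) ≃ₗ[F] (Fin 2 → U)).toLinearMap = ψ at hR h3 h4
  obtain ⟨l, hl⟩ : ∃ l, ψ (bv (g (bv x i) l) l) ≠ 0 := by
    by_contra! e
    exact h3 (by rw [← Finset.univ_sum_single (g (bv x i)), map_sum]; simp [e])
  obtain ⟨s, hs⟩ := exists_ne l
  obtain ⟨c, c0, h5, h6⟩ := bstep1 h hU hq hR h4 (j := s) h0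
  obtain ⟨φ, y, h7, h8⟩ := h.step2 h6 h5 hs.symm hl
  exact h.le_of_mixed hs.symm (h.step3 hs.symm h7 c0 h8)

open Cfsg Cfsg.Geo in
theorem tabL4_planes {F : Type*} [Field F] [Fintype F] (hq : 4 ≤ Fintype.card F) {ι : Type}
    [Fintype ι] [DecidableEq ι] (D : Fin 2 → Submodule F (ι → F)) (hD : IsMDecomposition 2 D) :
    IsMaximalIn (specialLinear ι F) (decompositionStabilizer D ⊓ specialLinear ι F) := by
  have hU : finrank F (Fin 2 → F) = 2 := by simp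
  have h : MaxIn (SLG F (Fin 2 → Fin 2 → F)) (decStab (Geom.blk (τ := Fin 2) F (Fin 2 → F))) :=
    ⟨SLG_not_le_blk, fun _ hM _ _ hm hm' => ble_of_notMem ⟨hM, hU.ge⟩ hU
      (by rwa [Nat.card_eq_fintype_card]) hm hm'⟩
  obtain ⟨e, he⟩ := exists_equiv_blk hD hU
  refine h.isMaximalIn ((Geom.glEquiv ι F).trans (autCongr e).symm) (fun g => ?_) fun g => ?_
  · rw [mem_specialLinear_iff, ← autCongr_mem_SLG e]; simp
  · rw [mem_decompositionStabilizer_iff, ← autCongr_mem_decStab e he]; simp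

end CF.MaxSub
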