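/-
Orthogonal similarity groups are maximal in the special linear group in dimension four
(odd characteristic).
-/
import Cfsg.Agent.MaxSub.T4D
import Cfsg.Agent.Geom.C8S
import Cfsg.Agent.Geom.OmegaIndex

set_option autoImplicit false
set_option linter.unusedSectionVars false

namespace CF.MaxSub

open Module Geom QuadraticMap

variable {F V : Type*} [Field F] [AddCommGroup V] [Module F V] {M : Subgroup (V ≃ₗ[F] V)}
  [FiniteDimensional F V]

theorem sl_le_of_tvSub' {σ : F →+* F} {B : V →ₛₗ[σ] V →ₗ[F] F} {Q : V → F} (h : IsWittPair σ B Q)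
    (hR : ∀ s, s ≠ 0 → Q s = Q 0 → Rad B Q s ⊤ ≤ M) {s b : V} (hb : Big B Q (perp B (F ∙ b)))
    (hb0 : Big B Q ⊤) (hs : s ∈ tvSub M (B b)) (hp : s ∉ F ∙ b) (b0 : b ≠ 0) : SLG F V ≤ M := by
  set A := perp B (F ∙ b) with hA
  have hR' : ∀ s ∈ A, Q s = Q 0 → s ∉ perp B A → ∀ g ∈ Rad B Q s A, g ∈ M ∧
      ∀ x, B b (g x) = B b x := fun s _ q p g hg =>
    ⟨hR s (by rintro rfl; exact p (zero_mem _)) q (Rad_mono s le_top hg), fun x => by
      conv_lhs => rw [← h.Rad_fix hg (h.le_perp_perp _ (Submodule.mem_span_singleton_self b))]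
      exact (mem_isom.1 hg.1).1 b x⟩
  have h1 : A ≤ tvSub M (B b) := (h.irr_of_big hb fun s hs q p g hg =>
    mem_subStab_iff_le.2 fun y hy => by
      obtain ⟨g3, g4⟩ := hR' s hs q p g hg
      exact ⟨by rw [g4, hy.1], fun c hc => tvE_map_mem (hy.2 c (by simp [hy.1])) g3 g4
        (map_smul _ _ _) hc⟩).resolve_right fun e => hp (by simpa [hA, h.perp_perp] using e hs)
  have h2 : b ∈ (axSub M).comap B := fun y hy => by
    simpa using (h1 (mem_perp_singleton.2 hy)).2 1 (by simpa using hy)
  have h3 : ⊤ ≤ (axSub M).comap B := (h.irr_of_big hb0 fun s _ q p g hg =>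
    mem_subStab_iff_le.2 fun y hy => Ax.map hy
      (hR s (by rintro rfl; exact p (zero_mem _)) q hg)
      fun x => (mem_isom.1 hg.1).1 y x).resolve_right fun e => b0 (by
        have := e h2
        rwa [h.perp_top] at this)
  refine SLG_le_of_axSub (eq_top_iff.2 fun φ _ => ?_)
  obtain ⟨r, rfl⟩ := exists_repr_dual h.surj B h.nondeg φ
  exact h3 trivial

theorem exists_sq_add_sq [Finite F] (h2 : (2 : F) ≠ 0) (c : F) : ∃ a b : F, a ^ 2 + b ^ 2 = c := by
  have := Fintype.ofFinite F
  obtain ⟨a, b, h⟩ := FiniteField.exists_root_sum_quadratic (R := F) (f := Polynomial.X ^ 2)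
    (g := Polynomial.X ^ 2 - Polynomial.C c) (Polynomial.degree_X_pow 2)
    (Polynomial.degree_X_pow_sub_C (by decide) _)
    (FiniteField.odd_card_of_char_ne_two (by
      intro e; exact h2 (by simpa [e] using ringChar.Nat.cast_ringChar (R := F))))
  exact ⟨a, b, by simpa [← add_sub_assoc, sub_eq_zero] using h⟩

theorem exists_perp_two {σ : F →+* F} {B : V →ₛₗ[σ] V →ₗ[F] F} {Q : V → F} (h : IsWittPair σ B Q)
    (h4 : 4 ≤ finrank F V) (a b u : V) : ∃ w, B a w = 0 ∧ B b w = 0 ∧ w ∉ F ∙ u := by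
  obtain ⟨w, hw, hw'⟩ := SetLike.not_le_iff_exists.1
    (show ¬ perp B (F ∙ a) ⊓ perp B (F ∙ b) ≤ F ∙ u from fun e => by
      have h1 := Submodule.finrank_mono e
      have h2 := h.finrank_inf_perp_ge (perp B (F ∙ a)) (F ∙ b)
      have h3 := h.finrank_perp (F ∙ a)
      have h5 := finrank_span_singleton_le (F := F) a
      have h6 := finrank_span_singleton_le (F := F) b
      have h7 := finrank_span_singleton_le (F := F) u
      omega)
  exact ⟨w, mem_perp_singleton.1 hw.1, mem_perp_singleton.1 hw.2, hw'⟩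

variable {Q : QuadraticForm F V} [Finite F]

theorem exists_SO_vec (hQ : (polarBilin Q).Nondegenerate) (h3 : 3 ≤ finrank F V) {u v : V}
    (u0 : u ≠ 0) (v0 : v ≠ 0) (qu : Q u = 0) (qv : Q v = 0) :
    ∃ g ∈ OG Q, g ∈ SLG F V ∧ g u = v := by
  obtain ⟨g, hg, e⟩ := (isWittPair_quad Q hQ).exists_isom_vec u0 v0 (qv.trans qu.symm)
  rcases det_OG hQ ⟨g, hg⟩ with h | h
  · exact ⟨g, hg, mem_SLG.2 h, e⟩
  obtain ⟨w, qw, hw⟩ := exists_nonsingular_perp hQ h3 u
  refine ⟨g * (oRefl Q w).1, mul_mem hg (oRefl Q w).2, mem_SLG.2 ?_, ?_⟩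
  · rw [LinearEquiv.coe_toLinearMap_mul, map_mul, det_oRefl qw, h]; simp
  · rw [LinearEquiv.mul_apply, oRefl_of_polar_eq_zero (by rwa [polar_comm]), e]

theorem eichler_mem_SLG (hQ : (polarBilin Q).Nondegenerate) (h2 : (2 : F) ≠ 0)
    (h3 : 3 ≤ finrank F V) {u : V} (u0 : u ≠ 0) (qu : Q u = 0) :
    Rad (polarBilin Q) Q u ⊤ ≤ SLG F V :=
  ((polarG_omega hQ (Or.inl ⟨-1, by simp, fun e => h2 (by linear_combination -e)⟩) h3).rad_le u u0
    (by simpa using qu)).trans OmG_le_SLG

theorem sl_le_of_sing_tv (hQ : (polarBilin Q).Nondegenerate) (h2 : (2 : F) ≠ 0)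
    (h4 : 4 ≤ finrank F V) (hG : ∀ g ∈ OG Q, g ∈ SLG F V → g ∈ M) {u : V} (qu : Q u = 0)
    (u0 : u ≠ 0) {φ : Dual F V} (hφ : φ u = 0) (φ0 : φ ≠ 0) (ht : tvE hφ ∈ M) : SLG F V ≤ M := by
  have h := isWittPair_quad Q hQ
  have hR : ∀ s, s ≠ 0 → Q s = Q 0 → Rad (polarBilin Q) Q s ⊤ ≤ M := fun s s0 q g hg =>
    hG g hg.1 (eichler_mem_SLG hQ h2 (by omega) s0 (by simpa using q) hg)
  obtain ⟨f, qf, huf⟩ := h.exists_hyperbolic u0 (by simpa using qu)
  replace qf : Q f = 0 := by simpa using qf
  replace huf : polar Q u f = 1 := huf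
  have hfu : polar Q f u = 1 := by rwa [polar_comm]
  have z : ∀ v, Q v = 0 → ∀ c : F, polarBilin Q v (c • v) = 0 := fun v q c => by
    simp [polar_self', q]
  obtain ⟨c, c0, hc⟩ : ∃ c : F, c ≠ 0 ∧ tvE (z u qu c) ∈ M := by
    by_cases h1 : ∀ w, polar Q u w = 0 → φ w = 0
    · have e : ∀ x, φ x = polar Q u x * φ f := fun x => by
        simpa [sub_eq_zero] using h1 (x - polar Q u x • f) (by simp [huf])
      refine ⟨φ f, fun e' => φ0 (LinearMap.ext fun x => by simp [e x, e']), ?_⟩
      convert ht using 1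
      ext x; simp [tvE_apply, e x, smul_smul]
    push Not at h1
    obtain ⟨w, hw, w0⟩ := h1
    have e1 : (φ - φ w • polarBilin Q u) u = 0 := by simp [hφ, polar_self', qu]
    have t1 := tvE_map_mem ht (hR u u0 (by simpa using qu) (eichler_mem_Rad qu hw trivial trivial))
      (ψ := φ - φ w • polarBilin Q u) (fun x => by
        simp [eichler_apply, hφ, hw, polar_self', qu]; ring)
      (by simp [eichler_apply, polar_self', qu, polar_comm Q w u, hw]) e1
    refine ⟨φ w, w0, ?_⟩
    convert mul_mem ht (inv_mem t1)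
    rw [eq_mul_inv_iff_mul_eq]
    ext x
    simp only [LinearEquiv.mul_apply, tvE_apply, map_add, map_smul, polarBilin_apply_apply,
      polar_self', qu, LinearMap.sub_apply, LinearMap.smul_apply, smul_eq_mul]
    module
  have T : ∀ v, v ≠ 0 → ∀ qv : Q v = 0, ∀ a : F, tvE (z v qv a) ∈ M := fun v v0 qv a => by
    have k : ∀ l : F, tvE (z v qv (c * l ^ 2)) ∈ M := fun l => by
      by_cases l0 : l = 0
      · rw [tvE_eq_one _ fun x => by simp [l0]]; exact one_mem _
      have ql : Q (l • v) = 0 := by simp [quad_smul, qv]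
      obtain ⟨g, g1, g2, g3⟩ := exists_SO_vec hQ (by omega) u0 (smul_ne_zero l0 v0) qu ql
      convert tvE_map_mem hc (hG g g1 g2) (fun x => by rw [← g3]; exact (mem_isom.1 g1).1 u x)
        (by rw [map_smul, g3]) (z _ ql c) using 1
      ext x
      simp only [tvE_apply, map_smul, polarBilin_apply_apply, LinearMap.smul_apply, smul_eq_mul]
      module
    obtain ⟨x, y, e⟩ := exists_sq_add_sq h2 (a / c)
    have := mul_mem (k x) (k y)
    rw [← tvE_mul_left _ _ (by simp [polar_self', qv])] at this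
    convert this using 2
    rw [← add_smul, ← mul_add, e, mul_div_cancel₀ _ c0]
  have qb : polarBilin Q (f - u) (f - u) ≠ 0 := by
    simp [polar_self', qu, qf, huf, hfu]
    intro e; exact h2 (by linear_combination -e)
  have hd := h.disjoint_perp_perp (IsWittPair.disjoint_singleton qb)
  have e1 : polarBilin Q (f - u) (f + u) = 0 := by simp [polar_self', qu, qf, huf, hfu]
  refine sl_le_of_tvSub' h hR (s := f + u) (b := f - u) (big_quad hQ _ hd (by
      have := h.finrank_perp (F ∙ (f - u))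
      have := finrank_span_singleton_le (F := F) (f - u)
      omega)) (big_quad hQ _ h.disjoint_top (by rw [finrank_top]; omega)) ⟨e1, fun a ha => ?_⟩
    (fun e => ?_) (fun e => qb (by simp [e]))
  · refine tvE_map_mem (T f (by rintro rfl; simp at huf) qf a) (T u u0 qu 1) (fun x => ?_)
      (by simp [tvE_apply, huf]) ha
    simp [tvE_apply, polar_self', qu, hfu]
  · obtain ⟨a, ha⟩ := Submodule.mem_span_singleton.1 e
    have h5 := congrArg (polar Q u) ha
    have h6 := congrArg (polar Q f) ha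
    simp [polar_self', qu, qf, huf, hfu] at h5 h6
    exact h2 (by linear_combination -h5 - h6)

/-- A subgroup containing the Eichler transformations and no transvection with singular centre. -/
structure NoTv (Q : QuadraticForm F V) (M : Subgroup (V ≃ₗ[F] V)) : Prop where
  nd : (polarBilin Q).Nondegenerate
  h2 : (2 : F) ≠ 0
  h4 : finrank F V = 4
  ei : ∀ {u w : V}, u ≠ 0 → ∀ (qu : Q u = 0) (hw : polar Q u w = 0), (eichler qu hw).1 ∈ M
  no : ∀ u, Q u = 0 → u ≠ 0 → ∀ (φ : Dual F V) (h : φ u = 0), tvE h ∈ M → φ = 0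

namespace NoTv

theorem iso (h : NoTv Q M) {u : V} (qu : Q u = 0) (u0 : u ≠ 0) {x : V ≃ₗ[F] V} (hx : x ∈ M)
    (e1 : x u = u) (e2 : ∀ v, polar Q u (x v) = polar Q u v) {w : V} (hw : polar Q u w = 0)
    (y : V) : polar Q (x w) (x y) = polar Q w y := by
  have hw' : polar Q u (x w) = 0 := by rw [e2, hw]
  have e3 : x⁻¹ u = u := by rw [← e1, inv_apply_apply, e1]
  have e4 : (polarBilin Q (x w) - polarBilin Q w ∘ₗ (x⁻¹ : V ≃ₗ[F] V).toLinearMap +
      (Q (x w) - Q w) • polarBilin Q u) u = 0 := by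
    simp only [LinearMap.add_apply, LinearMap.sub_apply, LinearMap.comp_apply, LinearEquiv.coe_coe,
      e3, polarBilin_apply_apply, LinearMap.smul_apply]
    simp [polar_comm Q _ u, hw, hw', polar_self', qu]
  have := h.no u qu u0 _ e4 (by
    convert mul_mem (inv_mem (h.ei u0 qu hw')) (mul_mem (mul_mem hx (h.ei u0 qu hw)) (inv_mem hx))
    rw [eq_inv_mul_iff_mul_eq, eq_mul_inv_iff_mul_eq]
    ext y
    simp only [LinearEquiv.mul_apply, tvE_apply, map_add, map_sub, map_smul, eichler_apply,
      polarBilin_apply_apply, polar_self', qu, LinearMap.sub_apply, LinearMap.smul_apply,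
      smul_eq_mul, LinearMap.add_apply, LinearMap.comp_apply, LinearEquiv.coe_coe, inv_apply_apply,
      e1, e2, polar_comm Q (x w) u, hw', hw, polar_add_right, polar_smul_right]
    module)
  have k : ∀ y, polar Q (x w) (x y) - polar Q w y + (Q (x w) - Q w) * polar Q u y = 0 := fun y => by
    simpa [inv_apply_apply, e2] using LinearMap.congr_fun this (x y)
  have k1 := k w
  rw [polar_self', polar_self', hw] at k1
  have k2 : Q (x w) - Q w = 0 := mul_left_cancel₀ h.h2 (by linear_combination k1)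
  simpa [k2, sub_eq_zero] using k y

theorem unip (h : NoTv Q M) {u : V} (qu : Q u = 0) (u0 : u ≠ 0) {x : V ≃ₗ[F] V} (hx : x ∈ M)
    (e1 : x u = u) (e2 : ∀ v, polar Q u (x v) = polar Q u v) {z : V} (hz : polar Q u z = 0)
    (hd : x (x z - z) - (x z - z) ∈ F ∙ u) : x z - z ∈ F ∙ u := by
  have W := isWittPair_quad Q h.nd
  by_contra hn
  obtain ⟨c, hc⟩ := Submodule.mem_span_singleton.1 hd
  set d := x z - z with hd'
  have a1 : x z = z + d := by simp [hd']
  have a2 : x d = d + c • u := by simp [hc]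
  have a3 : polar Q u d = 0 := by simp [hd', e2]
  have k1 := h.iso qu u0 hx e1 e2 hz d
  have k2 := h.iso qu u0 hx e1 e2 hz z
  simp only [a1, a2, polar_add_left, polar_add_right, polar_smul_right, polar_comm Q _ u, hz, a3,
    polar_comm Q d z, smul_zero] at k1 k2
  have k3 : polar Q d d = 0 := by linear_combination k1
  have k4 : polar Q z d = 0 := mul_left_cancel₀ h.h2 (by linear_combination k2 - k3)
  have k5 : finrank F (Submodule.span F {u, d}) = 2 := by
    have := finrank_span_eq_card (R := F) (b := ![u, d]) (LinearIndependent.pair_iff.2 fun s t e => by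
      have t0 : t = 0 := by
        by_contra t0
        exact hn ((Submodule.smul_mem_iff _ t0).1 (Submodule.mem_span_singleton.2
          ⟨-s, by rw [neg_smul, neg_eq_iff_add_eq_zero, e]⟩))
      exact ⟨by simpa [t0, u0] using e, t0⟩)
    rwa [Matrix.range_cons_cons_empty] at this
  have k6 : Submodule.span F {u, d} = perp (polarBilin Q) (Submodule.span F {u, d}) :=
    Submodule.eq_of_le_of_finrank_eq (Submodule.span_le.2 (by
      have a4 : polar Q d u = 0 := by rwa [polar_comm]
      rintro _ (rfl | rfl) <;> refine mem_perp_pair.2 ⟨?_, ?_⟩ <;>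
        simp [polar_self', qu, a3, k3, a4])) (by
      have := W.finrank_perp (Submodule.span F {u, d}); have := h.h4; omega)
  obtain ⟨α, β, e⟩ := Submodule.mem_span_pair.1 (k6 ▸ mem_perp_pair.2
    ⟨hz, by rw [polarBilin_apply_apply, polar_comm, k4]⟩ : z ∈ Submodule.span F {u, d})
  refine hn (Submodule.mem_span_singleton.2 ⟨β * c, ?_⟩)
  have := congrArg x e
  rw [map_add, map_smul, map_smul, e1, a1, a2] at this
  linear_combination (norm := module) this - e

theorem perp_of (h : NoTv Q M) {u : V} (qu : Q u = 0) (u0 : u ≠ 0) {m : V ≃ₗ[F] V} (hm : m ∈ M)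
    (qm : Q (m u) = 0) {y : V} (hy : polar Q (m u) (m y) = 0) : polar Q u y = 0 := by
  have W := isWittPair_quad Q h.nd
  obtain ⟨b, hb⟩ := W.exists_conj_tv m u
  simp only [polarBilin_apply_apply] at hb
  obtain ⟨d, d1, d2, d3⟩ := exists_perp_two W h.h4.ge b (m u) (m u)
  obtain ⟨w, rfl⟩ := m.surjective d
  simp only [polarBilin_apply_apply, hb] at d1 d2
  by_contra y0
  have e : ∀ v, (m * (eichler qu d1).1 * m⁻¹) (m v) =
      m v + polar Q u v • m w - (polar Q w v + Q w * polar Q u v) • m u := fun v => by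
    simp only [LinearEquiv.mul_apply, inv_apply_apply, eichler_apply, map_add, map_sub, map_smul]
    module
  have ht := mul_mem (mul_mem hm (h.ei u0 qu d1)) (inv_mem hm)
  generalize m * (eichler qu d1).1 * m⁻¹ = t at ht e
  have e1 : t (m u) = m u := by simp [e, polar_self', qu, polar_comm Q w u, d1]
  have := h.unip qm (by simpa using u0) ht e1 (fun v => by
    obtain ⟨v, rfl⟩ := m.surjective v
    simp [e, d2, polar_self', qm]) hy (Submodule.mem_span_singleton.2
      ⟨-(polar Q u y * polar Q w w), by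
        simp only [e y, e w, map_add, map_sub, map_smul, e1, d1]; module⟩)
  rw [e] at this
  refine d3 ((Submodule.smul_mem_iff _ y0).1 ?_)
  convert add_mem this (Submodule.smul_mem _ (polar Q w y + Q w * polar Q u y)
    (Submodule.mem_span_singleton_self (m u))) using 1
  module

theorem sing (h : NoTv Q M) {u : V} (qu : Q u = 0) {m : V ≃ₗ[F] V} (hm : m ∈ M) :
    Q (m u) = 0 := by
  have W := isWittPair_quad Q h.nd
  by_cases u0 : u = 0
  · simp [u0]
  by_contra qm
  obtain ⟨s, hs, s0, qs⟩ := exists_singular_mem Q (U := perp (polarBilin Q) (F ∙ m u)) (by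
    have := W.finrank_perp (F ∙ m u)
    have := finrank_span_singleton_le (F := F) (m u)
    have := h.h4
    omega)
  replace hs : polar Q (m u) s = 0 := mem_perp_singleton.1 hs
  obtain ⟨w, w1, w2, w3⟩ := exists_perp_two W h.h4.ge s (m u) s
  simp only [polarBilin_apply_apply] at w1 w2
  have hx := h.ei s0 qs w1
  have ex := eichler_apply qs w1
  generalize (eichler qs w1).1 = x at hx ex
  have xs : x s = s := by simp [ex, polar_self', qs, polar_comm Q w s, w1]
  have xw : x w = w - polar Q w w • s := by simp [ex, w1]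
  have xp : x (m u) = m u := by simp [ex, polar_comm Q _ (m u), hs, w2]
  have hg := mul_mem (mul_mem (inv_mem hm) hx) hm
  have g1 : (m⁻¹ * x * m) u = u := by simp [xp, inv_apply_apply]
  obtain ⟨b, hb⟩ := W.exists_conj_tv m u
  simp only [polarBilin_apply_apply] at hb
  have hb' : ∀ y, polar Q u (m⁻¹ y) = polar Q b y := fun y => by rw [← hb, apply_inv_apply]
  have b0 : b ≠ 0 := fun e => u0 (W.nondeg u fun y => by simp [← hb, e])
  obtain ⟨f, hf⟩ : ∃ f, polar Q b f = 1 := by
    obtain ⟨f, hf, -⟩ := W.exists_dual_vec (x := b) (Z := ⊥) (by simpa using b0)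
    exact ⟨f, hf⟩
  have k1 : ∀ y, polar Q b y = 0 → polar Q b (x y) = 0 := fun y hy => by
    have g2 : (m⁻¹ * x * m)⁻¹ u = u := by rw [← g1, inv_apply_apply, g1]
    have := h.perp_of qu u0 (inv_mem hg) (by rwa [g2]) (y := m⁻¹ (x y)) (by
      rw [g2, mul_inv_rev, mul_inv_rev, inv_inv, LinearEquiv.mul_apply, LinearEquiv.mul_apply,
        apply_inv_apply, inv_apply_apply, hb', hy])
    rwa [hb'] at this
  have k2 : ∀ y, polar Q b (x y) = polar Q b y * polar Q b (x f) := fun y => by
    simpa [sub_eq_zero] using k1 (y - polar Q b y • f) (by simp [hf])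
  have k3 : polar Q b (x f) = 1 := by
    by_contra l1
    have l2 : 1 - polar Q b (x f) ≠ 0 := sub_ne_zero.2 (Ne.symm l1)
    have bs : polar Q b s = 0 := by
      have := k2 s; rw [xs] at this
      exact mul_right_cancel₀ l2 (by linear_combination this)
    have bw : polar Q b w = 0 := by
      have := k2 w; rw [xw, polar_sub_right, polar_smul_right, bs] at this
      exact mul_right_cancel₀ l2 (by simp only [smul_zero, sub_zero] at this; linear_combination this)
    exact l1 (by simp [ex, bs, bw, hf])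
  have k4 : ∀ v, polar Q u ((m⁻¹ * x * m) v) = polar Q u v := fun v => by
    rw [LinearEquiv.mul_apply, LinearEquiv.mul_apply, hb', k2, k3, hb, mul_one]
  have k5 : ∀ y, polar Q b y = 0 → x y = y := fun y hy => by
    obtain ⟨z, rfl⟩ := m.surjective y
    rw [hb] at hy
    have a1 := h.unip qu u0 hg g1 k4 (z := (m⁻¹ * x * m) z - z)
        (by simp only [polar_sub_right, k4, sub_self]) (by
      convert zero_mem (F ∙ u)
      apply m.injective
      simp only [LinearEquiv.mul_apply, map_sub, apply_inv_apply, map_zero, ex (m z), map_add,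
        map_smul, xs, xw]
      module)
    obtain ⟨c, hc⟩ := Submodule.mem_span_singleton.1 (h.unip qu u0 hg g1 k4 hy a1)
    have a2 : x (m z) - m z = c • m u := by
      simpa [apply_inv_apply] using (congrArg m hc).symm
    have a3 := congrArg (polar Q (m u)) a2
    rw [ex] at a3
    simp [hs, w2, polar_self', h.h2, qm] at a3
    rwa [a3, zero_smul, sub_eq_zero] at a2
  have k6 : ∀ y, polar Q b y = 0 → polar Q s y = 0 ∧ polar Q w y = 0 := fun y hy => by
    have a1 := k5 y hy
    rw [ex] at a1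
    have a2 : polar Q s y = 0 := by
      by_contra a2
      exact w3 ((Submodule.smul_mem_iff _ a2).1 (Submodule.mem_span_singleton.2
        ⟨polar Q w y + Q w * polar Q s y, by linear_combination (norm := module) -a1⟩))
    exact ⟨a2, by simpa [a2, s0] using a1⟩
  have k7 : ∀ v, (∀ y, polar Q b y = 0 → polar Q v y = 0) → v = polar Q v f • b := fun v hv =>
    sub_eq_zero.1 (W.nondeg _ fun y => by
      have := hv (y - polar Q b y • f) (by simp [hf])
      simp at this ⊢; linear_combination this)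
  have a1 := k7 s fun y hy => (k6 y hy).1
  have a2 := k7 w fun y hy => (k6 y hy).2
  have a3 : polar Q s f ≠ 0 := fun e => s0 (by rw [a1, e, zero_smul])
  refine w3 (Submodule.mem_span_singleton.2 ⟨polar Q w f / polar Q s f, ?_⟩)
  rw [a1, a2, smul_smul, ← a1, ← a2, div_mul_cancel₀ _ a3, ← a2]

theorem le (h : NoTv Q M) : M ≤ qSimG Q := fun m hM => by
  have W := isWittPair_quad Q h.nd
  have hm : ∀ u, Q u = 0 → Q (m u) = 0 := fun u q => h.sing q hM
  obtain ⟨e, e0, he⟩ := exists_singular_of_three_le Q (by have := h.h4; omega)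
  obtain ⟨f, hf, hef⟩ := W.exists_hyperbolic e0 (by simpa using he)
  replace hf : Q f = 0 := by simpa using hf
  replace hef : polar Q e f = 1 := hef
  set c := polar Q (m e) (m f) with hc
  have key : ∀ e f : V, Q e = 0 → polar Q e f = 1 → polar Q (m e) (m f) = c → ∀ x,
      polar Q (m e) (m x) = c * polar Q e x := fun e f he hef hc x => by
    have := h.perp_of (hm e he) (by rintro e'; simp [m.map_eq_zero_iff.1 e'] at hef) (inv_mem hM)
      (by rwa [inv_apply_apply]) (y := m (x - polar Q e x • f)) (by simp [inv_apply_apply, hef])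
    simpa [hc, sub_eq_zero, mul_comm] using this
  have k1 := key e f he hef rfl
  have k2 := key f e hf (by rwa [polar_comm]) (by rw [polar_comm])
  have k3 : ∀ x, polar Q e x ≠ 0 → Q (m x) = c * Q x := fun x hx => by
    have h1 := hm (x - (Q x / polar Q e x) • e) (by
      simp [quad_sub, quad_smul, he, polar_comm Q x e, hx])
    rw [map_sub, map_smul, quad_sub, quad_smul, hm e he, polar_smul_right,
      polar_comm Q (m x), k1, smul_eq_mul, mul_left_comm, div_mul_cancel₀ _ hx] at h1
    linear_combination h1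
  have k4 : ∀ x, Q (m x) = c * Q x := fun x => by
    by_cases hx : polar Q e x = 0
    · have h1 := k3 (x + f) (by simp [hx, hef])
      simp only [map_add, quad_add, hm f hf, hf, polar_comm Q (m x), polar_comm Q x, k2] at h1
      linear_combination h1
    · exact k3 x hx
  have c0 : c ≠ 0 := fun e' => e0 (by
    have := W.nondeg (m e) fun y => by simpa [e', apply_inv_apply] using k1 (m⁻¹ y)
    simpa using this)
  exact ⟨Units.mk0 c c0, k4⟩

end NoTv

theorem o_sim_maxIn4 (hQ : (polarBilin Q).Nondegenerate) (h2 : (2 : F) ≠ 0)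
    (h4 : finrank F V = 4) : MaxIn (SLG F V) (qSimG Q) := by
  have h := isWittPair_quad Q hQ
  refine ⟨fun hle => ?_, fun M hM _ m hm hmH => ?_⟩
  · obtain ⟨e, e0, he⟩ := exists_singular_of_three_le Q (by omega)
    obtain ⟨v, -, hv⟩ := exists_nonsingular_mem (Q := Q) h.disjoint_top
      (top_ne_bot_of_finrank (by omega))
    obtain ⟨g, hg, e1⟩ := exists_SLG_map (F := F) e0 (v := v) (fun e => by
      obtain ⟨c, rfl⟩ := Submodule.mem_span_singleton.1 e
      simp [he, quad_smul] at hv)
    obtain ⟨c, hc⟩ := hle hg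
    exact hv (by rw [← e1, hc, he, mul_zero])
  have hG : ∀ g ∈ OG Q, g ∈ SLG F V → g ∈ M := fun g hg hg' =>
    hM ⟨hg', 1, fun v => by simp [mem_OG.1 hg]⟩
  by_contra hn
  refine hmH (NoTv.le ⟨hQ, h2, h4, fun u0 qu hw => hG _ (eichler qu hw).2
    (eichler_mem_SLG hQ h2 (by omega) u0 qu (eichler_mem_Rad qu hw trivial trivial)),
    fun u qu u0 φ hφ ht => ?_⟩ hm)
  by_contra φ0
  exact hn (sl_le_of_sing_tv hQ h2 h4.ge hG qu u0 hφ φ0 ht)

open Cfsg Cfsg.Geo

theorem tabLO4 {F : Type*} [Field F] [Fintype F] (hodd : Odd (Fintype.card F))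
    (Q : (Fin 4 → F) → F) (hQ : IsNondegenerateQuadraticForm Q) :
    IsMaximalIn (specialLinear (Fin 4) F) (quadSimilarityGroup Q ⊓ specialLinear (Fin 4) F) := by
  obtain ⟨Q, rfl, h⟩ := exists_quadraticForm hQ
  exact (o_sim_maxIn4 h (two_ne_zero_of_odd_card hodd) (by simp)).isMaximalIn
    (Geom.glEquiv _ F) mem_specialLinear_iff (mem_quadSimilarityGroup_iff Q)

end CF.MaxSub
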