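/-
The monomial subgroup of `SL₄(q)` is maximal for `q ≥ 7`; the table of `SL₄(q)` outside class 6.
-/
import Cfsg.Agent.MaxSub.T4E
import Cfsg.Agent.MaxSub.T4F
import Cfsg.Agent.MaxSub.T4G

set_option autoImplicit false
set_option linter.unusedSectionVars false

namespace CF.MaxSub

open Module Geom

variable {F : Type*} [Field F]

section Dg

variable {ι : Type} [Fintype ι] [DecidableEq ι]

/-- The diagonal map with the given entries. -/
def dgE (d : ι → Fˣ) : (ι → F) ≃ₗ[F] (ι → F) where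
  toFun x i := d i * x i
  invFun x i := ((d i)⁻¹ : Fˣ) * x i
  map_add' x y := funext fun i => by simp [mul_add]
  map_smul' c x := funext fun i => by simp [mul_left_comm]
  left_inv x := funext fun i => by simp
  right_inv x := funext fun i => by simp

theorem dgE_apply (d : ι → Fˣ) (x : ι → F) (i : ι) : dgE d x i = d i * x i := rfl

theorem det_dgE (d : ι → Fˣ) :
    LinearMap.det (dgE d : (ι → F) →ₗ[F] (ι → F)) = ∏ i, (d i : F) := by
  have : (dgE d : (ι → F) →ₗ[F] (ι → F)) = Matrix.toLin' (Matrix.diagonal fun i => (d i : F)) :=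
    LinearMap.ext fun x => funext fun i => by simp [dgE_apply, Matrix.mulVec_diagonal]
  rw [this, LinearMap.det_toLin', Matrix.det_diagonal]

theorem dgE_mem_MonG (d : ι → Fˣ) : dgE d ∈ MonG ι F :=
  mem_MonG_of fun j => ⟨j, fun l hl => by rw [dgE_apply, ee_ne j hl, mul_zero]⟩

theorem exists_row (g : (ι → F) ≃ₗ[F] (ι → F)) (a : ι) : ∃ u, g (ee F u) a ≠ 0 :=
  exists_dual_ne (φ := pr F a ∘ₗ (g : (ι → F) →ₗ[F] (ι → F))) (x := g⁻¹ (ee F a))
    (by simp [apply_inv_apply])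

/-- A monomial map with an eigenvector of support at most two. -/
theorem mon_sq {n : (ι → F) ≃ₗ[F] (ι → F)} (hn : n ∈ MonG ι F) {p : ι → F} (p0 : p ≠ 0) {c : F}
    (c0 : c ≠ 0) (e : n p = c • p) {r r' : ι} (hp : ∀ l, l ≠ r → l ≠ r' → p l = 0) :
    ∃ l, n (n (ee F l)) = (c * c) • ee F l := by
  obtain ⟨π, ν, h0, h1, h2⟩ := exists_of_mem_MonG hn
  obtain ⟨l, hl⟩ := Function.ne_iff.1 p0
  have k : ∀ l, c * p (π l) = ν l * p l := fun l => by simpa [e] using h2 p l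
  have k' : ∀ l, p l ≠ 0 → p (π l) ≠ 0 := fun l hl e => mul_ne_zero (h0 l) hl (by simp [← k, e])
  have s : ∀ l, p l ≠ 0 → l = r ∨ l = r' := fun l hl => by
    by_contra! hc; exact hl (hp l hc.1 hc.2)
  have k1 : π (π l) = l := by
    by_cases e1 : π l = l
    · rw [e1, e1]
    have e2 : π (π l) ≠ π l := fun e => e1 (π.injective e)
    by_contra e3
    rcases s l hl with a | a <;> rcases s _ (k' _ hl) with b | b <;>
      rcases s _ (k' _ (k' _ hl)) with d | d <;>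
      first | exact e1 (b.trans a.symm) | exact e2 (d.trans b.symm) | exact e3 (d.trans a.symm)
  refine ⟨l, ?_⟩
  rw [h1, map_smul, h1, k1, smul_smul]
  congr 1
  have a1 := k (π l)
  rw [k1] at a1
  exact mul_right_cancel₀ hl (by linear_combination -(ν (π l)) * k l - c * a1)

end Dg

/-- Vectors with non-zero entries, sum zero and product in a given class. -/
def Gd (κ : F) (x : Fin 4 → F) : Prop :=
  (∀ i, x i ≠ 0) ∧ x 0 + x 1 + x 2 + x 3 = 0 ∧ ∃ μ, μ ≠ 0 ∧ x 0 * x 1 * x 2 * x 3 = μ ^ 4 * κ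

/-- Proportional vectors. -/
def Prp (x y : Fin 4 → F) : Prop := ∀ i j, x i * y j = x j * y i

/-- At most three points. -/
def Few (κ : F) : Prop := ∀ x y z w, Gd κ x → Gd κ y → Gd κ z → Gd κ w →
  Prp x y ∨ Prp x z ∨ Prp x w ∨ Prp y z ∨ Prp y w ∨ Prp z w

theorem gd_of {κ a b c d μ : F} (ha : a ≠ 0) (hb : b ≠ 0) (hc : c ≠ 0) (hd : d ≠ 0)
    (hs : a + b + c + d = 0) (hμ : μ ≠ 0) (e : a * b * c * d = μ ^ 4 * κ) : Gd κ ![a, b, c, d] :=
  ⟨fun i => by fin_cases i <;> assumption, hs, μ, hμ, e⟩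

theorem not_few1 {κ a b c d : F} (ha : a ≠ 0) (hb : b ≠ 0) (hc : c ≠ 0) (hd : d ≠ 0)
    (hs : a + b + c + d = 0) (e : κ = a * b * c * d) (ab : a ≠ b) (ac : a ≠ c) (bc : b ≠ c) :
    ¬ Few κ := fun h => by
  rcases h _ _ _ _ (gd_of ha hb hc hd hs one_ne_zero (by rw [e]; ring))
    (gd_of hb ha hc hd (by linear_combination hs) one_ne_zero (by rw [e]; ring))
    (gd_of ha hc hb hd (by linear_combination hs) one_ne_zero (by rw [e]; ring))
    (gd_of hc hb ha hd (by linear_combination hs) one_ne_zero (by rw [e]; ring)) with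
    h | h | h | h | h | h
  · exact ab (mul_right_cancel₀ hd ((h 0 3).trans (mul_comm _ _)))
  · exact bc (mul_right_cancel₀ hd ((h 1 3).trans (mul_comm _ _)))
  · exact ac (mul_right_cancel₀ hd ((h 0 3).trans (mul_comm _ _)))
  · exact ab (mul_right_cancel₀ hd ((h 0 3).trans (mul_comm _ _))).symm
  · exact bc (mul_right_cancel₀ hd ((h 0 3).trans (mul_comm _ _)))
  · exact ac (mul_right_cancel₀ hd ((h 0 3).trans (mul_comm _ _)))

theorem not_few2 {κ a d : F} (ha : a ≠ 0) (hd : d ≠ 0) (hs : a + a + a + d = 0)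
    (e : κ = a * a * a * d) (ad : a ≠ d) : ¬ Few κ := fun h => by
  rcases h _ _ _ _ (gd_of ha ha ha hd hs one_ne_zero (by rw [e]; ring))
    (gd_of ha ha hd ha (by linear_combination hs) one_ne_zero (by rw [e]; ring))
    (gd_of ha hd ha ha (by linear_combination hs) one_ne_zero (by rw [e]; ring))
    (gd_of hd ha ha ha (by linear_combination hs) one_ne_zero (by rw [e]; ring)) with
    h | h | h | h | h | h
  · exact ad (mul_left_cancel₀ ha ((h 0 3).trans (mul_comm _ _)))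
  · exact ad (mul_left_cancel₀ ha ((h 0 3).trans (mul_comm _ _)))
  · exact ad (mul_left_cancel₀ ha ((h 1 3).trans (mul_comm _ _)))
  · exact ad (mul_left_cancel₀ ha ((h 0 2).trans (mul_comm _ _)))
  · exact ad (mul_left_cancel₀ ha ((h 1 2).trans (mul_comm _ _)))
  · exact ad (mul_left_cancel₀ ha ((h 2 1).trans (mul_comm _ _)))

theorem exists_two_sq [Finite F] (h : 7 ≤ Nat.card F) : ∃ μ ν : F, μ ≠ 0 ∧ ν ≠ 0 ∧ μ ^ 4 ≠ 1 ∧
    ν ^ 2 ≠ 1 ∧ ν ^ 2 ≠ μ ^ 2 := by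
  have := Fintype.ofFinite F
  rw [Nat.card_eq_fintype_card] at h
  open Polynomial in
  obtain ⟨μ, hμ⟩ := exists_eval_ne_zero_of_natDegree_lt_card (X * (X ^ 4 - 1) : F[X])
    (mul_ne_zero X_ne_zero fun e => by simpa using congrArg (eval 0) e) (by
      have : natDegree (X * (X ^ 4 - 1) : F[X]) ≤ 5 := by compute_degree
      rw [Cardinal.mk_fintype, Nat.cast_lt]; omega)
  obtain ⟨ν, hν⟩ := exists_notMem_list [(0 : F), 1, -1, μ, -μ] (lt_of_lt_of_le (by simp) h)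
  simp only [List.mem_cons, List.not_mem_nil, or_false, not_or] at hν
  simp only [Polynomial.eval_mul, Polynomial.eval_X, Polynomial.eval_sub, Polynomial.eval_one,
    Polynomial.eval_pow, ne_eq, mul_eq_zero, not_or, sub_eq_zero] at hμ
  refine ⟨μ, ν, hμ.1, hν.1, hμ.2, fun e => ?_, fun e => ?_⟩
  · rcases sq_eq_one_iff_of_ne_zero' e with e | e
    exacts [hν.2.1 e, hν.2.2.1 e]
  · rcases sq_eq_sq_iff_eq_or_eq_neg.1 e with e | e
    exacts [hν.2.2.2.1 e, hν.2.2.2.2 e]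

theorem not_few3 [Finite F] (h7 : 7 ≤ Nat.card F) {κ s t : F} (hs : s ≠ 0) (ht : t ≠ 0)
    (e : κ = s * s * t * t) : ¬ Few κ := fun h => by
  obtain ⟨μ, ν, μ0, ν0, μ1, ν1, e1⟩ := exists_two_sq h7
  have μ2 : μ ^ 2 ≠ 1 := fun e => μ1 (by linear_combination (μ ^ 2 + 1) * e)
  have k : ∀ τ : F, τ ≠ 0 → Gd κ ![s, -s, τ ^ 2 * t, -(τ ^ 2 * t)] := fun τ τ0 =>
    gd_of hs (by simpa) (by simp [*]) (by simp [*]) (by ring) τ0 (by rw [e]; ring)
  have k1 : ∀ τ ρ : F, Prp ![s, -s, τ ^ 2 * t, -(τ ^ 2 * t)] ![s, -s, ρ ^ 2 * t, -(ρ ^ 2 * t)] →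
      ρ ^ 2 = τ ^ 2 := fun τ ρ h => mul_left_cancel₀ (mul_ne_zero hs ht) (by
    have : s * (ρ ^ 2 * t) = τ ^ 2 * t * s := h 0 2
    linear_combination this)
  obtain ⟨τ, τ0, hτ⟩ : ∃ τ : F, τ ≠ 0 ∧ s + τ ^ 2 * t ≠ 0 := by
    by_contra! hc
    exact μ2 (mul_right_cancel₀ ht (by linear_combination hc μ μ0 - hc 1 one_ne_zero))
  have k2 : ∀ y z : F, ¬ Prp ![s, -s, y, z] ![s, τ ^ 2 * t, -s, -(τ ^ 2 * t)] := fun y z h =>
    hτ (mul_left_cancel₀ hs (by
      have : s * (τ ^ 2 * t) = -s * s := h 0 1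
      linear_combination this))
  rcases h _ _ _ ![s, τ ^ 2 * t, -s, -(τ ^ 2 * t)] (k 1 one_ne_zero) (k μ μ0) (k ν ν0)
    (gd_of hs (by simp [*]) (by simpa) (by simp [*]) (by ring) τ0 (by rw [e]; ring)) with
    h | h | h | h | h | h
  · exact μ2 (by simpa using k1 _ _ h)
  · exact ν1 (by simpa using k1 _ _ h)
  · exact k2 _ _ h
  · exact e1 (k1 _ _ h)
  · exact k2 _ _ h
  · exact k2 _ _ h

theorem not_few [Finite F] (h7 : 7 ≤ Nat.card F) {a b c d : F} (ha : a ≠ 0) (hb : b ≠ 0)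
    (hc : c ≠ 0) (hd : d ≠ 0) (hs : a + b + c + d = 0) : ¬ Few (a * b * c * d) := by
  have k : ∀ {a b c d : F}, a ≠ 0 → c ≠ 0 → a + b + c + d = 0 → a + b = 0 →
      ¬ Few (a * b * c * d) := fun {a b c d} ha hc hs e => not_few3 h7 ha hc (by
    rw [eq_neg_of_add_eq_zero_right e, show d = -c by linear_combination hs - e]; ring)
  have k2 : ∀ {a c d : F}, a ≠ 0 → c ≠ 0 → d ≠ 0 → a + a + c + d = 0 →
      ¬ Few (a * a * c * d) := fun {a c d} ha hc hd hs => by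
    by_cases e : a + c = 0
    · simpa only [mul_right_comm a c a] using k ha ha (b := c) (d := d) (by linear_combination hs) e
    by_cases ac : a = c
    · subst ac
      exact not_few2 ha hd hs rfl (by rintro rfl; exact mul_self_ne_zero.2 e (by
        linear_combination a * hs))
    by_cases ad : a = d
    · subst ad
      exact not_few2 ha hc (by linear_combination hs) (by ring) ac
    by_cases cd : c = d
    · subst cd
      exact k ha hc hs (by_contra fun e' => e (mul_left_cancel₀ (a := 2) (fun e2 => e' (by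
        linear_combination a * e2)) (by linear_combination hs)))
    exact not_few1 ha hc hd ha (by linear_combination hs) (by ring) ac ad cd
  by_cases ab : a = b
  · subst ab; exact k2 ha hc hd hs
  by_cases ac : a = c
  · subst ac
    simpa only [mul_right_comm a a b] using k2 ha hb hd (by linear_combination hs)
  by_cases bc : b = c
  · subst bc
    simpa only [show b * b * a * d = a * b * b * d by ring] using
      k2 hb ha hd (by linear_combination hs)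
  exact not_few1 ha hb hc hd hs rfl ab ac bc

variable {M : Subgroup ((Fin 4 → F) ≃ₗ[F] (Fin 4 → F))} [Finite F]

namespace SC4

theorem Z1 (h : SC4 M) (hn : ¬ HasRt M) {a : Fˣ} (ha : (a : F) ^ 4 ≠ 1)
    {g : (Fin 4 → F) ≃ₗ[F] (Fin 4 → F)} (hg : g ∈ M) {j k : Fin 4} (e : g (ee F j) k = 0) :
    ∃ i i', ∀ l, l ≠ i → l ≠ i' → g⁻¹ (ee F k) l = 0 := by
  have ht : dgE (fun _ => a) * hm k (a⁻¹ ^ 4) ∈ M := h.le ⟨mem_SLG.2 (by
    rw [det_mul_equiv, det_dgE, det_hm]; simp), mul_mem (dgE_mem_MonG _) (hm_mem_MonG _ _)⟩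
  have e1 : ∀ x, (g⁻¹ * (dgE (fun _ => a) * hm k (a⁻¹ ^ 4)) * g :
      (Fin 4 → F) ≃ₗ[F] (Fin 4 → F)) x =
      (a : F) • x + (a * (((a : F)⁻¹ ^ 4 - 1) * g x k)) • g⁻¹ (ee F k) := fun x => by
    have : ∀ y : Fin 4 → F, dgE (fun _ => a) y = (a : F) • y := fun y => rfl
    simp only [LinearEquiv.mul_apply, hm_apply, this, map_smul, map_add, inv_apply_apply, smul_add,
      smul_smul, Units.val_pow_eq_pow_val, Units.val_inv_eq_inv_val]
  obtain ⟨π, ν, -, h1, -⟩ := exists_of_mem_MonG (h.mon_of_pt hn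
    (mul_mem (mul_mem (inv_mem hg) ht) hg) (i := j) (j := j) fun l hl => by
      rw [e1]; simp [e, ee_ne j hl])
  obtain ⟨i, hi⟩ := exists_row g k
  refine ⟨i, π i, fun l l1 l2 => ?_⟩
  have := congrFun (h1 i) l
  rw [e1] at this
  simpa [ee_ne _ l1, ee_ne _ l2, hi, sub_eq_zero, ha] using this

theorem Z2 (h : SC4 M) (hn : ¬ HasRt M) {a : Fˣ} (ha : (a : F) ^ 4 ≠ 1)
    {g : (Fin 4 → F) ≃ₗ[F] (Fin 4 → F)} (hg : g ∈ M) {j k : Fin 4} (e : g (ee F j) k = 0) :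
    g ∈ MonG (Fin 4) F := by
  obtain ⟨i, i', h1⟩ := h.Z1 hn ha hg e
  obtain ⟨s, s1, s2, -⟩ := h.fresh i i' i
  obtain ⟨s', s3, s4, s5⟩ := h.fresh i i' s
  obtain ⟨r, r', h2⟩ := h.Z1 hn ha (inv_mem hg) (h1 s s1 s2)
  rw [inv_inv] at h2
  have hm := h.mon_of_pt hn (mul_mem (mul_mem hg (h.dd s s' a)) (inv_mem hg)) (i := k) (j := k)
    fun l hl => by
      rw [LinearEquiv.mul_apply, LinearEquiv.mul_apply,
        dd_of_eq_zero _ (h1 s s1 s2) (h1 s' s3 s4), apply_inv_apply, ee_ne k hl]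
  obtain ⟨l, hl⟩ := mon_sq hm (p := g (ee F s)) (by simp [ee_ne_zero]) a.ne_zero (by
    rw [LinearEquiv.mul_apply, LinearEquiv.mul_apply, inv_apply_apply, dd_apply s5.symm,
      ee_ne s s5, ← map_smul]
    congr 1
    simp only [ee_self]; module) h2
  refine inv_mem_iff.1 (h.mon_of_pt hn (inv_mem hg) (i := l) (j := s) fun t ht => ?_)
  have := congrFun (congrArg (g⁻¹ ·) hl) t
  simp only [LinearEquiv.mul_apply, inv_apply_apply, map_smul, Pi.smul_apply, smul_eq_mul] at this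
  by_contra t0
  by_cases e1 : t = s'
  · rw [e1, dd_right s5.symm, dd_right s5.symm, ← e1, ← mul_assoc] at this
    have := mul_right_cancel₀ t0 this
    field_simp at this
    exact ha this.symm
  · rw [dd_ne _ _ ht e1, dd_ne _ _ ht e1] at this
    exact ha (by linear_combination -(a * a + 1) * mul_right_cancel₀ t0 ((one_mul _).trans this))

theorem le_MonG (h : SC4 M) (hn : ¬ HasRt M) (h7 : 7 ≤ Nat.card F) : M ≤ MonG (Fin 4) F :=
    fun g hg => by_contra fun hg' => by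
  obtain ⟨a, -, a0, -, ha, -⟩ := exists_two_sq h7
  have Z := fun {g} hg {j k} => h.Z2 hn (a := Units.mk0 a a0) ha (g := g) hg (j := j) (k := k)
  have c0 : ∀ i, g⁻¹ (ee F i) 0 ≠ 0 := fun i e => hg' (inv_mem_iff.1 (Z (inv_mem hg) e))
  have p0 : ∀ i, g (ee F 1) i ≠ 0 := fun i e => hg' (Z hg e)
  have hs : ∀ x, g⁻¹ x 0 = x 0 * g⁻¹ (ee F 0) 0 + x 1 * g⁻¹ (ee F 1) 0 + x 2 * g⁻¹ (ee F 2) 0 +
      x 3 * g⁻¹ (ee F 3) 0 := fun x => by
    have := dual_eq_sum (pr F 0 ∘ₗ (g⁻¹ : (Fin 4 → F) ≃ₗ[F] (Fin 4 → F)).toLinearMap) x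
    rw [Fin.sum_univ_four] at this
    exact this
  set z : Fin 4 → F := fun i => g (ee F 1) i * g⁻¹ (ee F i) 0 with hz
  have z0 : ∀ i, z i ≠ 0 := fun i => mul_ne_zero (p0 i) (c0 i)
  have key : ∀ x, Gd (z 0 * z 1 * z 2 * z 3) x → ∃ i, i ≠ 0 ∧ ∃ l : F, l ≠ 0 ∧
      ∀ r, x r = l * (g (ee F i) r * g⁻¹ (ee F r) 0) := by
    rintro x ⟨x0, x1, μ, μ0, x2⟩
    let d : Fin 4 → Fˣ := fun i => Units.mk0 (x i / (μ * z i))
      (div_ne_zero (x0 i) (mul_ne_zero μ0 (z0 i)))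
    have hd : dgE d ∈ M := h.le ⟨mem_SLG.2 (by
      have := z0 0; have := z0 1; have := z0 2; have := z0 3
      simp only [det_dgE, Fin.prod_univ_four, d, Units.val_mk0]
      field_simp; linear_combination x2), dgE_mem_MonG _⟩
    have e1 : ∀ r, dgE d (g (ee F 1)) r * g⁻¹ (ee F r) 0 = x r / μ := fun r => by
      have := z0 r
      rw [dgE_apply, mul_assoc, show g (ee F 1) r * g⁻¹ (ee F r) 0 = z r from rfl]
      simp only [d, Units.val_mk0]; field_simp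
    have e2 : (g⁻¹ * dgE d * g) (ee F 1) 0 = 0 := by
      rw [LinearEquiv.mul_apply, LinearEquiv.mul_apply, hs, e1, e1, e1, e1]
      linear_combination x1 / μ
    obtain ⟨π, ν, h0, h1, -⟩ := exists_of_mem_MonG (Z (mul_mem (mul_mem (inv_mem hg) hd) hg) e2)
    refine ⟨π 1, fun e => h0 1 (by simpa [h1, e] using e2), μ * ν 1, mul_ne_zero μ0 (h0 1),
      fun r => ?_⟩
    have e3 := congrFun (congrArg (g ·) (h1 1)) r
    simp only [LinearEquiv.mul_apply, apply_inv_apply, map_smul, Pi.smul_apply, smul_eq_mul] at e3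
    have e4 := e1 r
    rw [e3] at e4
    field_simp at e4
    linear_combination -e4
  refine not_few h7 (z0 0) (z0 1) (z0 2) (z0 3) (by
    have := hs (g (ee F 1))
    rw [inv_apply_apply, ee_ne 1 (by decide)] at this
    exact this.symm) fun x y u w hx hy hu hw => ?_
  obtain ⟨i1, a1, l1, -, b1⟩ := key x hx
  obtain ⟨i2, a2, l2, -, b2⟩ := key y hy
  obtain ⟨i3, a3, l3, -, b3⟩ := key u hu
  obtain ⟨i4, a4, l4, -, b4⟩ := key w hw
  have : i1 = i2 ∨ i1 = i3 ∨ i1 = i4 ∨ i2 = i3 ∨ i2 = i4 ∨ i3 = i4 := by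
    clear b1 b2 b3 b4; revert i1 i2 i3 i4; decide
  refine this.imp ?_ (Or.imp ?_ (Or.imp ?_ (Or.imp ?_ (Or.imp ?_ ?_)))) <;> rintro rfl i j <;>
    simp only [b1, b2, b3, b4] <;> ring

end SC4

theorem sl_maxIn_mon4 (h7 : 7 ≤ Nat.card F) : MaxIn (SLG F (Fin 4 → F)) (MonG (Fin 4) F) := by
  refine ⟨fun hle => ?_, fun M hM _ m hm hm' => ?_⟩
  · have h0 : pr F (0 : Fin 4) (ee F 1) = 0 := by simp
    obtain ⟨π, ν, -, h1, -⟩ := exists_of_mem_MonG (hle (tvE_mem_SLG h0))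
    have e1 := congrFun (h1 0) 0
    have e2 := congrFun (h1 0) 1
    by_cases e : 0 = π 0
    · simp [← e, tvE_apply] at e2
    · simp [ee_ne _ e, tvE_apply] at e1
  · have h : SC4 M := ⟨hM, by simp, by omega⟩
    exact h.le_of_hasRt (by_contra fun hn => hm' (h.le_MonG hn h7 hm))

open Cfsg Cfsg.Geo

theorem tabL4_lines {F : Type*} [Field F] [Fintype F] (h7 : 7 ≤ Fintype.card F)
    (D : Fin 4 → Submodule F (Fin 4 → F)) (hD : IsMDecomposition 1 D) :
    IsMaximalIn (specialLinear (Fin 4) F) (decompositionStabilizer D ⊓ specialLinear (Fin 4) F) := by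
  obtain ⟨e, he⟩ := exists_equiv_blk hD (U := F) (by simp)
  have h := sl_maxIn_mon4 (F := F) (by rwa [Nat.card_eq_fintype_card])
  rw [← decStab_blk_one] at h
  refine h.isMaximalIn ((Geom.glEquiv _ F).trans (autCongr e).symm) (fun g => ?_) fun g => ?_
  · rw [mem_specialLinear_iff, MulEquiv.trans_apply, ← autCongr_mem_SLG e ((autCongr e).symm _),
      MulEquiv.apply_symm_apply]
  · rw [mem_decompositionStabilizer_iff, ← autCongr_mem_decStab e he]; simp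

theorem tabL4_all {F : Type*} [Field F] [Fintype F] :
    (∀ W : Submodule F (Fin 4 → F), W ≠ ⊥ → W ≠ ⊤ → Cfsg.Geo.IsMaximalIn (Cfsg.Geo.specialLinear (Fin 4) F) (Cfsg.Geo.subspaceStabilizer W ⊓ Cfsg.Geo.specialLinear (Fin 4) F)) ∧
    (7 ≤ Fintype.card F → ∀ D : Fin 4 → Submodule F (Fin 4 → F), Cfsg.Geo.IsMDecomposition 1 D → Cfsg.Geo.IsMaximalIn (Cfsg.Geo.specialLinear (Fin 4) F) (Cfsg.Geo.decompositionStabilizer D ⊓ Cfsg.Geo.specialLinear (Fin 4) F)) ∧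
    (4 ≤ Fintype.card F → ∀ D : Fin 2 → Submodule F (Fin 4 → F), Cfsg.Geo.IsMDecomposition 2 D → Cfsg.Geo.IsMaximalIn (Cfsg.Geo.specialLinear (Fin 4) F) (Cfsg.Geo.decompositionStabilizer D ⊓ Cfsg.Geo.specialLinear (Fin 4) F)) ∧
    (∀ K : Subalgebra F (Matrix (Fin 4) (Fin 4) F), Cfsg.Geo.IsFieldSubalgebra 2 K → Cfsg.Geo.IsMaximalIn (Cfsg.Geo.specialLinear (Fin 4) F) (Cfsg.Geo.subalgebraNormalizer K ⊓ Cfsg.Geo.specialLinear (Fin 4) F)) ∧
    (∀ (F₀ : Subfield F) (r : ℕ) (P : Matrix.GeneralLinearGroup (Fin 4) F), r.Prime → Fintype.card F = Nat.card F₀ ^ r → Cfsg.Geo.IsMaximalIn (Cfsg.Geo.specialLinear (Fin 4) F) (Cfsg.Geo.subfieldSubgroup F₀ P ⊓ Cfsg.Geo.specialLinear (Fin 4) F)) ∧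
    (Odd (Fintype.card F) → ∀ Q : (Fin 4 → F) → F, Cfsg.Geo.IsNondegenerateQuadraticForm Q → Cfsg.Geo.IsMaximalIn (Cfsg.Geo.specialLinear (Fin 4) F) (Cfsg.Geo.quadSimilarityGroup Q ⊓ Cfsg.Geo.specialLinear (Fin 4) F)) ∧
    (∀ f : (Fin 4 → F) → (Fin 4 → F) → F, Cfsg.Geo.IsSymplecticForm f → Cfsg.Geo.IsMaximalIn (Cfsg.Geo.specialLinear (Fin 4) F) (Cfsg.Geo.similarityGroup f ⊓ Cfsg.Geo.specialLinear (Fin 4) F)) ∧
    (∀ (σ : F ≃+* F) (f : (Fin 4 → F) → (Fin 4 → F) → F), Cfsg.Geo.IsUnitaryForm σ f → Cfsg.Geo.IsMaximalIn (Cfsg.Geo.specialLinear (Fin 4) F) (Cfsg.Geo.similarityGroup f ⊓ Cfsg.Geo.specialLinear (Fin 4) F)) :=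
  ⟨tabL1, tabL4_lines, fun h => tabL4_planes h, tabL3 Nat.prime_two (by norm_num), tabL5 le_rfl, tabLO4,
    tabLS4 le_rfl, tabLU4 le_rfl⟩

end CF.MaxSub
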