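/-
`SU₄(q)`: stabilisers of non-isotropic points and of orthogonal pairs of planes.
-/
import Cfsg.Agent.MaxSub.T4F
import Cfsg.Agent.MaxSub.TabU

set_option autoImplicit false
set_option linter.unusedSectionVars false

namespace CF.MaxSub

open Module Geom

variable {F V : Type*} [Field F] [AddCommGroup V] [Module F V] {M : Subgroup (V ≃ₗ[F] V)}
  [FiniteDimensional F V] [Finite F] {σ : F →+* F} {B : V →ₛₗ[σ] V →ₗ[F] F}

theorem su_le_of_two (hH : IsHerm B) (hB : B.Nondegenerate) (h4 : 4 ≤ finrank F V) {a b : V}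
    (ha : Good B (fun x => B x x) M (perp B (F ∙ a)))
    (hb : Good B (fun x => B x x) M (perp B (F ∙ b)))
    (hd : B a a * B b b - B a b * B b a ≠ 0) : SUG B ≤ M := by
  have h := hH.wittPair hB
  have k : ∀ α β : F, B a (α • a + β • b) = 0 → B b (α • a + β • b) = 0 → α = 0 ∧ β = 0 :=
    fun α β h1 h2 => by
      simp only [map_add, map_smul, smul_eq_mul] at h1 h2
      exact ⟨mul_right_cancel₀ hd (by linear_combination B b b * h1 - B a b * h2),
        mul_right_cancel₀ hd (by linear_combination B a a * h2 - B b a * h1)⟩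
  have h1 : Disjoint (Submodule.span F {a, b}) (perp B (Submodule.span F {a, b})) :=
    Submodule.disjoint_def.2 fun x hx hx' => by
      obtain ⟨α, β, rfl⟩ := Submodule.mem_span_pair.1 hx
      obtain ⟨rfl, rfl⟩ := k α β (mem_perp_pair.1 hx').1 (mem_perp_pair.1 hx').2
      simp
  obtain ⟨u, hu, v, hv, q1, q2, huv⟩ := h.exists_pair_of_nondeg (singDim_herm hH)
    (h.disjoint_perp_perp h1) (by
      have := h.finrank_perp (Submodule.span F {a, b})
      have := IsWittPair.finrank_span_pair_le (F := F) a b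
      omega)
  have := h.good_sup ha hb (mem_perp_singleton.2 (mem_perp_pair.1 hu).1)
    (mem_perp_singleton.2 (mem_perp_pair.1 hu).2) (mem_perp_singleton.2 (mem_perp_pair.1 hv).1)
    (mem_perp_singleton.2 (mem_perp_pair.1 hv).2) q1 q2 huv
  rw [← h.perp_inf, show (F ∙ a) ⊓ (F ∙ b) = ⊥ from (Submodule.eq_bot_iff _).2 fun x hx => by
    obtain ⟨α, rfl⟩ := Submodule.mem_span_singleton.1 hx.1
    obtain ⟨β, e⟩ := Submodule.mem_span_singleton.1 hx.2
    have e' : α • a + (-β) • b = 0 := by rw [← e]; simp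
    rw [(k α (-β) (by rw [e', map_zero]) (by rw [e', map_zero])).1, zero_smul], perp_bot] at this
  exact (polarG_su' hH hB (by omega)).le_of_good_top this

theorem good_perp_map (hH : IsHerm B) (hM : M ≤ UG B) {w : V}
    (hw : Good B (fun x => B x x) M (perp B (F ∙ w))) {m : V ≃ₗ[F] V} (hm : m ∈ M) :
    Good B (fun x => B x x) M (perp B (F ∙ m w)) := by
  have := hw.map (hM hm) hm
  rwa [map_perp (mem_isom.1 (hM hm)).1, Submodule.map_span, Set.image_singleton] at this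

theorem su_le_of_good_perp (hH : IsHerm B) (hB : B.Nondegenerate) (h4 : 4 ≤ finrank F V)
    (hM : M ≤ UG B) {w w' : V} (hw : B w w ≠ 0) (e : B w' w' = B w w)
    (g1 : Good B (fun x => B x x) M (perp B (F ∙ w)))
    (g2 : Good B (fun x => B x x) M (perp B (F ∙ w'))) (hw' : w' ∉ F ∙ w) : SUG B ≤ M := by
  have h := hH.wittPair hB
  by_cases hd : B w w * B w' w' - B w w' * B w' w = 0
  swap
  · exact su_le_of_two hH hB h4 g1 g2 hd
  set s := w' - (B w w' / B w w) • w with hs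
  have s1 : B w s = 0 := by simp [hs, hw]
  have s2 : B s s = 0 := by
    nth_rewrite 1 [hs]
    rw [map_sub B, LinearMap.sub_apply, map_smulₛₗ B, LinearMap.smul_apply, s1, smul_zero, sub_zero,
      hs, map_sub, map_smul, smul_eq_mul]
    field_simp; linear_combination hd
  have hn := h.disjoint_perp_perp (IsWittPair.disjoint_singleton hw)
  obtain ⟨f, hf, qf, hsf⟩ := h.exists_partner_mem (mem_perp_singleton.2 s1) (by simpa using s2)
    fun e' => hw' (Submodule.mem_span_singleton.2 ⟨_, (sub_eq_zero.1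
      (Submodule.disjoint_def.1 hn s (mem_perp_singleton.2 s1) e')).symm⟩)
  replace qf : B f f = 0 := by simpa using qf
  have f1 : B w f = 0 := mem_perp_singleton.1 hf
  have f2 : B w' f = 1 := by simpa [hs, f1] using hsf
  obtain ⟨a, a0, ha⟩ := exists_skew_ne_zero hH.ne_id hH.invol
  have ht := g1 f hf (by simpa using qf) (h.notMem_perp_of (mem_perp_singleton.2 s1) (by
    rw [hH.flip_one hsf]; exact one_ne_zero)) (uTrans_mem_Rad hH qf ha hf)
  refine su_le_of_two hH hB h4 g2 (good_perp_map hH hM g2 ht) ?_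
  rw [UG_map, uTrans_apply, hH.flip_one f2]
  simp only [map_add, map_smulₛₗ, LinearMap.add_apply, LinearMap.smul_apply, f2, hH.flip_one f2,
    smul_eq_mul, mul_one, ha, RingHom.id_apply]
  exact fun e => mul_ne_zero a0 a0 (by linear_combination e)

theorem su_maxIn_point4 (hH : IsHerm B) (hB : B.Nondegenerate) (h4 : 4 ≤ finrank F V) {w : V}
    (hw : B w w ≠ 0) : MaxIn (SUG B) (subStab (F ∙ w)) := by
  have h := polarG_su' hH hB (by omega)
  have w0 : w ≠ 0 := by rintro rfl; simp at hw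
  refine ⟨h.not_le_subStab (big_herm hH hB ⊤ h.witt.disjoint_top (by rw [finrank_top]; omega))
    (by simpa using w0) (fun e => by
      have := finrank_span_singleton_le (F := F) w
      rw [e, finrank_top] at this; omega), fun M hM hM' m hm hmW => ?_⟩
  have g1 : Good B (fun x => B x x) M (perp B (F ∙ w)) := h.good_of_fix fun g hg e _ =>
    hM ⟨hg, (h.witt.subStab_perp_iff (h.le hg)).1 e⟩
  refine su_le_of_good_perp hH hB h4 (hM'.trans h.le) hw ((mem_SUG.1 (hM' hm)).1 w w) g1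
    (good_perp_map hH (hM'.trans h.le) g1 hm) fun e => hmW (mem_subStab_iff_le.2 fun x hx => ?_)
  obtain ⟨c, rfl⟩ := Submodule.mem_span_singleton.1 hx
  rw [map_smul]; exact Submodule.smul_mem _ _ e

theorem exists_sq_add_sq' (c : F) : ∃ a b : F, a ^ 2 + b ^ 2 = c := by
  by_cases h2 : (2 : F) = 0
  · have := Fintype.ofFinite F
    have := CharTwo.of_one_ne_zero_of_two_eq_zero (R := F) one_ne_zero h2
    obtain ⟨a, rfl⟩ := FiniteField.isSquare_of_char_two (ringChar.eq F 2) c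
    exact ⟨a, 0, by ring⟩
  · exact exists_sq_add_sq h2 c

theorem rd_of_pt {Q : V → F} (h : IsWittPair σ B Q) {s : F} (ht : TransC B Q s) {u w : V}
    (hu0 : u ≠ 0) (qu : Q u = Q 0) (qw : Q w = Q 0) (huw : B u w = 0)
    (h2 : Rad B Q w (F ∙ w) ≤ M) (h3 : Rad B Q (u + w) (F ∙ (u + w)) ≤ M) :
    RD B Q M u (s • w) := by
  obtain ⟨x, -, hx⟩ := h.exists_hyperbolic hu0 qu
  have hwu := h.refl huw
  have huu := h.self_eq_zero qu
  have hww := h.self_eq_zero qw
  have quw : Q (u + w) = Q 0 := by rw [h.norm_add_singular qw huw, qu]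
  obtain ⟨t₁, i1, e1⟩ := ht _ quw
  obtain ⟨t₂, i2, e2⟩ := ht _ qw
  have e3 : ∀ z, t₂⁻¹ z = z - (s * B w z) • w := fun z => by
    apply t₂.injective
    rw [apply_inv_apply, e2]; simp [hww]
  have e4 : ∀ z, (t₁ * t₂⁻¹) z = z + (s * B u z + s * B w z) • u + (s * B u z) • w := fun z => by
    rw [LinearEquiv.mul_apply, e3, e1]
    simp only [map_add, map_sub, map_smul, LinearMap.add_apply, huw, hww, smul_eq_mul, mul_zero]
    module
  refine RD.of (A := ⊤) (mul_mem (h3 (h.mem_Rad_of_trans quw i1 e1))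
    (inv_mem (h2 (h.mem_Rad_of_trans qw i2 e2)))) ⟨mul_mem i1 (inv_mem i2), by simp [e4, huu, hwu],
    fun z hz => ?_, fun _ => trivial⟩ hx (Submodule.mem_span_singleton.2 ⟨s + s * B w x, ?_⟩)
  · rw [e4, hz, mul_zero, zero_smul, add_zero, add_sub_cancel_left]
    exact Submodule.smul_mem _ _ (Submodule.mem_span_singleton_self u)
  · rw [e4, hx]; module

theorem Rad_le_of_rd {Q : V → F} (h : IsWittPair σ B Q) {u : V} (hu0 : u ≠ 0) (qu : Q u = Q 0)
    (h1 : Rad B Q u (F ∙ u) ≤ M) {A : Submodule F V} (h2 : ∀ w ∈ A, B u w = 0 → RD B Q M u w) :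
    Rad B Q u A ≤ M := fun g hg => by
  obtain ⟨x, -, hx⟩ := h.exists_hyperbolic hu0 qu
  obtain ⟨k, hk, r, e⟩ := h2 _ (hg.2.2.2 x) (Rad_disp_perp hg x)
  obtain ⟨c, hc⟩ := Submodule.mem_span_singleton.1 (e x hx)
  have := h1 (IsWittPair.mem_Rad_self (mul_mem (inv_mem r) (Rad_mono u le_top hg)) (x := x)
    (by rw [hx]; exact one_ne_zero) (Submodule.mem_span_singleton.2 ⟨-c, by
      have e5 : g x = k (x - c • u) := by rw [map_sub, map_smul, r.2.1, hc]; abel
      rw [LinearEquiv.mul_apply, e5, inv_apply_apply]; module⟩))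
  simpa only [mul_inv_cancel_left] using mul_mem hk this

theorem uDil_mem_Supp (hH : IsHerm B) {e f : V} (he : B e e = 0) (hf : B f f = 0)
    (hef : B e f = 1) (l : Fˣ) {A : Submodule F V} (heA : e ∈ A) (hfA : f ∈ A) :
    (uDil hH he hf hef l).1 ∈ Supp B (fun x => B x x) A :=
  ⟨(uDil hH he hf hef l).2, fun x hx =>
    uDil_of_perp hH he hf hef l (mem_perp.1 hx e heA) (mem_perp.1 hx f hfA)⟩

theorem su_maxIn_dec2 (hH : IsHerm B) (hB : B.Nondegenerate) {τ : Type*} [Finite τ]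
    [Nontrivial τ] {k : ℕ} {D : τ → Submodule F V} (h : ODec B (fun x => B x x) k D)
    (h2 : 2 ≤ k) {a : F} (ha : σ a = a) (ha0 : a ≠ 0) (ha1 : a ≠ 1) :
    MaxIn (SUG B) (decStab D) := by
  obtain ⟨i₀⟩ : Nonempty τ := inferInstance
  have hG := polarG_su' hH hB (h2.trans ((h.dim i₀).ge.trans (Submodule.finrank_le _)))
  have hb : ∀ i, Big B (fun x => B x x) (D i) := fun i =>
    big_herm hH hB _ (h.nondeg i) (by rw [h.dim]; exact h2)
  have hA := fun i => adj_su_of_nondeg hH hB (h.nondeg i) (h.ne_bot i)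
  obtain ⟨u, hu, v, -, q, -, huv⟩ := (hb i₀).pair
  obtain ⟨s, hs, hs'⟩ := exists_skew_ne_zero hH.ne_id hH.invol
  have ht := transC_herm hH hs'
  refine ⟨h.not_le hG hu (by rintro rfl; simp at huv) q, fun M hM hM'' m hm hmD => ?_⟩
  have hM' := hM''.trans hG.le
  have hW := h.witt
  obtain ⟨l, x, hx, qx, hmx⟩ := h.exists_nonblock (fun i => (hb i).pair) (hM' hm) hmD
  have hx0 : x ≠ 0 := by rintro rfl; exact hmx l (by simp)
  have p := IsWittPair.Pt_map (h.Pt hG hM hx hx0 qx) (hM' hm) hm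
  have qv : B (m x) (m x) = B 0 0 := by rw [(mem_isom.1 (hM' hm)).1, qx]
  set v := m x
  obtain ⟨i, j, hij, hi, hj⟩ := h.exists_two hmx
  obtain ⟨N, hN, h1⟩ := ODec.move_of_trans hG (hb i) hi
  obtain ⟨g₁, a1, b1, c1, d1, e1⟩ := h1 s hs ht 0 (mul_ne_zero hs hN)
  obtain ⟨g₂, a2, b2, c2, d2, e2⟩ := ODec.move_of_two hG (hb j) (mul_ne_zero ha0 hs) hs
    (fun e => ha1 (mul_right_cancel₀ hs (by rw [e, one_mul])))
    (transC_herm hH (by rw [map_mul, ha, hs', mul_neg])) ht hj (-B v (g₁ v - v))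
  have f1 := hW.Supp_disp b1 v
  have f2 := hW.Supp_disp b2 v
  set w₁ := g₁ v - v with hw₁
  set w₂ := g₂ v - v with hw₂
  have e3 : (g₂ * g₁) v - v = w₁ + w₂ := by
    rw [LinearEquiv.mul_apply, ← sub_add_cancel (g₁ v) v, ← hw₁, map_add,
      b2.2 _ (h.orth j i hij.symm f1), hw₂]
    abel
  have m12 : g₂ * g₁ ∈ M := mul_mem (h.mem_of_Supp hM a2 b2) (h.mem_of_Supp hM a1 b1)
  have o12 := h.B_eq_zero hij f1 f2
  have q12 : B (w₁ + w₂) (w₁ + w₂) = B 0 0 := (hW.norm_add_singular d2 o12).trans d1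
  have p2 := hW.Pt_sub qv (v' := (g₂ * g₁) v) (((mem_isom.1 (hM' m12)).1 _ _).trans qv) (e3 ▸ q12)
    (by
      rw [← sub_add_cancel ((g₂ * g₁) v) v, e3, map_add, map_add, hW.self_eq_zero qv, add_zero]
      exact fun e => e2 (eq_neg_of_add_eq_zero_right e)) p (IsWittPair.Pt_map p (hM' m12) m12)
  rw [e3] at p2
  have n1 : w₁ ∉ perp B (D i) := fun e => c1 (Submodule.disjoint_def.1 (h.nondeg i) _ f1 e)
  obtain ⟨y₁, y1, y2, y3⟩ := hW.exists_partner_mem f1 d1 n1
  obtain ⟨y₂, y4, y5, y6⟩ := hW.exists_partner_mem f2 d2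
    fun e => c2 (Submodule.disjoint_def.1 (h.nondeg j) _ f2 e)
  have r1 : ∀ c : F, RD B (fun x => B x x) M w₁ ((s * c ^ 2) • w₂) := fun c => by
    by_cases c0 : c = 0
    · simpa [c0] using RD.zero
    have k1 := uDil_mem_Supp hH (hW.self_eq_zero d1) (hW.self_eq_zero y2) y3 (Units.mk0 c c0)⁻¹
      f1 y1
    have k2 := uDil_mem_Supp hH (hW.self_eq_zero d2) (hW.self_eq_zero y5) y6 (Units.mk0 c c0) f2 y4
    have mg := hM ⟨mem_SUG.2 ⟨(mem_isom.1 (mul_mem k1.1 k2.1)).1, by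
      have := (map_ne_zero σ).2 c0
      rw [det_mul_equiv, det_uDil, det_uDil]; simp; field_simp⟩,
      mul_mem (h.Supp_le' le_rfl k1) (h.Supp_le' le_rfl k2)⟩
    have := IsWittPair.Pt_map p2 (hM' mg) mg
    rw [map_add, LinearEquiv.mul_apply, LinearEquiv.mul_apply, k2.2 _ (h.orth j i hij.symm f1),
      uDil_left, uDil_left, map_smul, k1.2 _ (h.orth i j hij f2), show
        (((Units.mk0 c c0)⁻¹ : Fˣ) : F) • w₁ + ((Units.mk0 c c0 : Fˣ) : F) • w₂ =
          c⁻¹ • (w₁ + c ^ 2 • w₂) by simp [smul_smul, pow_two, c0], Rad_smul _ _ (inv_ne_zero c0),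
      Submodule.span_singleton_smul_eq (inv_ne_zero c0).isUnit] at this
    rw [mul_smul]
    exact rd_of_pt hW ht c1 d1 (hW.norm_smul_singular d2 _) (by simp [o12])
      (h.Pt hG hM ((D j).smul_mem _ f2) (smul_ne_zero (pow_ne_zero 2 c0) c2)
        (hW.norm_smul_singular d2 _)) this
  have p3 := Rad_le_of_rd hW c1 d1 (h.Pt hG hM f1 c1 d1) (A := Submodule.span F {w₁, w₂})
    fun w hw _ => by
      obtain ⟨α, β, rfl⟩ := Submodule.mem_span_pair.1 hw
      obtain ⟨x, y, e⟩ := exists_sq_add_sq' (β / s)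
      convert (RD.self α).add ((r1 x).add (r1 y)) using 2
      rw [← add_smul, ← mul_add, e, mul_div_cancel₀ _ hs]
  refine h.le_of_good_lt hG hb hA hM hM' (i := i) (lt_of_le_of_ne le_sup_left fun e => ?_)
    (hW.good_sup_singleton (h.good hG hM i) (hb i) f1 d1 n1
      (Submodule.subset_span (by simp)) (Submodule.subset_span (by simp)) o12 p3)
  exact hij (h.eq_of_mem (e ▸ Submodule.mem_sup_right (Submodule.mem_span_singleton_self _)) f2 c2)

open Cfsg Cfsg.Geo

theorem tabU4_nd {F : Type*} [Field F] [Fintype F] {q : ℕ} (hF : Fintype.card F = q ^ 2)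
    (W : Submodule F (Fin 4 → F)) (hW0 : W ≠ ⊥) (hW : IsNondegenerateOn (hermForm 4 F q) W)
    (hdim : 2 * finrank F W < 4) : IsMaximalIn (GU 4 F q ⊓ specialLinear (Fin 4) F)
      (subspaceStabilizer W ⊓ (GU 4 F q ⊓ specialLinear (Fin 4) F)) := by
  obtain ⟨σ, hσ, h1, h2⟩ := exists_conj hF
  obtain ⟨w, hw, e⟩ := exists_nonisotropic_mem (Or.inl h1) (hermSesq_isSymm h2)
    (disjoint_perp_of_nondegOn (Or.inr (hermForm_eq hσ)) hW) hW0
  obtain rfl : F ∙ w = W := Submodule.eq_of_le_of_finrank_le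
    ((Submodule.span_singleton_le_iff_mem _ _).2 hw) (by
      rw [finrank_span_singleton (by rintro rfl; simp at e)]; omega)
  exact (su_maxIn_point4 (isHerm_hermSesq h1 h2) (hermSesq_nondegenerate σ) (by simp)
    e).isMaximalIn (Geom.glEquiv _ F) (mem_SU_iff hσ) (mem_subspaceStabilizer_iff _)

theorem tabU4_planes {F : Type*} [Field F] [Fintype F] {q : ℕ} (hF : Fintype.card F = q ^ 2)
    (h3 : 3 ≤ q) (D : Fin 2 → Submodule F (Fin 4 → F))
    (hD : IsNondegenerateMDecomposition (hermForm 4 F q) 2 D) :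
    IsMaximalIn (GU 4 F q ⊓ specialLinear (Fin 4) F)
      (decompositionStabilizer D ⊓ (GU 4 F q ⊓ specialLinear (Fin 4) F)) := by
  obtain ⟨σ, hσ, s1, s2⟩ := exists_conj hF
  obtain ⟨a, a1, a2, a3⟩ := exists_fixed_ne_zero_ne_one hF (by omega)
  exact (su_maxIn_dec2 (isHerm_hermSesq s1 s2) (hermSesq_nondegenerate σ) (odec_su hσ s1 s2 hD)
    le_rfl (by rwa [hσ]) a2 a3).isMaximalIn (Geom.glEquiv _ F) (mem_SU_iff hσ)
    (mem_decompositionStabilizer_iff D)

end CF.MaxSub
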