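/-
Unitary transvections in a subgroup; `Sp₄(q)` is maximal in `SU₄(q)`.
-/
import Cfsg.Agent.MaxSub.T4I
import Cfsg.Agent.MaxSub.T4C

set_option autoImplicit false
set_option linter.unusedSectionVars false

namespace CF.MaxSub

open Module Geom

variable {F V : Type*} [Field F] [AddCommGroup V] [Module F V] {M : Subgroup (V ≃ₗ[F] V)}
  {σ : F →+* F} {B : V →ₛₗ[σ] V →ₗ[F] F}

/-- `M` contains the transvection with centre `u` and parameter `s`. -/
def UTV (B : V →ₛₗ[σ] V →ₗ[F] F) (M : Subgroup (V ≃ₗ[F] V)) (u : V) (s : F) : Prop :=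
  ∃ t ∈ M, ∀ x, t x = x + (s * B u x) • u

namespace UTV

variable {u : V} {s s' : F}

theorem zero : UTV B M u 0 := ⟨1, one_mem _, fun x => by simp⟩

theorem add (hu : B u u = 0) (h : UTV B M u s) (h' : UTV B M u s') : UTV B M u (s + s') :=
  let ⟨a, a1, a2⟩ := h
  let ⟨b, b1, b2⟩ := h'
  ⟨a * b, mul_mem a1 b1, fun x => by
    simp only [LinearEquiv.mul_apply, a2, b2, map_add, map_smul, hu, smul_zero]; module⟩

theorem neg (hu : B u u = 0) (h : UTV B M u s) : UTV B M u (-s) :=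
  let ⟨a, a1, a2⟩ := h
  ⟨a⁻¹, inv_mem a1, fun x => a.injective (by
    rw [apply_inv_apply, a2]; simp [hu])⟩

theorem map (h : UTV B M u s) {m : V ≃ₗ[F] V} (hm : m ∈ M) (hm' : ∀ x y, B (m x) (m y) = B x y) :
    UTV B M (m u) s :=
  let ⟨a, a1, a2⟩ := h
  ⟨m * a * m⁻¹, mul_mem (mul_mem hm a1) (inv_mem hm), fun x => by
    rw [LinearEquiv.mul_apply, LinearEquiv.mul_apply, a2, map_add, map_smul, ← hm',
      apply_inv_apply]⟩

theorem smul {c : F} (h : UTV B M (c • u) s) : UTV B M u (s * (σ c * c)) :=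
  let ⟨a, a1, a2⟩ := h
  ⟨a, a1, fun x => by
    simp only [a2, map_smulₛₗ, LinearMap.smul_apply, smul_eq_mul]; module⟩

theorem rd {Q : V → F} (hM : M ≤ Isom B Q) (h : UTV B M u s) {z w : V} (hz : B u z = 0)
    (hw : RD B Q M z w) : RD B Q M z ((s * B u w) • u) := by
  obtain ⟨a, a1, a2⟩ := h
  simpa [a2] using hw.move (hM a1) a1 (by simp [a2, hz])

end UTV

variable [FiniteDimensional F V]

theorem exists_skew_of_Rad (hH : IsHerm B) (hB : B.Nondegenerate) {u : V} (u0 : u ≠ 0)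
    (hu : B u u = 0) {k : V ≃ₗ[F] V} (hk : k ∈ Rad B (fun x => B x x) u (F ∙ u)) :
    ∃ s, σ s = -s ∧ ∀ x, k x = x + (s * B u x) • u := by
  obtain ⟨w, c, hw, hc, h1, rfl⟩ := exists_eq_uEich hH hB u0 hu hk
  obtain ⟨a, rfl⟩ := Submodule.mem_span_singleton.1 h1
  refine ⟨a - σ a - c, ?_, fun x => ?_⟩
  · simp only [map_smulₛₗ, LinearMap.smul_apply, hu, smul_zero] at hc
    simp only [map_sub, hH.invol]; linear_combination -hc
  · simp only [uEich_apply, map_smulₛₗ, LinearMap.smul_apply, smul_eq_mul]; module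

theorem Pt_of_utv (hH : IsHerm B) (hB : B.Nondegenerate) {u : V} (u0 : u ≠ 0) (hu : B u u = 0)
    (h : ∀ s, σ s = -s → UTV B M u s) : Rad B (fun x => B x x) u (F ∙ u) ≤ M := fun k hk => by
  obtain ⟨s, h1, h2⟩ := exists_skew_of_Rad hH hB u0 hu hk
  obtain ⟨t, t1, t2⟩ := h s h1
  rwa [show k = t from LinearEquiv.ext fun x => by rw [h2, t2]]

theorem utv_of_Pt (hH : IsHerm B) {u : V} (hu : B u u = 0)
    (h : Rad B (fun x => B x x) u (F ∙ u) ≤ M) {s : F} (hs : σ s = -s) : UTV B M u s :=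
  ⟨_, h (uTrans_mem_Rad hH hu hs (Submodule.mem_span_singleton_self u)), uTrans_apply hH hu hs⟩

theorem utv_of_rd [Finite F] (hH : IsHerm B) (hB : B.Nondegenerate) {u y y' : V} (u0 : u ≠ 0)
    (hu : B u u = 0) (h : RD B (fun x => B x x) M u y) (h' : RD B (fun x => B x x) M u y') :
    UTV B M u (B y' y - B y y') := by
  have := Fintype.ofFinite F
  have W := hH.wittPair hB
  obtain ⟨f, -, hf⟩ := W.exists_hyperbolic u0 (by simpa using hu)
  have k : ∀ {y}, RD B (fun x => B x x) M u y → ∃ w c, EUc B M u w c ∧ ∃ a : F, w = y + a • u ∧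
      B u y = 0 := fun {y} h => by
    have h0 := W.RD_perp u0 (by simpa using hu) h
    obtain ⟨g, g1, g2, g3⟩ := h
    obtain ⟨w, c, hw, hc, -, rfl⟩ := exists_eq_uEich hH hB u0 hu g2
    obtain ⟨a, ha⟩ := Submodule.mem_span_singleton.1 (g3 f hf)
    refine ⟨w, c, ⟨hw, hc, _, g1, uEich_apply hH hu hw hc⟩, a + B w f + c, ?_, h0⟩
    rw [uEich_apply, hf] at ha
    linear_combination (norm := module) -ha
  obtain ⟨w, c, h1, a, rfl, e⟩ := k h
  obtain ⟨w', c', h2, a', rfl, e'⟩ := k h'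
  have h3 := h2.mul hH hu h1
  rw [add_comm] at h3
  obtain ⟨-, -, g, g1, g2⟩ := (h1.mul hH hu h2).sub hH hu h3
  refine ⟨g, g1, fun x => ?_⟩
  simp only [g2, uEichMap_apply, map_add, map_smulₛₗ, LinearMap.add_apply, LinearMap.smul_apply, hu,
    e, e', smul_zero,
    hH.refl e, hH.refl e', map_zero, LinearMap.zero_apply]
  module

omit [FiniteDimensional F V] in
theorem fix_decomp {F₀ : Subfield F} (hσ : ∀ a, σ (σ a) = a) (hfix : ∀ a, a ∈ F₀ ↔ σ a = a) {τ : F}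
    (hτ : τ ∉ F₀) (a : F) : ∃ x ∈ F₀, ∃ y ∈ F₀, a = x + τ * y := by
  have h : τ - σ τ ≠ 0 := sub_ne_zero.2 fun e => hτ ((hfix τ).2 e.symm)
  have h' : σ τ - τ ≠ 0 := sub_ne_zero.2 fun e => hτ ((hfix τ).2 e)
  refine ⟨a - τ * ((a - σ a) / (τ - σ τ)), (hfix _).2 ?_, (a - σ a) / (τ - σ τ), (hfix _).2 ?_,
    by ring⟩ <;> simp only [map_sub, map_mul, map_div₀, hσ] <;> field_simp <;> ring

omit [FiniteDimensional F V] in
theorem eq_zero_of_add_mul {F₀ : Subfield F} {τ x y : F} (hτ : τ ∉ F₀) (hx : x ∈ F₀) (hy : y ∈ F₀)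
    (h : x + τ * y = 0) : x = 0 ∧ y = 0 := by
  have y0 : y = 0 := by_contra fun y0 => hτ (by
    rw [show τ = -x / y by field_simp; linear_combination h]; exact div_mem (neg_mem hx) hy)
  exact ⟨by simpa [y0] using h, y0⟩

omit [FiniteDimensional F V] in
theorem fix_of_card [Fintype F] {q : ℕ} (hF : Fintype.card F = q ^ 2) (hσ : ∀ x, σ x = x ^ q)
    {F₀ : Subfield F} (h : Fintype.card F = Nat.card F₀ ^ 2) (a : F) : a ∈ F₀ ↔ σ a = a := by
  rw [hσ, Classical.mem_subfield_iff_pow, Nat.pow_left_injective two_ne_zero (h.symm.trans hF)]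

variable {ι : Type} [Fintype ι] {ε : V ≃ₗ[F] (ι → F)} {F₀ : Subfield F} [Finite F]

theorem exists_rat_not_perp {Q : V → F} (h : IsWittPair σ B Q) {c : F} (c0 : c ≠ 0)
    (hR : ∀ x y, IsRat ε F₀ x → IsRat ε F₀ y → c * B x y ∈ F₀) {S : Set V}
    (hS : ∀ s ∈ S, IsRat ε F₀ s) {y : V} (hy : y ∉ Submodule.span F S) :
    ∃ x, IsRat ε F₀ x ∧ (∀ s ∈ S, B s x = 0) ∧ B y x ≠ 0 := by
  obtain ⟨w, h1, h2⟩ := h.exists_dual_vec hy
  obtain ⟨x, h3, h4, h5⟩ := exists_rat_notMem (B := c • B) hR hS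
    (w := w) (fun s hs => by simp [h2 s (Submodule.subset_span hs)]) (Z := perp B (F ∙ y))
    (by rw [mem_perp_singleton, h1]; exact one_ne_zero)
  exact ⟨x, h3, fun s hs => by simpa [c0] using h4 s hs, fun e => h5 (mem_perp_singleton.2 e)⟩

theorem exists_rat_split {θ : F} (hθ : θ ∉ F₀) (h : ∀ a : F, ∃ x ∈ F₀, ∃ y ∈ F₀, a = x + θ * y)
    {u : V} (hu : ∀ c : F, c ≠ 0 → ¬ IsRat ε F₀ (c • u)) :
    ∃ a b, IsRat ε F₀ a ∧ IsRat ε F₀ b ∧ u = a + θ • b ∧ a ∉ F ∙ b ∧ b ∉ F ∙ a := by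
  obtain ⟨a, b, ha, hb, rfl⟩ := exists_rat_two ε h u
  have b0 : b ≠ 0 := by rintro rfl; exact hu 1 one_ne_zero (by simpa using ha)
  have n : a ∉ F ∙ b := fun e => by
    obtain ⟨c, rfl⟩ := Submodule.mem_span_singleton.1 e
    have c0 : c + θ ≠ 0 := fun e => hθ (by
      rw [eq_neg_of_add_eq_zero_right e]; exact neg_mem (hb.mem_of_smul b0 ha))
    exact hu _ (inv_ne_zero c0) (by rwa [← add_smul, inv_smul_smul₀ c0])
  exact ⟨a, b, ha, hb, rfl, n, not_mem_span_symm b0 n⟩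

theorem su_maxIn_RG_alt4 (hH : IsHerm B) (hB : B.Nondegenerate) (h4 : 4 ≤ finrank F V)
    (hfix : ∀ a, a ∈ F₀ ↔ σ a = a) (hA : ∀ x, IsRat ε F₀ x → B x x = 0) :
    MaxIn (SUG B) (RG ε F₀) := by
  have hG := polarG_su' hH hB (by omega)
  have W := hG.witt
  obtain ⟨s, s0, hs⟩ := exists_skew_ne_zero hH.ne_id hH.invol
  obtain ⟨θ, hθ⟩ : ∃ θ, θ ∉ F₀ := by
    by_contra! hc
    exact hH.ne_id (RingHom.ext fun a => (hfix a).1 (hc a))
  have hd := fix_decomp hH.invol hfix hθ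
  have k0 : ∀ x y, IsRat ε F₀ x → IsRat ε F₀ y → B y x = -B x y := fun x y hx hy => by
    have := hA _ (hx.add hy)
    simp only [map_add, LinearMap.add_apply, hA x hx, hA y hy] at this
    linear_combination this
  have hR : ∀ {s}, σ s = -s → ∀ x y, IsRat ε F₀ x → IsRat ε F₀ y → s * B x y ∈ F₀ :=
    fun hs x y hx hy => (hfix _).2 (by rw [map_mul, hs, hH.eq, k0 x y hx hy]; ring)
  have np := fun {S} hS {y} => exists_rat_not_perp W s0 (hR hs) (S := S) hS (y := y)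
  refine ⟨fun hle => ?_, fun M hM hM' m hm hm' => ?_⟩
  · obtain ⟨a, ha, -, -, a0⟩ := Geom.exists_rat_perp (W.smul_form s0) (hR hs) IsRat.zero
      IsRat.zero (Z := ⊥) (by simp; omega)
    obtain ⟨b, hb, -, ab, n⟩ := Geom.exists_rat_perp (W.smul_form s0) (hR hs) ha ha (Z := F ∙ a)
      (by have := finrank_span_singleton_le (F := F) a; omega)
    replace ab : B a b = 0 := by simpa [s0] using ab
    obtain ⟨f, hf, -, af⟩ := np (S := ∅) (by simp) (y := a) (by simpa using a0)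
    have e1 : B a ((θ / B a f) • b) = 0 := by simp [ab]
    have e2 : 0 + σ 0 = B ((θ / B a f) • b) ((θ / B a f) • b) := by simp [hA b hb]
    obtain ⟨c, c0, hc⟩ := hle (hG.rad_le' (by simpa using a0) (by simpa using hA a ha) ⊤
      (uEich_mem_Rad hH (hA a ha) e1 e2 trivial trivial))
    have h1 : c ∈ F₀ := ha.mem_of_smul (by simpa using a0) (by
      simpa [uEich_apply, hA a ha, hH.refl ab] using (hc a).1 ha)
    have h2 := (((hc f).1 hf).smul (inv_mem h1)).sub hf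
    rw [inv_smul_smul₀ c0, uEich_apply, show f + B a f • (θ / B a f) • b -
      B ((θ / B a f) • b) f • a - (0 * B a f) • a - f = θ • b + (-B ((θ / B a f) • b) f) • a by
        rw [smul_smul, mul_div_cancel₀ _ af]; module] at h2
    exact hθ (rat_coeff hb ha n h2)
  have hI := hM'.trans hG.le
  have T : ∀ v, IsRat ε F₀ v → ∀ s, σ s = -s → UTV B M v s := fun v hv s hs =>
    ⟨_, hM ⟨mem_SUG_iff.2 (mem_suSub.2 (det_uTrans hH (hA v hv) hs)), RatM.mem fun x hx => by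
      rw [uTrans_apply]; exact hx.add (hv.smul (hR hs _ _ hv hx))⟩, uTrans_apply hH _ hs⟩
  have P : ∀ v, IsRat ε F₀ v → v ≠ 0 → Rad B (fun x => B x x) v (F ∙ v) ≤ M := fun v hv v0 =>
    Pt_of_utv hH hB v0 (hA v hv) (T v hv)
  obtain ⟨x, hx, hu⟩ : ∃ x, IsRat ε F₀ x ∧ ∀ c : F, c ≠ 0 → ¬ IsRat ε F₀ (c • m x) := by
    by_contra! hc
    exact hm' (mem_RG_of_lines hc)
  obtain ⟨a, b, ha, hb, e, n1, n2⟩ := exists_rat_split hθ hd hu
  have a0 : a ≠ 0 := by rintro rfl; exact n1 (zero_mem _)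
  have b0 : b ≠ 0 := by rintro rfl; exact n2 (zero_mem _)
  have p1 := IsWittPair.Pt_map (P x hx (by rintro rfl; simpa [IsRat.zero] using hu 1)) (hI hm) hm
  have ab : B a b = 0 := by
    have h1 := ((mem_isom.1 (hI hm)).1 x x).trans (hA x hx)
    simp only [e, map_add, map_smulₛₗ, LinearMap.add_apply, LinearMap.smul_apply, hA a ha, hA b hb,
      k0 a b ha hb, RingHom.id_apply, smul_eq_mul] at h1
    exact mul_left_cancel₀ (sub_ne_zero.2 fun e => hθ ((hfix θ).2 e.symm) : θ - σ θ ≠ 0)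
      (by linear_combination h1)
  have θ0 : θ ≠ 0 := by rintro rfl; exact hθ (zero_mem _)
  have qa : B a a = B 0 0 := by simp [hA a ha]
  have r1 : ∀ β : F, RD B (fun x => B x x) M a (β • b) := fun β => by
    obtain ⟨x, hx, y, hy, h1⟩ := hd (β / s)
    have sk : ∀ x ∈ F₀, σ (s * x) = -(s * x) := fun x hx => by rw [map_mul, hs, (hfix x).1 hx]; ring
    convert (rd_of_pt W (transC_herm hH (sk x hx)) a0 qa (by simp [hA b hb]) ab (P b hb b0)
      (P _ (ha.add hb) fun e => n1 (by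
        rw [eq_neg_of_add_eq_zero_left e]; exact neg_mem (Submodule.mem_span_singleton_self b)))).add
      (rd_of_pt W (transC_herm hH (sk y hy)) a0 qa (w := θ • b) (by simp [hA b hb]) (by simp [ab])
        (by rw [Rad_smul _ _ θ0, Submodule.span_singleton_smul_eq θ0.isUnit]; exact P b hb b0)
        (e ▸ p1)) using 1
    rw [smul_smul, ← add_smul, ← mul_div_cancel₀ β s0, h1]; congr 1; ring
  have r2 : ∀ v, IsRat ε F₀ v → B v a = 0 → B v b ≠ 0 → ∀ β : F,
      RD B (fun x => B x x) M a (β • v) := fun v hv h1 h2 β => by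
    convert (T v hv s hs).rd hI h1 (r1 (β / (s * B v b))) using 2
    simp only [map_smul, smul_eq_mul]; field_simp
  obtain ⟨v, hv, v1, v2⟩ := np (S := {a}) (by simpa using ha) n2
  replace v1 := W.refl (v1 a rfl)
  replace v2 : B v b ≠ 0 := fun e => v2 (W.refl e)
  have r3 : ∀ w, IsRat ε F₀ w → B a w = 0 → ∀ β : F, RD B (fun x => B x x) M a (β • w) :=
    fun w hw h1 β => by
      by_cases h2 : B w b = 0
      · simpa using (r2 _ (hw.add hv) (by simp [v1, W.refl h1]) (by simpa [h2] using v2) β).sub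
          (r2 v hv v1 v2 β)
      · exact r2 w hw (W.refl h1) h2 β
  obtain ⟨f, hf, -, af⟩ := np (S := ∅) (by simp) (y := a) (by simpa using a0)
  obtain ⟨t, t1, t2⟩ := T f hf s hs
  refine hG.le_of_move qa (Rad_le_of_rd W a0 qa (P a ha a0) fun w _ hw => ?_) (hI t1) t1 (by
    simp [t2, hA a ha, s0, af, k0 a f ha hf])
  obtain ⟨w₁, w₂, h1, h2, rfl⟩ := exists_rat_two ε hd w
  obtain ⟨e1, e2⟩ := eq_zero_of_add_mul hθ (hR hs _ _ ha h1) (hR hs _ _ ha h2) (by
    simp only [map_add, map_smul, smul_eq_mul] at hw; linear_combination s * hw)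
  simpa using (r3 w₁ h1 (by simpa [s0] using e1) 1).add (r3 w₂ h2 (by simpa [s0] using e2) θ)

open Cfsg Cfsg.Geo in
theorem tabU4_sp {F : Type*} [Field F] [Fintype F] {n q : ℕ} (hF : Fintype.card F = q ^ 2)
    (hn : 4 ≤ n) (F₀ : Subfield F) (P : GL (Fin n) F) (hcard : Fintype.card F = Nat.card F₀ ^ 2)
    (halt : ∀ u : Fin n → F, (∀ i, u i ∈ F₀) → hermForm n F q
      (Matrix.mulVec (P : Matrix (Fin n) (Fin n) F) u)
      (Matrix.mulVec (P : Matrix (Fin n) (Fin n) F) u) = 0) :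
    IsMaximalIn (GU n F q ⊓ specialLinear (Fin n) F)
      (subfieldSubgroup F₀ P ⊓ (GU n F q ⊓ specialLinear (Fin n) F)) := by
  obtain ⟨σ, hσ, h1, h2⟩ := exists_conj hF
  exact (su_maxIn_RG_alt4 (ε := (Geom.glEquiv _ F P).symm) (isHerm_hermSesq h1 h2)
    (hermSesq_nondegenerate σ) (by simpa using hn) (fix_of_card hF hσ hcard)
    (fun x hx => by
      obtain ⟨u, hu, rfl⟩ := hx.exists_mulVec
      simpa [hermForm_eq hσ] using halt u hu)).isMaximalIn (Geom.glEquiv _ F)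
    (mem_SU_iff hσ) (mem_subfieldSubgroup_iff P)

end CF.MaxSub
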