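/-
Subfield subgroups of odd prime index in `SU_n(q)`, `n ≥ 4`.
-/
import Cfsg.Agent.MaxSub.T4K

set_option autoImplicit false
set_option linter.unusedSectionVars false

namespace CF.MaxSub

open Module Geom

variable {F V : Type*} [Field F] [AddCommGroup V] [Module F V] {ι : Type} [Fintype ι]
  {σ : F →+* F} {ε : V ≃ₗ[F] (ι → F)} {F₀ : Subfield F} [Finite F] {B : V →ₛₗ[σ] V →ₗ[F] F}

theorem exists_norm_sub (hσ : ∀ a, σ (σ a) = a) (hs : ∀ a ∈ F₀, σ a ∈ F₀) {ν : F} (h1 : ν ∈ F₀)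
    (h2 : σ ν ≠ ν) {c : F} (hc : c ∈ F₀) (hc' : σ c = c) : ∃ t ∈ F₀, σ t * t = c := by
  obtain ⟨t, ht⟩ := exists_norm_eq (σ := (σ.comp F₀.subtype).codRestrict F₀ fun a => hs a a.2)
    (fun e => h2 (congrArg Subtype.val (RingHom.congr_fun e ⟨ν, h1⟩)))
    (fun a => Subtype.ext (hσ a)) (c := ⟨c, hc⟩) (Subtype.ext hc')
  exact ⟨t, t.2, congrArg Subtype.val ht⟩

theorem exists_rat_iso (hH : IsHerm B) (hs : ∀ a ∈ F₀, σ a ∈ F₀)
    (hR : ∀ x y, IsRat ε F₀ x → IsRat ε F₀ y → B x y ∈ F₀) {ν : F} (h1 : ν ∈ F₀) (h2 : σ ν ≠ ν)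
    {w w' : V} (hw : IsRat ε F₀ w) (hw' : IsRat ε F₀ w') (e : B w w' = 0) (w0 : w ≠ 0)
    (w0' : w' ≠ 0) : ∃ a b : F, IsRat ε F₀ (a • w + b • w') ∧ a • w + b • w' ≠ 0 ∧
      B (a • w + b • w') (a • w + b • w') = B 0 0 := by
  by_cases q' : B w' w' = 0
  · exact ⟨0, 1, by simpa using hw', by simpa using w0', by simpa using q'⟩
  by_cases q : B w w = 0
  · exact ⟨1, 0, by simpa using hw, by simpa using w0, by simpa using q⟩
  obtain ⟨t, t1, t2⟩ := exists_norm_sub hH.invol hs h1 h2 (c := -(B w w / B w' w'))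
    (neg_mem (div_mem (hR _ _ hw hw) (hR _ _ hw' hw'))) (by simp [hH.eq])
  refine ⟨1, t, by simpa using hw.add (hw'.smul t1), fun e' => q ?_, ?_⟩
  · simpa [e] using congrArg (B w) e'
  · simp only [map_add, map_smulₛₗ, LinearMap.add_apply, LinearMap.smul_apply, e, hH.refl e,
      smul_eq_mul, RingHom.id_apply, map_one, map_zero]
    field_simp at t2
    linear_combination t2

/-- A proper overgroup of the subfield subgroup of a unitary group. -/
structure RC4 (B : V →ₛₗ[σ] V →ₗ[F] F) (ε : V ≃ₗ[F] (ι → F)) (F₀ : Subfield F)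
    (M : Subgroup (V ≃ₗ[F] V)) : Prop extends RO4 B (fun x => B x x) (SUG B) ε F₀ M where
  herm : IsHerm B
  not_ge : ¬ SUG B ≤ M
  max : ∀ K : Subfield F, F₀ ≤ K → K = F₀ ∨ K = ⊤
  nu : ∃ ν ∈ F₀, σ ν ≠ ν

namespace RC4

variable {M : Subgroup (V ≃ₗ[F] V)} (h : RC4 B ε F₀ M)
include h

theorem sing₁ {e : V} (he : IsRat ε F₀ e) (q : B e e = B 0 0) (h0 : e ≠ 0) :
    ∃ c, IsRat ε F₀ c ∧ B c c = B 0 0 ∧ B e c = 0 ∧ c ∉ F ∙ e := by
  have := h.fd
  obtain ⟨f, f1, f2, f3⟩ := h.exists_hyp he q h0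
  obtain ⟨w, w1, w2, w3, w4⟩ := h.perp₂ he f1 q f2 (by simp [f3])
  obtain ⟨x, x1, x2⟩ := Geom.exists_notMem_of_finrank_lt
    (X := perp B (Submodule.span F {e, f, w})) (Z := ⊥) (by
      have h1 := h.witt.finrank_perp (Submodule.span F {e, f, w})
      have h2 : finrank F (Submodule.span F ({e, f, w} : Set V)) ≤ 3 := by
        classical
        have := (finrank_span_finset_le_card (R := F) {e, f, w}).trans Finset.card_le_three
        rwa [Finset.coe_insert, Finset.coe_insert, Finset.coe_singleton] at this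
      have h4 := h.four
      rw [finrank_bot]; omega)
  obtain ⟨v, v1, v2, v3⟩ := exists_rat_notMem h.ratB (S := {e, f, w}) (by simp [he, f1, w1])
    (mem_perp_span.1 x1) x2
  obtain ⟨ν, n1, n2⟩ := h.nu
  obtain ⟨a, b, c1, c2, c3⟩ := exists_rat_iso h.herm h.sig h.ratB n1 n2 w1 v1 (v2 w (by simp))
    (by rintro rfl; exact w4 (zero_mem _)) (by simpa using v3)
  refine ⟨_, c1, c3, by simp [w2, v2 e (by simp)], fun e1 => c2 ?_⟩
  obtain ⟨c, hc⟩ := Submodule.mem_span_singleton.1 e1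
  have := congrArg (B f) hc
  simp [w3, v2 f (by simp), h.herm.flip_one f3] at this
  rw [← hc, this, zero_smul]

theorem trans_mem {s : F} (hs : s ∈ F₀) (ht : TransC B (fun x => B x x) s) {v : V} (hv : IsRat ε F₀ v)
    (q : B v v = B 0 0) (h0 : v ≠ 0) : ∃ t ∈ M, ∀ x, t x = x + (s * B v x) • v := by
  obtain ⟨t, t1, t2⟩ := ht v q
  exact ⟨t, h.mem_of_Rad q h0 (Rad_mono _ le_top (h.witt.mem_Rad_of_trans q t1 t2)) fun x hx =>
    t2 x ▸ hx.add (hv.smul (mul_mem hs (h.ratB _ _ hv hx))), t2⟩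

theorem rd_sq {e z : V} (he : IsRat ε F₀ e) (qe : B e e = B 0 0) (e0 : e ≠ 0) (hz : IsRat ε F₀ z)
    (q : B z z = B 0 0) (hez : B e z = 0) (hz' : z ∉ F ∙ e) {β c : F} (hc : c ∈ F₀)
    (hy : RD B (fun x => B x x) M e (β • z)) : RD B (fun x => B x x) M e ((c ^ 2 * β) • z) := by
  have := h.fd
  by_cases c0 : c = 0
  · simpa [c0] using RD.zero
  have s0 : σ c ≠ 0 := (map_ne_zero σ).2 c0
  have hH := h.herm
  obtain ⟨f, f1, f2, f3, f4⟩ := h.exists_partner (S := {z}) (by simpa using hz) he qe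
    (not_mem_span_symm e0 hz') (by simpa using hH.refl hez)
  replace f3 := f3 z rfl
  obtain ⟨y, y1, y2, y3, y4⟩ := h.exists_partner (S := {e, f}) (by simp [he, f1]) hz q (fun e1 => by
    obtain ⟨a, b, rfl⟩ := Submodule.mem_span_pair.1 e1
    simp [h.witt.self_eq_zero qe, f4] at hez
    simp [hez, Submodule.smul_mem _ _ (Submodule.mem_span_singleton_self e)] at hz')
    (by simp [hez, hH.refl f3])
  have ee := h.witt.self_eq_zero qe
  have zz := h.witt.self_eq_zero q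
  have r : ∀ {e f : V} (he : B e e = 0) (hf : B f f = 0) (hef : B e f = 1) (l : Fˣ),
      IsRat ε F₀ e → IsRat ε F₀ f → (l : F) ∈ F₀ → RatM ε F₀ (uDil hH he hf hef l).1 :=
    fun he hf hef l e1 f1 l1 x hx => by
      rw [uDil_apply]
      exact (hx.add (e1.smul (mul_mem (sub_mem l1 (one_mem _)) (h.ratB _ _ f1 hx)))).add
        (f1.smul (mul_mem (sub_mem (inv_mem (h.sig _ l1)) (one_mem _)) (h.ratB _ _ e1 hx)))
  have m : (uDil hH ee (h.witt.self_eq_zero f2) f4 (Units.mk0 _ s0)).1 *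
      (uDil hH zz (h.witt.self_eq_zero y2) y4 (Units.mk0 c c0)).1 ∈ M :=
    h.le ⟨mem_SUG.2 ⟨(mem_isom.1 (mul_mem (Subtype.prop _) (Subtype.prop _))).1, by
      rw [det_mul_equiv, det_uDil, det_uDil]; simp [h.invol]; field_simp⟩,
      ((r _ _ _ _ he f1 (h.sig _ hc)).mul (r _ _ _ _ hz y1 hc)).mem⟩
  have := hy.map (h.isom m) m
  rw [LinearEquiv.mul_apply, LinearEquiv.mul_apply, uDil_of_perp _ _ _ _ _ (hH.refl hez)
    (hH.refl (y3 e (by simp))), uDil_left, map_smul, uDil_left, map_smul, map_smul,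
    uDil_of_perp _ _ _ _ _ hez (hH.refl f3)] at this
  convert this.smul_base s0 using 1
  simp only [Units.val_mk0, h.invol]; module

theorem DT {e y z : V} (he : IsRat ε F₀ e) (qe : B e e = B 0 0) (e0 : e ≠ 0)
    (hy : RD B (fun x => B x x) M e y) (hz : IsRat ε F₀ z) (q : B z z = B 0 0) (hez : B e z = 0)
    (hz' : z ∉ F ∙ e) {ρ : F} (hρ : ρ ∈ F₀) : RD B (fun x => B x x) M e ((ρ * B z y) • z) := by
  have := h.fd
  obtain ⟨ν, n1, n2⟩ := h.nu
  have s1 := sub_mem n1 (h.sig _ n1)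
  have s0 := sub_ne_zero.2 n2.symm
  have r := UTV.rd (fun _ => h.isom) (h.trans_mem s1 (transC_herm h.herm (by simp [h.invol])) hz q
    (by rintro rfl; exact hz' (zero_mem _))) (h.witt.refl hez) hy
  obtain ⟨a, b, e1⟩ := exists_sq_add_sq' (F := F₀) ⟨_, div_mem hρ s1⟩
  replace e1 : (a : F) ^ 2 + b ^ 2 = ρ / (ν - σ ν) := congrArg Subtype.val e1
  convert (h.rd_sq he qe e0 hz q hez hz' a.2 r).add (h.rd_sq he qe e0 hz q hez hz' b.2 r) using 1
  rw [← add_smul, ← add_mul, e1, ← mul_assoc, div_mul_cancel₀ _ s0]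

theorem G1 {e z : V} (he : IsRat ε F₀ e) (qe : B e e = B 0 0) (e0 : e ≠ 0)
    (hz : IsRat ε F₀ z) (q : B z z = B 0 0) (hez : B e z = 0)
    (hz' : z ∉ F ∙ e) {β : F} (hR : RD B (fun x => B x x) M e (β • z)) : Gam B (fun x => B x x) ε F₀ M e β := by
  have key : ∀ {z s : V}, RD B (fun x => B x x) M e (β • z) → IsRat ε F₀ z → B e z = 0 → IsRat ε F₀ s →
      B s s = B 0 0 → B e s = 0 → B z s ≠ 0 → ∀ ρ ∈ F₀, RD B (fun x => B x x) M e ((ρ * β) • s) :=
    fun {z s} hR hz hez s1 s2 s3 s4 ρ hρ => by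
      have s5 : B s z ≠ 0 := fun e => s4 (h.witt.refl e)
      convert h.DT he qe e0 hR s1 s2 s3 (fun e => by
        obtain ⟨c, rfl⟩ := Submodule.mem_span_singleton.1 e
        simp [hez] at s5) (div_mem hρ (h.ratB _ _ s1 hz)) using 2
      simp only [map_smul, smul_eq_mul]; field_simp
  obtain ⟨v, v1, v2, v3, v4⟩ := h.exists_partner (S := {e}) (by simpa using he) hz q hz'
    (by simpa using hez)
  have r1 := key hR hz hez v1 v2 (v3 e rfl) (by simp [v4]) 1 (one_mem _)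
  rw [one_mul] at r1
  intro w hw hew
  simpa using h.span_sing he hz q hez hz' (P := fun a => ∀ ρ ∈ F₀, RD B (fun x => B x x) M e ((ρ * β) • a))
    (fun a b ha hb ρ hρ => by rw [smul_add]; exact (ha ρ hρ).add (hb ρ hρ))
    (fun c hc a ha ρ hρ => by
      rw [smul_smul, mul_right_comm]; exact ha _ (mul_mem hρ hc))
    (key r1 v1 (v3 e rfl) hz q hez fun e => by simp [h.witt.refl e] at v4)
    (fun s s1 s2 s3 s4 => key hR hz hez s1 s2 s3 s4) hw hew 1 (one_mem _)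

theorem G4 {e y x : V} (he : IsRat ε F₀ e) (q : B e e = B 0 0) (h0 : e ≠ 0) (hy : RD B (fun x => B x x) M e y)
    (hx : IsRat ε F₀ x) (hex : B e x = 0) : Gam B (fun x => B x x) ε F₀ M e (B x y) := by
  have := h.fd
  have key : ∀ s, IsRat ε F₀ s → B s s = B 0 0 → B e s = 0 → Gam B (fun x => B x x) ε F₀ M e (B s y) :=
    fun s s1 s2 s3 => by
    by_cases e1 : s ∈ F ∙ e
    · obtain ⟨c, rfl⟩ := Submodule.mem_span_singleton.1 e1
      intro w _ _
      simpa [h.witt.RD_perp h0 q hy] using RD.zero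
    · exact h.G1 he q h0 s1 s2 s3 e1 (by simpa using h.DT he q h0 hy s1 s2 s3 e1 (one_mem _))
  obtain ⟨z, z1, z2, z3, z4⟩ := h.sing₁ he q h0
  exact h.span_sing he z1 z2 z3 z4 (P := fun a => Gam B (fun x => B x x) ε F₀ M e (B a y))
    (fun a b ha hb w hw hew => by simpa [add_smul] using (ha w hw hew).add (hb w hw hew))
    (fun c hc a ha w hw hew => by
      simpa [smul_smul, mul_comm] using ha _ (hw.smul (h.sig _ hc)) (by simp [hew]))
    (key z z1 z2 z3) (fun s s1 s2 s3 _ => key s s1 s2 s3) hx hex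

theorem gam_of_utv {e : V} (he : IsRat ε F₀ e) (q : B e e = B 0 0) (h0 : e ≠ 0) {s : F}
    (ht : UTV B M e s) : Gam B (fun x => B x x) ε F₀ M e s := by
  obtain ⟨z, z1, z2, z3, z4⟩ := h.sing₁ he q h0
  have z0 : z ≠ 0 := by rintro rfl; exact z4 (zero_mem _)
  have n := not_mem_span_symm h0 z4
  obtain ⟨w, w1, w2, w3⟩ := h.exists_dual (S := {z}) (by simpa using z1) he n
  exact h.G2 z1 z2 z0 he q h0 (h.G1 z1 z2 z0 he q (h.witt.refl z3) n (by
    simpa [w3] using ht.rd (fun _ => h.isom) z3 (h.rd_rat z1 z2 z0 w1 (w2 z rfl))))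

theorem G3 {e : V} (he : IsRat ε F₀ e) (q : B e e = B 0 0) (h0 : e ≠ 0) {γ δ : F}
    (h1 : Gam B (fun x => B x x) ε F₀ M e γ) (h2 : Gam B (fun x => B x x) ε F₀ M e δ) :
    Gam B (fun x => B x x) ε F₀ M e (γ * δ) := by
  have := h.fd
  obtain ⟨z, z1, -, z3, z4⟩ := h.sing₁ he q h0
  obtain ⟨w, w1, w2, w3⟩ := h.exists_dual (S := {e}) (by simpa using he) z1 z4
  obtain ⟨ν, n1, n2⟩ := h.nu
  have s0 := sub_ne_zero.2 n2.symm
  have key : ∀ {γ δ}, Gam B (fun x => B x x) ε F₀ M e γ → Gam B (fun x => B x x) ε F₀ M e δ →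
      Gam B (fun x => B x x) ε F₀ M e (σ γ * δ) := fun {γ δ} h1 h2 v hv hev => by
    have k : ∀ a ∈ F₀, Gam B (fun x => B x x) ε F₀ M e _ := fun a ha => h.gam_of_utv he q h0
      (utv_of_rd h.herm h.witt.nondegenerate h0 (h.witt.self_eq_zero q)
        (h1 _ (z1.smul ha) (by simp [z3])) (h2 w w1 (w2 e rfl)))
    have c := inv_mem (sub_mem n1 (h.sig _ n1))
    convert (k ν n1 _ (hv.smul c) (by simp [hev])).sub
      (k 1 (one_mem _) _ (hv.smul (mul_mem n1 c)) (by simp [hev])) using 1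
    simp only [map_smulₛₗ, LinearMap.smul_apply, w3, h.herm.flip_one w3, smul_eq_mul, smul_smul,
      RingHom.id_apply, map_one, ← sub_smul]
    congr 1; field_simp; rw [map_mul]; ring
  simpa [h.invol] using key (key h1 (δ := 1) fun w hw hew => by
    simpa using h.rd_rat he q h0 hw hew) h2

theorem TT (e : V) (he : IsRat ε F₀ e) (q : B e e = B 0 0) (h0 : e ≠ 0)
    (hR : ∀ w, B e w = 0 → RD B (fun x => B x x) M e w) : Rad B (fun x => B x x) e ⊤ ≤ M := by
  have := h.fd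
  obtain ⟨z, z1, -, z3, z4⟩ := h.sing₁ he q h0
  obtain ⟨w, -, w2, w3⟩ := h.exists_dual (S := {e}) (by simpa using he) z1 z4
  exact h.witt.Rad_le_of_RD (comT_herm h.herm) h0 q hR z3 (w2 e rfl) w3

theorem mem_of_gam {e : V} (he : IsRat ε F₀ e) (q : B e e = B 0 0) (h0 : e ≠ 0) {β : F}
    (hβ : Gam B (fun x => B x x) ε F₀ M e β) : β ∈ F₀ := by
  have := h.fd
  let R : Subring F :=
    { carrier := {β | Gam B (fun x => B x x) ε F₀ M e β}
      mul_mem' := h.G3 he q h0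
      one_mem' := fun w hw hew => by simpa using h.rd_rat he q h0 hw hew
      add_mem' := fun h1 h2 w hw hew => by rw [add_smul]; exact (h1 w hw hew).add (h2 w hw hew)
      zero_mem' := fun w _ _ => by simpa using RD.zero
      neg_mem' := fun h1 w hw hew => by rw [neg_smul]; exact (h1 w hw hew).neg }
  let K : Subfield F := ⟨R, fun a ha => by
    by_cases h0 : a = 0
    · rw [h0, inv_zero]; exact R.zero_mem
    · exact MaxSub.inv_mem_of_finite R ha (mul_inv_cancel₀ h0) (inv_mul_cancel₀ h0)⟩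
  refine ((h.max K fun c hc w hw hew => h.rd_rat he q h0 (hw.smul hc)
    (by simp [hew])).resolve_right fun hK => h.not_ge ?_).le (show β ∈ K from hβ)
  have key : ∀ e', IsRat ε F₀ e' → B e' e' = B 0 0 → e' ≠ 0 → Rad B (fun x => B x x) e' ⊤ ≤ M := fun e' h1 h2 h3 =>
    h.TT e' h1 h2 h3 fun w hw => by_contra fun hc => by
      let Z : Submodule F V := Submodule.span F {x | IsRat ε F₀ x ∧ B e' x = 0}
      have hZ : w ∈ Z := by_contra fun e => by
        obtain ⟨x, x1, x2, x3⟩ := exists_rat_notMem h.ratB (S := {e'}) (by simpa using h1)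
          (by simpa using hw) e
        exact x3 (Submodule.subset_span ⟨x1, x2 e' rfl⟩)
      have : ∀ c : F, RD B (fun x => B x x) M e' (c • w) := by
        refine Submodule.span_induction (p := fun w _ => ∀ c : F, RD B (fun x => B x x) M e' (c • w))
          (fun x hx c => h.G2 he q h0 h1 h2 h3 (hK.ge trivial : c ∈ K) x hx.1 hx.2)
          (fun c => by simpa using RD.zero)
          (fun x y _ _ hx hy c => by rw [smul_add]; exact (hx c).add (hy c))
          (fun a x _ hx c => by rw [smul_smul]; exact hx _) hZ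
      exact hc (by simpa using this 1)
  obtain ⟨f, f1, f2, f3⟩ := h.exists_hyp he q h0
  exact h.polar.le_of_pair q f2 (by simp [f3]) (key e he q h0)
    (key f f1 f2 (by rintro rfl; simp at f3))

theorem rp : RP4 B (fun x => B x x) (SUG B) ε F₀ M := by
  have := h.fd
  refine ⟨h.toRO4, fun he q h0 hy hx hex => h.mem_of_gam he q h0 (h.G4 he q h0 hy hx hex),
    fun he q h0 k hM hk x hx => ?_⟩
  obtain ⟨s, -, hs⟩ := exists_skew_of_Rad h.herm h.witt.nondegenerate h0 (h.witt.self_eq_zero q) hk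
  rw [hs]
  exact hx.add (he.smul (mul_mem (h.mem_of_gam he q h0 (h.gam_of_utv he q h0 ⟨k, hM, hs⟩))
    (h.ratB _ _ he hx)))

theorem Q3 {u : V} (u0 : u ≠ 0) (hu : ∀ c : F, c ≠ 0 → ¬ IsRat ε F₀ (c • u)) :
    ∃ e e', IsRat ε F₀ e ∧ IsRat ε F₀ e' ∧ B e e = B 0 0 ∧ B e' e' = B 0 0 ∧ B e e' = 0 ∧ B e u ≠ 0 ∧
      B e' u / B e u ∉ F₀ := by
  by_contra! hc
  have key : ∀ e, IsRat ε F₀ e → B e e = B 0 0 → B e u ≠ 0 → ∀ x, IsRat ε F₀ x → B e x = 0 →
      B x u / B e u ∈ F₀ := fun e e1 e2 e3 x hx hex => by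
    obtain ⟨z, z1, z2, z3, z4⟩ := h.sing₁ e1 e2 (by rintro rfl; simp at e3)
    exact h.span_sing e1 z1 z2 z3 z4 (P := fun a => B a u / B e u ∈ F₀)
      (fun a b ha hb => by simpa [add_div] using add_mem ha hb)
      (fun c hc a ha => by simpa [mul_div_assoc] using mul_mem (h.sig _ hc) ha)
      (hc e z e1 z1 e2 z2 z3 e3) (fun s s1 s2 s3 _ => hc e s e1 s1 e2 s2 s3 e3) hx hex
  obtain ⟨e, e1, e2, e3⟩ := h.exists_sing_not_perp u0
  obtain ⟨z, z1, z2, z3, z4⟩ := h.sing₁ e1 e2 (by rintro rfl; simp at e3)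
  have c1 := add_mem (one_mem F₀) (neg_mem (h.sig _ (hc e z e1 z1 e2 z2 z3 e3)))
  have f1 := z1.add (e1.smul c1)
  have f2 : (fun x => B x x) (z + (1 + -σ (B z u / B e u)) • e) = B 0 0 :=
    (h.witt.norm_add_singular (h.witt.norm_smul_singular e2 _) (by simp [h.witt.refl z3])).trans z2
  have f3 : B (z + (1 + -σ (B z u / B e u)) • e) u = B e u := by
    simp only [map_add, map_smulₛₗ, LinearMap.add_apply, LinearMap.smul_apply, map_one, map_neg,
      h.invol, smul_eq_mul]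
    field_simp; ring
  have f4 : z + (1 + -σ (B z u / B e u)) • e ∉ F ∙ e := fun e4 => z4 (by
    simpa using sub_mem e4 (Submodule.smul_mem _ (1 + -σ (B z u / B e u))
      (Submodule.mem_span_singleton_self e)))
  generalize z + (1 + -σ (B z u / B e u)) • e = e' at f1 f2 f3 f4
  obtain ⟨d, d1, d2, d3⟩ := h.exists_dual (S := {e}) (by simpa using e1) f1 f4
  refine hu _ (inv_ne_zero e3) (h.rat_of fun x hx => ?_)
  have c2 := h.ratB _ _ f1 hx
  have g1 := key e' f1 f2 (f3 ▸ e3) _ (hx.sub (d1.smul c2)) (by simp [d3])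
  have g2 := key e e1 e2 e3 _ (d1.smul c2) (by simp [d2 e rfl])
  rw [f3] at g1
  convert add_mem g1 g2 using 1
  simp; field_simp; ring

theorem le_of_trans (hq : NoQuad F₀) {F₁ : Subfield F} (h1 : F₁ ≤ F₀) {c : F} (hc : c ∈ F₀)
    (c0 : c ≠ 0) (ht : ∀ i ∈ F₁, TransC B (fun x => B x x) (c * i)) : M ≤ RG ε F₀ := fun g hg => by
  obtain ⟨z, z1, z2, z0⟩ := h.exists_sing
  by_contra hn
  obtain ⟨e, e', e1, e2, q1, q2, e3, e4, e5⟩ := h.Q3 (u := g z) (by simpa using z0)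
    fun c c0 hc => hn (h.rp.mem_RG_of_point hg z1 z2 z0 c0 hc)
  have ht1 : TransC B (fun x => B x x) c := by simpa using ht 1 (one_mem _)
  obtain ⟨t, t1, t2⟩ := h.trans_mem hc ht1 z1 z2 z0
  have s1 := mul_mem (mul_mem hg t1) (inv_mem hg)
  have s2 : ∀ x, (g * t * g⁻¹) x = x + (c * B (g z) x) • g z := fun x => by
    rw [LinearEquiv.mul_apply, LinearEquiv.mul_apply, t2, map_add, map_smul, ← h.mapB hg,
      apply_inv_apply]
  have qu := h.witt.self_eq_zero ((h.mapQ hg z).trans z2)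
  generalize g * t * g⁻¹ = s at s1 s2
  generalize g z = u at e4 e5 s2 qu
  have e0 : e ≠ 0 := by rintro rfl; simp at e4
  have ee := h.witt.self_eq_zero q1
  have ee' := h.witt.self_eq_zero q2
  have e6 := h.witt.refl e3
  set τ := σ (B e' u / B e u) with hτ
  have τ1 : τ ∉ F₀ := fun e => e5 (by simpa [hτ, h.invol] using h.sig _ e)
  have τ2 : σ τ * B e u = B e' u := by rw [hτ, h.invol]; field_simp
  clear_value τ
  have n1 : e' ∉ F ∙ e := fun e7 => by
    obtain ⟨a, rfl⟩ := Submodule.mem_span_singleton.1 e7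
    exact e5 (by simpa [e4] using h.sig _ (e1.mem_of_smul e0 e2))
  have n2 := not_mem_span_symm e0 n1
  obtain ⟨α, α1, hα⟩ : ∃ α ∈ F₀, (α + τ) * σ (α + τ) ∉ F₀ := by
    by_contra! hc
    have a0 := hc 0 (zero_mem _)
    have a1 := sub_mem (sub_mem (hc 1 (one_mem _)) a0) (one_mem _)
    exact hq τ τ1 _ a1 _ (neg_mem a0) (by simp; ring)
  have x1 := (e1.smul α1).add e2
  have x2 : (fun x => B x x) (α • e + e') = B 0 0 :=
    (h.witt.norm_add_singular q2 (by simp [e3])).trans (h.witt.norm_smul_singular q1 _)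
  have x0 : α • e + e' ≠ 0 := fun e7 => n1 (by
    rw [eq_neg_of_add_eq_zero_right e7]
    exact neg_mem (Submodule.smul_mem _ _ (Submodule.mem_span_singleton_self e)))
  have r1 : B u (e' - τ • e) = 0 := h.witt.refl (by simp [τ2])
  obtain ⟨k, ⟨k1, k2⟩, l, m, -, k3, -, k4⟩ := MaxSub.exists_slope_vec F₁
    (M ⊓ MulAction.stabilizer _ (e' - τ • e)) (F ∙ (e' - τ • e)) e u
    (fun k hk x hx => by
      obtain ⟨a, rfl⟩ := Submodule.mem_span_singleton.1 hx
      rw [map_smul, show k (e' - τ • e) = e' - τ • e from hk.2]; exact hx)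
    {a | ∃ k ∈ M ⊓ MulAction.stabilizer _ (e' - τ • e), k e - e ∈ F ∙ (e' - τ • e) ∧
      k u - (u + a • e) ∈ F ∙ (e' - τ • e)} (fun a ha => ha)
    (card_sq_le_ncard F₁ (a := c * B e u) (b := c * B e u * ((α + τ) * σ (α + τ)))
      (mul_ne_zero c0 e4) (fun e => hα (h1 (by simpa [c0, e4] using e))) fun i hi j hj => by
      obtain ⟨a, a1, a2⟩ := h.trans_mem (mul_mem hc (h1 hi)) (ht i hi) e1 q1 e0
      obtain ⟨b, b1, b2⟩ := h.trans_mem (mul_mem hc (h1 hj)) (ht j hj) x1 x2 x0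
      refine ⟨a * b, ⟨mul_mem a1 b1, show (a * b) (e' - τ • e) = _ by
        simp [a2, b2, ee, ee', e3, e6]⟩, by simp [a2, b2, ee, e6],
        Submodule.mem_span_singleton.2 ⟨c * j * B (α • e + e') u, ?_⟩⟩
      simp only [LinearEquiv.mul_apply, a2, b2, map_add, map_smulₛₗ, LinearMap.add_apply,
        LinearMap.smul_apply, smul_eq_mul, ee, e3, ← τ2, RingHom.id_apply]
      module)
    (s := s) ⟨s1, show s (e' - τ • e) = _ by rw [s2, r1]; simp⟩ (b := c * B u e)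
    (mul_ne_zero c0 fun e => e4 (h.witt.refl e)) (by simp [s2]) (by simp [s2, qu])
  replace k2 : k (e' - τ • e) = e' - τ • e := k2
  obtain ⟨m, hm⟩ := Submodule.mem_span_singleton.1 k3
  have k5 : k e = l • e + m • (e' - τ • e) := by rw [hm]; abel
  obtain ⟨a, a1, a2⟩ := h.trans_mem hc ht1 e1 q1 e0
  have a3 : ∀ x, (k * a * k⁻¹) x = x + (c * B (k e) x) • k e := fun x => by
    rw [LinearEquiv.mul_apply, LinearEquiv.mul_apply, a2, map_add, map_smul, ← h.mapB k1,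
      apply_inv_apply]
  obtain ⟨v, v1, -, v2⟩ := h.exists_sing_not_perp (v := k e) (by simpa using e0)
  have a4 := (h.rp.ratM_of_fix e1 q1 e0 (mul_mem (mul_mem k1 a1) (inv_mem k1))
    (by rw [a3, k5]; simp [ee, e6]) v v1).sub v1
  rw [a3, add_sub_cancel_left] at a4
  obtain ⟨κ, κ0, hκ⟩ := h.rp.mem_RG_of_point k1 e1 q1 e0
    (mul_ne_zero c0 fun e => v2 (h.witt.refl e)) a4
  have b1 := (hκ e).1 e1
  have b2 := (hκ e').1 e2
  rw [show κ • k e = (κ * (l - m * τ)) • e + (κ * m) • e' by rw [k5]; module] at b1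
  rw [show κ • k e' = (κ * τ * (l - 1 - τ * m)) • e + (κ * (1 + τ * m)) • e' by
    rw [← sub_add_cancel e' (τ • e), map_add, k2, map_smul, k5]; module] at b2
  have p1 := rat_coeff e1 e2 n2 b1
  have p2 := rat_coeff e2 e1 n1 (by rwa [add_comm] at b1)
  have p3 := rat_coeff e1 e2 n2 b2
  have p4 := rat_coeff e2 e1 n1 (by rwa [add_comm] at b2)
  have m0 : m = 0 := by_contra fun m0 => hq τ τ1 _ (div_mem (sub_mem p4 p1) p2) _ (div_mem p3 p2)
    (by field_simp; ring)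
  have l1 : l = 1 := by_contra fun l1 => τ1 (by
    have := div_mem p3 (sub_mem p1 p4)
    have l2 := sub_ne_zero.2 l1
    rwa [m0, show κ * τ * (l - 1 - τ * 0) / (κ * (l - 0 * τ) - κ * (1 + τ * 0)) = τ by
      rw [div_eq_iff (by simpa [← mul_sub_one, κ0] using l2)]; ring] at this)
  exact k4 (by simp [l1])

end RC4

theorem rf4_su (hH : IsHerm B) (hB : B.Nondegenerate) (h4 : 4 ≤ finrank F V) (h0 : F₀ ≠ ⊤)
    (hs : ∀ a ∈ F₀, σ a ∈ F₀) (hR : ∀ x y, IsRat ε F₀ x → IsRat ε F₀ y → B x y ∈ F₀) {ν : F}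
    (h1 : ν ∈ F₀) (h2 : ν + σ ν ≠ 0) (he : ∃ e, IsRat ε F₀ e ∧ B e e = B 0 0 ∧ e ≠ 0) :
    RF4 B (fun x => B x x) (SUG B) ε F₀ := by
  have : FiniteDimensional F V := ε.symm.finiteDimensional
  have hG := polarG_su' hH hB (by omega)
  refine ⟨hG, hH.invol, hs, hR, fun p y hp hy q h0 => ?_, he, h4, h0⟩
  have h3 : B y p ≠ 0 := fun e => h0 (hG.witt.refl e)
  refine ⟨-(B y y * ν / ((ν + σ ν) * B y p)), neg_mem (div_mem (mul_mem (hR _ _ hy hy) h1)
    (mul_mem (add_mem h1 (hs _ h1)) (hR _ _ hy hp))), ?_⟩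
  simp only [map_zero] at q
  simp only [map_add, map_smulₛₗ, LinearMap.add_apply, LinearMap.smul_apply, q, map_neg,
    map_div₀, map_mul, hH.eq, hH.invol, RingHom.id_apply, smul_eq_mul, map_zero,
    add_comm (σ ν) ν]
  field_simp; ring

theorem su_maxIn_RG4 (hH : IsHerm B) (hB : B.Nondegenerate) (h4 : 4 ≤ finrank F V) {r : ℕ}
    (hr : r.Prime) (h2 : r ≠ 2) (hc : Nat.card F₀ ^ r = Nat.card F) (hs : ∀ a ∈ F₀, σ a ∈ F₀)
    (hR : ∀ x y, IsRat ε F₀ x → IsRat ε F₀ y → B x y ∈ F₀) : MaxIn (SUG B) (RG ε F₀) := by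
  have : FiniteDimensional F V := ε.symm.finiteDimensional
  have := Fintype.ofFinite F
  have W := hH.wittPair hB
  obtain ⟨μ, h6, h7⟩ : ∃ ν ∈ F₀, σ ν ≠ ν := by
    by_contra! hn
    have h3 := (Classical.subfield_eq_or_eq_top hr hc (K' := σ.eqLocusField (RingHom.id F))
      hn).resolve_right fun e => hH.ne_id (RingHom.ext fun a => (e.ge trivial : a ∈ _))
    obtain ⟨τ, hτ⟩ : ∃ τ, σ τ ≠ τ := by
      by_contra! hn
      exact hH.ne_id (RingHom.ext hn)
    exact noQuad hr h2 hc τ (fun e => hτ (hn τ e)) (τ + σ τ)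
      (h3.le (show σ _ = _ by simp [hH.invol, add_comm])) (-(τ * σ τ))
      (h3.le (show σ _ = _ by simp [hH.invol, mul_comm])) (by ring)
  obtain ⟨ν, h3, h5⟩ : ∃ ν ∈ F₀, ν + σ ν ≠ 0 := by
    by_cases h5 : (2 : F) = 0
    · exact ⟨μ, h6, fun e => h7 (by linear_combination e - μ * h5)⟩
    · exact ⟨1, one_mem _, by rwa [map_one, one_add_one_eq_two]⟩
  have h : RF4 B (fun x => B x x) (SUG B) ε F₀ := rf4_su hH hB h4
    (ne_top_of_card_eq_pow hr.two_le (by rw [hc, Nat.card_eq_fintype_card])) hs hR h3 h5 (by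
      obtain ⟨a, ha, -, -, a0⟩ := Geom.exists_rat_perp W hR IsRat.zero IsRat.zero (Z := ⊥)
        (by simp; omega)
      obtain ⟨b, hb, -, ab, b0⟩ := Geom.exists_rat_perp W hR ha ha (Z := ⊥) (by simp; omega)
      obtain ⟨_, _, c1, c2, c3⟩ := exists_rat_iso hH hs hR h6 h7 ha hb ab (by simpa using a0)
        (by simpa using b0)
      exact ⟨_, c1, c3, c2⟩)
  refine ⟨h.not_le, fun M h1 h8 m hm hm' => by_contra fun hn => hm' ?_⟩
  exact RC4.le_of_trans ⟨⟨h, h1, h8⟩, hH, hn, fun K => Classical.subfield_eq_or_eq_top hr hc,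
    μ, h6, h7⟩ (noQuad hr h2 hc) (F₁ := F₀ ⊓ σ.eqLocusField (RingHom.id F)) inf_le_left
    (sub_mem h6 (hs _ h6)) (sub_ne_zero.2 h7.symm) (fun i hi => transC_herm hH (by
      rw [map_mul, show σ i = i from hi.2, map_sub, hH.invol]; ring)) hm

open Cfsg Cfsg.Geo in
theorem tabU4_sub {F : Type*} [Field F] [Fintype F] {n q : ℕ} (hF : Fintype.card F = q ^ 2)
    (hn : 4 ≤ n) (F₀ : Subfield F) (r : ℕ) (P : GL (Fin n) F) (hr : r.Prime)
    (hro : Odd r) (hcard : Fintype.card F = Nat.card F₀ ^ r)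
    (hP : IsFormRationalStructure (hermForm n F q) F₀ 1 P) :
    IsMaximalIn (GU n F q ⊓ specialLinear (Fin n) F)
      (subfieldSubgroup F₀ P ⊓ (GU n F q ⊓ specialLinear (Fin n) F)) := by
  obtain ⟨σ, hσ, h1, h2⟩ := exists_conj hF
  exact (su_maxIn_RG4 (ε := (Geom.glEquiv _ F P).symm) (isHerm_hermSesq h1 h2)
    (hermSesq_nondegenerate σ) (by simpa using hn) hr (by rintro rfl; exact absurd hro (by decide))
    (by rw [← hcard, Nat.card_eq_fintype_card]) (fun a ha => hσ a ▸ pow_mem ha q)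
    (fun x y hx hy => by simpa [hermForm_eq hσ] using rat_of_structure hP hy hx)).isMaximalIn
    (Geom.glEquiv _ F) (mem_SU_iff hσ) (mem_subfieldSubgroup_iff P)

end CF.MaxSub
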