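/-
Orthogonal subfield subgroups of `SU_n(q)`, `n ≥ 4`, `q ≥ 5` odd, I: a rational Witt lemma.
-/
import Cfsg.Agent.MaxSub.T4L

set_option autoImplicit false
set_option linter.unusedSectionVars false

namespace CF.MaxSub

open Module Geom

variable {F V : Type*} [Field F] [AddCommGroup V] [Module F V] {ι : Type} [Fintype ι]
  {σ : F →+* F} {ε : V ≃ₗ[F] (ι → F)} {F₀ : Subfield F} [Finite F] {B : V →ₛₗ[σ] V →ₗ[F] F}

/-- A hermitian form that is symmetric on the rational vectors, with its bilinear extension. -/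
structure OF4 (B : V →ₛₗ[σ] V →ₗ[F] F) (ε : V ≃ₗ[F] (ι → F)) (F₀ : Subfield F)
    (β : LinearMap.BilinForm F V) (θ : F) : Prop where
  herm : IsHerm B
  nd : B.Nondegenerate
  four : 4 ≤ finrank F V
  fix : ∀ a, a ∈ F₀ ↔ σ a = a
  ratB : ∀ x y, IsRat ε F₀ x → IsRat ε F₀ y → B x y ∈ F₀
  two : (2 : F) ≠ 0
  lam : ∃ l ∈ F₀, l ≠ 0 ∧ l ^ 2 ≠ 1
  bil : ∀ x, IsRat ε F₀ x → ∀ y, β x y = B x y
  skew : σ θ = -θ
  ne : θ ≠ 0

theorem exists_bil (hfix : ∀ a ∈ F₀, σ a = a) (B : V →ₛₗ[σ] V →ₗ[F] F) :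
    ∃ β : LinearMap.BilinForm F V, ∀ x, IsRat ε F₀ x → ∀ y, β x y = B x y := by
  classical
  refine ⟨∑ i, ((LinearMap.proj i) ∘ₗ ε.toLinearMap).smulRight (B (ε.symm (Pi.single i 1))),
    fun x hx y => ?_⟩
  conv_rhs => rw [show x = ∑ i, ε x i • ε.symm (Pi.single i 1) from ε.injective (by
    ext j; simp [Pi.single_apply])]
  simp [LinearMap.sum_apply, hfix _ (hx _)]

namespace OF4

variable {β : LinearMap.BilinForm F V} {θ : F} (h : OF4 B ε F₀ β θ)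
include h

theorem fd : FiniteDimensional F V := ε.symm.finiteDimensional

theorem witt : IsWittPair σ B (fun x => B x x) := h.herm.wittPair h.nd

theorem notMem : θ ∉ F₀ := fun e => h.ne (mul_left_cancel₀ h.two (by
  linear_combination h.skew - (h.fix θ).1 e))

theorem skew_mul {s t : F} (hs : σ s = -s) (ht : σ t = -t) : s * t ∈ F₀ :=
  (h.fix _).2 (by rw [map_mul, hs, ht]; ring)

theorem comm {x y : V} (hx : IsRat ε F₀ x) (hy : IsRat ε F₀ y) : B y x = B x y := by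
  rw [← h.herm.eq, (h.fix _).1 (h.ratB _ _ hx hy)]

theorem split {τ : F} (hτ : τ ∉ F₀) (v : V) : ∃ x y, IsRat ε F₀ x ∧ IsRat ε F₀ y ∧ v = x + τ • y :=
  exists_rat_two ε (fix_decomp h.herm.invol h.fix hτ) v

theorem perp_split {τ : F} (hτ : τ ∉ F₀) {s x y : V} (hs : IsRat ε F₀ s) (hx : IsRat ε F₀ x)
    (hy : IsRat ε F₀ y) (e : B s (x + τ • y) = 0) : B s x = 0 ∧ B s y = 0 :=
  eq_zero_of_add_mul hτ (h.ratB _ _ hs hx) (h.ratB _ _ hs hy) (by simpa using e)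

theorem isSquare {a : F} (ha : a ∈ F₀) : IsSquare a := by
  by_cases h1 : IsSquare (⟨a, ha⟩ : F₀)
  · exact h1.map F₀.subtype
  obtain ⟨y, hy⟩ := isSquare_mul_of_not_isSquare h1 (b := ⟨_, h.skew_mul h.skew h.skew⟩)
    fun ⟨x, hx⟩ => h.notMem (by
      rcases mul_self_eq_mul_self_iff.1 (congrArg Subtype.val hx) with e | e <;> rw [e]
      exacts [x.2, neg_mem x.2])
  refine ⟨y / θ, ?_⟩
  have := h.ne
  have e : a * (θ * θ) = y * y := congrArg Subtype.val hy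
  field_simp; linear_combination e

theorem exists_eta : ∃ η : F, σ η * η = 1 ∧ η ∉ F₀ := by
  have := Fintype.ofFinite F
  obtain ⟨q, hq⟩ := exists_UF h.herm.ne_id h.herm.invol
  obtain ⟨η, h1, h2, -⟩ := hq.exists_ord
  exact ⟨η, h1, fun e => h2 (by rw [← h1, (h.fix _).1 e, pow_two])⟩

theorem exists_ns {k : ℕ} {v : Fin k → V} (hv : OrthFam B v) (hr : ∀ i, IsRat ε F₀ (v i))
    (hk : k < 4) : ∃ w, IsRat ε F₀ w ∧ B w w ≠ 0 ∧ ∀ i, B (v i) w = 0 := by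
  have := h.fd
  obtain ⟨w, hw, w0⟩ := exists_nonisotropic_mem (Or.inl h.herm.ne_id) h.herm.symm
    (h.witt.disjoint_perp_perp hv.disjoint) (fun e => by
      have h1 := hv.finrank_perp h.witt.surj h.nd
      have := h.four
      rw [e, finrank_bot, Fintype.card_fin] at h1; omega)
  obtain ⟨x, y, hx, hy, rfl⟩ := h.split h.notMem w
  have k := fun i => h.perp_split h.notMem (hr i) hx hy (mem_perp_range.1 hw i)
  by_contra! hc
  have k' : ∀ w, IsRat ε F₀ w → (∀ i, B (v i) w = 0) → B w w = 0 := fun w h1 h2 =>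
    by_contra fun e => let ⟨i, hi⟩ := hc w h1 e; hi (h2 i)
  have e1 := k' x hx fun i => (k i).1
  have e2 := k' y hy fun i => (k i).2
  have e3 := k' _ (hx.add hy) fun i => by simp [k i]
  simp only [map_add, LinearMap.add_apply, e1, e2, h.comm hx hy] at e3
  exact w0 (by simp [e1, e2, h.comm hx hy, show B x y = 0 from
    mul_left_cancel₀ h.two (by linear_combination e3)])

theorem ns₂ {a b : V} (ha : IsRat ε F₀ a) (hb : IsRat ε F₀ b) (a0 : B a a ≠ 0) (b0 : B b b ≠ 0)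
    (ab : B a b = 0) : ∃ w, IsRat ε F₀ w ∧ B w w ≠ 0 ∧ B a w = 0 ∧ B b w = 0 :=
  let ⟨w, h1, h2, h3⟩ := h.exists_ns (v := ![a, b]) ⟨by simp [Fin.forall_fin_two, a0, b0], by
    simp [Fin.forall_fin_two, ab, h.herm.refl ab]⟩ (by simp [Fin.forall_fin_two, ha, hb]) (by decide)
  ⟨w, h1, h2, h3 0, h3 1⟩

theorem ns₃ {a b c : V} (ha : IsRat ε F₀ a) (hb : IsRat ε F₀ b) (hc : IsRat ε F₀ c)
    (a0 : B a a ≠ 0) (b0 : B b b ≠ 0) (c0 : B c c ≠ 0) (ab : B a b = 0) (ac : B a c = 0)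
    (bc : B b c = 0) : ∃ w, IsRat ε F₀ w ∧ B w w ≠ 0 ∧ B a w = 0 ∧ B b w = 0 ∧ B c w = 0 :=
  let ⟨w, h1, h2, h3⟩ := h.exists_ns (v := ![a, b, c]) ⟨by simp [Fin.forall_fin_succ, a0, b0, c0],
    by simp [Fin.forall_fin_succ, ab, ac, bc, h.herm.refl ab, h.herm.refl ac, h.herm.refl bc]⟩
    (by simp [Fin.forall_fin_succ, ha, hb, hc]) (by decide)
  ⟨w, h1, h2, h3 0, h3 1, h3 2⟩

theorem rf : RF4 B (fun x => B x x) (SUG B) ε F₀ := by
  refine rf4_su h.herm h.nd h.four (fun e => h.notMem (e.ge trivial))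
    (fun a ha => by rwa [(h.fix a).1 ha]) h.ratB (one_mem _)
    (by rw [map_one, one_add_one_eq_two]; exact h.two) ?_
  obtain ⟨a, ha, a0, -⟩ := h.exists_ns (v := ![]) ⟨by simp, by simp⟩ (by simp) (by decide)
  obtain ⟨b, hb, b0, ab⟩ := h.exists_ns (v := ![a]) ⟨by simpa, by simp⟩ (by simpa) (by decide)
  replace ab : B a b = 0 := ab 0
  obtain ⟨c, hc, c0, ac, bc⟩ := h.ns₂ ha hb a0 b0 ab
  obtain ⟨x, y, e⟩ := exists_binary_eq (F := F₀) (α := ⟨_, h.ratB _ _ ha ha⟩)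
    (β := ⟨_, h.ratB _ _ hb hb⟩) (fun e => a0 (congrArg Subtype.val e))
    (fun e => b0 (congrArg Subtype.val e)) ⟨_, neg_mem (h.ratB _ _ hc hc)⟩
  replace e : B a a * x ^ 2 + B b b * y ^ 2 = -B c c := congrArg Subtype.val e
  have r := @IsHerm.refl _ _ _ _ _ _ _ h.herm
  refine ⟨_, ((ha.smul x.2).add (hb.smul y.2)).add hc, ?_, fun e' => c0 ?_⟩
  · simp [ab, ac, bc, r ab, r ac, r bc, (h.fix _).1 x.2, (h.fix _).1 y.2]
    linear_combination e
  · simpa [r ac, r bc] using congrArg (B c) e'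

theorem exists_refl {a : V} (ha : IsRat ε F₀ a) (a0 : B a a ≠ 0) : ∃ r ∈ UG B, RatM ε F₀ r ∧
    LinearMap.det (r : V →ₗ[F] V) = -1 ∧ ∀ x, r x = x - (2 * B a x / B a a) • a := by
  have := h.fd
  obtain ⟨r, r1, -, r2, r3⟩ := exists_uRefl h.herm a0 (l := -1) (by simp)
  have e : ∀ x, r x = x - (2 * B a x / B a a) • a := fun x => by rw [r3]; module
  exact ⟨r, r1.1, fun x hx => e x ▸ hx.sub (ha.smul (div_mem (mul_mem (ofNat_mem _ 2)
    (h.ratB _ _ ha hx)) (h.ratB _ _ ha ha))), r2, e⟩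

theorem exists_move {x y : V} (hx : IsRat ε F₀ x) (hy : IsRat ε F₀ y) (x0 : B x x ≠ 0)
    (e : B y y = B x x) : ∃ g ∈ UG B, RatM ε F₀ g ∧ LinearMap.det (g : V →ₗ[F] V) ^ 2 = 1 ∧
      g x = y ∧ ∀ s, B x s = 0 → B y s = 0 → g s = s := by
  have c := h.comm hx hy
  have h2 := h.two
  by_cases h1 : B x x = B x y
  · have h3 : B (x + y) (x + y) = 4 * B x x := by simp [c, e, ← h1]; ring
    have h4 : (4 : F) ≠ 0 := by rw [show (4 : F) = 2 * 2 by norm_num]; exact mul_ne_zero h2 h2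
    obtain ⟨r, r1, r2, r3, r4⟩ := h.exists_refl (hx.add hy) (by rw [h3]; simp [h4, x0])
    obtain ⟨t, t1, t2, t3, t4⟩ := h.exists_refl hy (by rwa [e])
    refine ⟨t * r, mul_mem t1 r1, t2.mul r2, by simp [det_mul_equiv, r3, t3], ?_,
      fun s s1 s2 => by simp [r4, t4, s1, s2]⟩
    have : r x = -y := by
      rw [r4, h3, show 2 * B (x + y) x / (4 * B x x) = 1 by
        simp [c, ← h1]; field_simp; ring]; simp
    rw [LinearEquiv.mul_apply, this, t4, map_neg, show 2 * -B y y / B y y = -2 by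
      rw [e]; field_simp]; module
  · have h3 : B (x - y) (x - y) = 2 * (B x x - B x y) := by simp [c, e]; ring
    have h4 := sub_ne_zero.2 h1
    obtain ⟨r, r1, r2, r3, r4⟩ := h.exists_refl (hx.sub hy) (by rw [h3]; simp [h2, h4])
    refine ⟨r, r1, r2, by simp [r3], ?_, fun s s1 s2 => by simp [r4, s1, s2]⟩
    rw [r4, h3, show 2 * B (x - y) x / (2 * (B x x - B x y)) = 1 by simp [c, h2, h4]]; simp

theorem normal {p : V} (hp : B p p = 0) (hp' : β p p ≠ 0) : ∃ c τ : F, c ≠ 0 ∧ τ ∉ F₀ ∧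
    ∃ a b, IsRat ε F₀ a ∧ IsRat ε F₀ b ∧ B a a ≠ 0 ∧ B b b ≠ 0 ∧ B a b = 0 ∧ c • p = a + τ • b := by
  have key : ∀ x y, IsRat ε F₀ x → IsRat ε F₀ y → B y y ≠ 0 → B (x + θ • y) (x + θ • y) = 0 →
      ∃ τ ∉ F₀, ∃ a b, IsRat ε F₀ a ∧ IsRat ε F₀ b ∧ B a a ≠ 0 ∧ B b b ≠ 0 ∧ B a b = 0 ∧
        x + θ • y = a + τ • b := fun x y hx hy y0 e => by
    have c1 := div_mem (h.ratB _ _ hy hx) (h.ratB _ _ hy hy)
    have t1 : θ + B y x / B y y ∉ F₀ := fun e => h.notMem (by simpa using sub_mem e c1)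
    have e1 : B y (x - (B y x / B y y) • y) = 0 := by simp [y0]
    have e2 : x + θ • y = x - (B y x / B y y) • y + (θ + B y x / B y y) • y := by module
    refine ⟨_, t1, _, y, hx.sub (hy.smul c1), hy, fun e3 => ?_, y0, h.herm.refl e1, e2⟩
    rw [e2] at e
    generalize x - (B y x / B y y) • y = a at e e1 e3
    generalize θ + B y x / B y y = τ at e t1
    simp [e1, e3, h.herm.refl e1, y0] at e
    exact t1 (e ▸ zero_mem _)
  obtain ⟨x, y, hx, hy, rfl⟩ := h.split h.notMem p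
  by_cases y0 : B y y = 0
  · have x0 : B x x = 0 := by simpa [y0, h.comm hx hy, h.skew] using hp
    have k0 : B x y ≠ 0 := fun e => hp' (by simp [h.bil, hx, hy, x0, y0, e, h.comm hx hy])
    have e : (1 + θ) • (x + θ • y) = x + (θ * θ) • y + θ • (x + y) := by module
    obtain ⟨τ, h1, h2⟩ := key _ _ (hx.add (hy.smul (h.skew_mul h.skew h.skew))) (hx.add hy)
      (by simpa [x0, y0, h.comm hx hy, ← two_mul, h.two] using k0) (by rw [← e]; simp only
        [map_smulₛₗ, LinearMap.smul_apply, hp, smul_zero])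
    exact ⟨1 + θ, τ, fun e => h.notMem (by
      rw [eq_neg_of_add_eq_zero_right e]; exact neg_mem (one_mem _)), h1, e ▸ h2⟩
  · obtain ⟨τ, h1, h2⟩ := key x y hx hy y0 hp
    exact ⟨1, τ, one_ne_zero, h1, by simpa using h2⟩

theorem exists_map {p p' : V} (hp : B p p = 0) (hp' : B p' p' = 0) (p0 : β p p ≠ 0)
    (e : β p' p' = β p p) : ∃ g ∈ SUG B, RatM ε F₀ g ∧ g p = p' := by
  have := h.fd
  obtain ⟨c, τ, c0, hτ, a, b, ha, hb, a0, b0, ab, e1⟩ := h.normal hp p0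
  obtain ⟨x, y, hx, hy, e2⟩ := h.split hτ (c • p')
  have k1 : B (x + τ • y) (x + τ • y) = B (a + τ • b) (a + τ • b) := by simp [← e1, ← e2, hp, hp']
  have k2 : β (x + τ • y) (x + τ • y) = β (a + τ • b) (a + τ • b) := by simp [← e1, ← e2, e]
  simp only [map_add, map_smulₛₗ, LinearMap.add_apply, LinearMap.smul_apply, h.bil, ha, hb, hx, hy,
    ab, h.comm hx hy, h.comm ha hb, RingHom.id_apply, smul_eq_mul] at k1 k2
  have t0 : τ - σ τ ≠ 0 := sub_ne_zero.2 fun e => hτ ((h.fix τ).2 e.symm)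
  obtain ⟨k3, k4⟩ := eq_zero_of_add_mul hτ (h.ratB _ _ hx hy)
    (sub_mem (h.ratB _ _ hy hy) (h.ratB _ _ hb hb))
    (mul_left_cancel₀ t0 (by linear_combination k2 - k1))
  rw [sub_eq_zero] at k4
  have k5 : B x x = B a a := by rw [k3, k4] at k2; linear_combination k2
  obtain ⟨g, g1, g2, g3, g4, -⟩ := h.exists_move ha hx a0 k5
  have g5 := (mem_UG.1 g1)
  obtain ⟨r, r1, r2, r3, r4, r5⟩ := h.exists_move (g2 b hb) hy (by rwa [g5]) (by rw [g5, k4])
  have r6 := r5 x (by rw [← g4, g5, h.herm.refl ab]) (h.herm.refl k3)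
  have e3 : ∀ t : V ≃ₗ[F] V, t x = x → t y = y → (t * (r * g)) p = p' := fun t t1 t2 =>
    smul_right_injective V c0 (by
      simp only [← map_smul, e1, e2, map_add, LinearEquiv.mul_apply]
      simp only [map_smul, g4, r4, r6, t1, t2])
  have d : LinearMap.det ((r * g : V ≃ₗ[F] V) : V →ₗ[F] V) ^ 2 = 1 := by
    rw [det_mul_equiv, mul_pow, r3, g3, one_mul]
  rcases sq_eq_one_iff.1 d with d | d
  · exact ⟨_, mem_SUG.2 ⟨mem_UG.1 (mul_mem r1 g1), d⟩, r2.mul g2, by simpa using e3 1 rfl rfl⟩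
  obtain ⟨w, hw, w0, xw, yw⟩ := h.ns₂ hx hy (by rwa [k5]) (by rwa [k4]) k3
  obtain ⟨t, t1, t2, t3, t4⟩ := h.exists_refl hw w0
  exact ⟨_, mem_SUG.2 ⟨mem_UG.1 (mul_mem t1 (mul_mem r1 g1)), by rw [det_mul_equiv, d, t3]; simp⟩,
    t2.mul (r2.mul g2), e3 t (by simp [t4, h.herm.refl xw]) (by simp [t4, h.herm.refl yw])⟩

end OF4

end CF.MaxSub
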