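/-
Orthogonal subfield subgroups of `SU_n(q)`, `n ≥ 4`, `q ≥ 5` odd, II: maximality.
-/
import Cfsg.Agent.MaxSub.T4M

set_option autoImplicit false
set_option linter.unusedSectionVars false

namespace CF.MaxSub

open Module Geom

variable {F V : Type*} [Field F] [AddCommGroup V] [Module F V] {ι : Type} [Fintype ι]
  {σ : F →+* F} {ε : V ≃ₗ[F] (ι → F)} {F₀ : Subfield F} [Finite F] {B : V →ₛₗ[σ] V →ₗ[F] F}
  {β : LinearMap.BilinForm F V} {θ : F} {M : Subgroup (V ≃ₗ[F] V)}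

namespace OF4

variable (h : OF4 B ε F₀ β θ)
include h

theorem dil {e f : V} (he : IsRat ε F₀ e) (hf : IsRat ε F₀ f) (qe : B e e = 0) (qf : B f f = 0)
    (hef : B e f = 1) {l : F} (hl : l ∈ F₀) (l0 : l ≠ 0) : ∃ t ∈ SUG B ⊓ RG ε F₀,
      ∀ x, t x = x + ((l - 1) * B f x) • e + ((l⁻¹ - 1) * B e x) • f := by
  have := h.fd
  have e1 : ∀ x, (uDil h.herm qe qf hef (Units.mk0 l l0)).1 x =
      x + ((l - 1) * B f x) • e + ((l⁻¹ - 1) * B e x) • f := fun x => by
    simp [uDil_apply, (h.fix l).1 hl]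
  exact ⟨_, ⟨mem_SUG_iff.2 (mem_suSub.2 (by rw [det_uDil]; simp [(h.fix l).1 hl, l0])),
    RatM.mem fun x hx => e1 x ▸ (hx.add (he.smul (mul_mem (sub_mem hl (one_mem _))
      (h.ratB _ _ hf hx)))).add (hf.smul (mul_mem (sub_mem (inv_mem hl) (one_mem _))
        (h.ratB _ _ he hx)))⟩, e1⟩

theorem hyp_ns {e f : V} (he : IsRat ε F₀ e) (hf : IsRat ε F₀ f) (qe : B e e = 0) (qf : B f f = 0)
    (hef : B e f = 1) : B (e + f) (e + f) ≠ 0 ∧ B (e - f) (e - f) ≠ 0 ∧ B (e + f) (e - f) = 0 ∧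
      ∀ w, B (e + f) w = 0 → B (e - f) w = 0 → B e w = 0 ∧ B f w = 0 := by
  have h2 := h.two
  have e := h.herm.flip_one hef
  refine ⟨by simpa [qe, qf, hef, e, one_add_one_eq_two], ?_, by simp [qe, qf, hef, e],
    fun w h1 h3 => ?_⟩
  · simp only [map_sub, LinearMap.sub_apply, qe, qf, hef, e]
    exact fun e => h2 (by linear_combination -e)
  · simp only [map_sub, map_add, LinearMap.sub_apply, LinearMap.add_apply] at h1 h3
    exact ⟨mul_left_cancel₀ h2 (by linear_combination h1 + h3),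
      mul_left_cancel₀ h2 (by linear_combination h1 - h3)⟩

theorem iso_vec {a b : V} (ha : IsRat ε F₀ a) (hb : IsRat ε F₀ b) (b0 : B b b ≠ 0) (ab : B a b = 0)
    {γ : F} (hγ : σ γ * γ = -(B a a / B b b)) : B (a + γ • b) (a + γ • b) = 0 ∧
      (γ ∉ F₀ → β (a + γ • b) (a + γ • b) ≠ 0) := by
  have e : B a a = -(σ γ * γ * B b b) := by rw [hγ]; field_simp
  refine ⟨by simp [ab, h.herm.refl ab, e]; ring, fun h1 h2 => h1 ((h.fix _).2 ?_)⟩
  have g0 : γ ≠ 0 := by rintro rfl; exact h1 (zero_mem _)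
  simp only [map_add, map_smul, LinearMap.add_apply, LinearMap.smul_apply, h.bil, ha, hb, ab,
    h.herm.refl ab, e, smul_eq_mul] at h2
  exact mul_left_cancel₀ (mul_ne_zero g0 b0) (by linear_combination -h2)

theorem exists_gam {a b : V} (ha : IsRat ε F₀ a) (hb : IsRat ε F₀ b) :
    ∃ γ : F, σ γ * γ = -(B a a / B b b) :=
  exists_norm_eq h.herm.ne_id h.herm.invol
    ((h.fix _).1 (neg_mem (div_mem (h.ratB _ _ ha ha) (h.ratB _ _ hb hb))))

variable (hM : SUG B ⊓ RG ε F₀ ≤ M) (hM' : M ≤ SUG B)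
include hM hM'

theorem utv_all {z : V} (hz : IsRat ε F₀ z) (qz : B z z = 0) (z0 : z ≠ 0) {s : F} (s0 : s ≠ 0)
    (hs : σ s = -s) (ht : UTV B M z s) {v : V} (hv : IsRat ε F₀ v) (qv : B v v = 0) (v0 : v ≠ 0)
    (s' : F) (hs' : σ s' = -s') : UTV B M v s' := by
  have k : ∀ c ∈ F₀, ∀ {t}, UTV B M v t → UTV B M v (t * c ^ 2) := fun c hc t ht => by
    by_cases c0 : c = 0
    · simpa [c0] using UTV.zero
    obtain ⟨f, f1, f2, f3⟩ := h.rf.exists_hyp hv (by simpa using qv) v0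
    obtain ⟨k, k1, k2⟩ := h.dil hv f1 qv (by simpa using f2) f3 hc c0
    have := ht.map (hM k1) (mem_SUG.1 k1.1).1
    rw [show k v = c • v by simp [k2, qv, h.herm.flip_one f3, sub_smul]] at this
    simpa [(h.fix c).1 hc, pow_two] using this.smul
  obtain ⟨g, g1, g2, a, a1, a0, g3⟩ := h.rf.exists_ratM_map hz (by simpa using qz) z0 hv
    (by simpa using qv) v0
  have h1 := (g3 ▸ ht.map (hM ⟨g1, g2.mem⟩) (mem_SUG.1 g1).1).smul
  rw [(h.fix a).1 a1] at h1
  obtain ⟨x, y, e⟩ := exists_sq_add_sq' (F := F₀) ⟨s' / (s * (a * a)), (h.fix _).2 (by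
    simp [hs, hs', (h.fix a).1 a1])⟩
  replace e : (x : F) ^ 2 + y ^ 2 = s' / (s * (a * a)) := congrArg Subtype.val e
  convert (k x x.2 h1).add qv (k y y.2 h1) using 1
  rw [← mul_add, e]; field_simp

theorem pt_all (T : ∀ v, IsRat ε F₀ v → B v v = 0 → v ≠ 0 → ∀ s, σ s = -s → UTV B M v s) {p : V}
    (hp : B p p = 0) (p0 : β p p ≠ 0) : Rad B (fun x => B x x) p (F ∙ p) ≤ M := by
  have := h.fd
  have hH := h.herm
  have I : ∀ {g}, g ∈ M → g ∈ UG B := fun hg => (hM' hg).1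
  have P : ∀ {v}, IsRat ε F₀ v → B v v = 0 → v ≠ 0 → Rad B (fun x => B x x) v (F ∙ v) ≤ M :=
    fun hv qv v0 => Pt_of_utv hH h.nd v0 qv (T _ hv qv v0)
  have key : ∀ {v g} (c : F), g ∈ M → IsRat ε F₀ v → B v v = 0 → v ≠ 0 →
      c ^ 2 * β (g v) (g v) = β p p → Rad B (fun x => B x x) p (F ∙ p) ≤ M :=
    fun {v g} c hg hv qv v0 e => by
      have c0 : c ≠ 0 := by rintro rfl; simp [p0.symm] at e
      have e' : β p p = β (c • g v) (c • g v) := by simp [← e]; ring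
      obtain ⟨k, k1, k2, k3⟩ := h.exists_map (p := c • g v) (by
        simp [mem_UG.1 (I hg), qv]) hp (e' ▸ p0) e'
      have := IsWittPair.Pt_map (P hv qv v0) (I (mul_mem (hM ⟨k1, k2.mem⟩) hg))
        (mul_mem (hM ⟨k1, k2.mem⟩) hg)
      rwa [← k3, map_smul, Rad_smul _ _ c0, Submodule.span_singleton_smul_eq c0.isUnit]
  obtain ⟨u, hu, qu, u0⟩ := h.rf.exists_sing
  obtain ⟨f, hf, qf, uf⟩ := h.rf.exists_hyp hu qu u0
  simp only [map_zero] at qu qf
  have fu := hH.flip_one uf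
  have f0 : f ≠ 0 := by rintro rfl; simp at uf
  obtain ⟨n1, n2, n3, n4⟩ := h.hyp_ns hu hf qu qf uf
  obtain ⟨w, hw, w0, w1, w2⟩ := h.ns₂ (hu.add hf) (hu.sub hf) n1 n2 n3
  obtain ⟨uw, fw⟩ := n4 w w1 w2
  have h2 := h.two
  have t0 := h.ne
  have c1 : B w w / 2 ∈ F₀ := div_mem (h.ratB _ _ hw hw) (ofNat_mem _ 2)
  have d1 : (θ - B w w / 2) ^ 2 ∉ F₀ := fun e => h.notMem (by
    have := div_mem (sub_mem (add_mem (h.skew_mul h.skew h.skew) (pow_mem c1 2)) e)
      (h.ratB _ _ hw hw)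
    rwa [show (θ * θ + (B w w / 2) ^ 2 - (θ - B w w / 2) ^ 2) / B w w = θ by
      field_simp; ring] at this)
  obtain ⟨x, hx, y, hy, e⟩ := fix_decomp hH.invol h.fix d1 (β p p / (2 * θ))
  rw [div_eq_iff (mul_ne_zero h2 t0)] at e
  have sk : ∀ a ∈ F₀, σ (θ * a) = -(θ * a) := fun a ha => by
    rw [map_mul, h.skew, (h.fix a).1 ha]; ring
  by_cases x0 : x = 0
  · obtain ⟨t, t1, t2⟩ := T f hf qf f0 _ (sk y hy)
    refine key (θ - B w w / 2) t1 hu qu u0 ?_
    simp [t2, fu, h.bil, hu, hf, qu, qf, uf, e, x0]; ring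
  obtain ⟨t, t1, t2⟩ := T f hf qf f0 _ (sk _ (div_mem hy hx))
  obtain ⟨r, r1, r2⟩ := T u hu qu u0 _ h.skew
  obtain ⟨c, hc⟩ := h.isSquare hx
  refine key c (mul_mem t1 r1) ((hf.add hw).sub (hu.smul c1)) (by
    simp [qu, qf, uf, fu, uw, fw, hH.refl uw, hH.refl fw, (h.fix _).1 c1]; field_simp; ring)
    (fun e => by simpa [qu, uf, uw] using congrArg (B u) e) ?_
  simp only [LinearEquiv.mul_apply, r2, t2, map_add, map_sub, map_smul, LinearMap.add_apply,
    LinearMap.sub_apply, LinearMap.smul_apply, h.bil, hu, hf, hw, qu, qf, uf, fu, uw, fw,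
    hH.refl uw, hH.refl fw, smul_eq_mul, e, pow_two, ← hc]
  field_simp; ring

theorem le_of_utv {z : V} (hz : IsRat ε F₀ z) (qz : B z z = 0) (z0 : z ≠ 0) {s : F} (s0 : s ≠ 0)
    (hs : σ s = -s) (ht : UTV B M z s) : SUG B ≤ M := by
  have := h.fd
  have hH := h.herm
  have W := h.witt
  have T := fun v hv qv v0 => h.utv_all hM hM' hz qz z0 s0 hs ht (v := v) hv qv v0
  have h2 := h.two
  have R : RO4 B (fun x => B x x) (SUG B) ε F₀ M := ⟨h.rf, hM, hM'⟩
  have key : ∀ u, IsRat ε F₀ u → B u u = B 0 0 → u ≠ 0 → Rad B (fun x => B x x) u ⊤ ≤ M :=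
    fun u hu qu' u0 => by
    obtain ⟨f, hf, qf, uf⟩ := h.rf.exists_hyp hu qu' u0
    have qu := W.self_eq_zero qu'
    simp only [map_zero] at qf
    obtain ⟨n1, n2, n3, n4⟩ := h.hyp_ns hu hf qu qf uf
    have k1 : ∀ w, B w w = 0 → β w w ≠ 0 → B u w = 0 → ∀ c : F, RD B (fun x => B x x) M u (c • w) :=
      fun w w1 w2 w3 c => by
        by_cases c0 : c = 0
        · simpa [c0] using RD.zero
        have c1 : σ (c / θ) ≠ 0 := (map_ne_zero σ).2 (div_ne_zero c0 h.ne)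
        have e : β w u = 0 := by
          obtain ⟨x, y, hx, hy, rfl⟩ := h.split h.notMem w
          obtain ⟨e1, e2⟩ := h.perp_split h.notMem hu hx hy w3
          simp [h.bil, hx, hy, hH.refl e1, hH.refl e2]
        convert (rd_of_pt W (transC_herm hH h.skew) (smul_ne_zero c1 u0) (by simp [qu])
          (by simpa using w1) (by simp [w3]) (h.pt_all hM hM' T w1 w2) (h.pt_all hM hM' T
            (by simp [qu, w1, w3, hH.refl w3]) (by simpa [h.bil, hu, qu, w3, e] using w2))).smul_base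
          c1 using 1
        rw [hH.invol, smul_smul, div_mul_cancel₀ _ h.ne]
    have k2 : ∀ w, IsRat ε F₀ w → B w w ≠ 0 → B u w = 0 → B f w = 0 → ∀ c : F,
        RD B (fun x => B x x) M u (c • w) := fun w hw w0 w1 w2 c => by
      obtain ⟨v, hv, v0, v1, v2, v3⟩ := h.ns₃ (hu.add hf) (hu.sub hf) hw n1 n2 w0 n3
        (by simp [w1, w2]) (by simp [w1, w2])
      obtain ⟨γ, g1, g2⟩ : ∃ γ : F, σ γ * γ = -(B w w / B v v) ∧ γ ∉ F₀ := by
        obtain ⟨γ, g1⟩ := h.exists_gam hw hv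
        obtain ⟨η, e1, e2⟩ := h.exists_eta
        by_cases g2 : γ ∈ F₀
        · refine ⟨η * γ, by rw [map_mul]; linear_combination σ γ * γ * e1 + g1, fun e => e2 ?_⟩
          have g0 : γ ≠ 0 := by rintro rfl; simp [w0, v0] at g1
          simpa [g0] using div_mem e g2
        · exact ⟨γ, g1, g2⟩
      obtain ⟨a1, a2⟩ := h.iso_vec hw hv v0 v3 g1
      obtain ⟨b1, b2⟩ := h.iso_vec hw hv v0 v3 (γ := -γ) (by simpa using g1)
      convert (k1 _ a1 (a2 g2) (by simp [w1, (n4 v v1 v2).1]) (c / 2)).add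
        (k1 _ b1 (b2 fun e => g2 (by simpa using neg_mem e)) (by simp [w1, (n4 v v1 v2).1])
          (c / 2)) using 1
      match_scalars <;> field_simp <;> ring
    obtain ⟨v, hv, v0, v1, v2⟩ := h.ns₂ (hu.add hf) (hu.sub hf) n1 n2 n3
    obtain ⟨v1, v2⟩ := n4 v v1 v2
    have k3 : ∀ w, IsRat ε F₀ w → B u w = 0 → B f w = 0 → ∀ c : F,
        RD B (fun x => B x x) M u (c • w) := fun w hw w1 w2 c => by
      by_cases w0 : B w w = 0
      swap
      · exact k2 w hw w0 w1 w2 c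
      by_cases e : B (w + v) (w + v) = 0
      · simpa [smul_sub] using (k2 _ (hw.sub hv) (fun e' => v0 (mul_left_cancel₀ h2 (by
          simp only [map_add, map_sub, LinearMap.add_apply, LinearMap.sub_apply, w0] at e e'
          linear_combination e + e'))) (by simp [w1, v1]) (by simp [w2, v2]) c).add
          (k2 v hv v0 v1 v2 c)
      · simpa using (k2 _ (hw.add hv) e (by simp [w1, v1]) (by simp [w2, v2]) c).sub
          (k2 v hv v0 v1 v2 c)
    have k4 : ∀ w, IsRat ε F₀ w → B u w = 0 → ∀ c : F, RD B (fun x => B x x) M u (c • w) :=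
      fun w hw w1 c => by
        convert (k3 _ (hw.sub (hu.smul (h.ratB _ _ hf hw))) (by simp [w1, qu])
          (by simp [hH.flip_one uf]) c).add (RD.self (c * B f w)) using 1
        module
    refine Rad_le_of_rd W u0 qu' (Pt_of_utv hH h.nd u0 qu (T u hu qu u0)) fun w _ hw => ?_
    obtain ⟨x, y, hx, hy, rfl⟩ := h.split h.notMem w
    obtain ⟨e1, e2⟩ := h.perp_split h.notMem hu hx hy hw
    simpa using (k4 x hx e1 1).add (k4 y hy e2 θ)
  obtain ⟨f, hf, qf, zf⟩ := h.rf.exists_hyp hz (by simpa using qz) z0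
  exact h.rf.polar.le_of_pair (by simpa using qz) qf (by simp [zf]) (key z hz (by simpa using qz) z0)
    (key f hf qf (by rintro rfl; simp at zf))

theorem rp (hn : ¬ SUG B ≤ M) : RP4 B (fun x => B x x) (SUG B) ε F₀ M := by
  have := h.fd
  have R : RO4 B (fun x => B x x) (SUG B) ε F₀ M := ⟨h.rf, hM, hM'⟩
  refine ⟨R, fun {e y x} he q h0 hy hx hex => (h.fix _).2 (by_contra fun e1 => hn ?_),
    fun he q h0 k hk hk' x hx => ?_⟩
  · exact h.le_of_utv hM hM' he (h.witt.self_eq_zero q) h0 (sub_ne_zero.2 fun e2 => e1 (by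
      rw [h.herm.eq, e2])) (by simp [h.herm.eq]) (utv_of_rd h.herm h.nd h0 (h.witt.self_eq_zero q)
        hy (R.rd_rat he q h0 hx hex))
  · obtain ⟨s, s1, s2⟩ := exists_skew_of_Rad h.herm h.nd h0 (h.witt.self_eq_zero q) hk'
    by_cases s0 : s = 0
    · simpa [s2, s0] using hx
    · exact (hn (h.le_of_utv hM hM' he (h.witt.self_eq_zero q) h0 s0 s1 ⟨k, hk, s2⟩)).elim

omit hM hM'
variable (R : RP4 B (fun x => B x x) (SUG B) ε F₀ M)
include R

theorem rat_of_ts {n : V ≃ₗ[F] V} (hn : n ∈ M) {z : V} (hz : IsRat ε F₀ z) (qz : B z z = 0)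
    (z0 : z ≠ 0) (e0 : β (n z) (n z) = 0) : n ∈ RG ε F₀ := by
  have := h.fd
  have hH := h.herm
  by_contra hc
  obtain ⟨a, b, ha, hb, e, n1, n2⟩ := exists_rat_split h.notMem (fix_decomp hH.invol h.fix h.notMem)
    fun c c0 e => hc (R.mem_RG_of_point hn hz (by simpa using qz) z0 c0 e)
  have e1 := (R.mapB hn z z).trans qz
  simp only [e, map_add, map_smulₛₗ, LinearMap.add_apply, LinearMap.smul_apply, h.bil, ha, hb,
    h.comm ha hb, RingHom.id_apply, smul_eq_mul, h.skew] at e0 e1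
  obtain ⟨ab, bb⟩ := eq_zero_of_add_mul h.notMem (h.ratB _ _ ha hb) (h.ratB _ _ hb hb)
    (mul_left_cancel₀ (mul_ne_zero h.two h.ne) (by linear_combination e0 - e1))
  have aa : B a a = 0 := by simpa [ab, bb] using e0
  have e2 : 0 + σ 0 = B b b := by simp [bb]
  have t2 := uEich_apply hH aa ab e2
  have t1 : (uEich hH aa ab e2).1 ∈ M := R.le ⟨mem_SUG_iff.2 (mem_suSub.2 (det_uEich ..)),
    RatM.mem fun x hx => t2 x ▸ ((hx.add (hb.smul (h.ratB _ _ ha hx))).sub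
      (ha.smul (h.ratB _ _ hb hx))).sub (by simpa using IsRat.zero)⟩
  generalize (uEich hH aa ab e2).1 = t at t1 t2
  have r := R.ratM_of_fix hz (by simpa using qz) z0 (mul_mem (mul_mem (inv_mem hn) t1) hn) (by
    rw [LinearEquiv.mul_apply, LinearEquiv.mul_apply, t2, e]
    simp only [map_add (B _), map_smul (B _), aa, ab, bb, hH.refl ab]
    simp [← e, inv_apply_apply])
  obtain ⟨y, hy, y1, y2⟩ := R.exists_not_perp (S := {z}) (by simpa using hz) (y := n⁻¹ b) fun e3 => by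
    obtain ⟨c, hc⟩ := Submodule.mem_span_singleton.1 e3
    have e4 : b = c • (a + θ • b) := by rw [← e, ← map_smul, hc, apply_inv_apply]
    have c0 : c ≠ 0 := by rintro rfl; simp [show b = 0 by simpa using e4] at n2
    exact n1 (Submodule.mem_span_singleton.2 ⟨c⁻¹ - θ, smul_right_injective V c0 (by
      simp only [smul_smul, mul_sub, mul_inv_cancel₀ c0]
      linear_combination (norm := module) e4)⟩)
  replace y1 : B a (n y) = θ * B b (n y) := by
    have := (R.mapB hn z y).trans (y1 z rfl)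
    simp only [e, map_add, map_smulₛₗ, LinearMap.add_apply, LinearMap.smul_apply, h.skew,
      smul_eq_mul] at this
    linear_combination this
  rw [← R.mapB hn, apply_inv_apply] at y2
  have := h.ratB _ _ ((r y hy).sub hy) hy
  rw [← R.mapB hn, map_sub n, LinearEquiv.mul_apply, LinearEquiv.mul_apply, apply_inv_apply, t2,
    show B (n y + B a (n y) • b - B b (n y) • a - (0 * B a (n y)) • a - n y) (n y) =
      θ * (-2 * (σ (B b (n y)) * B b (n y))) by simp [y1, h.skew]; ring] at this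
  refine h.notMem ?_
  have c1 : -2 * (σ (B b (n y)) * B b (n y)) ∈ F₀ := (h.fix _).2 (by
    simp [hH.invol, mul_comm, map_ofNat])
  simpa [h.two, y2] using div_mem this c1

theorem rat_of_perp {n : V ≃ₗ[F] V} (hn : n ∈ M) {z : V} (hz : IsRat ε F₀ z) (qz : B z z = 0)
    (z0 : z ≠ 0) {s : V} (hs : IsRat ε F₀ s) (qs : B s s = 0) (s0 : s ≠ 0) (e0 : B s (n z) = 0) :
    n ∈ RG ε F₀ := by
  have hH := h.herm
  by_cases p0 : β (n z) (n z) = 0
  · exact h.rat_of_ts R hn hz qz z0 p0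
  obtain ⟨c, τ, c0, hτ, a, b, ha, hb, a0, b0, ab, e⟩ := h.normal ((R.mapB hn z z).trans qz) p0
  obtain ⟨sa, sb⟩ := h.perp_split hτ hs ha hb (by simp [← e, e0])
  obtain ⟨f, hf, qf, f1, sf⟩ := R.exists_partner (S := {a, b}) (by simp [ha, hb]) hs
    (by simpa using qs) (fun e1 => by
      obtain ⟨x, y, rfl⟩ := Submodule.mem_span_pair.1 e1
      simp [ab, hH.refl ab, a0, b0] at sa sb
      simp [sa, sb] at s0) (by simp [hH.refl sa, hH.refl sb])
  simp only [map_zero] at qf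
  have e1 : B f (n z) = 0 := mul_left_cancel₀ c0 (by
    rw [← smul_eq_mul, ← map_smul, e]; simp [hH.refl (f1 a (by simp)), hH.refl (f1 b (by simp))])
  obtain ⟨l, l1, l0, l2⟩ := h.lam
  obtain ⟨t, t1, t2⟩ := h.dil hs hf qs qf sf l1 l0
  have r := R.ratM_of_fix hz (by simpa using qz) z0
    (mul_mem (mul_mem (inv_mem hn) (R.le t1)) hn) (by simp [t2, e0, e1, inv_apply_apply])
  obtain ⟨v, hv, -, v0⟩ := R.exists_not_perp (S := ∅) (by simp) (y := n⁻¹ f) (by
    simpa using (by rintro rfl; simp at sf : f ≠ 0))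
  rw [← R.mapB hn, apply_inv_apply] at v0
  have r1 := (r v hv).sub hv
  have l3 : l - 1 ≠ 0 := sub_ne_zero.2 (by rintro rfl; simp at l2)
  refine inv_inv n ▸ inv_mem (R.mem_RG_of_point (inv_mem hn) hs (by simpa using qs) s0
    (c := (l - 1) * B f (n v) * (l - l⁻¹)) (mul_ne_zero (mul_ne_zero l3 v0) (sub_ne_zero.2 fun e =>
      l2 (by rw [pow_two]; nth_rewrite 2 [e]; exact mul_inv_cancel₀ l0))) ?_)
  convert (r _ r1).sub (r1.smul (inv_mem l1)) using 1
  apply n.injective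
  simp only [map_sub, map_smul, LinearEquiv.mul_apply, apply_inv_apply, t2, map_add, qs, qf, sf,
    hH.flip_one sf, smul_eq_mul]
  match_scalars <;> field_simp <;> ring

theorem le_RG : M ≤ RG ε F₀ := fun m hm => by
  have hH := h.herm
  by_contra hc
  obtain ⟨z, hz, qz, z0⟩ := R.exists_sing
  simp only [map_zero] at qz
  have qp := (R.mapB hm z z).trans qz
  have p0 : β (m z) (m z) ≠ 0 := fun e => hc (h.rat_of_ts R hm hz qz z0 e)
  obtain ⟨c, τ, c0, hτ, a, b, ha, hb, a0, b0, ab, e⟩ := h.normal qp p0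
  obtain ⟨u, hu, u0, au, bu⟩ := h.ns₂ ha hb a0 b0 ab
  obtain ⟨v, hv, v0, av, bv, uv⟩ := h.ns₃ ha hb hu a0 b0 u0 ab au bu
  have k0 : ∀ w, B w a = 0 → B w b = 0 → B w (m z) = 0 := fun w h1 h2 => mul_left_cancel₀ c0 (by
    rw [← smul_eq_mul, ← map_smul, e]; simp [h1, h2])
  have pu := k0 u (hH.refl au) (hH.refl bu)
  have pv := k0 v (hH.refl av) (hH.refl bv)
  have k1 : ∀ w, B a w = 0 → B b w = 0 → β (m z) w = 0 := fun w h1 h2 => mul_left_cancel₀ c0 (by
    rw [← smul_eq_mul, ← LinearMap.smul_apply, ← map_smul, e]; simp [h.bil, ha, hb, h1, h2])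
  have key : ∀ γ : F, σ γ * γ = -(B u u / B v v) → ∃ x y : F, y ≠ 0 ∧
      IsRat ε F₀ (m⁻¹ (x • m z + y • (u + γ • v))) := fun γ hγ => by
    obtain ⟨q1, q2⟩ := h.iso_vec hu hv v0 uv hγ
    have w1 : B (u + γ • v) (m z) = 0 := by simp [pu, pv]
    replace q2 := q2 fun e => hc (h.rat_of_perp R hm hz qz z0 (hu.add (hv.smul e)) q1
      (fun e => u0 (by simpa [uv] using congrArg (B u) e)) w1)
    have w2 : β (m z) (u + γ • v) = 0 := k1 _ (by simp [au, av]) (by simp [bu, bv])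
    have w3 : β (u + γ • v) (m z) = 0 := by simp [h.bil, hu, hv, pu, pv]
    generalize u + γ • v = w at q1 q2 w1 w2 w3
    obtain ⟨t, t0, ht⟩ : ∃ t : F, t ≠ 0 ∧ β (m z) (m z) + β w w * t ^ 2 ≠ 0 := by
      obtain ⟨l, -, l0, l2⟩ := h.lam
      by_contra! hc
      exact l2 (mul_left_cancel₀ q2 (by linear_combination hc l l0 - hc 1 one_ne_zero))
    obtain ⟨g, g1, g2, g3⟩ := h.exists_map (p' := ((β (m z) (m z) - β w w * t ^ 2) /
      (β (m z) (m z) + β w w * t ^ 2)) • m z + (2 * β (m z) (m z) * t /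
        (β (m z) (m z) + β w w * t ^ 2)) • w) qp (by simp [qp, q1, w1, hH.refl w1]) p0 (by
          simp only [map_add, map_smul, LinearMap.add_apply, LinearMap.smul_apply, w2, w3,
            smul_eq_mul]
          field_simp; ring)
    have gM := R.le ⟨g1, g2.mem⟩
    obtain ⟨κ, κ0, hκ⟩ := h.rat_of_perp R (mul_mem (mul_mem (inv_mem hm) gM) hm) hz qz z0 hz qz z0
      (by rw [← R.mapB hm, LinearEquiv.mul_apply, LinearEquiv.mul_apply, apply_inv_apply, g3]
          simp [qp, hH.refl w1])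
    have := (hκ z).1 hz
    rw [LinearEquiv.mul_apply, LinearEquiv.mul_apply, g3, ← map_smul, smul_add, smul_smul,
      smul_smul] at this
    exact ⟨_, _, mul_ne_zero κ0 (div_ne_zero (mul_ne_zero (mul_ne_zero h.two p0) t0) ht), this⟩
  obtain ⟨γ, hγ⟩ := h.exists_gam hu hv
  obtain ⟨η, e1, e2⟩ := h.exists_eta
  obtain ⟨x₁, y₁, a1, b1⟩ := key γ hγ
  obtain ⟨x₂, y₂, a2, b2⟩ := key (-γ) (by simpa using hγ)
  obtain ⟨x₃, y₃, a3, b3⟩ := key (η * γ) (by rw [map_mul]; linear_combination σ γ * γ * e1 + hγ)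
  have e3 : B u u = -(σ γ * γ * B v v) := by rw [hγ]; field_simp
  have := mul_mem (mul_mem (h.ratB _ _ b1 b2) (h.ratB _ _ b2 b3)) (h.ratB _ _ b3 b1)
  simp only [R.mapB (inv_mem hm), map_add, map_smulₛₗ, LinearMap.add_apply, LinearMap.smul_apply,
    qp, pu, pv, hH.refl pu, hH.refl pv, uv, hH.refl uv, RingHom.id_apply, smul_eq_mul, map_neg,
    map_mul] at this
  have c1 : 2 * (σ y₁ * y₁) * (σ y₂ * y₂) * (σ y₃ * y₃) * B u u ^ 3 ∈ F₀ := (h.fix _).2 (by
    simp only [map_mul, map_pow, hH.invol, hH.eq, map_ofNat]; ring)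
  have c2 : η - σ η ∈ F₀ := by
    convert div_mem this c1 using 1
    rw [eq_div_iff (by simp [h.two, a1, a2, a3, u0]), e3]
    linear_combination (-2 * (σ y₁ * y₁ * σ y₂ * y₂ * σ y₃ * y₃) * (σ γ * γ * B v v) ^ 3) * e1
  have c3 := (h.fix _).1 c2
  rw [map_sub, hH.invol] at c3
  exact e2 ((h.fix _).2 (mul_left_cancel₀ h.two (by linear_combination c3)))

end OF4

theorem su_maxIn_RG_orth4 (hH : IsHerm B) (hB : B.Nondegenerate) (h4 : 4 ≤ finrank F V)
    (hfix : ∀ a, a ∈ F₀ ↔ σ a = a) (hR : ∀ x y, IsRat ε F₀ x → IsRat ε F₀ y → B x y ∈ F₀)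
    (h2 : (2 : F) ≠ 0) (hl : ∃ l ∈ F₀, l ≠ 0 ∧ l ^ 2 ≠ 1) : MaxIn (SUG B) (RG ε F₀) := by
  obtain ⟨β, hβ⟩ := exists_bil (ε := ε) (fun a => (hfix a).1) B
  obtain ⟨θ, t0, ht⟩ := exists_skew_ne_zero hH.ne_id hH.invol
  have h : OF4 B ε F₀ β θ := ⟨hH, hB, h4, hfix, hR, h2, hl, hβ, ht, t0⟩
  exact ⟨h.rf.not_le, fun M h1 h3 m hm hm' => by_contra fun hn => hm' (h.le_RG (h.rp h1 h3 hn) hm)⟩

open Cfsg Cfsg.Geo in
theorem tabU4_o {F : Type*} [Field F] [Fintype F] {n q : ℕ} (hF : Fintype.card F = q ^ 2)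
    (hn : 4 ≤ n) (hodd : Odd q) (h5 : 5 ≤ q) (F₀ : Subfield F) (P : GL (Fin n) F)
    (hcard : Fintype.card F = Nat.card F₀ ^ 2)
    (hP : IsFormRationalStructure (hermForm n F q) F₀ 1 P) :
    IsMaximalIn (GU n F q ⊓ specialLinear (Fin n) F)
      (subfieldSubgroup F₀ P ⊓ (GU n F q ⊓ specialLinear (Fin n) F)) := by
  obtain ⟨σ, hσ, h1, h2⟩ := exists_conj hF
  obtain ⟨l, l0, l2⟩ := exists_sq_ne_one (F := F₀) (by
    rw [Nat.pow_left_injective two_ne_zero (hcard.symm.trans hF)]; omega)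
  exact (su_maxIn_RG_orth4 (ε := (Geom.glEquiv _ F P).symm) (isHerm_hermSesq h1 h2)
    (hermSesq_nondegenerate σ) (by simpa using hn) (fix_of_card hF hσ hcard)
    (fun x y hx hy => by simpa [hermForm_eq hσ] using rat_of_structure hP hy hx)
    (Geom.two_ne_zero_of_odd_card (hF ▸ hodd.pow)) ⟨l, l.2, fun e => l0 (Subtype.ext e),
      fun e => l2 (Subtype.ext e)⟩).isMaximalIn (Geom.glEquiv _ F)
    (mem_SU_iff hσ) (mem_subfieldSubgroup_iff P)

end CF.MaxSub
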