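/-
`SU₄(q)`, `q ≥ 4`: the stabiliser of a pair of complementary totally isotropic planes is maximal.
-/
import Cfsg.Agent.MaxSub.T4J

set_option autoImplicit false
set_option linter.unusedSectionVars false

namespace CF.MaxSub

open Module Geom

variable {F V : Type*} [Field F] [AddCommGroup V] [Module F V] {M : Subgroup (V ≃ₗ[F] V)}
  [FiniteDimensional F V] [Finite F] {σ : F →+* F} {B : V →ₛₗ[σ] V →ₗ[F] F}
  {X Y Z Z' : Submodule F V}

theorem tsp_mem {Q : V → F} (h : TSP B Q X Y) {v : V} (hv : ∀ x ∈ X, B x v = 0) : v ∈ X := by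
  obtain ⟨a, ha, z, hz, rfl⟩ := h.exists_add v
  by_cases z0 : z = 0
  · simpa [z0] using ha
  obtain ⟨x, hx, e⟩ := h.symm.dual₀ hz z0
  have := hv x hx
  rw [map_add, h.p x hx a ha, zero_add] at this
  simp [h.witt.refl this] at e

/-- A pair of totally isotropic planes whose full stabiliser lies in the proper subgroup `M`. -/
structure FP (B : V →ₛₗ[σ] V →ₗ[F] F) (M : Subgroup (V ≃ₗ[F] V)) (X Y : Submodule F V) : Prop
    extends TSP B (fun x => B x x) X Y where
  herm : IsHerm B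
  two : finrank F X = 2
  le : M ≤ SUG B
  not_ge : ¬ SUG B ≤ M
  levi : ∀ g ∈ SUG B, g ∈ subStab X → g ∈ subStab Y → g ∈ M
  swap : ∃ s ∈ M, X.map (s : V →ₗ[F] V) = Y ∧ Y.map (s : V →ₗ[F] V) = X
  lam : ∃ a : F, σ a = a ∧ a ≠ 0 ∧ a ^ 2 ≠ 1

namespace FP

theorem polar (h : FP B M X Y) : PolarG B (fun x => B x x) (SUG B) :=
  polarG_su' h.herm h.witt.nondegenerate (by have := h.two_mul; have := h.two; omega)

theorem mp (h : FP B M X Y) : MP B (fun x => B x x) M X Y :=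
  ⟨h.toTSP, h.le.trans h.polar.le, fun u hu h0 g hg hs =>
    h.levi g (h.polar.rad_le u h0 (h.q u hu) hg) (h.rad_le hu _ hg) hs, fun u hu h0 g hg hs =>
    h.levi g (h.polar.rad_le u h0 (h.q' u hu) hg) hs (h.toTSP.symm.rad_le hu _ hg), h.swap⟩

theorem symm (h : FP B M X Y) : FP B M Y X :=
  ⟨h.toTSP.symm, h.herm, (h.finrank_eq h.toTSP.symm).trans h.two, h.le, h.not_ge,
    fun g h1 h2 h3 => h.levi g h1 h3 h2, h.mp.symm.swap, h.lam⟩

theorem map (h : FP B M X Y) {m : V ≃ₗ[F] V} (hm : m ∈ M) :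
    FP B M (X.map (m : V →ₗ[F] V)) (Y.map (m : V →ₗ[F] V)) := by
  refine ⟨(h.mp.map hm).toTSP, h.herm, by rw [LinearEquiv.finrank_map_eq, h.two], h.le, h.not_ge,
    fun g h1 h2 h3 => ?_, (h.mp.map hm).swap, h.lam⟩
  have := h.levi _ (mul_mem (mul_mem (inv_mem (h.le hm)) h1) (inv_mem (inv_mem (h.le hm))))
    (conj_mem_subStab h2) (conj_mem_subStab h3)
  rw [show g = m * (m⁻¹ * g * m⁻¹⁻¹) * m⁻¹ by group]
  exact mul_mem (mul_mem hm this) (inv_mem hm)

theorem exists_perp (h : FP B M X Y) (z : V) : ∃ u ∈ X, u ≠ 0 ∧ B z u = 0 := by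
  have h1 := h.witt.finrank_inf_perp_ge X (F ∙ z)
  have h2 := finrank_span_singleton_le (F := F) z
  obtain ⟨u, hu, h0⟩ := Geom.exists_notMem_of_finrank_lt (X := X ⊓ perp B (F ∙ z)) (Z := ⊥)
    (by rw [finrank_bot]; have := h.two; omega)
  exact ⟨u, hu.1, by simpa using h0, mem_perp_singleton.1 hu.2⟩

theorem eq_one (h : FP B M X Y) {k : V ≃ₗ[F] V} (hk : k ∈ M) (e : ∀ x ∈ X, k x = x) (v : V) :
    k v = v := by
  have W := h.witt
  have hI := (mem_SUG.1 (h.le hk)).1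
  have k1 : ∀ v, k v - v ∈ X := fun v => tsp_mem h.toTSP fun x hx => by
    rw [map_sub, ← hI x v, e x hx, sub_self]
  have k2 : ∀ z ∈ Y, B z (k z - z) = 0 := fun z hz => by
    obtain ⟨u, hu, u0, zu⟩ := h.exists_perp z
    by_cases hp : k z - z ∈ F ∙ u
    · obtain ⟨c, hc⟩ := Submodule.mem_span_singleton.1 hp
      simp [← hc, zu]
    obtain ⟨y, hy, e1, e2⟩ := h.dual₁ (k1 z) hu hp
    refine (h.not_ge (h.mp.le_of_rad h.polar hu u0 (W.Rad_le_of_RD (comT_herm h.herm) u0 (h.q u hu)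
      (fun w hw => ?_) (h.p u hu _ (k1 z)) e2 e1))).elim
    obtain ⟨a, ha, z', hz', rfl⟩ := h.exists_add w
    refine RD.add ?_ (h.mp.rd hu u0 hz' (by simpa [h.p u hu a ha] using hw))
    obtain ⟨α, β, rfl⟩ := Submodule.mem_span_pair.1 (show a ∈ Submodule.span F {u, k z - z} by
      rwa [Submodule.eq_of_le_of_finrank_le (Submodule.span_le.2 (by
        simp [Set.insert_subset_iff, hu, k1 z]) : Submodule.span F {u, k z - z} ≤ X) (by
          rw [h.two, finrank_span_pair (by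
            rw [LinearIndependent.pair_iff' u0]
            exact fun c e => hp (Submodule.mem_span_singleton.2 ⟨c, e⟩))])])
    refine (RD.self α).add ?_
    simpa [smul_sub] using (h.mp.rd hu u0 (Y.smul_mem β hz) (by simp [W.refl zu])).move
      (h.mp.le hk) hk (e u hu)
  have k3 : ∀ y ∈ Y, k y = y := fun y hy => sub_eq_zero.1 (h.eq_zero (k1 y)
    (tsp_mem h.toTSP.symm fun z hz => by
      obtain ⟨ν, hν⟩ : ∃ ν, σ ν ≠ ν := by
        by_contra! hc
        exact h.herm.ne_id (RingHom.ext hc)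
      have a1 := k2 _ (Y.add_mem hz hy)
      have a2 := k2 _ (Y.add_mem hz (Y.smul_mem ν hy))
      have a3 := k2 z hz
      have a4 := k2 y hy
      simp only [map_add, map_sub, map_smulₛₗ, LinearMap.add_apply, LinearMap.smul_apply,
        smul_eq_mul, RingHom.id_apply] at a1 a2 a3 a4 ⊢
      exact mul_left_cancel₀ (sub_ne_zero.2 hν) (by
        linear_combination σ ν * a1 - a2 - (σ ν - 1) * a3 - (σ ν - σ ν * ν) * a4)))
  obtain ⟨a, ha, y, hy, rfl⟩ := h.exists_add v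
  rw [map_add, e a ha, k3 y hy]

theorem dil (h : FP B M X Y) {x y : V} (hx : x ∈ X) (hy : y ∈ Y) (e : B x y = 1) {a : F}
    (ha : σ a = a) (a0 : a ≠ 0) :
    ∃ t ∈ M, ∀ v, t v = v + ((a - 1) * B y v) • x + ((a⁻¹ - 1) * B x v) • y := by
  have e1 : ∀ v, (uDil h.herm (h.p x hx x hx) (h.p' y hy y hy) e (Units.mk0 a a0)).1 v =
      v + ((a - 1) * B y v) • x + ((a⁻¹ - 1) * B x v) • y := fun v => by simp [uDil_apply, ha]
  refine ⟨_, h.levi _ (mem_SUG_iff.2 (mem_suSub.2 (by rw [det_uDil]; simp [ha, a0])))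
    (mem_subStab_iff_le.2 fun v hv => ?_) (mem_subStab_iff_le.2 fun v hv => ?_), e1⟩ <;> rw [e1]
  · simpa [h.p x hx v hv] using X.add_mem hv (X.smul_mem _ hx)
  · simpa [h.p' y hy v hv] using Y.add_mem hv (Y.smul_mem _ hy)

theorem unique (h : FP B M X Y) (h' : FP B M X Z) : Z = Y := by
  refine Submodule.eq_of_le_of_finrank_eq (fun z hz => ?_) (h'.symm.two.trans h.symm.two.symm)
  by_cases z0 : z = 0
  · simp [z0]
  obtain ⟨x, hx, e⟩ := h'.symm.dual₀ hz z0
  replace e := h.herm.flip_one e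
  obtain ⟨ξ, hξ, y, hy, rfl⟩ := h.exists_add z
  have e' : B x y = 1 := by simpa [h.p x hx ξ hξ] using e
  obtain ⟨a, ha, a0, a2⟩ := h.lam
  obtain ⟨t, t1, t2⟩ := h.dil hx hy e' ha a0
  obtain ⟨s, s1, s2⟩ := h'.dil hx hz e ha a0
  have := congrArg s (h.eq_one (mul_mem (inv_mem s1) t1) (fun v hv => by
    rw [LinearEquiv.mul_apply, show t v = s v by simp [s2, t2, h.p x hx v hv, h.p ξ hξ v hv],
      inv_apply_apply]) (ξ + y))
  rw [LinearEquiv.mul_apply, apply_inv_apply, t2, s2, h'.p' _ hz _ hz, e, map_add,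
    h.p' y hy y hy] at this
  have e2 : (a⁻¹ - 1) • ξ = ((a - 1) * B y ξ) • x := by linear_combination (norm := module) -this
  have e3 := congrArg (B y) e2
  simp only [map_smul, h.herm.flip_one e', smul_eq_mul] at e3
  have e4 : B y ξ = 0 := mul_left_cancel₀ (sub_ne_zero.2 a2) (by
    field_simp at e3; linear_combination -e3)
  have e5 : a⁻¹ - 1 ≠ 0 := sub_ne_zero.2 fun e => a2 (by simp [inv_eq_one.1 e])
  rwa [show ξ = 0 by simpa [e4, e5] using e2, zero_add]

theorem stab (h : FP B M X Y) {k : V ≃ₗ[F] V} (hk : k ∈ M) (e : ∀ x ∈ X, k x ∈ X) {y : V}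
    (hy : y ∈ Y) : k y ∈ Y := by
  have := h.map hk
  rw [mem_subStab.1 (mem_subStab_iff_le.2 e)] at this
  exact h.unique this ▸ Submodule.mem_map_of_mem hy

theorem eq_of_mem (h : FP B M X Y) (h' : FP B M Z Z') {x : V} (hx : x ∈ X) (hz : x ∈ Z)
    (x0 : x ≠ 0) : Z = X ∧ Z' = Y := by
  obtain ⟨a, ha, a0, a2⟩ := h.lam
  obtain ⟨v, hv, xv⟩ := h'.dual₀ hz x0
  have e5 : a⁻¹ - 1 ≠ 0 := sub_ne_zero.2 fun e => a2 (by simp [inv_eq_one.1 e])
  have key : ∀ y ∈ Y, B x y = 1 → y ∈ Z' := fun y hy e => by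
    obtain ⟨t, t1, t2⟩ := h.dil hx hy e ha a0
    have k : ∀ w ∈ Z', t w ∈ Z' := fun w hw => h'.stab t1 (fun z hz' => by
      simpa [t2, h'.p x hz z hz'] using Z.add_mem hz' (Z.smul_mem _ hz)) hw
    have p1 := Z'.sub_mem (k v hv) hv
    have p2 := Z'.sub_mem (k _ p1) (Z'.smul_mem a⁻¹ p1)
    rw [show t (t v - v) - a⁻¹ • (t v - v) = ((a - 1) * B y v * (a - a⁻¹)) • x by
      simp only [t2, map_add, map_sub, map_smul, xv, e, h.p x hx x hx, h.p' y hy y hy,
        h.herm.flip_one e, smul_eq_mul]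
      match_scalars <;> field_simp <;> ring] at p2
    have p3 := h'.eq_zero (Z.smul_mem _ hz) p2
    rw [t2, show ((a - 1) * B y v) • x = 0 from smul_right_injective V (sub_ne_zero.2 fun e =>
      a2 (by rw [pow_two]; nth_rewrite 2 [e]; exact mul_inv_cancel₀ a0) : a - a⁻¹ ≠ 0) (by
        simpa only [smul_smul, smul_zero, mul_comm] using p3), xv] at p1
    simpa [Z'.smul_mem_iff e5] using p1
  obtain ⟨y₁, h1, e1⟩ := h.dual₀ hx x0
  obtain rfl : Y = Z' := Submodule.eq_of_le_of_finrank_eq (fun y hy => by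
    simpa using Z'.sub_mem (key _ (Y.add_mem hy (Y.smul_mem (1 - B x y) h1)) (by simp [e1]))
      (Z'.smul_mem (1 - B x y) (key y₁ h1 e1))) (h.symm.two.trans h'.symm.two.symm)
  exact ⟨h.symm.unique h'.symm, rfl⟩

theorem eq_or_eq (h : FP B M X Y) (h' : FP B M Z Z') : (Z = X ∧ Z' = Y) ∨ (Z = Y ∧ Z' = X) := by
  have hH := h.herm
  obtain ⟨s, s0, hs⟩ := exists_skew_ne_zero hH.ne_id hH.invol
  have c := h'.c
  obtain ⟨x, x0, e⟩ := exists_isotropic_of_two_le hH.ne_id hH.invol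
    (B := s • (B.comp (Z.projection Z' c ∘ₗ X.subtype)).compl₂ (Z'.projection Z c.symm ∘ₗ X.subtype))
    ⟨fun x y => by
      have h1 := h.p y y.2 x x.2
      rw [← Submodule.projection_add_projection_eq_self c (x : V),
        ← Submodule.projection_add_projection_eq_self c (y : V)] at h1
      simp only [map_add, LinearMap.add_apply, h'.p _ (Submodule.projection_apply_mem ..) _
        (Submodule.projection_apply_mem ..), h'.p' _ (Submodule.projection_apply_mem ..) _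
        (Submodule.projection_apply_mem ..)] at h1
      simp [hs, hH.eq]
      linear_combination (-s) * h1⟩ h.two.ge
  replace e : B (Z.projection Z' c x) (Z'.projection Z c.symm x) = 0 := by simpa [s0] using e
  have e1 := Submodule.projection_add_projection_eq_self c (x : V)
  have hz := Submodule.projection_apply_mem c (x : V)
  have hz' := Submodule.projection_apply_mem c.symm (x : V)
  generalize Z.projection Z' c x = z at e e1 hz
  generalize Z'.projection Z c.symm x = z' at e e1 hz'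
  obtain ⟨x, hx⟩ := x
  replace x0 : x ≠ 0 := by simpa using x0
  obtain rfl : z + z' = x := e1
  by_cases z0 : z = 0
  · exact Or.inr (h.eq_of_mem h'.symm hx (by simpa [z0] using hz') x0).symm
  refine Or.inl (h.eq_of_mem h' (tsp_mem h.toTSP fun w hw => hH.refl (by_contra fun b0 => ?_)) hz z0)
  have zz := h'.p z hz z hz
  have zz' := h'.p' z' hz' z' hz'
  have e2 : B z' w = -B z w := eq_neg_of_add_eq_zero_right (by simpa using h.p _ hx w hw)
  have k : ∀ c : F, c • z' + σ c • z ∈ X := fun c => by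
    have a1 : B z (c • z') = 0 := by simp [e]
    have a2 : 0 + σ 0 = B (c • z') (c • z') := by simp [zz']
    have a3 := uEich_apply hH zz a1 a2
    have a4 := h'.levi _ (mem_SUG_iff.2 (mem_suSub.2 (det_uEich hH zz a1 a2)))
      (mem_subStab_iff_le.2 fun v hv => by
        simpa [a3, h'.p z hz v hv] using Z.sub_mem hv (Z.smul_mem _ hz))
      (mem_subStab_iff_le.2 fun v hv => by
        simpa [a3, h'.p' z' hz' v hv] using Z'.add_mem hv (Z'.smul_mem _ (Z'.smul_mem c hz')))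
    have a5 := (h.eq_of_mem (h.map a4) hx ⟨_, hx, by simp [a3, zz, zz', e, hH.refl e]⟩ x0).1
    have a6 := X.sub_mem (subStab_apply (mem_subStab.2 a5) hw) hw
    refine (X.smul_mem_iff b0).1 ?_
    convert a6 using 1
    simp only [a3, map_smulₛₗ, LinearMap.smul_apply, e2, smul_eq_mul]; module
  obtain ⟨ν, hν⟩ : ∃ ν, σ ν ≠ ν := by
    by_contra! hc
    exact hH.ne_id (RingHom.ext hc)
  have := X.sub_mem (k ν) (X.smul_mem ν hx)
  rw [show ν • z' + σ ν • z - ν • (z + z') = (σ ν - ν) • z by module,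
    X.smul_mem_iff (sub_ne_zero.2 hν)] at this
  exact b0 (h.p z this w hw)

end FP

theorem su_maxIn_tsp4 (hH : IsHerm B) {D : Fin 2 → Submodule F V}
    (h : TSP B (fun x => B x x) (D 0) (D 1)) (h2 : finrank F (D 0) = 2)
    (ha : ∃ a : F, σ a = a ∧ a ≠ 0 ∧ a ^ 2 ≠ 1) : MaxIn (SUG B) (decStab D) := by
  have hB := h.witt.nondegenerate
  have hG := polarG_su' hH hB (by have := h.two_mul; omega)
  have hsw : ∀ g : V ≃ₗ[F] V, (D 0).map (g : V →ₗ[F] V) = D 1 → (D 1).map (g : V →ₗ[F] V) = D 0 →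
      g ∈ decStab D := fun g h1 h2 =>
    mem_decStab.2 ⟨Equiv.swap 0 1, Fin.forall_fin_two.2 ⟨by simpa using h1, by simpa using h2⟩⟩
  obtain ⟨u, hu, h0⟩ := Geom.exists_notMem_of_finrank_lt (X := D 0) (Z := ⊥)
    (by rw [finrank_bot]; omega)
  rw [Submodule.mem_bot] at h0
  obtain ⟨f, hf, ef⟩ := h.dual₀ hu h0
  have ee := h.p u hu u hu
  have ff := h.p' f hf f hf
  refine ⟨fun hle => ?_, fun M h1 h3 m hm hmD => by_contra fun hM => ?_⟩
  · obtain ⟨s, s0, hs⟩ := exists_skew_ne_zero hH.ne_id hH.invol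
    obtain ⟨j, hj⟩ := exists_apply_mem_of_decStab (hle (hG.rad_le' h0 (h.q u hu) ⊤
      (uTrans_mem_Rad hH ee hs trivial))) 1
    have := hj f hf
    rw [uTrans_apply, ef, mul_one] at this
    revert this
    refine Fin.forall_fin_two (p := fun j => f + s • u ∈ D j → False) |>.2
      ⟨fun e1 => ?_, fun e1 => ?_⟩ j
    · simp [h.eq_zero ((Submodule.add_mem_iff_left _ ((D 0).smul_mem s hu)).1 e1) hf] at ef
    · simpa [s0, h0] using h.eq_zero ((D 0).smul_mem s hu) ((Submodule.add_mem_iff_right _ hf).1 e1)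
  have hp : FP B M (D 0) (D 1) := by
    refine ⟨h, hH, h2, h3, hM, fun g g1 g2 g3 =>
      h1 ⟨g1, mem_decStab_of_subStab (Fin.forall_fin_two.2 ⟨g2, g3⟩)⟩, ?_, ha⟩
    obtain ⟨g, hg, e1, e2⟩ := h.exists_swap
    obtain ⟨n, hn, _, ⟨l, rfl⟩, e3⟩ := Subgroup.mem_sup_of_normal_left.1
      ((uEichSub_sup_uDil hH hB ee ff ef).symm ▸ Subgroup.mem_top (⟨g, hg⟩ : UG B))
    have e4 : g = n.1 * (uDil hH ee ff ef l).1 := (congrArg Subtype.val e3).symm
    have s0 : (D 0).map ((uDil hH ee ff ef l).1 : V →ₗ[F] V) = D 0 :=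
      mem_subStab.1 (mem_subStab_iff_le.2 fun x hx => by
        rw [uDil_apply, h.p u hu x hx]
        simpa using (D 0).add_mem hx ((D 0).smul_mem _ hu))
    have s1 : (D 1).map ((uDil hH ee ff ef l).1 : V →ₗ[F] V) = D 1 :=
      mem_subStab.1 (mem_subStab_iff_le.2 fun x hx => by
        rw [uDil_apply, h.p' f hf x hx]
        simpa using (D 1).add_mem hx ((D 1).smul_mem _ hf))
    rw [e4, map_mul_equiv] at e1 e2
    exact ⟨n.1, h1 ⟨mem_SUG_iff.2 (uEichSub_le_suSub hH hn), hsw _ (s0 ▸ e1) (s1 ▸ e2)⟩,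
      s0 ▸ e1, s1 ▸ e2⟩
  rcases hp.eq_or_eq (hp.map hm) with e | e
  · exact hmD (mem_decStab_of_subStab (Fin.forall_fin_two.2 e))
  · exact hmD (hsw m e.1 e.2)

open Cfsg Cfsg.Geo in
theorem tabU4_tsp {F : Type*} [Field F] [Fintype F] {n q : ℕ} (hF : Fintype.card F = q ^ 2)
    (h4 : 4 ≤ q) (D : Fin 2 → Submodule F (Fin n → F)) (hD : IsMDecomposition 2 D)
    (hts : ∀ i, IsTotallySingularFor (hermForm n F q) (D i)) :
    IsMaximalIn (GU n F q ⊓ specialLinear (Fin n) F)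
      (decompositionStabilizer D ⊓ (GU n F q ⊓ specialLinear (Fin n) F)) := by
  obtain ⟨σ, hσ, h1, h2⟩ := exists_conj hF
  obtain ⟨a, a0, a2⟩ := exists_sq_ne_one (F := σ.eqLocusField (RingHom.id F)) (Or.inl (by
    rw [← card_fixed_eq hF] at h4
    exact h4.trans_eq (Nat.card_congr (Equiv.subtypeEquivRight fun x => by rw [← hσ]; rfl))))
  exact (su_maxIn_tsp4 (isHerm_hermSesq h1 h2)
    (tsp_of ((isHerm_hermSesq h1 h2).wittPair (hermSesq_nondegenerate σ)) hD
      (fun i x hx => by simpa [← hermForm_eq hσ] using hts i x hx x hx)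
      fun i x hx y hy => by rw [← hermForm_eq hσ]; exact hts i y hy x hx)
    (hD.finrank_eq 0) ⟨a, a.2, fun e => a0 (Subtype.ext e), fun e => a2 (Subtype.ext e)⟩).isMaximalIn
    (Geom.glEquiv _ F) (mem_SU_iff hσ) (mem_decompositionStabilizer_iff D)

end CF.MaxSub
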