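/-
Overgroups of the monomial subgroup of `SU₄(q)`: elements with a zero entry are monomial.
-/
import Cfsg.Agent.MaxSub.T4H
import Cfsg.Agent.MaxSub.T4I
import Cfsg.Agent.Geom.FrU4

set_option autoImplicit false
set_option linter.unusedSectionVars false

namespace CF.MaxSub

open Module Geom

variable {F : Type*} [Field F] [Fintype F] {σ : F →+* F} {q : ℕ}
  {X M : Subgroup ((Fin 4 → F) ≃ₗ[F] (Fin 4 → F))}

theorem fresh4 (a b c : Fin 4) : ∃ l, l ≠ a ∧ l ≠ b ∧ l ≠ c := by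
  simpa using exists_notMem_list [a, b, c] (by simp)

/-- A subgroup of `GU₄` containing the monomial subgroup but not `SU₄`. -/
structure UX4 (σ : F →+* F) (q : ℕ) (X : Subgroup ((Fin 4 → F) ≃ₗ[F] (Fin 4 → F))) : Prop
    extends UF σ q where
  le : X ≤ UG (hermSesq (Fin 4) σ)
  mon : UG (hermSesq (Fin 4) σ) ⊓ MonG (Fin 4) F ≤ X
  no : ¬ SUG (hermSesq (Fin 4) σ) ≤ X

namespace UX4

variable {u s : Fin 4 → F} {i j k : Fin 4}

theorem herm (h : UX4 σ q X) : IsHerm (hermSesq (Fin 4) σ) := isHerm_hermSesq h.ne h.inv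

theorem hm_mem (h : UX4 σ q X) (i : Fin 4) {ζ : Fˣ} (hζ : σ ζ * ζ = 1) : hm i ζ ∈ X :=
  h.mon (hm_memU i hζ)

theorem swp_mem (h : UX4 σ q X) (ij : i ≠ j) : swp ij (1 : Fˣ) 1 ∈ X :=
  h.mon ⟨swp_mem_UG ij (by simp) (by simp), swp_mem_MonG ij 1 1⟩

theorem hm_ee (h : UX4 σ q X) (i : Fin 4) : Hm (hermSesq (Fin 4) σ) X (ee F i) :=
  ⟨by simp, fun ζ hζ => ⟨_, h.hm_mem i hζ, fun x => by simp [hm_apply]⟩⟩

theorem good (h : UX4 σ q X) (h1 : Hm (hermSesq (Fin 4) σ) X u)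
    (h2 : Hm (hermSesq (Fin 4) σ) X (u + s)) (hs : hermSesq (Fin 4) σ s s = 0)
    (su : hermSesq (Fin 4) σ s u = 0) : s = 0 := by
  by_contra s0
  have hH := h.herm
  have hB := hermSesq_nondegenerate (ι := Fin 4) σ
  have hW := isWittPair_hermSesq (ι := Fin 4) h.ne h.inv
  obtain ⟨ζ, hζ, ζ1⟩ := h.exists_one [1] (by have := h.two_le; simp; omega)
  have ζ1 : (ζ : F) - 1 ≠ 0 := sub_ne_zero.2 (by simpa using ζ1)
  have us := hH.refl su
  have m1 : ∀ c : F, c • u ∈ EUZ hH X hs := h.span_one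
    (A := (EUZ hH X hs).comap (LinearMap.toSpanSingleton F _ u).toAddMonoidHom)
    (fun η hη a ⟨c, hc⟩ => by
      obtain ⟨g, hg, e⟩ := h1.2 η hη
      refine ⟨c, ?_⟩
      convert hc.map hg (h.le hg) (by simp [e, us]) using 1
      simp [e, h1.1]; module)
    (a := (ζ : F) - 1) ⟨_, by simpa using h1.euc hH h2 su hζ⟩ ζ1
  obtain ⟨i, si⟩ : ∃ i, s i ≠ 0 := Function.ne_iff.1 s0
  have d1 : finrank F (Submodule.span F {s, u}) = 2 :=
    finrank_span_pair (LinearIndependent.pair_iff.2 fun α β e => by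
      have e1 := congrArg (hermSesq (Fin 4) σ u) e
      simp only [map_add, map_smul, us, h1.1, smul_eq_mul, map_zero] at e1
      obtain rfl : β = 0 := by simpa using e1
      simpa [s0] using e)
  obtain ⟨a, ha, a0⟩ := Submodule.exists_mem_ne_zero_of_ne_bot
    (p := perp (hermSesq (Fin 4) σ) (Submodule.span F {s, u} ⊔ F ∙ ee F i)) fun e => by
      have h3 := hW.finrank_perp (Submodule.span F {s, u} ⊔ F ∙ ee F i)
      have h4 := Submodule.finrank_add_le_finrank_add_finrank (Submodule.span F {s, u}) (F ∙ ee F i)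
      have h5 := finrank_span_singleton_le (F := F) (ee F i)
      rw [e] at h3; simp at h3; omega
  rw [perp_sup, Submodule.mem_inf, mem_perp_pair, mem_perp_singleton, herm_ee_left] at ha
  obtain ⟨⟨a1, a2⟩, a3⟩ := ha
  have hA : ∀ w ∈ perp (hermSesq (Fin 4) σ) (F ∙ a), hermSesq (Fin 4) σ s w = 0 →
      ∃ α β : F, w = α • s + β • u := fun w hw e => by
    have d2 : finrank F (Submodule.span F {a, s}) = 2 :=
      finrank_span_pair (LinearIndependent.pair_iff.2 fun α β e => by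
        obtain rfl : β = 0 := by simpa [a3, si] using congrFun e i
        simpa [a0] using e)
    have d3 := hW.finrank_perp (Submodule.span F {a, s})
    have : Submodule.span F {s, u} = perp (hermSesq (Fin 4) σ) (Submodule.span F {a, s}) :=
      Submodule.eq_of_le_of_finrank_le (Submodule.span_le.2 (by
        rintro _ (rfl | rfl)
        exacts [mem_perp_pair.2 ⟨hH.refl a1, hs⟩, mem_perp_pair.2 ⟨hH.refl a2, su⟩])) (by
        simp at d3; omega)
    obtain ⟨α, β, e⟩ := Submodule.mem_span_pair.1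
      (this ▸ mem_perp_pair.2 ⟨mem_perp_singleton.1 hw, e⟩ : w ∈ Submodule.span F {s, u})
    exact ⟨α, β, e.symm⟩
  have aa : hermSesq (Fin 4) σ a a ≠ 0 := fun e => by
    obtain ⟨α, β, rfl⟩ := hA a (mem_perp_singleton.2 e) a1
    obtain rfl : β = 0 := by simpa [us, h1.1] using a2
    obtain rfl : α = 0 := by simpa [si] using a3
    simp at a0
  have r1 := Rad_le_of_EUZ hH hB hs s0 h1.1 m1 hA
  have sA : s ∈ perp (hermSesq (Fin 4) σ) (F ∙ a) := mem_perp_singleton.2 (hH.refl a1)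
  have st : hm i ζ ∈ subStab (perp (hermSesq (Fin 4) σ) (F ∙ a)) :=
    mem_subStab_iff_le.2 fun w hw => add_mem hw (Submodule.smul_mem _ _
      (mem_perp_singleton.2 (by simp [a3])))
  have r2 := Rad_conj_le (hm_mem_UG i hζ) (h.hm_mem i hζ) r1
  rw [mem_subStab.1 st] at r2
  have hG := hW.good_of_pair sA (subStab_apply st sA) (by simpa using hs)
    (by simpa [(hm_mem_UG i hζ).1] using hs) (by simp [hm_apply, hs, ζ1, si]) r1 r2
  obtain ⟨j, aj⟩ : ∃ j, a j ≠ 0 := Function.ne_iff.1 a0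
  have ij : i ≠ j := by rintro rfl; exact aj a3
  refine h.no (su_le_of_good_perp hH hB (by simp) h.le aa ((h.le (h.swp_mem ij)).1 a a) hG
    (good_perp_map hH h.le hG (h.swp_mem ij)) fun e => aj ?_)
  obtain ⟨c, hc⟩ := Submodule.mem_span_singleton.1 e
  simpa [swp_left, a3] using (congrFun hc i).symm

theorem grow (h : UX4 σ q X) (h1 : Hm (hermSesq (Fin 4) σ) X u) (ij : i ≠ j) (ui : u i ≠ 0)
    (uj : u j ≠ 0) (l : Fin 4) :
    ∃ w, Hm (hermSesq (Fin 4) σ) X w ∧ (∀ m, u m ≠ 0 → w m ≠ 0) ∧ w l ≠ 0 := by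
  by_cases ul : u l = 0
  swap
  · exact ⟨u, h1, fun _ e => e, ul⟩
  have il : i ≠ l := by rintro rfl; exact ui ul
  have n1 : 1 - σ (u i) * u i ≠ 0 := fun e => by
    have e : σ (u i) * u i = 1 := (sub_eq_zero.1 e).symm
    have h2 := (h.hm_ee i).map (h.hm_mem i (ζ := Units.mk0 _ ui) e) (hm_mem_UG i e)
    rw [Geom.hm_ee, Units.val_mk0] at h2
    have := h.good (s := u - u i • ee F i) h2 (by simpa using h1)
      (by simp [h1.1]; linear_combination -e) (by simp)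
    exact uj (by simpa [ee_ne i ij.symm] using congrFun this j)
  obtain ⟨ζ, hζ, ζ1⟩ := h.exists_one [1, 1 - (1 - σ (u i) * u i)⁻¹] h.two_le
  simp only [List.mem_cons, List.not_mem_nil, or_false, not_or] at ζ1
  obtain ⟨g, hg, e⟩ := (h1.map (h.swp_mem il) (h.le (h.swp_mem il))).2 ζ hζ
  have e1 : hermSesq (Fin 4) σ (swp il 1 1 u) u = 1 - σ (u i) * u i := by
    simp [swp_one_apply, ul, h1.1]; ring
  refine ⟨g u, h1.map hg (h.le hg), fun m um => ?_, ?_⟩
  · by_cases mi : m = i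
    · simpa [e, mi, swp_one_apply, ee_ne l il, ul] using ui
    have ml : m ≠ l := by rintro rfl; exact um ul
    rw [e, e1, Pi.add_apply, Pi.smul_apply, swp_ne il _ _ _ mi ml, smul_eq_mul, ← one_add_mul]
    exact mul_ne_zero (fun e => ζ1.2 (by field_simp; linear_combination e)) um
  · rw [e, e1]
    simp [swp_one_apply, ul, ee_ne i il.symm, n1, ui, sub_ne_zero.2 ζ1.1]

theorem main (h : UX4 σ q X) (h1 : Hm (hermSesq (Fin 4) σ) X u) (ij : i ≠ j) (ui : u i ≠ 0) :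
    u j = 0 := by
  by_contra uj
  obtain ⟨k, k1, k2, -⟩ := fresh4 i j j
  obtain ⟨l, l1, l2, l3⟩ := fresh4 i j k
  obtain ⟨u, h1, a, uk⟩ := h.grow h1 ij ui uj k
  obtain ⟨u, h1, b, ul⟩ := h.grow h1 ij (a i ui) (a j uj) l
  have n : ∀ i, σ (σ (u i) * u i) = σ (u i) * u i := fun i => by simp [h.inv, mul_comm]
  have ui := b i (a i ui)
  have uj := b j (a j uj)
  obtain ⟨α, β, γ, δ, e1, e2, e3, e4, e5, e6⟩ := h.exists_four (n i) (n j) (n k) (n l)
    (by simpa using ui) (by simpa using uj) (by simpa using b k uk) (by simpa using ul)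
  have hg := mul_mem (mul_mem (mul_mem (h.hm_mem i e1) (h.hm_mem j e2)) (h.hm_mem k e3))
    (h.hm_mem l e4)
  obtain ⟨s, hs⟩ : ∃ s, s = ((α - 1) * u i) • ee F i + ((β - 1) * u j) • ee F j +
    ((γ - 1) * u k) • ee F k + ((δ - 1) * u l) • ee F l := ⟨_, rfl⟩
  have e7 : (hm i α * hm j β * hm k γ * hm l δ) u = u + s := by
    simp [hs, hm_apply, ee_ne j ij, ee_ne k (Ne.symm k1), ee_ne k (Ne.symm k2),
      ee_ne l (Ne.symm l1), ee_ne l (Ne.symm l2), ee_ne l (Ne.symm l3)]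
    module
  have h2 := e7 ▸ h1.map hg (h.le hg)
  have e8 : hermSesq (Fin 4) σ u s = 0 := by simp [hs]; linear_combination e6
  have e9 := h.herm.refl e8
  have e := h.good h1 h2 (by simpa [h1.1, e8, e9] using h2.1) e9
  have f1 := congrFun (hs.symm.trans e) i
  have f2 := congrFun (hs.symm.trans e) j
  simp [ee_ne j ij, ee_ne i ij.symm, ee_ne k (Ne.symm k1), ee_ne k (Ne.symm k2),
    ee_ne l (Ne.symm l1), ee_ne l (Ne.symm l2), ui, uj, sub_eq_zero] at f1 f2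
  simp [f1, f2] at e5

end UX4

theorem dgE_memU {d : Fin 4 → Fˣ} (hd : ∀ i, σ (d i) * d i = 1) (e : ∏ i, d i = 1) :
    dgE d ∈ SUG (hermSesq (Fin 4) σ) ⊓ MonG (Fin 4) F :=
  ⟨mem_SUG.2 ⟨fun u v => by
    simp only [hermSesq_apply, dgE_apply, map_mul]
    exact Finset.sum_congr rfl fun i _ => by linear_combination σ (u i) * v i * hd i,
    by rw [det_dgE, ← Units.coe_prod, e, Units.val_one]⟩, dgE_mem_MonG d⟩

/-- The diagonal map with entry `a` at `i, j` and `a⁻¹` elsewhere. -/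
def rr (i j : Fin 4) (a : Fˣ) : (Fin 4 → F) ≃ₗ[F] (Fin 4 → F) :=
  dgE fun l => if l = i ∨ l = j then a else a⁻¹

theorem rr_apply (i j : Fin 4) (a : Fˣ) (x : Fin 4 → F) (l : Fin 4) :
    rr i j a x l = (if l = i ∨ l = j then (a : F) else (a : F)⁻¹) * x l := by
  rw [rr, dgE_apply]; split_ifs <;> simp

theorem rr_memU {i j : Fin 4} (ij : i ≠ j) {a : Fˣ} (ha : σ a * a = 1) :
    rr i j a ∈ SUG (hermSesq (Fin 4) σ) ⊓ MonG (Fin 4) F :=
  dgE_memU (fun l => by split_ifs; exacts [ha, norm_inv_unit ha]) (by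
    rw [Fin.prod_univ_four]
    fin_cases i <;> fin_cases j <;> simp at ij ⊢ <;> simp [mul_comm, mul_left_comm])

/-- A proper overgroup of the monomial subgroup of `SU₄(q)`. -/
structure FU4 (σ : F →+* F) (q : ℕ) (M : Subgroup ((Fin 4 → F) ≃ₗ[F] (Fin 4 → F))) : Prop
    extends UF σ q where
  three : q ≠ 3
  lo : SUG (hermSesq (Fin 4) σ) ⊓ MonG (Fin 4) F ≤ M
  hi : M ≤ SUG (hermSesq (Fin 4) σ)
  no : ¬ SUG (hermSesq (Fin 4) σ) ≤ M

namespace FU4

variable {g : (Fin 4 → F) ≃ₗ[F] (Fin 4 → F)} {i j k l : Fin 4}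

theorem ug (h : FU4 σ q M) (hg : g ∈ M) : g ∈ UG (hermSesq (Fin 4) σ) := (h.hi hg).1

theorem memM (h : FU4 σ q M) (hg : g ∈ UG (hermSesq (Fin 4) σ) ⊓ MonG (Fin 4) F)
    (e : LinearEquiv.det g = 1) : g ∈ M := h.lo ⟨⟨hg.1, e⟩, hg.2⟩

theorem four (h : FU4 σ q M) : ∃ a : Fˣ, σ a * a = 1 ∧ (a : F) ^ 4 ≠ 1 := by
  have h2 := h.two_le
  have h3 := h.three
  by_cases q2 : q = 2
  · obtain ⟨a, ha, a1⟩ := h.exists_one [1] (by simp; omega)
    refine ⟨a, ha, fun e => a1 ?_⟩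
    rw [h.pow, q2] at ha
    simpa using show (a : F) = 1 by linear_combination e - a * ha
  obtain ⟨r, s, hr⟩ := quad_roots (α := (1 : F)) (β := 0) (γ := 1) (by simp)
  obtain ⟨a, ha, a1⟩ := h.exists_one [1, -1, r, s] (by simp; omega)
  simp only [List.mem_cons, List.not_mem_nil, or_false, not_or] at a1
  refine ⟨a, ha, fun e => (hr a (mul_left_cancel₀ (mul_ne_zero (sub_ne_zero.2 a1.1)
    fun e' => a1.2.1 (eq_neg_of_add_eq_zero_left e')) ?_)).elim a1.2.2.1 a1.2.2.2⟩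
  linear_combination e

theorem A (h : FU4 σ q M) (hg : g ∈ M) (e : ∀ l, l ≠ j → g (ee F i) l = 0) :
    g ∈ MonG (Fin 4) F := by
  have e1 := fun ζ => conj_hm_mon (h.ug hg) (eq_smul_ee e) ζ
  have hX : UX4 σ q (extC M (UG (hermSesq (Fin 4) σ) ⊓ MonG (Fin 4) F)) :=
    ⟨h.toUF, fun x ⟨c, hc, e⟩ => (Subgroup.mul_mem_cancel_right _ (inv_mem hc.1)).1
      (h.ug (by simpa using e 1 (one_mem _))), fun x hx => ⟨x, hx, fun d _ => by simp⟩,
      fun hle => h.no fun y hy => by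
        obtain ⟨c, hc, e2⟩ := hle hy
        have e3 : y * c⁻¹ ∈ M := by simpa using e2 1 (one_mem _)
        have e4 : c⁻¹ ∈ SUG (hermSesq (Fin 4) σ) := (Subgroup.mul_mem_cancel_left _ hy).1 (h.hi e3)
        simpa using mul_mem e3 (h.lo ⟨(Subgroup.inv_mem_iff _).1 e4, hc.2⟩)⟩
  refine mem_MonG_of fun k => ?_
  by_contra! hc
  obtain ⟨a, -, a1⟩ := hc k
  obtain ⟨b, ba, b1⟩ := hc a
  have key : ∀ ζ : Fˣ, σ ζ * ζ = 1 → ∀ d ∈ UG (hermSesq (Fin 4) σ) ⊓ MonG (Fin 4) F,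
      d * (g * hm k ζ * g⁻¹ * (hm j ζ)⁻¹) * d⁻¹ ∈ M := fun ζ hζ d hd => by
    have hη : σ (LinearEquiv.det d : Fˣ) * (LinearEquiv.det d : Fˣ) = 1 := by
      have := mem_normOne.1 (udet (hermSesq_nondegenerate σ) ⟨d, hd.1⟩).2
      rwa [udet_coe, ← LinearEquiv.coe_det] at this
    generalize hη' : LinearEquiv.det d = η at hη
    have m1 : d * (hm j η)⁻¹ ∈ M :=
      h.memM (mul_mem hd (inv_mem (hm_memU j hη))) (by simp [hη', ledet_hm])
    have m2 : hm i η * (hm k ζ * (hm i ζ)⁻¹) * (hm i η)⁻¹ ∈ M := h.memM (mul_mem (mul_mem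
      (hm_memU i hη) (mul_mem (hm_memU k hζ) (inv_mem (hm_memU i hζ)))) (inv_mem (hm_memU i hη)))
      (by simp [ledet_hm])
    convert mul_mem (mul_mem m1 (mul_mem (mul_mem hg m2) (inv_mem hg))) (inv_mem m1) using 1
    rw [← e1, ← e1]; group
  exact a1 (hX.main (u := g (ee F k)) ⟨by simp [(h.ug hg).1], fun ζ hζ =>
    ⟨_, ⟨hm j ζ, hm_memU j hζ, key ζ hζ⟩, conj_hm (h.ug hg) k ζ⟩⟩ ba b1)

theorem Z1 (h : FU4 σ q M) (hg : g ∈ M) (e : g (ee F j) k = 0) :
    ∃ i i', ∀ l, l ≠ i → l ≠ i' → g⁻¹ (ee F k) l = 0 := by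
  obtain ⟨a, na, ha⟩ := h.four
  have ht : dgE (fun _ => a) * hm k (a⁻¹ ^ 4) ∈ M := h.memM (mul_mem ⟨mem_UG.2 fun u v => by
      simp only [hermSesq_apply, dgE_apply, map_mul]
      exact Finset.sum_congr rfl fun i _ => by linear_combination σ (u i) * v i * na,
      dgE_mem_MonG _⟩ (hm_memU k (by
      rw [Units.val_pow_eq_pow_val, map_pow, ← mul_pow, norm_inv_unit na, one_pow])))
    (Units.ext (by rw [LinearEquiv.coe_det, det_mul_equiv, det_dgE, det_hm]; simp))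
  have e1 : ∀ x, (g⁻¹ * (dgE (fun _ => a) * hm k (a⁻¹ ^ 4)) * g :
      (Fin 4 → F) ≃ₗ[F] (Fin 4 → F)) x =
      (a : F) • x + (a * (((a : F)⁻¹ ^ 4 - 1) * g x k)) • g⁻¹ (ee F k) := fun x => by
    have : ∀ y : Fin 4 → F, dgE (fun _ => a) y = (a : F) • y := fun y => rfl
    simp only [LinearEquiv.mul_apply, hm_apply, this, map_smul, map_add, inv_apply_apply, smul_add,
      smul_smul, Units.val_pow_eq_pow_val, Units.val_inv_eq_inv_val]
  obtain ⟨π, ν, -, h1, -⟩ := exists_of_mem_MonG (h.A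
    (mul_mem (mul_mem (inv_mem hg) ht) hg) (i := j) (j := j) fun l hl => by
      rw [e1]; simp [e, ee_ne j hl])
  obtain ⟨i, hi⟩ := exists_row g k
  refine ⟨i, π i, fun l l1 l2 => ?_⟩
  have := congrFun (h1 i) l
  rw [e1] at this
  simpa [ee_ne _ l1, ee_ne _ l2, hi, sub_eq_zero, ha] using this

theorem Z (h : FU4 σ q M) (hg : g ∈ M) (e : g (ee F j) k = 0) : g ∈ MonG (Fin 4) F := by
  obtain ⟨a, na, ha⟩ := h.four
  obtain ⟨i, i', h1⟩ := h.Z1 hg e
  obtain ⟨s, s1, s2, -⟩ := fresh4 i i' i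
  obtain ⟨s', s3, s4, s5⟩ := fresh4 i i' s
  obtain ⟨r, r', h2⟩ := h.Z1 (inv_mem hg) (h1 s s1 s2)
  rw [inv_inv] at h2
  have hm := h.A (mul_mem (mul_mem hg (h.lo (dd_memU s s' na))) (inv_mem hg)) (i := k) (j := k)
    fun l hl => by
      rw [LinearEquiv.mul_apply, LinearEquiv.mul_apply,
        dd_of_eq_zero _ (h1 s s1 s2) (h1 s' s3 s4), apply_inv_apply, ee_ne k hl]
  obtain ⟨l, hl⟩ := mon_sq hm (p := g (ee F s)) (by simp [ee_ne_zero]) a.ne_zero (by
    rw [LinearEquiv.mul_apply, LinearEquiv.mul_apply, inv_apply_apply, dd_apply s5.symm,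
      ee_ne s s5, ← map_smul]
    congr 1
    simp only [ee_self]; module) h2
  refine inv_mem_iff.1 (h.A (inv_mem hg) (i := l) (j := s) fun t ht => ?_)
  have := congrFun (congrArg (g⁻¹ ·) hl) t
  simp only [LinearEquiv.mul_apply, inv_apply_apply, map_smul, Pi.smul_apply, smul_eq_mul] at this
  by_contra t0
  by_cases e1 : t = s'
  · rw [e1, dd_right s5.symm, dd_right s5.symm, ← e1, ← mul_assoc] at this
    have := mul_right_cancel₀ t0 this
    field_simp at this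
    exact ha this.symm
  · rw [dd_ne _ _ ht e1, dd_ne _ _ ht e1] at this
    exact ha (by linear_combination -(a * a + 1) * mul_right_cancel₀ t0 ((one_mul _).trans this))

theorem R (h : FU4 σ q M) (hg : g ∈ M) {a : Fˣ} (ha : (a : F) ^ 4 ≠ 1)
    (e : g⁻¹ * rr i j a * g ∈ MonG (Fin 4) F) : g ∈ MonG (Fin 4) F := by
  by_contra hn
  have nz : ∀ m l, g (ee F m) l ≠ 0 := fun m l e => hn (h.Z hg e)
  obtain ⟨π, ν, n0, n1, -⟩ := exists_of_mem_MonG e
  have e1 : ∀ m, rr i j a (g (ee F m)) = ν m • g (ee F (π m)) := fun m => by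
    simpa only [LinearEquiv.mul_apply, apply_inv_apply, map_smul] using congrArg g (n1 m)
  obtain ⟨k, k1, k2, -⟩ := fresh4 i j j
  by_cases e2 : π 0 = 0
  · have f1 := congrFun (e1 0) i
    have f2 := congrFun (e1 0) k
    simp only [e2, rr_apply, true_or, k1, k2, or_self, ↓reduceIte, Pi.smul_apply,
      smul_eq_mul] at f1 f2
    have := (mul_right_cancel₀ (nz 0 i) f1).trans (mul_right_cancel₀ (nz 0 k) f2).symm
    field_simp at this
    exact ha (by linear_combination (a ^ 2 + 1) * this)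
  have e3 : ∀ x, rr i j a (rr i j a x) = ((a : F) + (a : F)⁻¹) • rr i j a x - x := fun x =>
    funext fun l => by
      simp only [rr_apply, Pi.sub_apply, Pi.smul_apply, smul_eq_mul]
      split_ifs <;> field_simp <;> ring
  have e4 := e3 (g (ee F 0))
  rw [e1, map_smul, e1, ← map_smul, ← map_smul, ← map_smul, ← map_smul, ← map_sub] at e4
  have e5 := congrFun (g.injective e4) (π 0)
  simp [ee_ne _ e2, ee_ne _ (π.injective.ne e2).symm, n0] at e5
  field_simp at e5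
  exact ha (by linear_combination (a ^ 2 - 1) * e5)

end FU4

end CF.MaxSub
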