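/-
The stabiliser of an orthonormal frame is maximal in `SU₄(q)` for `q ≠ 3`; the table of `SU₄(q)`
outside class 6.
-/
import Cfsg.Agent.MaxSub.T4P
import Cfsg.Agent.MaxSub.T4L
import Cfsg.Agent.MaxSub.T4N
import Cfsg.Agent.MaxSub.T4O

set_option autoImplicit false
set_option linter.unusedSectionVars false

namespace CF.MaxSub

open Module Geom

/-- Two classes of involutions, each fixing a unique coset. -/
theorem le_of_two_classes {Γ : Type*} [Group Γ] [Finite Γ] {M H : Subgroup Γ} {J : Set Γ}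
    {ε t τ : Γ} (hε : ∀ x, ε * x = x * ε) (εH : ε ∈ H) (tM : t ∈ M) (tH : t ∈ H) (τM : τ ∈ M)
    (τH : τ ∈ H) (tt : t * t = 1) (ττ : τ * τ = 1) (tJ : t ∈ J) (τJ : τ ∈ J)
    (U : ∀ y ∈ J, ∀ g ∈ M, g⁻¹ * y * g ∈ H → g ∈ H)
    (c1 : ∀ k ∈ M, k ∈ H → k * t * k⁻¹ ≠ τ ∧ k * t * k⁻¹ ≠ τ * ε)
    (c2 : ∀ k ∈ M, k ∈ H → ∀ z, t * z = k * t * k⁻¹ → z = 1 ∨ z = ε ∨ z ∈ J)
    (c3 : ∀ k ∈ M, k ∈ H → ∀ z, τ * z = k * t * k⁻¹ → z * z = 1 ∨ z * z = ε → z ∈ J) :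
    M ≤ H := fun g hg => by
  classical
  by_contra hn
  obtain ⟨ρ, hρ⟩ : ∃ ρ, ρ = τ * (g * t * g⁻¹) := ⟨_, rfl⟩
  have ρM : ρ ∈ M := hρ ▸ mul_mem τM (mul_mem (mul_mem hg tM) (inv_mem hg))
  have hy : g * t * g⁻¹ = τ * ρ := by rw [hρ, ← mul_assoc, ττ, one_mul]
  have e0 : τ * ρ = ρ⁻¹ * τ := by
    rw [eq_inv_mul_iff_mul_eq, ← hy, hρ, show τ * (g * t * g⁻¹) * (g * t * g⁻¹) =
      τ * g * (t * t) * g⁻¹ by group, tt]; group
  have e1 : ∀ k : ℕ, τ * ρ ^ k = (ρ ^ k)⁻¹ * τ := fun k => by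
    induction k with
    | zero => simp
    | succ k ih => rw [pow_succ, ← mul_assoc, ih, mul_assoc, e0]; group
  have e2 : ∀ k : ℕ, (ρ ^ k)⁻¹ * g * t * ((ρ ^ k)⁻¹ * g)⁻¹ = τ * ρ ^ (2 * k + 1) := fun k => by
    rw [show (ρ ^ k)⁻¹ * g * t * ((ρ ^ k)⁻¹ * g)⁻¹ = (ρ ^ k)⁻¹ * (g * t * g⁻¹) * ρ ^ k by group, hy,
      ← mul_assoc, ← e1]; group
  have U' : ∀ k ∈ M, k * t * k⁻¹ ∈ H → k ∈ H := fun k hk e =>
    inv_mem_iff.1 (U t tJ _ (inv_mem hk) (by rwa [inv_inv]))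
  have hε' : ∀ x, x⁻¹ * ε * x = ε := fun x => by rw [mul_assoc, hε, inv_mul_cancel_left]
  have ex : ∃ n, 0 < n ∧ (ρ ^ n = 1 ∨ ρ ^ n = ε) := ⟨_, orderOf_pos ρ, .inl (pow_orderOf_eq_one ρ)⟩
  obtain ⟨n0, hn1⟩ := Nat.find_spec ex
  have hmin := fun m => Nat.find_min ex (m := m)
  generalize Nat.find ex = n at n0 hn1 hmin
  have kM : ∀ j : ℕ, (ρ ^ j)⁻¹ * g ∈ M := fun j => mul_mem (inv_mem (pow_mem ρM j)) hg
  obtain ⟨m, rfl | rfl⟩ := Nat.even_or_odd' n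
  swap
  · have := c1 _ (kM m) (U' _ (kM m) (by
      rw [e2]; rcases hn1 with e | e <;> rw [e]
      exacts [mul_mem τH (one_mem _), mul_mem τH εH]))
    rw [e2] at this
    rcases hn1 with e | e <;> simp [e] at this
  have z1 := hmin m (by omega)
  rw [two_mul, pow_add] at hn1
  have zH : ρ ^ m ∈ H := U τ τJ _ (pow_mem ρM m) (by
    rw [← e1, mul_assoc]; rcases hn1 with e | e <;> rw [e]
    exacts [mul_mem τH (one_mem _), mul_mem τH εH])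
  have zM' : g⁻¹ * ρ ^ m * g ∈ M := mul_mem (mul_mem (inv_mem hg) (pow_mem ρM m)) hg
  have zH' : g⁻¹ * ρ ^ m * g ∈ H := U t tJ _ zM' (by
    rw [show (g⁻¹ * ρ ^ m * g)⁻¹ * t * (g⁻¹ * ρ ^ m * g) = g⁻¹ * ((ρ ^ m)⁻¹ * g * t *
      ((ρ ^ m)⁻¹ * g)⁻¹) * g by group, e2, show τ * ρ ^ (2 * m + 1) = τ * ρ * (ρ ^ m * ρ ^ m) by
        group, ← hy, show g⁻¹ * (g * t * g⁻¹ * (ρ ^ m * ρ ^ m)) * g =
        t * (g⁻¹ * (ρ ^ m * ρ ^ m) * g) by group]
    rcases hn1 with e | e <;> rw [e]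
    exacts [by simpa using tH, by rw [hε']; exact mul_mem tH εH])
  obtain ⟨j, rfl | rfl⟩ := Nat.even_or_odd' m
  · have e3 : t * (g⁻¹ * ρ ^ (2 * j) * g) =
        g⁻¹ * ((ρ ^ j)⁻¹ * g) * t * (g⁻¹ * ((ρ ^ j)⁻¹ * g))⁻¹ := by
      rw [show g⁻¹ * ((ρ ^ j)⁻¹ * g) * t * (g⁻¹ * ((ρ ^ j)⁻¹ * g))⁻¹ = g⁻¹ * ((ρ ^ j)⁻¹ * g * t *
        ((ρ ^ j)⁻¹ * g)⁻¹) * g by group, e2, pow_succ', ← mul_assoc τ, ← hy]; group
    have k1 := mul_mem (inv_mem hg) (kM j)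
    rcases c2 _ k1 (U' _ k1 (e3 ▸ mul_mem tH zH')) _ e3 with e | e | e
    · exact z1 ⟨by omega, .inl (by
        exact mul_left_cancel (a := g⁻¹) (mul_right_cancel (b := g) (by simpa using e)))⟩
    · exact z1 ⟨by omega, .inr (by
        rw [← hε' g] at e; exact mul_left_cancel (mul_right_cancel e))⟩
    · exact hn (inv_mem_iff.1 (U _ e _ (inv_mem hg) (by simpa [mul_assoc] using zH)))
  · exact hn (U _ (c3 _ (kM j) (U' _ (kM j) (by rw [e2]; exact mul_mem τH zH)) _ (e2 j).symm hn1)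
      g hg zH')

variable {F : Type*} [Field F] [Fintype F] {σ : F →+* F} {q : ℕ}
  {M : Subgroup ((Fin 4 → F) ≃ₗ[F] (Fin 4 → F))} {g y : (Fin 4 → F) ≃ₗ[F] (Fin 4 → F)}
  {i j k l : Fin 4}

theorem ext_ee {g g' : (Fin 4 → F) ≃ₗ[F] (Fin 4 → F)} (h : ∀ m, g (ee F m) = g' (ee F m)) :
    g = g' := LinearEquiv.ext fun x => by
  rw [pi_eq_sum_univ' x]; simp only [map_sum, map_smul]; exact Finset.sum_congr rfl fun m _ =>
    congrArg _ (h m)

set_option maxRecDepth 100000 in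
theorem perm4_fix : ∀ π : Equiv.Perm (Fin 4), ∃ m, π (π (π (π m))) = m := by decide

theorem UF.exists_quad (h : UF σ q) {n₀ n₁ n₂ n₃ : F} (h0 : σ n₀ = n₀) (h1 : σ n₁ = n₁)
    (h2 : σ n₂ = n₂) (h3 : σ n₃ = n₃) (z0 : n₀ ≠ 0) (z1 : n₁ ≠ 0) (z2 : n₂ ≠ 0) (z3 : n₃ ≠ 0)
    (hs : n₀ + n₁ + n₂ + n₃ = 0) : ∃ a c η : F, σ a * a = 1 ∧ σ c * c = 1 ∧ σ η * η = 1 ∧ a ≠ 1 ∧
      n₀ * a + n₁ + η * (n₂ * c + n₃) = 0 := by
  classical
  obtain ⟨U, hU⟩ : ∃ U, U = Finset.univ.filter fun x : F => σ x * x = 1 := ⟨_, rfl⟩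
  have mU : ∀ x, x ∈ U ↔ σ x * x = 1 := by simp [hU]
  have cU : (U.erase 1).card = q := by
    rw [Finset.card_erase_of_mem (by simp [mU]), hU, h.card_one]; rfl
  have key : ∀ {m : F}, m ≠ 0 →
      q ≤ 2 * ((U.erase 1).image fun a => m * (2 - a - σ a)).card := fun {m} m0 =>
    cU ▸ card_le_two_mul _ _ _ (fun a ha => Finset.mem_image_of_mem _ ha) fun x _ =>
      (quad_roots (α := m) (β := x - 2 * m) (γ := m) (Or.inl m0)).imp fun r =>
        Exists.imp fun s e a ha e' => e a (by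
          linear_combination -a * e' - m * (mU a).1 (Finset.mem_erase.1 ha).2)
  have s2 : σ 2 = 2 := map_ofNat σ 2
  have sub : ∀ {m : F}, m ≠ 0 → σ m = m → ((U.erase 1).image fun a => m * (2 - a - σ a)) ⊆
      (Finset.univ.filter fun x : F => σ x = x).erase 0 := fun {m} m0 hm x hx => by
    obtain ⟨a, ha, rfl⟩ := Finset.mem_image.1 hx
    rw [Finset.mem_erase, mU] at ha
    refine Finset.mem_erase.2 ⟨mul_ne_zero m0 fun e => pow_ne_zero 2 (sub_ne_zero.2 ha.1) (by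
      linear_combination -a * e - ha.2), ?_⟩
    simp [hm, s2, h.inv]; left; ring
  have k1 := key (mul_ne_zero z0 z1)
  have k2 := key (mul_ne_zero z2 z3)
  have q2 := h.two_le
  obtain ⟨x, hx⟩ := Finset.card_pos.1 (card_inter_pos (n := 0)
    (sub (mul_ne_zero z0 z1) (by rw [map_mul, h0, h1]))
    (sub (mul_ne_zero z2 z3) (by rw [map_mul, h2, h3]))
    (by rw [Finset.card_erase_of_mem (by simp), h.card_fix]; omega))
  simp only [Finset.mem_inter, Finset.mem_image, Finset.mem_erase, mU] at hx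
  obtain ⟨⟨a, ⟨a1, ha⟩, e1⟩, c, ⟨-, hc⟩, e2⟩ := hx
  have e3 : σ (n₀ * a + n₁) * (n₀ * a + n₁) = σ (n₂ * c + n₃) * (n₂ * c + n₃) := by
    simp only [map_add, map_mul, h0, h1, h2, h3]
    linear_combination n₀ ^ 2 * ha - n₂ ^ 2 * hc - e1 + e2 + (n₀ + n₁ - n₂ - n₃) * hs
  by_cases e4 : n₂ * c + n₃ = 0
  · refine ⟨a, c, 1, ha, hc, by simp, a1, ?_⟩
    simpa only [e4, mul_zero, add_zero, mul_eq_zero, map_eq_zero, or_self] using e3
  refine ⟨a, c, -(n₀ * a + n₁) / (n₂ * c + n₃), ha, hc, ?_, a1, by field_simp; ring⟩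
  have := (map_ne_zero σ).2 e4
  rw [map_div₀, map_neg]; field_simp; linear_combination e3

namespace FU4

theorem U (h : FU4 σ q M) (h2 : (2 : F) ≠ 0) (hy : y ∈ M) (yy : y * y = 1)
    (yk : y (ee F k) = -ee F k) (yl : y (ee F l) = ee F l) (hg : g ∈ M)
    (e : g⁻¹ * y * g ∈ MonG (Fin 4) F) : g ∈ MonG (Fin 4) F := by
  have p1 : ∀ x, y x = x → x k = 0 := fun x e => by
    have := (h.ug hy).1 (ee F k) x
    rw [yk, e] at this
    simp at this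
    exact mul_left_cancel₀ h2 (by linear_combination -this)
  have p2 : ∀ x, y x = -x → x l = 0 := fun x e => by
    have := (h.ug hy).1 (ee F l) x
    rw [yl, e] at this
    simp at this
    exact mul_left_cancel₀ h2 (by linear_combination -this)
  obtain ⟨π, ν, n0, n1, n2⟩ := exists_of_mem_MonG e
  have ss : ∀ m, (ν m * ν (π m)) • ee F (π (π m)) = ee F m := fun m => by
    rw [← smul_smul, ← n1, ← map_smul, ← n1, ← LinearEquiv.mul_apply,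
      show g⁻¹ * y * g * (g⁻¹ * y * g) = g⁻¹ * (y * y) * g by group, yy]; simp
  have ππ : ∀ m, π (π m) = m := fun m => by_contra fun e => by
    simpa [ee_ne _ (Ne.symm e)] using congrFun (ss m) m
  by_cases e0 : π 0 = 0
  · have e1 : y (g (ee F 0)) = ν 0 • g (ee F 0) := by
      simpa only [LinearEquiv.mul_apply, apply_inv_apply, map_smul, e0] using congrArg g (n1 0)
    have e2 : ν 0 * ν 0 = 1 := by simpa [e0] using congrFun (ss 0) 0
    rcases mul_self_eq_one_iff.1 e2 with e3 | e3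
    · exact h.Z hg (p1 _ (by rw [e1, e3, one_smul]))
    · exact h.Z hg (p2 _ (by rw [e1, e3, neg_one_smul]))
  obtain ⟨a, na, ha⟩ := h.four
  have cm : ∀ x, (g⁻¹ * y * g) (rr 0 (π 0) a x) = rr 0 (π 0) a ((g⁻¹ * y * g) x) := fun x =>
    funext fun m => by
      obtain ⟨m, rfl⟩ := π.surjective m
      rw [n2, rr_apply, rr_apply, n2, mul_left_comm]
      simp only [show (π m = 0 ∨ π m = π 0) ↔ (m = 0 ∨ m = π 0) by
        rw [π.injective.eq_iff, or_comm, ← π.injective.eq_iff (a := π m), ππ]]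
  have hr := mul_mem (mul_mem hg (h.lo (rr_memU (Ne.symm e0) na))) (inv_mem hg)
  refine inv_mem_iff.1 (h.R (inv_mem hg) ha (by
    rw [inv_inv]
    refine h.Z hr (j := l) (p1 _ ?_)
    have := congrArg g (cm (g⁻¹ (ee F l)))
    simpa only [LinearEquiv.mul_apply, apply_inv_apply, yl] using this))

theorem conj_dd_mon (h : FU4 σ q M) (hg : g ∈ M) (hg' : g ∈ MonG (Fin 4) F) (ij : i ≠ j)
    (ζ : Fˣ) : ∃ k l, k ≠ l ∧ g * dd i j ζ * g⁻¹ = dd k l ζ := by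
  obtain ⟨π, ν, -, e, -⟩ := exists_of_mem_MonG hg'
  exact ⟨_, _, π.injective.ne ij, by
    rw [dd, dd, ← conj_hm_mon (h.ug hg) (e i), ← conj_hm_mon (h.ug hg) (e j)]; group⟩

theorem le_odd (h : FU4 σ q M) (h2 : (2 : F) ≠ 0) : M ≤ MonG (Fin 4) F := by
  have : Finite ((Fin 4 → F) ≃ₗ[F] (Fin 4 → F)) := Finite.of_injective _ DFunLike.coe_injective
  have n : σ ((-1 : Fˣ) : F) * (-1 : Fˣ) = 1 := by simp
  have h23 : (2 : Fin 4) ≠ 3 := by decide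
  have εa : ∀ x : Fin 4 → F, dgE (fun _ => (-1 : Fˣ)) x = -x := fun x => funext fun i => by
    simp [dgE_apply]
  have da : ∀ {i j : Fin 4}, i ≠ j → ∀ m, dd i j (-1 : Fˣ) (ee F m) =
      if m = i ∨ m = j then -ee F m else ee F m := fun {i j} ij m => by
    rw [dd_app ij]
    split_ifs with e
    · rcases e with rfl | rfl
      · simp [ee_ne m ij.symm]; module
      · simp [ee_ne m ij]; module
    · simp [ee_ne m (Ne.symm (not_or.1 e).1), ee_ne m (Ne.symm (not_or.1 e).2)]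
  have t := dd_memU (σ := σ) (0 : Fin 4) 1 n
  have tt : dd (0 : Fin 4) 1 (-1 : Fˣ) * dd 0 1 (-1) = 1 := ext_ee fun m => by
    rw [LinearEquiv.mul_apply, da (by decide)]; split_ifs with e <;> simp [da, e]
  obtain ⟨τ, hτ⟩ : ∃ τ, τ = swp h23 (1 : Fˣ) 1 * hm 0 (-1) := ⟨_, rfl⟩
  have τU : τ ∈ UG (hermSesq (Fin 4) σ) ⊓ MonG (Fin 4) F := hτ ▸
    mul_mem ⟨swp_mem_UG h23 (by simp) (by simp), swp_mem_MonG h23 1 1⟩ (hm_memU 0 n)
  have τM : τ ∈ M := h.memM τU (Units.ext (by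
    rw [LinearEquiv.coe_det, hτ, det_mul_equiv, det_swp, det_hm]; simp))
  have τ0 : τ (ee F 0) = -ee F 0 := by simp [hτ, Geom.hm_ee, swp_one_apply, ee_ne]
  have τ1 : τ (ee F 1) = ee F 1 := by simp [hτ, hm_apply, swp_one_apply, ee_ne]
  have τ2 : τ (ee F 2) = ee F 3 := by simp [hτ, hm_apply, swp_one_apply, ee_ne]
  have τ3 : τ (ee F 3) = ee F 2 := by simp [hτ, hm_apply, swp_one_apply, ee_ne]
  have ττ : τ * τ = 1 := ext_ee fun m => by
    fin_cases m <;> simp [τ0, τ1, τ2, τ3]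
  have ne : ∀ m : Fin 4, -ee F m ≠ ee F m := fun m e => h2 (by
    have := congrFun e m
    simp at this; linear_combination -this)
  refine le_of_two_classes (J := {y | y ∈ M ∧ y * y = 1 ∧ ∃ k l, y (ee F k) = -ee F k ∧
    y (ee F l) = ee F l}) (ε := dgE fun _ => -1) (fun x => LinearEquiv.ext fun v => by simp [εa])
    (dgE_mem_MonG _) (h.lo t) t.2 τM τU.2 tt ττ ⟨h.lo t, tt, 0, 2, by simp [da], by simp [da]⟩
    ⟨τM, ττ, 0, 1, τ0, τ1⟩ (fun y ⟨a, b, _, _, c, d⟩ g hg => h.U h2 a b c d hg)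
    (fun k hk hk' => ?_) (fun k hk hk' z e => ?_) fun k hk hk' z e zz => ?_
  all_goals obtain ⟨i, j, ij, e'⟩ := h.conj_dd_mon hk hk' (i := 0) (j := 1) (by decide) (-1)
  · rw [e']
    refine ⟨fun e => ?_, fun e => ?_⟩ <;> have := congrFun (congrArg (· (ee F 2)) e) 3 <;>
      simp only [da ij, LinearEquiv.mul_apply, εa, map_neg, τ2] at this <;>
      split_ifs at this <;> simp [ee_ne] at this
  · obtain rfl : z = dd 0 1 (-1) * dd i j (-1) := by rw [← e', ← e, ← mul_assoc, tt, one_mul]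
    have zM := mul_mem (h.lo t) (h.lo (dd_memU i j n))
    have sg : ∀ m, (dd 0 1 (-1) * dd i j (-1) : (Fin 4 → F) ≃ₗ[F] (Fin 4 → F)) (ee F m) = ee F m ∨
        (dd 0 1 (-1) * dd i j (-1) : (Fin 4 → F) ≃ₗ[F] (Fin 4 → F)) (ee F m) = -ee F m := fun m => by
      rw [LinearEquiv.mul_apply, da ij]
      split_ifs <;> simp only [map_neg, da (show (0 : Fin 4) ≠ 1 by decide)] <;> split_ifs <;> simp
    generalize (dd 0 1 (-1) * dd i j (-1) : (Fin 4 → F) ≃ₗ[F] (Fin 4 → F)) = z at zM sg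
    by_cases a : ∀ m, z (ee F m) = ee F m
    · exact .inl (ext_ee a)
    by_cases b : ∀ m, z (ee F m) = -ee F m
    · exact .inr (.inl (ext_ee fun m => by rw [b, εa]))
    push Not at a b
    obtain ⟨k, a⟩ := a
    obtain ⟨l, b⟩ := b
    exact .inr (.inr ⟨zM, ext_ee fun m => by rcases sg m with e | e <;> simp [e],
      k, l, (sg k).resolve_left a, (sg l).resolve_right b⟩)
  · obtain rfl : z = τ * dd i j (-1) := by rw [← e', ← e, ← mul_assoc, ττ, one_mul]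
    have z1 : τ * dd i j (-1) * (τ * dd i j (-1)) = 1 := zz.resolve_right fun e => ne 1 (by
      have := congrArg (· (ee F 1)) e
      simp only [LinearEquiv.mul_apply, da ij, εa] at this
      split_ifs at this with e <;> simpa [τ1, da ij, e] using this.symm)
    refine ⟨mul_mem τM (h.lo (dd_memU i j n)), z1, ?_⟩
    have z2 := congrArg (· (ee F 2)) z1
    have := ne 2
    simp only [LinearEquiv.mul_apply, da ij] at z2 ⊢
    by_cases e0 : 0 = i ∨ 0 = j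
    · refine ⟨1, 0, ?_, by simp [e0, τ0]⟩
      rw [if_pos, map_neg, τ1]
      fin_cases i <;> fin_cases j <;> simp_all
    · refine ⟨0, 1, by simp [e0, τ0], ?_⟩
      rw [if_neg, τ1]
      fin_cases i <;> fin_cases j <;> simp_all

theorem E0 (h : FU4 σ q M) (h2 : (2 : F) = 0) (hg : g ∈ M) {s : Fin 4 → F} (hs : Sv σ s)
    (hs' : Sv σ (g s)) : g ∈ MonG (Fin 4) F := by
  obtain ⟨a, na, ha⟩ := h.four
  obtain ⟨k, l, kl, γ, δ, hγ, hδ, e⟩ := hs'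
  obtain ⟨i, j, ij, α, β, -, -, e'⟩ := hs
  obtain ⟨m, mi, mj, -⟩ := fresh4 i j j
  obtain ⟨o, oi, oj, om⟩ := fresh4 i j m
  have p : σ γ * g (ee F m) k + σ δ * g (ee F m) l = 0 := by
    have := (h.ug hg).1 s (ee F m)
    rw [e] at this
    simpa [e', ee_ne i mi, ee_ne j mj] using this
  have e1 : rr k l a (g (ee F m)) = g ((a : F)⁻¹ • ee F m +
      ((a - (a : F)⁻¹) * (σ γ * g (ee F m) k)) • s) := funext fun r => by
    simp only [rr_apply, map_add, map_smul, e, Pi.add_apply, Pi.smul_apply, smul_eq_mul]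
    by_cases rk : r = k
    · simp only [rk, true_or, ↓reduceIte, ee_self, ee_ne l kl]
      linear_combination -((a : F) - (a : F)⁻¹) * g (ee F m) k * hγ
    by_cases rl : r = l
    · simp only [rl, or_true, ↓reduceIte, ee_self, ee_ne k kl.symm]
      linear_combination -((a : F) - (a : F)⁻¹) * (δ * p - g (ee F m) l * hδ -
        g (ee F m) l * h2)
    simp [rk, rl, ee_ne k rk, ee_ne l rl]
  refine h.R hg ha (h.Z (mul_mem (mul_mem (inv_mem hg) (h.lo (rr_memU kl na))) hg) (j := m)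
    (k := o) ?_)
  rw [LinearEquiv.mul_apply, LinearEquiv.mul_apply, e1, inv_apply_apply]
  simp [e', ee_ne m om, ee_ne i oi, ee_ne j oj]

theorem E1 (h : FU4 σ q M) (h2 : (2 : F) = 0) (hg : g ∈ M) {s : Fin 4 → F} (hs : Sv σ s)
    (H : ∀ y ∈ M, Tv σ y (g s) → y ∈ MonG (Fin 4) F) : g ∈ MonG (Fin 4) F := by
  obtain ⟨t, ht⟩ : ∃ t, Tv σ t s := by
    obtain ⟨j, k, jk, α, β, hα, hβ, rfl⟩ := hs
    exact ⟨_, tv_swp h2 jk hα hβ⟩
  have hy := mul_mem (mul_mem hg (h.lo (hs.mem h2 ht))) (inv_mem hg)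
  exact h.E0 h2 hg hs (Sv.of_mon h.inv h2 ((map_ne_zero_iff _ g.injective).2 (by
    rintro rfl; simpa using hs.norm.1)) (by rw [(h.ug hg).1, hs.iso h2]) (ht.conj (h.ug hg))
    (h.ug hy) (H _ hy (ht.conj (h.ug hg))))

theorem le_even (h : FU4 σ q M) (h2 : (2 : F) = 0) : M ≤ MonG (Fin 4) F := fun g hg => by
  by_contra hn
  have hs : Sv σ (ee F (0 : Fin 4) + ee F 1) := .one (by decide)
  obtain ⟨s, es⟩ : ∃ s, g (ee F 0 + ee F 1) = s := ⟨_, rfl⟩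
  have nz : ∀ i, σ (s i) * s i ≠ 0 := fun i e => hn (h.E1 h2 hg hs fun y hy ht =>
    h.A hy (i := i) (j := i) fun l hl => by
      rw [ht, es, herm_ee_right, show s i = 0 by simpa using e]; simp [ee_ne i hl])
  have fx : ∀ i, σ (σ (s i) * s i) = σ (s i) * s i := fun i => by simp [h.inv, mul_comm]
  have sm := ((h.ug hg).1 _ _).trans (hs.iso h2)
  rw [es, hermSesq_apply, Fin.sum_univ_four] at sm
  obtain ⟨a, c, η, ha, hc, hη, a1, e⟩ := UF.exists_quad h.toUF (fx 0) (fx 1) (fx 2) (fx 3) (nz 0)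
    (nz 1) (nz 2) (nz 3) sm
  have c2 := CharP.ringChar_of_prime_eq_zero Nat.prime_two h2
  have i4 : ∀ x y : F, x ^ 4 = y ^ 4 → x = y := fun x y e => sub_eq_zero.1 (pow_eq_zero_iff
    (n := 4) (by decide) |>.1 (by
      linear_combination e + (-2 * x ^ 3 * y + 3 * x ^ 2 * y ^ 2 - 2 * x * y ^ 3 + y ^ 4) * h2))
  obtain ⟨μ, hμ⟩ := FiniteField.isSquare_of_char_two c2 (a * η * c * η)⁻¹
  obtain ⟨ν, rfl⟩ := FiniteField.isSquare_of_char_two c2 μ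
  have a0 := right_ne_zero_of_mul_eq_one ha
  have c0 := right_ne_zero_of_mul_eq_one hc
  have η0 := right_ne_zero_of_mul_eq_one hη
  have hμ' : ν ^ 4 * (a * η * c * η) = 1 := by
    rw [show ν ^ 4 = ν * ν * (ν * ν) by ring, ← hμ]; field_simp
  have hν : σ ν * ν = 1 := i4 _ _ (by
    have := congrArg σ hμ'
    simp only [map_mul, map_pow, map_one] at this
    have e1 : σ a * σ η * σ c * σ η * (a * η * c * η) = 1 := by
      linear_combination σ η * σ c * σ η * (η * c * η) * ha + σ η * σ η * η * η * hc +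
        (σ η * η + 1) * hη
    linear_combination ν ^ 4 * (a * η * c * η) * this + hμ' - σ ν ^ 4 * ν ^ 4 * e1)
  have ν0 := right_ne_zero_of_mul_eq_one hν
  let d : Fin 4 → Fˣ := ![Units.mk0 _ (mul_ne_zero ν0 a0), Units.mk0 _ ν0,
    Units.mk0 _ (mul_ne_zero ν0 (mul_ne_zero η0 c0)), Units.mk0 _ (mul_ne_zero ν0 η0)]
  have hd : dgE d ∈ M := h.lo (dgE_memU (fun i => by
    fin_cases i <;> simp [d]
    · linear_combination σ a * a * hν + ha
    · exact hν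
    · linear_combination σ η * η * σ c * c * hν + σ c * c * hη + hc
    · linear_combination σ η * η * hν + hη) (Units.ext (by
      simp [Fin.prod_univ_four, d]; linear_combination hμ')))
  have hd' := mul_mem (mul_mem (inv_mem hg) hd) hg
  have p : hermSesq (Fin 4) σ (ee F 0 + ee F 1) ((g⁻¹ * dgE d * g) (ee F 0 + ee F 1)) = 0 := by
    rw [← (h.ug hg).1, LinearEquiv.mul_apply, LinearEquiv.mul_apply, apply_inv_apply, es,
      hermSesq_apply, Fin.sum_univ_four]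
    simp [dgE_apply, d]
    linear_combination ν * e
  obtain ⟨π, ν', -, n1, -⟩ := exists_of_mem_MonG (h.E1 h2 hd' hs fun y hy ht =>
    h.E0 h2 hy hs (by rwa [ht, (isHerm_hermSesq h.ne h.inv).refl p, zero_smul, add_zero]))
  have e1 : ∀ m r, d r * g (ee F m) r = ν' m * g (ee F (π m)) r := fun m r => by
    have := congrFun (congrArg g (n1 m)) r
    simpa only [LinearEquiv.mul_apply, apply_inv_apply, map_smul, dgE_apply, Pi.smul_apply,
      smul_eq_mul] using this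
  obtain ⟨m, hm⟩ := perm4_fix π
  have e2 : ∀ r, (d r : F) ^ 4 = ν' m * ν' (π m) * ν' (π (π m)) * ν' (π (π (π m))) := fun r =>
    mul_right_cancel₀ (fun e => hn (h.Z hg (j := m) (k := r) e)) (by
      have := e1 (π (π (π m))) r
      rw [hm] at this
      linear_combination (d r : F) ^ 3 * e1 m r + ν' m * (d r : F) ^ 2 * e1 (π m) r +
        ν' m * ν' (π m) * d r * e1 (π (π m)) r + ν' m * ν' (π m) * ν' (π (π m)) * this)
  exact a1 (by simpa [d, ν0] using i4 _ _ ((e2 0).trans (e2 1).symm))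

end FU4

theorem su_maxIn_mon4 (h : UF σ q) (h3 : q ≠ 3) :
    MaxIn (SUG (hermSesq (Fin 4) σ)) (MonG (Fin 4) F) := by
  refine ⟨fun hle => ?_, fun M h1 h4 m hm hm' => by_contra fun hn => hm' ?_⟩
  swap
  · have hM : FU4 σ q M := ⟨h, h3, h1, h4, hn⟩
    by_cases h2 : (2 : F) = 0
    exacts [hM.le_even h2 hm, hM.le_odd h2 hm]
  obtain ⟨τ, hτ⟩ := exists_norm_eq h.ne h.inv (c := -1) (by simp)
  have τ0 : τ ≠ 0 := by rintro rfl; simp at hτ
  obtain ⟨ζ, hζ, ζ1⟩ := h.exists_one [1] (by have := h.two_le; simp; omega)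
  have ζ1 : (ζ : F) - 1 ≠ 0 := sub_ne_zero.2 (by simpa using ζ1)
  obtain ⟨u, hu⟩ : ∃ u : Fin 4 → F, u = ee F 0 + ee F 1 + τ • ee F 2 := ⟨_, rfl⟩
  have ua : u 0 = 1 := by simp [hu, ee_ne]
  have ub : u 1 = 1 := by simp [hu, ee_ne]
  have uc : u 2 = τ := by simp [hu, ee_ne]
  have uu : hermSesq (Fin 4) σ u u = 1 := by
    nth_rw 1 [hu]; simp [ua, ub, uc]; linear_combination hτ
  have e : 1 + (((ζ : F) - 1) • hermSesq (Fin 4) σ u) u = ζ := by simp [uu]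
  obtain ⟨π, ν, -, n1, -⟩ := exists_of_mem_MonG (hle (x := dl _ u (e ▸ ζ.ne_zero) * (hm 3 ζ)⁻¹)
    ⟨(UG _).mul_mem (mem_UG.2 fun x y => by
      simp [dl_apply, uu, (isHerm_hermSesq h.ne h.inv).eq u x]
      linear_combination hermSesq (Fin 4) σ x u * hermSesq (Fin 4) σ u y * hζ)
      ((UG _).inv_mem (hm_mem_UG 3 hζ)),
      Units.ext (by simp [ledet_hm, LinearEquiv.coe_det, det_dl, uu])⟩)
  have key : ∀ l, l ≠ 0 → u l ≠ 0 → l = π 0 := fun l la ul => by_contra fun e' => by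
    have := congrFun (n1 0) l
    rw [LinearEquiv.mul_apply, ← hm_of_eq_zero 3 ζ (ee_ne 0 (by decide)), inv_apply_apply] at this
    simp [dl_apply, ee_ne _ e', ee_ne 0 la, ua, ul, ζ1] at this
  exact absurd ((key 2 (by decide) (uc ▸ τ0)).trans (key 1 (by decide) (ub ▸ one_ne_zero)).symm)
    (by decide)

open Cfsg Cfsg.Geo

theorem tabU4_frame {F : Type*} [Field F] [Fintype F] {q : ℕ} (hF : Fintype.card F = q ^ 2)
    (h3 : q ≠ 3) (D : Fin 4 → Submodule F (Fin 4 → F))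
    (hD : IsNondegenerateMDecomposition (hermForm 4 F q) 1 D) :
    IsMaximalIn (GU 4 F q ⊓ specialLinear (Fin 4) F)
      (decompositionStabilizer D ⊓ (GU 4 F q ⊓ specialLinear (Fin 4) F)) := by
  obtain ⟨σ, hσ, s1, s2⟩ := exists_conj hF
  obtain ⟨e, δ, hδ, h1, h4⟩ := (odec_su hσ s1 s2 hD).exists_frame 0
  refine MaxIn.isMaximalIn (Geom.glEquiv _ F) ?_ (mem_SU_iff hσ)
    (mem_decompositionStabilizer_iff D)
  refine (su_maxIn_mon4 ⟨hF, hσ, s1, s2⟩ h3).of_equiv (autCongr e) (fun g => and_congr ?_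
    (autCongr_mem_SLG e g)) (autCongr_mem_decStab e h1)
  refine mem_UG.trans (Iff.trans ?_ mem_UG.symm)
  refine e.surjective.forall.trans (forall_congr' fun u =>
    e.surjective.forall.trans (forall_congr' fun v => ?_))
  rw [autCongr_apply, autCongr_apply, e.symm_apply_apply, e.symm_apply_apply, h4, h4]
  simp [hδ, hermSesq_apply]

theorem tabU4_all {F : Type*} [Field F] [Fintype F] (q : ℕ) (hF : Fintype.card F = q ^ 2) :
    (∀ W : Submodule F (Fin 4 → F), W ≠ ⊥ → Cfsg.Geo.IsTotallySingularFor (Cfsg.hermForm 4 F q) W → Cfsg.Geo.IsMaximalIn (Cfsg.GU 4 F q ⊓ Cfsg.Geo.specialLinear (Fin 4) F) (Cfsg.Geo.subspaceStabilizer W ⊓ (Cfsg.GU 4 F q ⊓ Cfsg.Geo.specialLinear (Fin 4) F))) ∧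
    (∀ W : Submodule F (Fin 4 → F), W ≠ ⊥ → Cfsg.Geo.IsNondegenerateOn (Cfsg.hermForm 4 F q) W → 2 * Module.finrank F W < 4 → Cfsg.Geo.IsMaximalIn (Cfsg.GU 4 F q ⊓ Cfsg.Geo.specialLinear (Fin 4) F) (Cfsg.Geo.subspaceStabilizer W ⊓ (Cfsg.GU 4 F q ⊓ Cfsg.Geo.specialLinear (Fin 4) F))) ∧
    (q ≠ 3 → ∀ D : Fin 4 → Submodule F (Fin 4 → F), Cfsg.Geo.IsNondegenerateMDecomposition (Cfsg.hermForm 4 F q) 1 D → Cfsg.Geo.IsMaximalIn (Cfsg.GU 4 F q ⊓ Cfsg.Geo.specialLinear (Fin 4) F) (Cfsg.Geo.decompositionStabilizer D ⊓ (Cfsg.GU 4 F q ⊓ Cfsg.Geo.specialLinear (Fin 4) F))) ∧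
    (3 ≤ q → ∀ D : Fin 2 → Submodule F (Fin 4 → F), Cfsg.Geo.IsNondegenerateMDecomposition (Cfsg.hermForm 4 F q) 2 D → Cfsg.Geo.IsMaximalIn (Cfsg.GU 4 F q ⊓ Cfsg.Geo.specialLinear (Fin 4) F) (Cfsg.Geo.decompositionStabilizer D ⊓ (Cfsg.GU 4 F q ⊓ Cfsg.Geo.specialLinear (Fin 4) F))) ∧
    (4 ≤ q → ∀ D : Fin 2 → Submodule F (Fin 4 → F), Cfsg.Geo.IsMDecomposition 2 D → (∀ i, Cfsg.Geo.IsTotallySingularFor (Cfsg.hermForm 4 F q) (D i)) → Cfsg.Geo.IsMaximalIn (Cfsg.GU 4 F q ⊓ Cfsg.Geo.specialLinear (Fin 4) F) (Cfsg.Geo.decompositionStabilizer D ⊓ (Cfsg.GU 4 F q ⊓ Cfsg.Geo.specialLinear (Fin 4) F))) ∧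
    (∀ (F₀ : Subfield F) (r : ℕ) (P : Matrix.GeneralLinearGroup (Fin 4) F), r.Prime → Odd r → Fintype.card F = Nat.card F₀ ^ r → Cfsg.Geo.IsFormRationalStructure (Cfsg.hermForm 4 F q) F₀ 1 P → Cfsg.Geo.IsMaximalIn (Cfsg.GU 4 F q ⊓ Cfsg.Geo.specialLinear (Fin 4) F) (Cfsg.Geo.subfieldSubgroup F₀ P ⊓ (Cfsg.GU 4 F q ⊓ Cfsg.Geo.specialLinear (Fin 4) F))) ∧
    (∀ (F₀ : Subfield F) (P : Matrix.GeneralLinearGroup (Fin 4) F) (ζ : F), Fintype.card F = Nat.card F₀ ^ 2 → ζ ≠ 0 → ζ + ζ ^ q = 0 → Cfsg.Geo.IsFormRationalStructure (Cfsg.hermForm 4 F q) F₀ ζ P → (∀ u : Fin 4 → F, (∀ i, u i ∈ F₀) → (Cfsg.hermForm 4 F q) (Matrix.mulVec (P : Matrix (Fin 4) (Fin 4) F) u) (Matrix.mulVec (P : Matrix (Fin 4) (Fin 4) F) u) = 0) → Cfsg.Geo.IsMaximalIn (Cfsg.GU 4 F q ⊓ Cfsg.Geo.specialLinear (Fin 4) F) (Cfsg.Geo.subfieldSubgroup F₀ P ⊓ (Cfsg.GU 4 F q ⊓ Cfsg.Geo.specialLinear (Fin 4) F))) ∧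
    (Odd q → 5 ≤ q → ∀ (F₀ : Subfield F) (P : Matrix.GeneralLinearGroup (Fin 4) F), Fintype.card F = Nat.card F₀ ^ 2 → Cfsg.Geo.IsFormRationalStructure (Cfsg.hermForm 4 F q) F₀ 1 P → Cfsg.Geo.IsMaximalIn (Cfsg.GU 4 F q ⊓ Cfsg.Geo.specialLinear (Fin 4) F) (Cfsg.Geo.subfieldSubgroup F₀ P ⊓ (Cfsg.GU 4 F q ⊓ Cfsg.Geo.specialLinear (Fin 4) F))) :=
  ⟨tabU_ts hF, tabU4_nd hF, tabU4_frame hF, tabU4_planes hF, tabU4_tsp hF,
    tabU4_sub hF le_rfl, fun F₀ P _ hcard _ _ _ halt => tabU4_sp hF le_rfl F₀ P hcard halt,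
    tabU4_o hF le_rfl⟩

end CF.MaxSub
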