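import Cfsg.Agent.MaxSub.TM
import Cfsg.Agent.Geom.StdQuad

/-! Non-degenerate quadratic forms: from bundled to unbundled. -/

set_option autoImplicit false

namespace CF.MaxSub

open Cfsg Cfsg.Geo QuadraticMap

theorem isNDQ_of_polar {F : Type*} [Field F] {ι : Type} [Fintype ι] [DecidableEq ι]
    {Q : QuadraticForm F (ι → F)} (h : (polarBilin Q).Nondegenerate) :
    IsNondegenerateQuadraticForm (Q : (ι → F) → F) where
  smul c v := by rw [Q.map_smul, smul_eq_mul, pow_two]
  polar_bilinear :=
    ⟨polar_add_left Q, fun c x v => by rw [polar_smul_left, smul_eq_mul], polar_add_right Q,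
      fun c v x => by rw [polar_smul_right, smul_eq_mul]⟩
  nondegenerate v hv := by
    have : ∃ x, polar Q v x ≠ 0 := by
      by_contra hx
      push Not at hx
      exact hv (h.1 v fun y => by simpa using hx y)
    obtain ⟨x, hx⟩ := this
    exact ⟨⟨x, by rwa [polar_comm]⟩, x, hx⟩

theorem isNDQ_odd {F : Type*} [Field F] [Fintype F] (hodd : Odd (Fintype.card F)) (m : ℕ) :
    IsNondegenerateQuadraticForm (quadFormOdd m F) :=
  isNDQ_of_polar (Geom.qOdd_nondegenerate (Geom.two_ne_zero_of_odd_card hodd) m)

end CF.MaxSub
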