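/-
Overgroups of one tensor factor of a classical group: the stabiliser of `V₁ ⊗ u`.
-/
import Cfsg.Agent.MaxSub.TD

set_option autoImplicit false

namespace CF.MaxSub

open Module Geom TensorProduct

variable {F V₁ W : Type*} [Field F] [AddCommGroup V₁] [Module F V₁] [AddCommGroup W]
  [Module F W] {σ : F →+* F}

/-- The group generated by the radicals of the stabilisers of singular vectors. -/
def RGp (B : W →ₛₗ[σ] W →ₗ[F] F) (Q : W → F) : Subgroup (W ≃ₗ[F] W) :=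
  ⨆ u, ⨆ _ : Q u = Q 0, Rad B Q u ⊤

section RGp

variable {B : W →ₛₗ[σ] W →ₗ[F] F} {Q : W → F}

theorem mem_RGp {u : W} (hu : Q u = Q 0) {A : Submodule F W} {b : W ≃ₗ[F] W}
    (hb : b ∈ Rad B Q u A) : b ∈ RGp B Q :=
  Subgroup.mem_iSup_of_mem u (Subgroup.mem_iSup_of_mem hu (Rad_mono u le_top hb))

theorem RGp_le {M : Subgroup (W ≃ₗ[F] W)} (h : ∀ u, Q u = Q 0 → Rad B Q u ⊤ ≤ M) : RGp B Q ≤ M :=
  iSup₂_le h

theorem RGp_le_isom : RGp B Q ≤ Isom B Q := RGp_le fun u _ => Rad_le_isom u ⊤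

theorem _root_.CF.Geom.PolarG.le_RGp {G : Subgroup (W ≃ₗ[F] W)} (h : PolarG B Q G) : G ≤ RGp B Q :=
  h.gen _ fun _ _ hu _ hb => mem_RGp hu hb

theorem conj_mem_RGp (hq : ∀ w, B w w = 0 ↔ Q w = Q 0)
    (hi : ∀ b : W ≃ₗ[F] W, (∀ s t, B (b s) (b t) = B s t) → b ∈ Isom B Q) {b : W ≃ₗ[F] W} {μ : F}
    (μ0 : μ ≠ 0) (hb : ∀ s t, B (b s) (b t) = μ * B s t) {c : W ≃ₗ[F] W} (hc : c ∈ RGp B Q) :
    b * c * b⁻¹ ∈ RGp B Q := by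
  refine RGp_le (M := (RGp B Q).comap (MulAut.conj b).toMonoidHom) (fun u hu c hc => ?_) hc
  refine mem_RGp (u := b u) (A := ⊤) ((hq _).1 (by rw [hb, (hq u).2 hu, mul_zero]))
    ⟨hi _ fun s t => ?_, by simp [inv_apply_apply, hc.2.1], fun x hx => ?_, fun _ => trivial⟩
  · obtain ⟨s, rfl⟩ := b.surjective s
    obtain ⟨t, rfl⟩ := b.surjective t
    simp [inv_apply_apply, hb, hc.1.1]
  · obtain ⟨x, rfl⟩ := b.surjective x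
    obtain ⟨d, e⟩ := Submodule.mem_span_singleton.1 (hc.2.2.1 x (by simpa [hb, μ0] using hx))
    exact Submodule.mem_span_singleton.2 ⟨d, by simp [inv_apply_apply, ← map_sub, ← e]⟩

variable (B Q) in
/-- Any two singular vectors have a common partner. -/
def CP : Prop := ∀ u f, u ≠ 0 → f ≠ 0 → Q u = Q 0 → Q f = Q 0 → ∃ z, Q z = Q 0 ∧ B u z ≠ 0 ∧ B f z ≠ 0

variable [FiniteDimensional F W] (hW : IsWittPair σ B Q)
include hW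

theorem cp_of_three (h3 : 3 ≤ finrank F W) : CP B Q := fun _ _ => hW.exists_common_partner' h3

theorem exists_mv (cp : CP B Q) {u u' : W} (u0 : u ≠ 0) (u0' : u' ≠ 0) (hu : Q u = Q 0)
    (hu' : Q u' = Q 0) : ∃ b ∈ RGp B Q, ∃ c : F, c ≠ 0 ∧ b u = c • u' := by
  obtain ⟨z, hz, e, e'⟩ := cp u u' u0 u0' hu hu'
  have a1 : B z u ≠ 0 := mt hW.refl e
  have a2 : B z u' ≠ 0 := mt hW.refl e'
  obtain ⟨b, hb, e⟩ := hW.exists_Rad hz (A := ⊤) trivial (y' := (B z u / B z u') • u') a1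
    (by simp [a2]) ((hW.norm_smul_singular hu' _).trans hu.symm) trivial
  exact ⟨b, mem_RGp hz hb, _, div_ne_zero a1 a2, e⟩

theorem exists_rd {u : W} (u0 : u ≠ 0) (hu : Q u = Q 0) {φ : Dual F W} (e : φ u = 0) :
    ∃ ρ ∈ RGp B Q, ρ u = u ∧ ∀ w, B u w = 0 → ρ w = w + φ w • u := by
  obtain ⟨f, -, h1⟩ := hW.exists_hyperbolic u0 hu
  have h2 : B f u ≠ 0 := fun e => by simpa [h1] using hW.refl e
  obtain ⟨r, hr⟩ := exists_repr_dual hW.surj B hW.nondeg (-(B f u) • φ)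
  obtain ⟨ρ, hρ, c, a1⟩ := hW.exists_Rad_add hu (A := ⊤) trivial (y := f) (w := r) (by simp [h1])
    (hW.refl (by simp [hr, e])) trivial
  refine ⟨ρ, mem_RGp hu hρ, hρ.2.1, fun w hw => ?_⟩
  obtain ⟨l, a3, a4⟩ := hW.Rad_perp_eq hu hρ (f := f) (w := r)
    (Submodule.mem_span_singleton.2 ⟨c, by rw [a1]; abel⟩) hw
  rw [a3, mul_right_cancel₀ h2 (show l * _ = φ w * _ by simpa [hr, mul_comm] using a4)]

end RGp

/-- A classical group on a tensor product. -/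
structure WZ (B₁ : V₁ →ₛₗ[σ] V₁ →ₗ[F] F) (Q₁ : V₁ → F) (B₂ : W →ₛₗ[σ] W →ₗ[F] F) (Q₂ : W → F)
    (B : V₁ ⊗[F] W →ₛₗ[σ] V₁ ⊗[F] W →ₗ[F] F) (Q : V₁ ⊗[F] W → F)
    (G : Subgroup (V₁ ⊗[F] W ≃ₗ[F] V₁ ⊗[F] W)) : Prop where
  w₁ : IsWittPair σ B₁ Q₁
  w₂ : IsWittPair σ B₂ Q₂
  pol : PolarG B Q G
  eq : ∀ x y s t, B (x ⊗ₜ s) (y ⊗ₜ t) = B₁ x y * B₂ s t
  iso : ∀ a b, (∀ v w, B (TensorProduct.congr a b v) (TensorProduct.congr a b w) = B v w) →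
    TensorProduct.congr a b ∈ Isom B Q
  sing : ∀ x u, Q₂ u = Q₂ 0 → Q (x ⊗ₜ u) = Q 0
  nt : Nontrivial V₁
  iso₂ : ∀ w, B₂ w w = 0 → Q₂ w = Q₂ 0
  isoW : ∀ b : W ≃ₗ[F] W, (∀ s t, B₂ (b s) (b t) = B₂ s t) → b ∈ Isom B₂ Q₂
  cp : CP B₂ Q₂

/-- A subgroup containing the second factor. -/
structure WP (B₁ : V₁ →ₛₗ[σ] V₁ →ₗ[F] F) (Q₁ : V₁ → F) (B₂ : W →ₛₗ[σ] W →ₗ[F] F) (Q₂ : W → F)
    (B : V₁ ⊗[F] W →ₛₗ[σ] V₁ ⊗[F] W →ₗ[F] F) (Q : V₁ ⊗[F] W → F)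
    (G X : Subgroup (V₁ ⊗[F] W ≃ₗ[F] V₁ ⊗[F] W)) : Prop extends WZ B₁ Q₁ B₂ Q₂ B Q G where
  rad : ∀ b ∈ RGp B₂ Q₂, rG V₁ b ∈ X
  le : X ≤ G

variable {B₁ : V₁ →ₛₗ[σ] V₁ →ₗ[F] F} {Q₁ : V₁ → F} {B₂ : W →ₛₗ[σ] W →ₗ[F] F} {Q₂ : W → F}
  {B : V₁ ⊗[F] W →ₛₗ[σ] V₁ ⊗[F] W →ₗ[F] F} {Q : V₁ ⊗[F] W → F}
  {G X : Subgroup (V₁ ⊗[F] W ≃ₗ[F] V₁ ⊗[F] W)}

namespace WZ

variable (h : WZ B₁ Q₁ B₂ Q₂ B Q G)
include h

theorem eq_ct (x : V₁) (u : W) (v : V₁ ⊗[F] W) : B (x ⊗ₜ u) v = B₁ x (ct (B₂ u) v) := by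
  induction v with
  | zero => simp
  | add a b ha hb => simp [ha, hb]
  | tmul y t => simp [h.eq, mul_comm]

theorem ext₁ {x y : V₁} (e : ∀ z, B₁ z x = B₁ z y) : x = y :=
  sub_eq_zero.1 (h.w₁.nondeg' _ fun z => by rw [map_sub, e, sub_self])

theorem ext₂ {x y : W} (e : ∀ z, B₂ z x = B₂ z y) : x = y :=
  sub_eq_zero.1 (h.w₂.nondeg' _ fun z => by rw [map_sub, e, sub_self])

theorem form_ext {a b : End F (V₁ ⊗[F] W)}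
    (e : ∀ x y s t, B (a (x ⊗ₜ s)) (y ⊗ₜ t) = B (x ⊗ₜ s) (b (y ⊗ₜ t))) (v w : V₁ ⊗[F] W) :
    B (a v) w = B v (b w) := by
  induction v with
  | zero => simp
  | add a b ha hb => simp [ha, hb]
  | tmul x s =>
    induction w with
    | zero => simp
    | add a b ha hb => simp only [map_add, ha, hb]
    | tmul y t => exact e x y s t

theorem congr_isom {a : V₁ ≃ₗ[F] V₁} {b : W ≃ₗ[F] W}
    (e : ∀ x y s t, B₁ (a x) (a y) * B₂ (b s) (b t) = B₁ x y * B₂ s t) :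
    TensorProduct.congr a b ∈ Isom B Q := h.iso a b fun v w => by
  induction v with
  | zero => simp
  | add a b ha hb => simp [ha, hb]
  | tmul x s =>
    induction w with
    | zero => simp
    | add a b ha hb => simp only [map_add, ha, hb]
    | tmul y t => simp [h.eq, e]

theorem rG_isom {b : W ≃ₗ[F] W} (hb : b ∈ Isom B₂ Q₂) : rG V₁ b ∈ Isom B Q :=
  h.congr_isom fun x y s t => by simp [hb.1]

theorem mem_perp_tr {u : W} {v : V₁ ⊗[F] W} :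
    v ∈ perp B (LinearMap.range (tr u)) ↔ ct (B₂ u) v = 0 :=
  ⟨fun e => h.w₁.nondeg' _ fun x => by rw [← h.eq_ct]; exact mem_perp.1 e _ ⟨x, rfl⟩,
    fun e => mem_perp.2 (by rintro _ ⟨x, rfl⟩; simp [h.eq_ct, e])⟩

theorem ct_eq {u : W} {k : V₁ ⊗[F] W ≃ₗ[F] V₁ ⊗[F] W} (hk : ∀ v w, B (k v) (k w) = B v w)
    (e : ∀ x, k (x ⊗ₜ u) = x ⊗ₜ u) (v : V₁ ⊗[F] W) : ct (B₂ u) (k v) = ct (B₂ u) v :=
  h.ext₁ fun x => by rw [← h.eq_ct, ← h.eq_ct, ← hk (x ⊗ₜ u) v, e]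

theorem exists_one : ∃ x y, B₁ x y = 1 := by
  have := h.nt
  obtain ⟨x, hx⟩ := exists_ne (0 : V₁)
  obtain ⟨y, hy⟩ := exists_apply_eq_one (φ := B₁ x) fun e => hx (h.w₁.nondeg x fun y => by simp [e])
  exact ⟨x, y, hy⟩

theorem sing_iff (w : W) : B₂ w w = 0 ↔ Q₂ w = Q₂ 0 := ⟨h.iso₂ w, h.w₂.self_eq_zero⟩

theorem sing_of {u w : W} (hu : Q₂ u = Q₂ 0) {g : V₁ ⊗[F] W ≃ₗ[F] V₁ ⊗[F] W} (hg : g ∈ Isom B Q)
    (e : ∀ x, g (x ⊗ₜ w) ∈ LinearMap.range (tr u)) : Q₂ w = Q₂ 0 := by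
  obtain ⟨x, y, e'⟩ := h.exists_one
  obtain ⟨a, ha⟩ := e x
  obtain ⟨b, hb⟩ := e y
  exact h.iso₂ w (by
    simpa [← ha, ← hb, h.eq, h.w₂.self_eq_zero hu, e'] using (hg.1 (x ⊗ₜ w) (y ⊗ₜ w)).symm)

variable [FiniteDimensional F V₁] [FiniteDimensional F W]

omit [FiniteDimensional F V₁] in
theorem mem_range {u : W} (u0 : u ≠ 0) {v : V₁ ⊗[F] W}
    (e : ∀ r, B₂ u r = 0 → ct (B₂ r) v = 0) : v ∈ LinearMap.range (tr u) :=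
  mem_range_tr u0 fun φ hφ => by
    obtain ⟨r, rfl⟩ := exists_repr_dual h.w₂.surj B₂ h.w₂.nondeg φ
    exact e r (h.w₂.refl hφ)

theorem mem_G {u : W} (hu : Q₂ u = Q₂ 0) {k : V₁ ⊗[F] W ≃ₗ[F] V₁ ⊗[F] W} (hk : k ∈ Isom B Q)
    (e : ∀ x, k (x ⊗ₜ u) = x ⊗ₜ u)
    (e' : ∀ x w, B₂ u w = 0 → k (x ⊗ₜ w) - x ⊗ₜ w ∈ LinearMap.range (tr u)) : k ∈ G :=
  mem_of_radical h.pol (LinearMap.range (tr u)) (by rintro _ ⟨x, rfl⟩; exact h.sing x u hu)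
    (by rintro _ ⟨x, rfl⟩; exact h.mem_perp_tr.2 (by simp [h.w₂.self_eq_zero hu])) hk
    (by rintro _ ⟨x, rfl⟩; exact e x) fun x hx => sub_mem_of_tmul e' (h.mem_perp_tr.1 hx)

theorem rG_mem_G {b : W ≃ₗ[F] W} (hb : b ∈ RGp B₂ Q₂) : rG V₁ b ∈ G := by
  have : RGp B₂ Q₂ ≤ G.comap (rG V₁) := RGp_le fun u hu b hb => by
    refine Subgroup.mem_comap.2 (h.mem_G hu (h.rG_isom hb.1) (fun x => by simp [hb.2.1])
      fun x w hw => ?_)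
    obtain ⟨c, e⟩ := Submodule.mem_span_singleton.1 (hb.2.2.1 w hw)
    exact ⟨c • x, by simp [← tmul_sub, ← e, smul_tmul]⟩
  exact Subgroup.mem_comap.1 (this hb)

omit [FiniteDimensional F V₁] in
theorem exists_move {u u' : W} (u0 : u ≠ 0) (u0' : u' ≠ 0) (hu : Q₂ u = Q₂ 0)
    (hu' : Q₂ u' = Q₂ 0) : ∃ b ∈ RGp B₂ Q₂, ∃ c : F, c ≠ 0 ∧ b u = c • u' :=
  exists_mv h.w₂ h.cp u0 u0' hu hu'

omit [FiniteDimensional F V₁] in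
theorem exists_rad {u : W} (u0 : u ≠ 0) (hu : Q₂ u = Q₂ 0) {φ : Dual F W} (e : φ u = 0) :
    ∃ ρ ∈ RGp B₂ Q₂, ρ u = u ∧ ∀ w, B₂ u w = 0 → ρ w = w + φ w • u := exists_rd h.w₂ u0 hu e

omit [FiniteDimensional F V₁] in
theorem eq_of_fix {u : W} (u0 : u ≠ 0) (hu : Q₂ u = Q₂ 0) {k : V₁ ⊗[F] W ≃ₗ[F] V₁ ⊗[F] W}
    (hk : ∀ v w, B (k v) (k w) = B v w) (e : ∀ x w, B₂ u w = 0 → k (x ⊗ₜ w) = x ⊗ₜ w) :
    ∃ s : End F V₁, ∀ v, k v = v + map s (nU B₂ u) v := by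
  obtain ⟨f, -, hf⟩ := h.w₂.exists_hyperbolic u0 hu
  obtain ⟨ψ, hψ⟩ := exists_dual_eq_one (F := F) u0
  have a5 : ∀ v, ct (B₂ u) v = 0 → k v = v := fun v hv => by
    simpa [sub_eq_zero] using sub_mem_of_tmul (k := k) (S := ⊥) (fun x w hw => by simp [e x w hw]) hv
  refine ⟨ct ψ ∘ₗ (k.toLinearMap - 1) ∘ₗ tr f, fun v => ?_⟩
  obtain ⟨z, hz⟩ := h.mem_range u0 (v := k (ct (B₂ u) v ⊗ₜ f) - ct (B₂ u) v ⊗ₜ f) fun r hr =>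
    h.w₁.nondeg' _ fun x => by
      rw [← h.eq_ct, map_sub, ← hk (x ⊗ₜ r) (_ ⊗ₜ f), e x r hr, sub_self]
  have := a5 (v - ct (B₂ u) v ⊗ₜ f) (by simp [hf])
  rw [map_sub] at this
  simp only [map_nU, LinearMap.comp_apply, tr_apply, LinearMap.sub_apply, LinearEquiv.coe_coe,
    End.one_apply, ← hz, ct_tmul, hψ, one_smul]
  rw [← tr_apply (F := F) u z, hz]
  linear_combination (norm := abel) this

end WZ

theorem un_of_eq {u : W} (hu : B₂ u u = 0) {k : V₁ ⊗[F] W ≃ₗ[F] V₁ ⊗[F] W} (hk : k ∈ X)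
    {s : End F V₁} (e : ∀ v, k v = v + map s (nU B₂ u) v) : Un X (map s (nU B₂ u)) :=
  un_of_apply (fun v => by simp [map_nU, hu]) hk e

/-- The radical of the stabiliser of `V₁ ⊗ u` in `X` is as small as possible. -/
structure Loc (X : Subgroup (V₁ ⊗[F] W ≃ₗ[F] V₁ ⊗[F] W)) (B₂ : W →ₛₗ[σ] W →ₗ[F] F) (u : W) :
    Prop where
  z : ∀ s, Un X (map s (nU B₂ u)) → ∃ c : F, s = c • 1
  θ : ∀ θ, RT X B₂ u θ → ∀ w, B₂ u w = 0 → ∃ c : F, θ w = c • 1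

namespace WZ

variable (h : WZ B₁ Q₁ B₂ Q₂ B Q G) [FiniteDimensional F V₁] [FiniteDimensional F W]
  {u : W} (u0 : u ≠ 0) (hu : Q₂ u = Q₂ 0) (hL : Loc X B₂ u) {g : V₁ ⊗[F] W ≃ₗ[F] V₁ ⊗[F] W}
  (hg : g ∈ Isom B Q) (hX : ∀ b ∈ RGp B₂ Q₂, g⁻¹ * rG V₁ b * g ∈ X)
include h u0 hu hL hg hX

omit [FiniteDimensional F V₁] in
theorem ct_scalar {α : V₁ ≃ₗ[F] V₁} (h2 : ∀ x, g (x ⊗ₜ u) = α x ⊗ₜ u) {φ : Dual F W} (e : φ u = 0)
    {w : W} (hw : B₂ u w = 0) : ∃ c : F, ∀ x, ct φ (g (x ⊗ₜ w)) = c • α x := by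
  have h2' : ∀ v, ct (B₂ u) v = 0 → ct (B₂ u) (g v) = 0 := fun v hv => h.w₁.nondeg' _ fun x => by
    rw [← h.eq_ct, ← α.apply_symm_apply x, ← h2, hg.1, h.eq_ct, hv, map_zero]
  obtain ⟨ρ, a1, a2, a3⟩ := h.exists_rad u0 hu e
  have a4 : ∀ v, ct (B₂ u) v = 0 → rG V₁ ρ v = v + ct φ v ⊗ₜ u := fun v hv => by
    have := mem_of_ct_eq_zero (S := LinearMap.ker ((rG V₁ ρ).toLinearMap - 1 - tr u ∘ₗ ct φ))
      (fun x w hw => by simp [a3 w hw, tmul_add, smul_tmul]) hv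
    simpa [sub_sub, sub_eq_zero] using this
  obtain ⟨c, hc⟩ := hL.θ (curry (α.symm.toLinearMap ∘ₗ ct φ ∘ₗ g.toLinearMap)).flip
    ⟨g⁻¹ * rG V₁ ρ * g, hX ρ a1,
      fun x => g.injective (by simp [apply_inv_apply, h2, a2]), fun x w hw => g.injective (by
        simp [apply_inv_apply, h2, a4 _ (h2' (x ⊗ₜ w) (by simp [hw]))])⟩ w hw
  exact ⟨c, fun x => α.symm.injective (by simpa using LinearMap.congr_fun hc x)⟩

theorem exists_levi (h3 : 3 ≤ finrank F W ∨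
      ∃ c : F, c ≠ 0 ∧ ∃ t ∈ Rad B₂ Q₂ u ⊤, ∀ w, t w = w + (c * B₂ u w) • u)
    (h1 : ∀ x, g (x ⊗ₜ u) ∈ LinearMap.range (tr u)) :
    ∃ α b μ, μ ≠ 0 ∧ (∀ s t, B₂ (b s) (b t) = μ * B₂ s t) ∧ TensorProduct.congr α b ∈ Isom B Q ∧
      (∀ x, ((TensorProduct.congr α b)⁻¹ * g) (x ⊗ₜ u) = x ⊗ₜ u) ∧ ∀ x w, B₂ u w = 0 →
        ((TensorProduct.congr α b)⁻¹ * g) (x ⊗ₜ w) - x ⊗ₜ w ∈ LinearMap.range (tr u) := by
  have hW := h.w₂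
  obtain ⟨f, qf, hf⟩ := hW.exists_hyperbolic u0 hu
  have hu' := hW.self_eq_zero hu
  have hf' := hW.self_eq_zero qf
  have fu : B₂ f u ≠ 0 := fun e => by simpa [hf] using hW.refl e
  obtain ⟨ψ, hψ⟩ := exists_dual_eq_one (F := F) u0
  have h2 : ∀ x, g (x ⊗ₜ u) = ct ψ (g (x ⊗ₜ u)) ⊗ₜ u := fun x => by
    obtain ⟨y, hy⟩ := h1 x
    simp [← hy, hψ]
  let α := LinearEquiv.ofInjectiveEndo (ct ψ ∘ₗ g.toLinearMap ∘ₗ tr u) fun x y e =>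
    tmul_left_inj u0 (g.injective (by rw [h2 x, h2 y]; exact congrArg (· ⊗ₜ u) e))
  replace h2 : ∀ x, g (x ⊗ₜ u) = α x ⊗ₜ u := h2
  have h2'' : ∀ x v, B₁ (α x) (ct (B₂ u) (g v)) = B₁ x (ct (B₂ u) v) := fun x v => by
    rw [← h.eq_ct, ← h2, hg.1, h.eq_ct]
  have h2' : ∀ v, ct (B₂ u) v = 0 → ct (B₂ u) (g v) = 0 := fun v hv => h.w₁.nondeg' _ fun x => by
    rw [← α.apply_symm_apply x, h2'', hv, map_zero]
  have := h.nt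
  obtain ⟨x₀, hx⟩ := exists_ne (0 : V₁)
  obtain ⟨l, hl⟩ := exists_dual_eq_one (F := F) hx
  let β : End F W := cl (l ∘ₗ α.symm) ∘ₗ g.toLinearMap ∘ₗ TensorProduct.mk F V₁ W x₀
  have h4 : β u = u := by simp [β, h2, hl]
  have h5 : ∀ x w, B₂ u w = 0 → g (x ⊗ₜ w) - α x ⊗ₜ β w ∈ LinearMap.range (tr u) := fun x w hw =>
    mem_range_tr u0 fun φ e => by
      obtain ⟨c, h6⟩ := h.ct_scalar u0 hu hL hg hX h2 e hw
      simp [β, apply_cl, h6, hl]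
  have h6 : ∀ w, B₂ u w = 0 → B₂ u (β w) = 0 := fun w hw => by
    simp [β, apply_cl, h2' (x₀ ⊗ₜ w) (by simp [hw])]
  have h7 : ∀ x y w w', B₂ u w = 0 → B₂ u w' = 0 →
      B₁ (α x) (α y) * B₂ (β w) (β w') = B₁ x y * B₂ w w' := fun x y w w' hw hw' => by
    obtain ⟨a, e⟩ := h5 x w hw
    obtain ⟨a', e'⟩ := h5 y w' hw'
    rw [← h.eq x, ← hg.1, sub_eq_iff_eq_add.1 e.symm, sub_eq_iff_eq_add.1 e'.symm]
    simp [h.eq, hu', h6 w' hw', hW.refl (h6 w hw)]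
  obtain ⟨μ, h8⟩ : ∃ μ, ∀ x y, B₁ (α x) (α y) * μ = B₁ x y := by
    obtain h3 | ⟨c, c0, t, a1, a2⟩ := h3
    · obtain ⟨w₀, w₁, a1, -, a2, -, a3⟩ := hW.exists_perp_pair h3 hu qf (by simp [hf])
      exact ⟨_, fun x y => by rw [h7 x y w₀ w₁ a1 a2, a3, mul_one]⟩
    have a3 : ∀ v, rG V₁ t v = v + c • ct (B₂ u) v ⊗ₜ u := fun v => by
      induction v with
      | zero => simp
      | add a b ha hb => simp only [map_add, ha, hb, add_tmul, smul_add]; abel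
      | tmul x w => simp [a2, tmul_add, smul_smul, smul_tmul']
    obtain ⟨s, hs⟩ := h.eq_of_fix u0 hu (k := g⁻¹ * rG V₁ t * g)
      (mul_mem (mul_mem (inv_mem hg) (h.rG_isom a1.1)) hg).1 fun x w hw => g.injective (by
        simp [apply_inv_apply, a3, h2' (x ⊗ₜ w) (by simp [hw])])
    obtain ⟨d, rfl⟩ := hL.z s (un_of_eq hu' (hX t (mem_RGp hu a1)) hs)
    refine ⟨d / c, fun x y => ?_⟩
    have a4 := congrArg g (hs (y ⊗ₜ f))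
    simp only [LinearEquiv.mul_apply, apply_inv_apply, a3, map_add, map_tmul, nU_apply, hf,
      one_smul, h2, add_right_inj, smul_tmul'] at a4
    have a5 := h2'' x (y ⊗ₜ f)
    have a6 := congrArg (B₁ (α x)) (tmul_left_inj u0 a4)
    simp only [ct_tmul, hf, one_smul, map_smul, LinearMap.smul_apply, End.one_apply, a5,
      smul_eq_mul] at a5 a6
    field_simp
    linear_combination -a6
  obtain ⟨y₀, hy, -⟩ := h.w₁.exists_dual_vec (x := x₀) (Z := ⊥) (by simpa using hx)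
  have h9 : ∀ w w', B₂ u w = 0 → B₂ u w' = 0 → B₂ (β w) (β w') = μ * B₂ w w' :=
    fun w w' hw hw' => by
      linear_combination μ * h7 x₀ y₀ w w' hw hw' - B₂ (β w) (β w') * h8 x₀ y₀ -
        (B₂ (β w) (β w') - μ * B₂ w w') * hy
  have h10 : σ μ = μ := by
    have := h.w₁.symm (α x₀) (μ • α y₀) x₀ y₀ (by rw [map_smul, ← h8 x₀, smul_eq_mul, mul_comm])
    rw [LinearMap.map_smulₛₗ₂, ← h8 y₀, smul_eq_mul, mul_comm] at this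
    exact mul_left_cancel₀ (fun e => by simpa [hy, h.w₁.refl e] using h8 x₀ y₀) this
  let p : End F W := 1 - (B₂ u).smulRight f - ((B₂ f u)⁻¹ • B₂ f).smulRight u
  have p1 : ∀ s, B₂ u (p s) = 0 := fun s => by simp [p, hf, hu']
  have p2 : ∀ s, B₂ f (p s) = 0 := fun s => by simp [p, hf', fu]; field_simp; ring
  have p3 : ∀ s, s = p s + B₂ u s • f + ((B₂ f u)⁻¹ * B₂ f s) • u := fun s => by
    simp only [p, LinearMap.sub_apply, LinearMap.smulRight_apply, LinearMap.smul_apply, smul_eq_mul,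
      Module.End.one_apply]
    abel
  have p4 : ∀ s t, B₂ u s = 0 → B₂ u t = 0 → B₂ (p s) (p t) = B₂ s t := fun s t hs ht => by
    simp [p, hs, ht, hu', hW.refl hs]
  let b₀ : End F W := p * β * p + (μ • B₂ u).smulRight f + ((B₂ f u)⁻¹ • B₂ f).smulRight u
  have h11 : ∀ s t, B₂ (b₀ s) (b₀ t) = μ * B₂ s t := fun s t => by
    conv_rhs => rw [p3 s, p3 t]
    simp only [b₀, LinearMap.add_apply, Module.End.mul_apply, LinearMap.smulRight_apply,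
      LinearMap.smul_apply, map_add, map_smul, LinearMap.map_smulₛₗ₂, p1, p2, hW.refl (p1 _),
      hW.refl (p2 _), p4 _ _ (h6 _ (p1 s)) (h6 _ (p1 t)), h9 _ _ (p1 s) (p1 t), hf, hf', hu',
      smul_eq_mul, map_mul, h10]
    ring
  have μ0 : μ ≠ 0 := by rintro rfl; simpa [hy] using h8 x₀ y₀
  let b := LinearEquiv.ofInjectiveEndo b₀ ((injective_iff_map_eq_zero b₀).2 fun s e =>
    hW.nondeg s fun t => by simpa [e, μ0] using h11 s t)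
  have h12 : TensorProduct.congr α b ∈ Isom B Q := h.congr_isom fun x y s t => by
    change _ * B₂ (b₀ s) (b₀ t) = _
    rw [h11, ← mul_assoc, h8]
  have h13 : b u = u := by simp [b, b₀, p, hu', fu]
  refine ⟨α, b, μ, μ0, h11, h12, fun x => (TensorProduct.congr α b).injective (by
    rw [LinearEquiv.mul_apply, apply_inv_apply, h2, congr_tmul, h13]), fun x w hw => ?_⟩
  obtain ⟨y, e⟩ := h5 x w hw
  obtain ⟨c, e'⟩ : ∃ c : F, β w = b w + c • u := by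
    refine ⟨(B₂ f u)⁻¹ * B₂ f (β (p w)), ?_⟩
    have e1 := p3 w
    have e2 := p3 (β (p w))
    rw [hw, zero_smul, add_zero] at e1
    rw [h6 _ (p1 w), zero_smul, add_zero] at e2
    have e3 : b w = p (β (p w)) + ((B₂ f u)⁻¹ * B₂ f w) • u := by simp [b, b₀, hw]
    rw [e3, congrArg β e1, map_add, map_smul, h4, add_right_comm, ← e2]
  refine ⟨α.symm y + c • x, (TensorProduct.congr α b).injective ?_⟩
  rw [map_sub, LinearEquiv.mul_apply, apply_inv_apply, sub_eq_iff_eq_add.1 e.symm, e']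
  simp [h13, add_tmul, tmul_add, smul_tmul]
  abel

end WZ

/-- The stabiliser of `u` has no coinvariants on `u^⊥ ⊗ u^*`. -/
def StA (B : W →ₛₗ[σ] W →ₗ[F] F) (Q : W → F) (u : W) : Prop :=
  ∀ L : Submodule F W, (∀ c ∈ RGp B Q, ∀ γ : F, c u = γ • u → ∀ w, B u w = 0 → c w - γ • w ∈ L) →
    ∀ w, B u w = 0 → w ∈ L

/-- A long root of the stabiliser of `u` is non-trivial, or the Witt index is at least two. -/
def StB (B : W →ₛₗ[σ] W →ₗ[F] F) (Q : W → F) (u : W) : Prop :=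
  (∃ c ∈ RGp B Q, ∃ γ : F, c u = γ • u ∧ γ * σ γ ≠ 1) ∨ ∃ s, Q s = Q 0 ∧ B u s = 0 ∧ s ∉ F ∙ u

theorem mem_ten_of_eq {u : W} (hu : B₂ u u = 0) {k : V₁ ⊗[F] W ≃ₗ[F] V₁ ⊗[F] W} {c : F}
    (e : ∀ v, k v = v + map (c • 1) (nU B₂ u) v) : k ∈ TenG F V₁ W := by
  rw [show k = rG V₁ (unip (c • nU B₂ u) (LinearMap.ext fun v => by simp [hu])) from
    tensor_ext fun x w => by simp [e, unip_apply, tmul_add, smul_tmul, smul_smul, mul_comm]]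
  exact rG_mem _

theorem inv_of_eq {u : W} (hu : B₂ u u = 0) {k : V₁ ⊗[F] W ≃ₗ[F] V₁ ⊗[F] W} {s : End F V₁}
    (e : ∀ v, k v = v + map s (nU B₂ u) v) (v : V₁ ⊗[F] W) : k⁻¹ v = v - map s (nU B₂ u) v :=
  k.injective (by rw [apply_inv_apply, e, map_nU, map_nU]; simp [hu])

theorem exists_theta [FiniteDimensional F W] {u : W} (u0 : u ≠ 0) {k : V₁ ⊗[F] W ≃ₗ[F] V₁ ⊗[F] W}
    (e' : ∀ x w, B₂ u w = 0 → k (x ⊗ₜ w) - x ⊗ₜ w ∈ LinearMap.range (tr u)) :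
    ∃ θ : W →ₗ[F] End F V₁, ∀ x w, B₂ u w = 0 → k (x ⊗ₜ w) = x ⊗ₜ w + θ w x ⊗ₜ u := by
  obtain ⟨ψ, hψ⟩ := exists_dual_eq_one (F := F) u0
  refine ⟨(curry (ct ψ ∘ₗ (k.toLinearMap - 1))).flip, fun x w hw => eq_add_of_sub_eq' ?_⟩
  obtain ⟨y, hy⟩ := e' x w hw
  simp [← hy, hψ]

namespace WZ

variable (h : WZ B₁ Q₁ B₂ Q₂ B Q G) [FiniteDimensional F V₁] [FiniteDimensional F W]
  {u : W} (u0 : u ≠ 0) (hu : Q₂ u = Q₂ 0)
include h u0 hu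

theorem exists_z {k : V₁ ⊗[F] W ≃ₗ[F] V₁ ⊗[F] W} (hk : k ∈ Isom B Q) {θ : W →ₗ[F] End F V₁}
    (e : ∀ x, k (x ⊗ₜ u) = x ⊗ₜ u) (h1 : ∀ x w, B₂ u w = 0 → k (x ⊗ₜ w) = x ⊗ₜ w + θ w x ⊗ₜ u)
    (hθ : ∀ w, B₂ u w = 0 → ∃ c : F, θ w = c • 1) :
    ∃ ρ ∈ RGp B₂ Q₂, ∃ s, ∀ v, ((rG V₁ ρ)⁻¹ * k) v = v + map s (nU B₂ u) v := by
  have := h.nt
  obtain ⟨x₀, hx⟩ := exists_ne (0 : V₁)
  obtain ⟨l, hl⟩ := exists_dual_eq_one (F := F) hx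
  obtain ⟨ρ, a1, a2, a3⟩ := h.exists_rad u0 hu (φ := l ∘ₗ LinearMap.applyₗ x₀ ∘ₗ θ) (by
    have := h1 x₀ u (h.w₂.self_eq_zero hu)
    rw [e, left_eq_add, ← zero_tmul V₁ u] at this
    simp [tmul_left_inj u0 this])
  refine ⟨ρ, a1, h.eq_of_fix u0 hu (mul_mem (inv_mem (h.rG_isom (RGp_le_isom a1))) hk).1
    fun x w hw => (rG V₁ ρ).injective ?_⟩
  obtain ⟨c, hc⟩ := hθ w hw
  rw [LinearEquiv.mul_apply, apply_inv_apply, h1 x w hw, rG_tmul, a3 w hw]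
  simp [hc, hl, tmul_add, smul_tmul]

variable (hL : Loc X B₂ u)
include hL

theorem mem_of_rad (hr : ∀ b ∈ RGp B₂ Q₂, rG V₁ b ∈ X) {k : V₁ ⊗[F] W ≃ₗ[F] V₁ ⊗[F] W}
    (hk : k ∈ X) (hk' : k ∈ Isom B Q) (e : ∀ x, k (x ⊗ₜ u) = x ⊗ₜ u)
    (e' : ∀ x w, B₂ u w = 0 → k (x ⊗ₜ w) - x ⊗ₜ w ∈ LinearMap.range (tr u)) :
    k ∈ TenG F V₁ W := by
  obtain ⟨θ, h1⟩ := exists_theta u0 e'
  obtain ⟨ρ, a1, s, a2⟩ := h.exists_z u0 hu hk' e h1 (hL.θ θ ⟨k, hk, e, h1⟩)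
  obtain ⟨c, rfl⟩ := hL.z s (un_of_eq (h.w₂.self_eq_zero hu) (mul_mem (inv_mem (hr ρ a1)) hk) a2)
  simpa using mul_mem (rG_mem ρ) (mem_ten_of_eq (h.w₂.self_eq_zero hu) a2)

theorem decomp (hr : ∀ b ∈ RGp B₂ Q₂, rG V₁ b ∈ X) (hA : StA B₂ Q₂ u) (h3 : 3 ≤ finrank F W ∨
      ∃ c : F, c ≠ 0 ∧ ∃ t ∈ Rad B₂ Q₂ u ⊤, ∀ w, t w = w + (c * B₂ u w) • u)
    {g : V₁ ⊗[F] W ≃ₗ[F] V₁ ⊗[F] W} (hg : g ∈ Isom B Q)
    (hX : ∀ b ∈ RGp B₂ Q₂, g⁻¹ * rG V₁ b * g ∈ X)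
    (h1 : ∀ x, g (x ⊗ₜ u) ∈ LinearMap.range (tr u)) :
    ∃ t ∈ TenG F V₁ W, ∃ k ∈ Isom B Q, g = t * k ∧ (∀ b ∈ RGp B₂ Q₂, k⁻¹ * rG V₁ b * k ∈ X) ∧
      ∃ s, ∀ v, k v = v + map s (nU B₂ u) v := by
  obtain ⟨α, b, μ, μ0, a1, a2, a3, a4⟩ := h.exists_levi u0 hu hL hg hX h3 h1
  have a5 := mul_mem (inv_mem a2) hg
  have a6 : ∀ c ∈ RGp B₂ Q₂, ((TensorProduct.congr α b)⁻¹ * g)⁻¹ * rG V₁ c *
      ((TensorProduct.congr α b)⁻¹ * g) ∈ X := fun c hc => by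
    convert hX _ (conj_mem_RGp h.sing_iff h.isoW μ0 a1 hc) using 1
    rw [show rG V₁ (b * c * b⁻¹) = TensorProduct.congr α b * rG V₁ c * (TensorProduct.congr α b)⁻¹
      from tensor_ext fun x w => by
        change x ⊗ₜ b (c (b⁻¹ w)) = α (α⁻¹ x) ⊗ₜ b (c (b⁻¹ w))
        rw [apply_inv_apply]]
    group
  generalize hk : (TensorProduct.congr α b)⁻¹ * g = k at a3 a4 a5 a6
  obtain ⟨θ, b1⟩ := exists_theta u0 a4
  have b2 : ∀ x, k⁻¹ (x ⊗ₜ u) = x ⊗ₜ u := fun x => k.injective (by rw [apply_inv_apply, a3])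
  have b3 : ∀ x w, B₂ u w = 0 → k⁻¹ (x ⊗ₜ w) = x ⊗ₜ w - θ w x ⊗ₜ u := fun x w hw =>
    k.injective (by simp [apply_inv_apply, a3, b1 x w hw])
  obtain ⟨ρ, c1, s, c2⟩ := h.exists_z u0 hu a5 a3 b1 fun w hw => by
    refine (Submodule.mem_span_singleton.1 (hA ((F ∙ (1 : End F V₁)).comap θ)
      (fun c hc γ e w hw => ?_) w hw)).imp fun _ => Eq.symm
    have γ0 : γ ≠ 0 := by rintro rfl; exact u0 (by simpa using e)
    have d1 := (RGp_le_isom hc).1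
    have d2 : ∀ w, B₂ u (c w) = 0 ↔ B₂ u w = 0 := fun w => by simp [← d1 u w, e, γ0]
    obtain ⟨d, hd⟩ := hL.θ (γ • θ ∘ₗ (c⁻¹ : W ≃ₗ[F] W) - θ) ⟨k⁻¹ * rG V₁ c * k * (rG V₁ c)⁻¹,
      mul_mem (a6 c hc) (inv_mem (hr c hc)), fun x => by
        rw [show x ⊗ₜ[F] u = rG V₁ c ((γ⁻¹ • x) ⊗ₜ u) by simp [e, smul_tmul, smul_smul, γ0]]
        simp only [LinearEquiv.mul_apply, inv_apply_apply, a3]
        simp [e, b2], fun x w hw => by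
        obtain ⟨w, rfl⟩ := c.surjective w
        rw [← rG_tmul]
        simp only [LinearEquiv.mul_apply, inv_apply_apply, b1 x w ((d2 w).1 hw)]
        rw [map_add, rG_tmul, rG_tmul, e, map_add, b3 x _ hw, ← smul_tmul, b2]
        simp [sub_tmul]
        abel⟩ (c w) ((d2 w).2 hw)
    refine Submodule.mem_span_singleton.2 ⟨-d, ?_⟩
    simp [neg_smul, ← hd, inv_apply_apply]
  refine ⟨TensorProduct.congr α b * rG V₁ ρ, mul_mem (congr_mem_TenG α b) (rG_mem ρ), _,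
    mul_mem (inv_mem (h.rG_isom (RGp_le_isom c1))) a5, by rw [← hk]; group, fun c hc => ?_, s, c2⟩
  convert a6 _ (mul_mem (mul_mem c1 hc) (inv_mem c1)) using 1
  simp [mul_assoc]

theorem scalar_of_StB (hr : ∀ b ∈ RGp B₂ Q₂, rG V₁ b ∈ X) (hB : StB B₂ Q₂ u)
    {k : V₁ ⊗[F] W ≃ₗ[F] V₁ ⊗[F] W} (hk : k ∈ Isom B Q)
    (hX : ∀ b ∈ RGp B₂ Q₂, k⁻¹ * rG V₁ b * k ∈ X) {s : End F V₁}
    (e : ∀ v, k v = v + map s (nU B₂ u) v) : ∃ c : F, s = c • 1 := by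
  have hW := h.w₂
  have hu' := hW.self_eq_zero hu
  have H : ∀ c ∈ RGp B₂ Q₂, ∀ (γ : F) u', c u = γ • u' → ∀ x w,
      (rG V₁ c * k * (rG V₁ c)⁻¹) (x ⊗ₜ w) = x ⊗ₜ w + (γ * σ γ * B₂ u' w) • s x ⊗ₜ u' :=
    fun c hc γ u' e' x w => by
    obtain ⟨w, rfl⟩ := c.surjective w
    rw [← rG_tmul, LinearEquiv.mul_apply, inv_apply_apply, LinearEquiv.mul_apply, e]
    simp [← (RGp_le_isom hc).1 u w, e', smul_smul, mul_comm, mul_left_comm, mul_assoc]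
  obtain ⟨c, hc, γ, a1, a2⟩ | ⟨u', a1, a2, a3⟩ := hB
  · obtain ⟨d, hd⟩ := hL.z ((γ * σ γ - 1) • s) (un_of_eq hu'
      (k := k⁻¹ * (rG V₁ c * k * (rG V₁ c)⁻¹))
      (by simpa only [mul_assoc] using mul_mem (hX c hc) (inv_mem (hr c hc))) fun v => by
        induction v with
        | zero => simp
        | add a b ha hb => simp only [map_add, ha, hb]; abel
        | tmul x w =>
          rw [LinearEquiv.mul_apply, H c hc γ u a1, inv_of_eq hu' e]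
          simp [hu', ← smul_tmul', smul_smul]
          module)
    exact ⟨(γ * σ γ - 1)⁻¹ * d, by rw [mul_smul, ← hd, inv_smul_smul₀ (sub_ne_zero.2 a2)]⟩
  obtain ⟨c, hc, γ, γ0, a4⟩ := h.exists_move u0 (by rintro rfl; exact a3 (zero_mem _)) hu a1
  obtain ⟨φ, a5, a6⟩ := exists_dual_sep a3
  obtain ⟨w, a7, a8⟩ := hW.exists_dual_vec a3
  have a9 := mul_mem (hX c hc) (inv_mem (hr c hc))
  rw [mul_assoc, mul_assoc, ← mul_assoc (rG V₁ c)] at a9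
  obtain ⟨d, hd⟩ := h.ct_scalar u0 hu hL (g := k⁻¹ * (rG V₁ c * k * (rG V₁ c)⁻¹))
    (mul_mem (inv_mem hk) (mul_mem (mul_mem (h.rG_isom (RGp_le_isom hc)) hk)
      (inv_mem (h.rG_isom (RGp_le_isom hc)))))
    (fun b hb => mul_mem (mul_mem (inv_mem a9) (hr b hb)) a9) (α := 1) (fun x => by
      rw [LinearEquiv.mul_apply, H c hc γ u' a4, inv_of_eq hu' e]
      simp [hu', hW.refl a2]) a5 (a8 u (Submodule.mem_span_singleton_self u))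
  refine ⟨(γ * σ γ)⁻¹ * (d - φ w), LinearMap.ext fun x => ?_⟩
  have := hd x
  rw [LinearEquiv.mul_apply, H c hc γ u' a4, inv_of_eq hu' e] at this
  simp only [map_sub, map_add, ct_tmul, a7, a6, a5, map_nU, map_smul, a2, mul_one, one_smul,
    zero_smul, sub_zero, LinearEquiv.coe_one, id, smul_zero, add_zero] at this
  rw [LinearMap.smul_apply, End.one_apply, mul_smul, sub_smul, ← this, add_sub_cancel_left,
    inv_smul_smul₀ (by simp [γ0])]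

end WZ

/-- The local criterion for membership of the tensor product subgroup. -/
theorem WP.mem_ten (h : WP B₁ Q₁ B₂ Q₂ B Q G X) [FiniteDimensional F V₁] [FiniteDimensional F W]
    {u w : W} (u0 : u ≠ 0) (hu : Q₂ u = Q₂ 0) (w0 : w ≠ 0) {g : V₁ ⊗[F] W ≃ₗ[F] V₁ ⊗[F] W}
    (hg : g ∈ Isom B Q) (h1 : ∀ x, g (x ⊗ₜ w) ∈ LinearMap.range (tr u))
    (H : Q₂ w = Q₂ 0 → ∀ b ∈ RGp B₂ Q₂, (∀ x, (rG V₁ b * g) (x ⊗ₜ w) ∈ LinearMap.range (tr w)) →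
      rG V₁ b * g ∈ TenG F V₁ W) : g ∈ TenG F V₁ W := by
  have hw := h.sing_of hu hg h1
  obtain ⟨b, hb, c, -, e⟩ := h.exists_move u0 w0 hu hw
  simpa using mul_mem (inv_mem (rG_mem b)) (H hw b hb fun x => by
    obtain ⟨y, hy⟩ := h1 x
    exact ⟨c • y, by simp [← hy, e, smul_tmul]⟩)

theorem WP.loc_of_St (h : WP B₁ Q₁ B₂ Q₂ B Q G X) [FiniteDimensional F V₁] [FiniteDimensional F W]
    (H : ∀ u, u ≠ 0 → Q₂ u = Q₂ 0 → Loc X B₂ u ∧ StA B₂ Q₂ u ∧ StB B₂ Q₂ u ∧ (3 ≤ finrank F W ∨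
      ∃ c : F, c ≠ 0 ∧ ∃ t ∈ Rad B₂ Q₂ u ⊤, ∀ w, t w = w + (c * B₂ u w) • u))
    {u w : W} (u0 : u ≠ 0) (hu : Q₂ u = Q₂ 0) (w0 : w ≠ 0) {g : V₁ ⊗[F] W ≃ₗ[F] V₁ ⊗[F] W}
    (hg : g ∈ Isom B Q) (hX : ∀ b ∈ RGp B₂ Q₂, g⁻¹ * rG V₁ b * g ∈ X)
    (h1 : ∀ x, g (x ⊗ₜ w) ∈ LinearMap.range (tr u)) : g ∈ TenG F V₁ W :=
  h.mem_ten u0 hu w0 hg h1 fun hw b hb e => by
    obtain ⟨a1, a2, a3, a4⟩ := H w w0 hw
    obtain ⟨t, b1, k, b2, b3, b4, s, b5⟩ := h.decomp w0 hw a1 h.rad a2 a4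
      (mul_mem (h.rG_isom (RGp_le_isom hb)) hg) (fun c hc => by
        simpa [mul_assoc] using hX _ (mul_mem (mul_mem (inv_mem hb) hc) hb)) e
    obtain ⟨c, rfl⟩ := h.scalar_of_StB w0 hw a1 h.rad a3 b2 b4 b5
    exact b3 ▸ mul_mem b1 (mem_ten_of_eq (h.w₂.self_eq_zero hw) b5)

end CF.MaxSub
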