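/-
Tensor factors of an algebra: components, lifting of operators, pure elements.
-/
import Cfsg.Agent.MaxSub.TE
import Mathlib.GroupTheory.NoncommPiCoprod

set_option autoImplicit false

namespace CF.MaxSub

open Module

variable {F W R : Type*} [Field F] [AddCommGroup W] [Module F W] [Ring R] [Algebra F R]

/-- The commutant of a factor. -/
def Cm (φ : End F W →ₐ[F] R) : Subalgebra F R := Subalgebra.centralizer F (Set.range φ)

theorem mem_Cm {φ : End F W →ₐ[F] R} {c : R} : c ∈ Cm φ ↔ ∀ a, φ a * c = c * φ a := by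
  simp [Cm, Subalgebra.mem_centralizer_iff]

theorem smulRight_mul (ψ ψ' : Dual F W) (u u' : W) :
    ψ.smulRight u * ψ'.smulRight u' = ψ u' • ψ'.smulRight u := by
  ext v; simp [smul_smul, mul_comm]

theorem mul_smulRight (a : End F W) (ψ : Dual F W) (u : W) :
    a * ψ.smulRight u = ψ.smulRight (a u) := by
  ext v; simp

theorem smulRight_mul' (a : End F W) (ψ : Dual F W) (u : W) :
    ψ.smulRight u * a = (ψ ∘ₗ a).smulRight u := by
  ext v; simp

variable [FiniteDimensional F W]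

/-- Matrix units. -/
noncomputable def eu (i j : Fin (finrank F W)) : End F W :=
  ((finBasis F W).coord j).smulRight (finBasis F W i)

theorem sum_eu (a : End F W) : ∑ i, ∑ j, (finBasis F W).coord i (a (finBasis F W j)) • eu i j = a :=
  (finBasis F W).ext fun k => by
    simp [eu, LinearMap.sum_apply, Finsupp.single_apply]

theorem sum_eu_diag : ∑ i, eu i i = (1 : End F W) :=
  (finBasis F W).ext fun k => by simp [eu, LinearMap.sum_apply, Finsupp.single_apply]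

variable (φ : End F W →ₐ[F] R)

/-- The component of `y` at `(ψ, u)`. -/
noncomputable def cmp (ψ : Dual F W) (u : W) : R →ₗ[F] R :=
  ∑ i, LinearMap.mulLeftRight F (φ (ψ.smulRight (finBasis F W i)),
    φ (((finBasis F W).coord i).smulRight u))

theorem cmp_apply (ψ : Dual F W) (u : W) (y : R) : cmp φ ψ u y =
    ∑ i, φ (ψ.smulRight (finBasis F W i)) * y * φ (((finBasis F W).coord i).smulRight u) := by
  simp [cmp, LinearMap.sum_apply]

theorem cmp_mul_smulRight (ψ ψ' : Dual F W) (u u' : W) (y : R) :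
    cmp φ ψ u y * φ (ψ'.smulRight u') = φ (ψ.smulRight u') * y * φ (ψ'.smulRight u) := by
  conv_rhs => rw [← (finBasis F W).sum_repr u']
  simp only [cmp_apply, Finset.sum_mul, mul_assoc, ← map_mul, smulRight_mul, map_smul,
    mul_smul_comm]
  rw [show ψ.smulRight (∑ i, (finBasis F W).repr u' i • finBasis F W i) =
    ∑ i, (finBasis F W).repr u' i • ψ.smulRight (finBasis F W i) by
      ext v; simp only [LinearMap.smulRight_apply, LinearMap.sum_apply, LinearMap.smul_apply,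
        Finset.smul_sum, smul_comm (ψ v)]]
  simp [Finset.sum_mul]

theorem smulRight_mul_cmp (ψ ψ' : Dual F W) (u u' : W) (y : R) :
    φ (ψ'.smulRight u') * cmp φ ψ u y = φ (ψ.smulRight u') * y * φ (ψ'.smulRight u) := by
  conv_rhs => rw [← (finBasis F W).sum_dual_apply_smul_coord ψ']
  simp only [cmp_apply, Finset.mul_sum, ← mul_assoc, ← map_mul, smulRight_mul, map_smul,
    smul_mul_assoc]
  rw [show (∑ i, ψ' (finBasis F W i) • (finBasis F W).coord i).smulRight u =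
    ∑ i, ψ' (finBasis F W i) • ((finBasis F W).coord i).smulRight u by
      ext v; simp only [LinearMap.smulRight_apply, LinearMap.sum_apply, LinearMap.smul_apply,
        Finset.sum_smul, smul_assoc]]
  simp [Finset.mul_sum]

theorem cmp_mem (ψ : Dual F W) (u : W) (y : R) : cmp φ ψ u y ∈ Cm φ := mem_Cm.2 fun a => by
  rw [← sum_eu a]
  simp only [map_sum, map_smul, Finset.sum_mul, Finset.mul_sum, smul_mul_assoc, mul_smul_comm, eu,
    cmp_mul_smulRight, smulRight_mul_cmp]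

variable {φ}

theorem cmp_mul {c : R} (hc : c ∈ Cm φ) (ψ : Dual F W) (u : W) (a : End F W) :
    cmp φ ψ u (c * φ a) = ψ (a u) • c := by
  have : ∀ i, φ (ψ.smulRight (finBasis F W i)) * (c * φ a) *
      φ (((finBasis F W).coord i).smulRight u) = ψ (a u) • (c * φ (eu i i)) := fun i => by
    rw [← mul_assoc, mem_Cm.1 hc, mul_assoc, mul_assoc, ← map_mul, ← map_mul, mul_smulRight,
      smulRight_mul, map_smul, mul_smul_comm, eu]
  simp only [cmp_apply, this, ← Finset.smul_sum, ← Finset.mul_sum, ← map_sum, sum_eu_diag, map_one,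
    mul_one]

theorem eq_zero_of_mul {c : R} (hc : c ∈ Cm φ) {a : End F W} (ha : a ≠ 0) (e : c * φ a = 0) :
    c = 0 := by
  obtain ⟨u, hu⟩ := DFunLike.ne_iff.1 ha
  obtain ⟨ψ, hψ⟩ := exists_dual_eq_one (F := F) hu
  simpa [hψ, e] using (cmp_mul hc ψ u a).symm

variable (φ)

theorem sum_cmp (y : R) :
    ∑ i, ∑ j, cmp φ ((finBasis F W).coord i) (finBasis F W j) y * φ (eu i j) = y := by
  simp only [eu, cmp_mul_smulRight, ← Finset.mul_sum, ← Finset.sum_mul, ← map_sum]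
  rw [show ∑ i, ((finBasis F W).coord i).smulRight (finBasis F W i) = 1 from sum_eu_diag]
  simp

theorem fac_ext {M : Type*} [AddCommGroup M] [Module F M] {f g : R →ₗ[F] M}
    (h : ∀ c ∈ Cm φ, ∀ a, f (c * φ a) = g (c * φ a)) : f = g := LinearMap.ext fun y => by
  rw [← sum_cmp φ y]
  simp only [map_sum, h _ (cmp_mem φ _ _ _)]

/-- The operator `1 ⊗ D`. -/
noncomputable def lft (D : End F (End F W)) : End F R :=
  ∑ i, ∑ j, LinearMap.mulRight F (φ (D (eu i j))) ∘ₗ cmp φ ((finBasis F W).coord i) (finBasis F W j)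

/-- The map `l ⊗ 1`. -/
noncomputable def lam (l : Dual F R) : R →ₗ[F] End F W :=
  ∑ i, ∑ j, (l ∘ₗ cmp φ ((finBasis F W).coord i) (finBasis F W j)).smulRight (eu i j)

/-- The map `1 ⊗ l`. -/
noncomputable def ctrE (l : Dual F (End F W)) : End F R :=
  ∑ i, ∑ j, l (eu i j) • cmp φ ((finBasis F W).coord i) (finBasis F W j)

theorem ctrE_mem (l : Dual F (End F W)) (y : R) : ctrE φ l y ∈ Cm φ := by
  simp only [ctrE, LinearMap.sum_apply, LinearMap.smul_apply]
  exact sum_mem fun _ _ => sum_mem fun _ _ => Subalgebra.smul_mem _ (cmp_mem φ _ _ _) _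

variable {φ}

theorem lft_mul {c : R} (hc : c ∈ Cm φ) (D : End F (End F W)) (a : End F W) :
    lft φ D (c * φ a) = c * φ (D a) := by
  conv_rhs => rw [← sum_eu a]
  simp [lft, LinearMap.sum_apply, cmp_mul hc, Finset.mul_sum]

theorem lam_mul {c : R} (hc : c ∈ Cm φ) (l : Dual F R) (a : End F W) :
    lam φ l (c * φ a) = l c • a := by
  conv_rhs => rw [← sum_eu a]
  simp [lam, LinearMap.sum_apply, cmp_mul hc, Finset.smul_sum, smul_smul, mul_comm]

theorem ctrE_mul {c : R} (hc : c ∈ Cm φ) (l : Dual F (End F W)) (a : End F W) :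
    ctrE φ l (c * φ a) = l a • c := by
  conv_rhs => rw [← sum_eu a]
  simp [ctrE, LinearMap.sum_apply, cmp_mul hc, Finset.sum_smul, smul_smul, mul_comm]

theorem eq_zero_of_lam {y : R} (h : ∀ l, lam φ l y = 0) : y = 0 := by
  rw [← sum_cmp φ y]
  refine Finset.sum_eq_zero fun i _ => Finset.sum_eq_zero fun j _ => ?_
  rw [(forall_dual_apply_eq_zero_iff F (cmp φ _ _ y)).1 fun l => ?_, zero_mul]
  simpa [lam, LinearMap.sum_apply, eu, Finsupp.single_apply] using
    congrArg (fun a => (finBasis F W).coord i (a (finBasis F W j))) (h l)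

theorem lam_lft (l : Dual F R) (D : End F (End F W)) (y : R) :
    lam φ l (lft φ D y) = D (lam φ l y) :=
  LinearMap.congr_fun (fac_ext φ (f := lam φ l ∘ₗ lft φ D) (g := D ∘ₗ lam φ l) fun c hc a => by
    simp [lft_mul hc, lam_mul hc]) y

theorem lft_eq {D : End F (End F W)} {f : End F R} (h : ∀ c ∈ Cm φ, ∀ a, f (c * φ a) = c * φ (D a))
    (y : R) : lft φ D y = f y :=
  LinearMap.congr_fun (fac_ext φ fun c hc a => by rw [lft_mul hc, h c hc]) y

theorem lft_conj (g : W ≃ₗ[F] W) (y : R) : lft φ g.conj y = φ g * y * φ (g⁻¹ : W ≃ₗ[F] W) :=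
  lft_eq (f := LinearMap.mulLeftRight F (φ g, φ (g⁻¹ : W ≃ₗ[F] W))) (fun c hc a => by
    rw [LinearMap.mulLeftRight_apply, ← mul_assoc, mem_Cm.1 hc, mul_assoc, mul_assoc, ← map_mul,
      ← map_mul]
    rfl) y

theorem mem_Cm_of_lam {y : R} (h : ∀ l, lam φ l y ∈ F ∙ (1 : End F W)) : y ∈ Cm φ :=
  mem_Cm.2 fun a => sub_eq_zero.1 (eq_zero_of_lam (φ := φ) fun l => by
    have := lft_eq (φ := φ) (D := LinearMap.mulLeft F a - LinearMap.mulRight F a)
      (f := LinearMap.mulLeft F (φ a) - LinearMap.mulRight F (φ a)) (fun c hc b => by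
        simp [mul_sub, ← mul_assoc, mem_Cm.1 hc]) y
    obtain ⟨c, hc⟩ := Submodule.mem_span_singleton.1 (h l)
    simp only [LinearMap.sub_apply, LinearMap.mulLeft_apply, LinearMap.mulRight_apply] at this
    rw [← this, lam_lft, ← hc]
    simp)

omit [FiniteDimensional F W] in
variable (F W) in
/-- The ring of operators generated by conjugations and some scalars. -/
def OpR (K : Set F) (G : Subgroup (W ≃ₗ[F] W)) : Subring (End F (End F W)) :=
  Subring.closure ({D | ∃ g ∈ G, D = (g.conj : End F (End F W))} ∪ {D | ∃ c ∈ K, D = c • 1})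

omit [FiniteDimensional F W] in
theorem conj_mem_OpR {K : Set F} {G : Subgroup (W ≃ₗ[F] W)} {g : W ≃ₗ[F] W} (hg : g ∈ G) :
    (g.conj : End F (End F W)) ∈ OpR F W K G := Subring.subset_closure (.inl ⟨g, hg, rfl⟩)

omit [FiniteDimensional F W] in
theorem smul_mem_OpR {G : Subgroup (W ≃ₗ[F] W)} (c : F) {D : End F (End F W)}
    (hD : D ∈ OpR F W Set.univ G) : c • D ∈ OpR F W Set.univ G := by
  have : c • 1 ∈ OpR F W Set.univ G := Subring.subset_closure (.inr ⟨c, trivial, rfl⟩)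
  rw [← one_mul D, ← smul_mul_assoc]
  exact mul_mem this hD

omit [FiniteDimensional F W] in
/-- Every invariant non-scalar space of endomorphisms is mapped onto a line spanned by a member
of `P`. -/
def Pur (K : Set F) (G : Subgroup (W ≃ₗ[F] W)) (P : Set (End F W)) : Prop :=
  ∀ U : Submodule F (End F W), (∀ g ∈ G, ∀ a ∈ U, g.conj a ∈ U) → ¬ U ≤ F ∙ 1 →
    ∃ D ∈ OpR F W K G, ∃ r ∈ P, ∃ l : Dual F (End F W), (∀ a ∈ U, D a = l a • r) ∧ ∃ a ∈ U, l a ≠ 0

variable {K : Set F} {G : Subgroup (W ≃ₗ[F] W)} {P : Set (End F W)}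

theorem lft_mem {S : AddSubgroup R} (hK : ∀ c ∈ K, ∀ y ∈ S, c • y ∈ S)
    (hG : ∀ g ∈ G, ∀ y ∈ S, φ g * y * φ (g⁻¹ : W ≃ₗ[F] W) ∈ S) {D : End F (End F W)}
    (hD : D ∈ OpR F W K G) {y : R} (hy : y ∈ S) : lft φ D y ∈ S := by
  induction hD using Subring.closure_induction generalizing y with
  | mem D hD =>
    obtain ⟨g, hg, rfl⟩ | ⟨c, hc, rfl⟩ := hD
    · exact lft_conj g y ▸ hG g hg y hy
    · rw [lft_eq (f := c • 1) fun c hc a => by simp]
      exact hK c hc y hy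
  | zero => rw [lft_eq (f := 0) fun c hc a => by simp]; exact zero_mem _
  | one => rwa [lft_eq (f := 1) fun c hc a => by simp]
  | add D D' _ _ h h' =>
    rw [lft_eq (f := lft φ D + lft φ D') fun c hc a => by simp [lft_mul hc, mul_add]]
    exact add_mem (h hy) (h' hy)
  | neg D _ h =>
    rw [lft_eq (f := -lft φ D) fun c hc a => by simp [lft_mul hc]]
    exact neg_mem (h hy)
  | mul D D' _ _ h h' =>
    rw [lft_eq (f := lft φ D * lft φ D') fun c hc a => by simp [lft_mul hc]]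
    exact h (h' hy)

variable (φ) in
/-- The span of the components of a set. -/
def cmpS (S : Set R) : Submodule F (End F W) := Submodule.span F {a | ∃ l, ∃ y ∈ S, a = lam φ l y}

theorem cmpS_conj {S : Set R} (hG : ∀ g ∈ G, ∀ y ∈ S, φ g * y * φ (g⁻¹ : W ≃ₗ[F] W) ∈ S)
    (g : W ≃ₗ[F] W) (hg : g ∈ G) (a : End F W) (ha : a ∈ cmpS φ S) : g.conj a ∈ cmpS φ S :=
  Submodule.span_le (p := (cmpS φ S).comap (g.conj : End F (End F W))) |>.2 (by
    rintro _ ⟨l, y, hy, rfl⟩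
    exact Submodule.subset_span ⟨l, _, hG g hg y hy, by rw [← lft_conj, lam_lft]⟩) ha

theorem exists_pure_of_op {S : AddSubgroup R} (hK : ∀ c ∈ K, ∀ y ∈ S, c • y ∈ S)
    (hG : ∀ g ∈ G, ∀ y ∈ S, φ g * y * φ (g⁻¹ : W ≃ₗ[F] W) ∈ S) {D : End F (End F W)}
    (hD : D ∈ OpR F W K G) {r : End F W} {l : Dual F (End F W)}
    (h1 : ∀ a ∈ cmpS φ S, D a = l a • r) (h2 : ∃ a ∈ cmpS φ S, l a ≠ 0) :
    ∃ c ∈ Cm φ, c ≠ 0 ∧ c * φ r ∈ S := by
  obtain ⟨m, y, hy, h3⟩ : ∃ m, ∃ y ∈ S, l (lam φ m y) ≠ 0 := by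
    by_contra! hc
    obtain ⟨a, ha, h2⟩ := h2
    exact h2 (Submodule.span_le (p := LinearMap.ker l) |>.2 (by
      rintro _ ⟨m, y, hy, rfl⟩; exact hc m y hy) ha)
  have h4 : ∀ m, m (ctrE φ l y) = l (lam φ m y) := fun m =>
    LinearMap.congr_fun (fac_ext φ (f := m ∘ₗ ctrE φ l) (g := l ∘ₗ lam φ m) fun c hc a => by
      simp [ctrE_mul hc, lam_mul hc, mul_comm]) y
  refine ⟨_, ctrE_mem φ l y, fun e => h3 (by rw [← h4, e, map_zero]), ?_⟩
  convert lft_mem hK hG hD hy using 1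
  refine sub_eq_zero.1 (eq_zero_of_lam (φ := φ) fun m => ?_)
  rw [map_sub, lam_lft, lam_mul (ctrE_mem φ l y), h1 _ (Submodule.subset_span ⟨m, y, hy, rfl⟩), h4,
    sub_self]

theorem Pur.exists (h : Pur K G P) {S : AddSubgroup R} (hK : ∀ c ∈ K, ∀ y ∈ S, c • y ∈ S)
    (hG : ∀ g ∈ G, ∀ y ∈ S, φ g * y * φ (g⁻¹ : W ≃ₗ[F] W) ∈ S) (hS : ∃ y ∈ S, y ∉ Cm φ) :
    ∃ c ∈ Cm φ, c ≠ 0 ∧ ∃ r ∈ P, c * φ r ∈ S := by
  obtain ⟨y, hy, hy'⟩ := hS
  obtain ⟨D, hD, r, hr, l, h1, h2⟩ := h (cmpS φ S) (cmpS_conj hG) fun e =>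
    hy' (mem_Cm_of_lam fun l => e (Submodule.subset_span ⟨l, y, hy, rfl⟩))
  obtain ⟨c, a1, a2, a3⟩ := exists_pure_of_op hK hG hD h1 h2
  exact ⟨c, a1, a2, r, hr, a3⟩

section Multi

variable {τ : Type*} [Fintype τ] [DecidableEq τ] {ψ : τ → End F W →ₐ[F] R}

omit [FiniteDimensional F W] in
/-- Pairwise commuting factors. -/
def PC (ψ : τ → End F W →ₐ[F] R) : Prop :=
  Pairwise fun i j => ∀ x y, Commute ((ψ i : End F W →* R) x) ((ψ j : End F W →* R) y)

omit [FiniteDimensional F W] [DecidableEq τ] in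
/-- Pure tensors. -/
def PC.pu (h : PC ψ) : (τ → End F W) →* R := MonoidHom.noncommPiCoprod (fun i => ψ i) h

namespace PC

variable (h : PC ψ)
include h

omit [FiniteDimensional F W] [Fintype τ] [DecidableEq τ] in
theorem mem {i j : τ} (e : i ≠ j) (a : End F W) : ψ i a ∈ Cm (ψ j) :=
  mem_Cm.2 fun b => (h e a b).symm

omit [FiniteDimensional F W] in
theorem single (i : τ) (a : End F W) : h.pu (Pi.mulSingle i a) = ψ i a :=
  MonoidHom.noncommPiCoprod_mulSingle _ _ _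

omit [FiniteDimensional F W] in
theorem update (r : τ → End F W) (i : τ) (a : End F W) :
    h.pu (Function.update r i a) = h.pu (Function.update r i 1) * ψ i a := by
  rw [← h.single, ← map_mul]
  congr 1
  funext j
  by_cases e : j = i
  · simp [e]
  · simp [e]

omit [FiniteDimensional F W] in
theorem pu_mem {r : τ → End F W} {i : τ} (e : r i = 1) : h.pu r ∈ Cm (ψ i) := mem_Cm.2 fun a => by
  rw [← h.single, ← map_mul, ← map_mul]
  congr 1
  funext j
  by_cases e' : j = i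
  · simp [e', e]
  · simp [e']

omit [FiniteDimensional F W] [DecidableEq τ] in
theorem pu_mem_of {A : Subalgebra F R} {r : τ → End F W} (e : ∀ i, ψ i (r i) ∈ A) : h.pu r ∈ A :=
  Finset.noncommProd_induction _ _ (fun _ _ _ _ e => h e _ _) (· ∈ A) (fun _ _ => mul_mem)
    (one_mem A) fun i _ => e i

theorem exists_pure' {S : AddSubgroup R} (hK : ∀ c ∈ K, ∀ y ∈ S, c • y ∈ S)
    (hG : ∀ i, ∀ g ∈ G, ∀ y ∈ S, ψ i g * y * ψ i (g⁻¹ : W ≃ₗ[F] W) ∈ S) (hP : Pur K G P)
    (h0 : (0 : End F W) ∉ P) {i₀ : τ} {r₀ : End F W} (hS : ∃ c ∈ Cm (ψ i₀), c ≠ 0 ∧ c * ψ i₀ r₀ ∈ S) :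
    ∃ c, c ≠ 0 ∧ (∀ i, c ∈ Cm (ψ i)) ∧ ∃ r, r i₀ = r₀ ∧ (∀ i ≠ i₀, r i ∈ P ∨ r i = 1) ∧
      c * h.pu r ∈ S := by
  suffices H : ∀ I : Finset τ, ∃ c, c ≠ 0 ∧ (∀ i ∈ insert i₀ I, c ∈ Cm (ψ i)) ∧ ∃ r, r i₀ = r₀ ∧
      (∀ i ≠ i₀, r i ∈ P ∨ r i = 1) ∧ (∀ i ∉ insert i₀ I, r i = 1) ∧ c * h.pu r ∈ S by
    obtain ⟨c, a1, a2, r, a3, a4, -, a5⟩ := H Finset.univ
    exact ⟨c, a1, fun i => a2 i (by simp), r, a3, a4, a5⟩
  intro I
  induction I using Finset.induction_on with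
  | empty =>
    obtain ⟨c, a1, a2, a3⟩ := hS
    exact ⟨c, a2, by simpa using a1, Pi.mulSingle i₀ r₀, by simp, fun i e => by simp [e],
      fun i e => Pi.mulSingle_eq_of_ne (by simpa using e) _, by rwa [h.single]⟩
  | insert j I hj ih =>
    obtain ⟨c, a1, a2, r, a3, a4, a5, a6⟩ := ih
    by_cases e : j = i₀
    · exact ⟨c, a1, by simpa [e] using a2, r, a3, a4, by simpa [e] using a5, a6⟩
    have e1 : j ∉ insert i₀ I := by simp [e, hj]
    have e2 := mem_Cm.1 (h.pu_mem (a5 j e1))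
    by_cases e' : c ∈ Cm (ψ j)
    · refine ⟨c, a1, fun i hi => ?_, r, a3, a4, fun i hi => a5 i fun e => hi ?_, a6⟩
      · obtain rfl | hi := Finset.mem_insert.1 (Finset.insert_comm i₀ j I ▸ hi)
        exacts [e', a2 i hi]
      · exact Finset.insert_subset_insert _ (Finset.subset_insert _ _) e
    let S' : AddSubgroup R :=
      { carrier := {y | (∀ i ∈ insert i₀ I, y ∈ Cm (ψ i)) ∧ y * h.pu r ∈ S}
        add_mem' := fun ha hb => ⟨fun i hi => add_mem (ha.1 i hi) (hb.1 i hi),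
          by rw [add_mul]; exact add_mem ha.2 hb.2⟩
        zero_mem' := ⟨fun _ _ => zero_mem _, by simp⟩
        neg_mem' := fun ha => ⟨fun i hi => neg_mem (ha.1 i hi), by simpa using ha.2⟩ }
    obtain ⟨c', b1, b2, s, b3, b4, b5⟩ := hP.exists (φ := ψ j) (S := S')
      (fun d hd y hy => ⟨fun i hi => Subalgebra.smul_mem _ (hy.1 i hi) _,
        by simpa using hK d hd _ hy.2⟩)
      (fun g hg y hy => ⟨fun i hi => mul_mem (mul_mem (h.mem (by rintro rfl; exact e1 hi) _)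
        (hy.1 i hi)) (h.mem (by rintro rfl; exact e1 hi) _), by
          simpa [mul_assoc, e2] using hG j g hg _ hy.2⟩) ⟨c, ⟨a2, a6⟩, e'⟩
    refine ⟨c', b2, fun i hi => ?_, Function.update r j s, by simp [Ne.symm e, a3], fun i hi => ?_,
      fun i hi => ?_, ?_⟩
    · rw [Finset.insert_comm, Finset.mem_insert] at hi
      obtain rfl | hi := hi
      · exact b1
      have e3 : i ≠ j := by rintro rfl; exact e1 hi
      refine mem_Cm.2 fun a => sub_eq_zero.1 (eq_zero_of_mul (φ := ψ j) (a := s)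
        (sub_mem (mul_mem (h.mem e3 a) b1) (mul_mem b1 (h.mem e3 a))) (by rintro rfl; exact h0 b3) ?_)
      rw [sub_mul, mul_assoc, mem_Cm.1 (b4 i hi), mul_assoc, mul_assoc, mem_Cm.1 (h.mem e3 a), sub_self]
    · by_cases e3 : i = j
      · simp [e3, b3]
      · simpa [e3] using a4 i hi
    · simp only [Finset.mem_insert, not_or] at hi
      simpa [hi.2.1] using a5 i (by simp [hi.1, hi.2.2])
    · rwa [h.update, ← a5 j e1, Function.update_eq_self, ← e2, ← mul_assoc]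

theorem exists_pure {S : AddSubgroup R} (hK : ∀ c ∈ K, ∀ y ∈ S, c • y ∈ S)
    (hG : ∀ i, ∀ g ∈ G, ∀ y ∈ S, ψ i g * y * ψ i (g⁻¹ : W ≃ₗ[F] W) ∈ S) (hP : Pur K G P)
    (h0 : (0 : End F W) ∉ P) {i₀ : τ} (hS : ∃ y ∈ S, y ∉ Cm (ψ i₀)) :
    ∃ c, c ≠ 0 ∧ (∀ i, c ∈ Cm (ψ i)) ∧ ∃ r, r i₀ ∈ P ∧ (∀ i, r i ∈ P ∨ r i = 1) ∧
      c * h.pu r ∈ S := by
  obtain ⟨c, a1, a2, r, a3, a4⟩ := hP.exists hK (hG i₀) hS
  obtain ⟨c, b1, b2, s, b3, b4, b5⟩ := h.exists_pure' hK hG hP h0 ⟨c, a1, a2, a4⟩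
  refine ⟨c, b1, b2, s, b3 ▸ a3, fun i => ?_, b5⟩
  by_cases e : i = i₀
  · simp [e, b3, a3]
  · exact b4 i e

omit [FiniteDimensional F W] in
theorem pu_ind {T : Submodule F R} {𝒲 : τ → Set (End F W)} {U : τ → Submodule F (End F W)}
    (hU : ∀ i (c : R), c ∈ Cm (ψ i) → (∀ a ∈ 𝒲 i, c * ψ i a ∈ T) → ∀ a ∈ U i, c * ψ i a ∈ T)
    (hT : ∀ w, (∀ i, w i ∈ 𝒲 i) → h.pu w ∈ T) {a : τ → End F W} (ha : ∀ i, a i ∈ U i) :
    h.pu a ∈ T := by
  suffices H : ∀ I : Finset τ, ∀ a : τ → End F W, (∀ i ∈ I, a i ∈ U i) → (∀ i ∉ I, a i ∈ 𝒲 i) →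
      h.pu a ∈ T from H Finset.univ a (fun i _ => ha i) (by simp)
  intro I
  induction I using Finset.induction_on with
  | empty => exact fun a _ e => hT a fun i => e i (by simp)
  | insert j I hj ih =>
    intro a a1 a2
    rw [← Function.update_eq_self j a, h.update]
    refine hU j _ (h.pu_mem (by simp)) (fun b hb => ?_) _ (a1 j (by simp))
    rw [← h.update]
    refine ih _ (fun i hi => ?_) fun i hi => ?_
    · simpa [show i ≠ j by rintro rfl; exact hj hi] using a1 i (by simp [hi])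
    · by_cases e : i = j
      · simpa [e]
      · simpa [e] using a2 i (by simp [e, hi])

omit [FiniteDimensional F W] in
theorem pu_span {T : Submodule F R} {𝒲 : τ → Set (End F W)}
    (hT : ∀ w, (∀ i, w i ∈ 𝒲 i) → h.pu w ∈ T) {a : τ → End F W}
    (ha : ∀ i, a i ∈ Submodule.span F (𝒲 i)) : h.pu a ∈ T :=
  h.pu_ind (fun i c _ e a ha => Submodule.span_le
    (p := T.comap (LinearMap.mulLeft F c ∘ₗ (ψ i).toLinearMap)) |>.2 e ha) hT ha

omit [FiniteDimensional F W] in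
theorem pu_mul {T T' : Submodule F R} {U U' : τ → Submodule F (End F W)}
    (hT : ∀ w, (∀ i, w i ∈ U i) → h.pu w ∈ T) (hT' : ∀ w, (∀ i, w i ∈ U' i) → h.pu w ∈ T')
    (a : τ → End F W) (ha : ∀ i, a i ∈ U i * U' i) : h.pu a ∈ T * T' :=
  h.pu_span (𝒲 := fun i => {x | ∃ a ∈ U i, ∃ b ∈ U' i, x = a * b}) (fun w hw => by
    choose b h1 c h2 e using hw
    rw [show w = b * c from funext e, map_mul]
    exact Submodule.mul_mem_mul (hT b h1) (hT' c h2)) fun i =>
      Submodule.mul_le.2 (fun a h1 b h2 => Submodule.subset_span (by exact ⟨a, h1, b, h2, rfl⟩))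
        (ha i)

end PC

omit [FiniteDimensional F W] in
/-- The span of the conjugates of an endomorphism. -/
def Orb (G : Subgroup (W ≃ₗ[F] W)) (r : End F W) : Submodule F (End F W) :=
  Submodule.span F {a | ∃ g ∈ G, a = g.conj r}

omit [FiniteDimensional F W] in
theorem conj_mem_Orb {g : W ≃ₗ[F] W} (hg : g ∈ G) (r : End F W) : g.conj r ∈ Orb G r :=
  Submodule.subset_span ⟨g, hg, rfl⟩

omit [FiniteDimensional F W] in
theorem self_mem_Orb (r : End F W) : r ∈ Orb G r := Submodule.subset_span ⟨1, one_mem _, rfl⟩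

omit [FiniteDimensional F W] in
theorem PC.pu_orb (h : PC ψ) {T : Submodule F R}
    (hG : ∀ i, ∀ g ∈ G, ∀ y ∈ T, ψ i g * y * ψ i (g⁻¹ : W ≃ₗ[F] W) ∈ T) {r : τ → End F W}
    (hr : h.pu r ∈ T) (a : τ → End F W) (ha : ∀ i, a i ∈ Orb G (r i)) : h.pu a ∈ T :=
  h.pu_ind (𝒲 := fun i => {r i}) (fun i c hc e a ha => Submodule.span_le
    (p := T.comap (LinearMap.mulLeft F c ∘ₗ (ψ i).toLinearMap)) |>.2 (by
      rintro _ ⟨g, hg, rfl⟩
      have := hG i g hg _ (e _ rfl)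
      rwa [← mul_assoc, mem_Cm.1 hc, mul_assoc, mul_assoc, ← map_mul, ← map_mul] at this) ha)
    (fun w hw => by rwa [show w = r from funext hw]) ha

omit [FiniteDimensional F W] in
/-- Words of length eight in the conjugates of `r` span everything. -/
def Wd (G : Subgroup (W ≃ₗ[F] W)) (r : End F W) : Prop :=
  Orb G r * Orb G r * (Orb G r * Orb G r) * (Orb G r * Orb G r * (Orb G r * Orb G r)) = ⊤

theorem PC.mem_alg (h : PC ψ) (hc : ∀ c, (∀ i, c ∈ Cm (ψ i)) → c ∈ F ∙ (1 : R))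
    {S : Submodule F R} (hG : ∀ i, ∀ g ∈ G, ∀ y ∈ S, ψ i g * y * ψ i (g⁻¹ : W ≃ₗ[F] W) ∈ S)
    (hP : Pur Set.univ G P) (h0 : (0 : End F W) ∉ P) (hW : ∀ r ∈ P, Wd G r) {i₀ : τ}
    (hS : ∃ y ∈ S, y ∉ Cm (ψ i₀)) {M : Subalgebra F R} (hM : ∀ y ∈ S, y ∈ M) (a : End F W) :
    ψ i₀ a ∈ M := by
  obtain ⟨c, a1, a2, r, a3, a4, a5⟩ := h.exists_pure (S := S.toAddSubgroup)
    (fun c _ y hy => S.smul_mem c hy) hG hP h0 hS
  obtain ⟨c, rfl⟩ := Submodule.mem_span_singleton.1 (hc c a2)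
  have a6 := h.pu_orb hG (r := r) ((S.smul_mem_iff (left_ne_zero_of_smul a1)).1 (by simpa using a5))
  have a7 := h.pu_mul (h.pu_mul a6 a6) (h.pu_mul a6 a6)
  have h2 : ∀ {A B : Submodule F R}, A ≤ M.toSubmodule → B ≤ M.toSubmodule →
      A * B ≤ M.toSubmodule := fun ha hb => Submodule.mul_le.2 fun _ a _ b => M.mul_mem (ha a) (hb b)
  have h3 := h2 (h2 hM hM) (h2 hM hM)
  rw [← h.single]
  refine h2 h3 h3 (h.pu_mul a7 a7 _ fun i => ?_)
  obtain e | e := a4 i
  · exact (hW _ e).ge trivial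
  have e' : i ≠ i₀ := by
    rintro rfl
    obtain ⟨y, -, hy⟩ := hS
    refine hy (mem_Cm.2 fun b => ?_)
    have : Orb G (r i) ≤ F ∙ 1 := Submodule.span_le.2 (by
      rintro _ ⟨g, -, rfl⟩
      rw [e, show g.conj (1 : End F W) = 1 from by ext; simp]
      exact Submodule.mem_span_singleton_self _)
    have h1 : ∀ {A B : Submodule F (End F W)}, A ≤ F ∙ 1 → B ≤ F ∙ 1 → A * B ≤ F ∙ 1 :=
      fun ha hb => (mul_le_mul' ha hb).trans (by simp [Submodule.span_mul_span])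
    have h4 := h1 (h1 this this) (h1 this this)
    obtain ⟨d, rfl⟩ := Submodule.mem_span_singleton.1 (h1 h4 h4 ((hW _ a3).ge (trivial : b ∈ ⊤)))
    simp
  have := Submodule.mul_mem_mul (self_mem_Orb (G := G) (r i)) (self_mem_Orb (G := G) (r i))
  have := Submodule.mul_mem_mul this this
  simpa [e, e'] using Submodule.mul_mem_mul this this

theorem PC.pu_ne_zero [Nontrivial R] (h : PC ψ) {r : τ → End F W} (hr : ∀ i, r i ≠ 0) :
    h.pu r ≠ 0 := by
  suffices H : ∀ I : Finset τ, ∀ r : τ → End F W, (∀ i, r i ≠ 0) → (∀ i ∉ I, r i = 1) →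
      h.pu r ≠ 0 from H Finset.univ r hr (by simp)
  intro I
  induction I using Finset.induction_on with
  | empty => exact fun r _ e => by simp [show r = 1 from funext fun i => e i (by simp)]
  | insert j I hj ih =>
    intro r a1 a2 e
    rw [← Function.update_eq_self j r, h.update] at e
    refine ih _ (fun i => ?_) (fun i hi => ?_) (eq_zero_of_mul (h.pu_mem (by simp)) (a1 j) e)
    · by_cases e : i = j
      · subst e
        simpa using fun e : (1 : End F W) = 0 => a1 i (by rw [← mul_one (r i), e, mul_zero])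
      · simpa [e] using a1 i
    · by_cases e : i = j
      · simp [e]
      · simpa [e] using a2 i (by simp [e, hi])

theorem PC.mem_of_gen (h : PC ψ) (hc : ∀ c, (∀ i, c ∈ Cm (ψ i)) → c ∈ F ∙ (1 : R))
    {M : Subalgebra F R} (hM : ∀ i a, ψ i a ∈ M) (y : R) : y ∈ M := by
  suffices H : ∀ I : Finset τ, ∀ y, (∀ i ∉ I, y ∈ Cm (ψ i)) → y ∈ M from H Finset.univ y (by simp)
  intro I
  induction I using Finset.induction_on with
  | empty =>
    intro y e
    obtain ⟨c, rfl⟩ := Submodule.mem_span_singleton.1 (hc y fun i => e i (by simp))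
    exact M.smul_mem (one_mem M) c
  | insert j I hj ih =>
    intro y e
    rw [← sum_cmp (ψ j) y]
    refine sum_mem fun a _ => sum_mem fun b _ => mul_mem (ih _ fun i hi => ?_) (hM _ _)
    by_cases e' : i = j
    · exact e' ▸ cmp_mem _ _ _ _
    rw [cmp_apply]
    exact sum_mem fun _ _ => mul_mem (mul_mem (h.mem (Ne.symm e') _) (e i (by simp [e', hi])))
      (h.mem (Ne.symm e') _)

theorem PC.pu_notMem [Nontrivial R] (h : PC ψ) {r : τ → End F W} (hr : ∀ i, r i ≠ 0) {i : τ}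
    (e : ∃ a, a * r i ≠ r i * a) : h.pu r ∉ Cm (ψ i) := fun e' => by
  obtain ⟨a, e⟩ := e
  have a1 := h.pu_mem (r := Function.update r i 1) (i := i) (by simp)
  have a2 := mem_Cm.1 e' a
  rw [← Function.update_eq_self i r, h.update, ← mul_assoc, mem_Cm.1 a1, mul_assoc, mul_assoc,
    ← map_mul, ← map_mul, ← sub_eq_zero, ← mul_sub, ← map_sub] at a2
  refine h.pu_ne_zero (fun j => ?_) (eq_zero_of_mul a1 (sub_ne_zero.2 e) a2)
  by_cases e3 : j = i
  · subst e3
    simpa using fun e' : (1 : End F W) = 0 => hr j (by rw [← mul_one (r j), e', mul_zero])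
  · simpa [e3] using hr j

end Multi

end CF.MaxSub
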