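/-
A trace argument for overgroups of tensor decomposition stabilisers, I: partial traces.
-/
import Cfsg.Agent.MaxSub.WA
import Cfsg.Agent.MaxSub.TG
import Cfsg.Agent.MaxSub.Tr

set_option autoImplicit false

namespace CF.MaxSub

open Module Geom TensorProduct LinearMap

variable {F V₁ W : Type*} [Field F] [AddCommGroup V₁] [Module F V₁] [AddCommGroup W] [Module F W]

/-- `1 ⊗ a`. -/
noncomputable def rA (V₁ : Type*) [AddCommGroup V₁] [Module F V₁] :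
    End F W →ₐ[F] End F (V₁ ⊗[F] W) := Module.End.lTensorAlgHom F W V₁

/-- `a ⊗ 1`. -/
noncomputable def lA (W : Type*) [AddCommGroup W] [Module F W] :
    End F V₁ →ₐ[F] End F (V₁ ⊗[F] W) := Module.End.rTensorAlgHom F V₁ W

@[simp] theorem rA_tmul (a : End F W) (x : V₁) (w : W) : rA V₁ a (x ⊗ₜ w) = x ⊗ₜ a w := rfl

@[simp] theorem lA_tmul (a : End F V₁) (x : V₁) (w : W) : lA W a (x ⊗ₜ w) = a x ⊗ₜ w := rfl

theorem lA_mul_rA (A : End F V₁) (a : End F W) : lA W A * rA V₁ a = map A a :=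
  TensorProduct.ext' fun _ _ => rfl

theorem lA_mem (A : End F V₁) : lA W A ∈ Cm (rA V₁ (W := W)) :=
  mem_Cm.2 fun _ => TensorProduct.ext' fun _ _ => rfl

theorem coe_rG (b : W ≃ₗ[F] W) : (rG V₁ b : End F (V₁ ⊗[F] W)) = rA V₁ b :=
  TensorProduct.ext' fun _ _ => rfl

theorem coe_lG (a : V₁ ≃ₗ[F] V₁) : (lG W a : End F (V₁ ⊗[F] W)) = lA W a :=
  TensorProduct.ext' fun _ _ => rfl

section Rep

variable {V : Type*} [AddCommGroup V] [Module F V]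

/-- Conjugation of endomorphisms. -/
def adG : (V ≃ₗ[F] V) →* End F (End F V) := r2 F V

theorem adG_eq (g : V ≃ₗ[F] V) (a : End F V) : adG g a = g * a * (g⁻¹ : V ≃ₗ[F] V) := rfl

theorem adG_apply (g : V ≃ₗ[F] V) (a : End F V) (v : V) : adG g a v = g (a (g⁻¹ v)) := rfl

theorem adG_conj (g : V ≃ₗ[F] V) (a : End F V) : adG g a = g.conj a := rfl

theorem adG_mul (g : V ≃ₗ[F] V) (a b : End F V) : adG g (a * b) = adG g a * adG g b := by
  ext v; simp [adG_apply, inv_apply_apply]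

@[simp] theorem adG_one (g : V ≃ₗ[F] V) : adG g 1 = 1 := by
  ext v; simp [adG_apply, apply_inv_apply]

theorem adG_adG (g h : V ≃ₗ[F] V) (a : End F V) : adG g (adG h a) = adG (g * h) a := by
  simp

@[simp] theorem adG_inv_adG (g : V ≃ₗ[F] V) (a : End F V) : adG g⁻¹ (adG g a) = a := by
  simp [adG_adG]

@[simp] theorem adG_adG_inv (g : V ≃ₗ[F] V) (a : End F V) : adG g (adG g⁻¹ a) = a := by
  simp [adG_adG]

theorem adG_coe (g h : V ≃ₗ[F] V) : adG g (h : End F V) = (g * h * g⁻¹ : V ≃ₗ[F] V) := rfl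

theorem adG_eq_self {g : V ≃ₗ[F] V} {a : End F V} : adG g a = a ↔ Commute (g : End F V) a := by
  rw [adG_eq, Commute, SemiconjBy]
  refine ⟨fun h => ?_, fun h => by rw [h, mul_assoc, coe_mul_inv_end, mul_one]⟩
  conv_rhs => rw [← h, mul_assoc, coe_inv_mul_end, mul_one]

theorem adG_pow (g : V ≃ₗ[F] V) (a : End F V) (n : ℕ) : adG g (a ^ n) = adG g a ^ n := by
  induction n with
  | zero => simp
  | succ n ih => rw [pow_succ, adG_mul, ih, pow_succ]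

variable [FiniteDimensional F V]

theorem trace_adG (g : V ≃ₗ[F] V) (a b : End F V) :
    trace F V (adG g a * b) = trace F V (a * adG g⁻¹ b) := by
  rw [adG_eq, adG_eq, inv_inv, mul_assoc, mul_assoc, trace_mul_comm]
  simp only [mul_assoc]

theorem eq_zero_of_trace {a : End F V} (h : ∀ b, trace F V (a * b) = 0) : a = 0 := by
  ext v
  exact (forall_dual_apply_eq_zero_iff F _).1 fun l => by
    simpa [mul_smulRight] using h (l.smulRight v)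

end Rep

@[simp] theorem adG_rG_rA (b : W ≃ₗ[F] W) (a : End F W) :
    adG (rG V₁ b) (rA V₁ a) = rA V₁ (adG b a) := TensorProduct.ext' fun _ _ => rfl

@[simp] theorem adG_rG_lA (b : W ≃ₗ[F] W) (a : End F V₁) : adG (rG V₁ b) (lA W a) = lA W a :=
  TensorProduct.ext' fun x w => congrArg (a x ⊗ₜ ·) (apply_inv_apply b w)

@[simp] theorem adG_lG_lA (b : V₁ ≃ₗ[F] V₁) (a : End F V₁) :
    adG (lG W b) (lA W a) = lA W (adG b a) := TensorProduct.ext' fun _ _ => rfl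

@[simp] theorem adG_lG_rA (b : V₁ ≃ₗ[F] V₁) (a : End F W) : adG (lG W b) (rA V₁ a) = rA V₁ a :=
  TensorProduct.ext' fun x w => congrArg (· ⊗ₜ a w) (apply_inv_apply b x)

theorem adG_ten_rA {t : V₁ ⊗[F] W ≃ₗ[F] V₁ ⊗[F] W} (ht : t ∈ TenG F V₁ W) :
    ∃ b : W ≃ₗ[F] W, ∀ a, adG t (rA V₁ a) = rA V₁ (adG b a) := by
  obtain ⟨a, b, rfl⟩ := ht
  exact ⟨b, fun c => TensorProduct.ext' fun x w => by
    change TensorProduct.congr a b (rA V₁ c (a⁻¹ x ⊗ₜ b⁻¹ w)) = _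
    simp [adG_apply, apply_inv_apply]⟩

theorem adG_mem_Cm {t : V₁ ⊗[F] W ≃ₗ[F] V₁ ⊗[F] W} (ht : t ∈ TenG F V₁ W)
    {c : End F (V₁ ⊗[F] W)} (hc : c ∈ Cm (rA V₁ (W := W))) : adG t c ∈ Cm (rA V₁ (W := W)) := by
  obtain ⟨b, hb⟩ := adG_ten_rA ht
  refine mem_Cm.2 fun a => ?_
  rw [← adG_adG_inv b a, ← hb, ← adG_mul, ← adG_mul, mem_Cm.1 hc]

/-- `g` conjugates the second factor into the first. -/
def Opp (g : V₁ ⊗[F] W ≃ₗ[F] V₁ ⊗[F] W) : Prop := ∀ a, adG g (rA V₁ a) ∈ Cm (rA V₁ (W := W))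

theorem Opp.inv {g : V₁ ⊗[F] W ≃ₗ[F] V₁ ⊗[F] W} (h : Opp g) : Opp g⁻¹ := fun a =>
  mem_Cm.2 fun b => by
    rw [← adG_inv_adG g (rA V₁ b), ← adG_mul, ← adG_mul, mem_Cm.1 (h b)]

/-- `g` conjugates the second factor into itself or into the first. -/
def Good (g : V₁ ⊗[F] W ≃ₗ[F] V₁ ⊗[F] W) : Prop := g ∈ TenG F V₁ W ∨ Opp g

theorem Good.inv {g : V₁ ⊗[F] W ≃ₗ[F] V₁ ⊗[F] W} (h : Good g) : Good g⁻¹ :=
  h.imp inv_mem Opp.inv

theorem Good.mul_left {g t : V₁ ⊗[F] W ≃ₗ[F] V₁ ⊗[F] W} (h : Good g) (ht : t ∈ TenG F V₁ W) :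
    Good (t * g) := h.imp (mul_mem ht) fun h a => by rw [← adG_adG]; exact adG_mem_Cm ht (h a)

theorem Good.mul_right {g t : V₁ ⊗[F] W ≃ₗ[F] V₁ ⊗[F] W} (h : Good g) (ht : t ∈ TenG F V₁ W) :
    Good (g * t) := by simpa using (h.inv.mul_left (inv_mem ht)).inv

theorem good_out (g : V₁ ⊗[F] W ≃ₗ[F] V₁ ⊗[F] W) :
    Good (g : _ ⧸ TenG F V₁ W).out ↔ Good g := by
  obtain ⟨t, e⟩ := QuotientGroup.mk_out_eq_mul (TenG F V₁ W) g
  rw [e]
  exact ⟨fun h => by simpa using h.mul_right (inv_mem t.2), fun h => h.mul_right t.2⟩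

variable [FiniteDimensional F V₁] [FiniteDimensional F W]

omit [FiniteDimensional F V₁] in
theorem exists_lA [Nontrivial W] {c : End F (V₁ ⊗[F] W)} (hc : c ∈ Cm (rA V₁ (W := W))) :
    ∃ A, c = lA W A := by
  obtain ⟨u, hu⟩ := exists_ne (0 : W)
  obtain ⟨ψ, hψ⟩ := exists_dual_eq_one (F := F) hu
  refine ⟨ct ψ ∘ₗ c ∘ₗ tr u, TensorProduct.ext' fun x w => ?_⟩
  have := LinearMap.congr_fun (mem_Cm.1 hc (ψ.smulRight w)) (x ⊗ₜ u)
  simp only [End.mul_apply, rA_tmul, smulRight_apply, hψ, one_smul] at this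
  rw [← this, ← one_mul (rA _ _), ← map_one (lA W), lA_mul_rA, map_smulRight]
  rfl

theorem end_ext {M : Type*} [AddCommGroup M] [Module F M] {f g : End F (V₁ ⊗[F] W) →ₗ[F] M}
    (h : ∀ A a, f (lA W A * rA V₁ a) = g (lA W A * rA V₁ a)) : f = g := by
  ext y
  obtain ⟨y, rfl⟩ := (homTensorHomEquiv F V₁ W V₁ W).surjective y
  induction y with
  | zero => simp
  | add a b ha hb => simp only [map_add, ha, hb]
  | tmul A a => simpa [lA_mul_rA] using h A a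

/-- The partial trace. -/
noncomputable def ptr : End F (V₁ ⊗[F] W) →ₗ[F] End F W :=
  (TensorProduct.lid F _).toLinearMap ∘ₗ (trace F V₁).rTensor _ ∘ₗ
    (homTensorHomEquiv F V₁ W V₁ W).symm.toLinearMap

theorem ptr_mul (A : End F V₁) (a : End F W) : ptr (lA W A * rA V₁ a) = trace F V₁ A • a := by
  have : (homTensorHomEquiv F V₁ W V₁ W).symm (lA W A * rA V₁ a) = A ⊗ₜ a := by
    rw [LinearEquiv.symm_apply_eq, lA_mul_rA]; simp
  simp [ptr, this]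

theorem trace_lA_rA (A : End F V₁) (a : End F W) :
    trace F _ (lA W A * rA V₁ a) = trace F V₁ A * trace F W a := by
  rw [lA_mul_rA, trace_tensorProduct']

theorem trace_mul_rA (y : End F (V₁ ⊗[F] W)) (b : End F W) :
    trace F _ (y * rA V₁ b) = trace F W (ptr y * b) :=
  LinearMap.congr_fun (end_ext (f := trace F _ ∘ₗ mulRight F (rA V₁ b))
    (g := trace F W ∘ₗ mulRight F b ∘ₗ ptr) fun A a => by
      simp [ptr_mul, mul_assoc, ← map_mul, trace_lA_rA]) y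

/-- The projection onto a conjugate of the second factor. -/
noncomputable def Gm (g : V₁ ⊗[F] W ≃ₗ[F] V₁ ⊗[F] W) : End F (End F (V₁ ⊗[F] W)) :=
  adG g * ((rA V₁).toLinearMap ∘ₗ ptr) * adG g⁻¹

theorem Gm_apply (g : V₁ ⊗[F] W ≃ₗ[F] V₁ ⊗[F] W) (y : End F (V₁ ⊗[F] W)) :
    Gm g y = adG g (rA V₁ (ptr (adG g⁻¹ y))) := rfl

theorem Gm_mul (x g : V₁ ⊗[F] W ≃ₗ[F] V₁ ⊗[F] W) (y : End F (V₁ ⊗[F] W)) :
    Gm (x * g) y = adG x (Gm g (adG x⁻¹ y)) := by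
  simp [Gm_apply]

theorem trace_Gm (g : V₁ ⊗[F] W ≃ₗ[F] V₁ ⊗[F] W) (y z : End F (V₁ ⊗[F] W)) :
    trace F _ (Gm g y * z) = trace F _ (y * Gm g z) := by
  rw [Gm_apply, trace_adG, trace_mul_comm, trace_mul_rA, trace_mul_comm, Gm_apply,
    trace_mul_comm F y, trace_adG, trace_mul_comm F (rA _ _), trace_mul_rA]

theorem Gm_ten {t : V₁ ⊗[F] W ≃ₗ[F] V₁ ⊗[F] W} (ht : t ∈ TenG F V₁ W) (y : End F (V₁ ⊗[F] W)) :
    Gm t y = rA V₁ (ptr y) := by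
  obtain ⟨b, hb⟩ := adG_ten_rA ht
  rw [Gm_apply, hb]
  congr 1
  refine sub_eq_zero.1 (eq_zero_of_trace fun c => ?_)
  rw [sub_mul, map_sub, trace_adG, ← trace_mul_rA, trace_adG, inv_inv, hb, adG_adG_inv, trace_mul_rA,
    sub_self]

theorem Gm_out (g : V₁ ⊗[F] W ≃ₗ[F] V₁ ⊗[F] W) : Gm (g : _ ⧸ TenG F V₁ W).out = Gm g := by
  obtain ⟨t, e⟩ := QuotientGroup.mk_out_eq_mul (TenG F V₁ W) g
  ext1 y
  rw [e, Gm_mul, Gm_ten t.2, Gm_apply]

theorem Opp.Gm_eq_zero [Nontrivial W] {g : V₁ ⊗[F] W ≃ₗ[F] V₁ ⊗[F] W} (h : Opp g) (A : End F V₁)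
    {a : End F W} (ha : trace F W a = 0) : Gm g (lA W A * rA V₁ a) = 0 :=
  eq_zero_of_trace fun z => by
    obtain ⟨C, e⟩ := exists_lA (h (ptr (adG g⁻¹ z)))
    rw [trace_Gm, Gm_apply, e, mul_assoc, mem_Cm.1 (lA_mem C), ← mul_assoc, ← map_mul, trace_lA_rA,
      ha, mul_zero]

section Orbit

variable {E α M : Type*} [Group E] [Fintype E] [MulAction E α] [DecidableEq α] [AddCommGroup M]
  [Module F M]

theorem sum_mem_of_orbit {S : Finset α} (hS : ∀ e : E, ∀ q ∈ S, e • q ∈ S) {f : α → M}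
    {L : Submodule F M} (h : ∀ q ∈ S, ∑ b ∈ Finset.univ.image (fun e : E => e • q), f b ∈ L) :
    ∑ q ∈ S, f q ∈ L := by
  classical
  rw [← L.ker_mkQ, mem_ker, map_sum]
  refine Finset.sum_cancels_of_partition_cancels (MulAction.orbitRel E α) fun q hq => ?_
  rw [← map_sum, ← mem_ker, L.ker_mkQ]
  convert h q hq using 2
  ext b
  simp only [Finset.mem_filter, Finset.mem_image, Finset.mem_univ, true_and]
  exact ⟨fun h => h.2, fun h => ⟨by obtain ⟨e, rfl⟩ := h; exact hS e q hq, h⟩⟩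

theorem sum_orbit_free {q : α} (h : ∀ e : E, e • q = q → e = 1) (f : α → M) :
    ∑ b ∈ Finset.univ.image (fun e : E => e • q), f b = ∑ e : E, f (e • q) :=
  Finset.sum_image fun a _ b _ e =>
    (inv_mul_eq_one.1 (h _ (by rw [mul_smul, inv_smul_eq_iff]; exact e))).symm

theorem sum_orbit_const {p k : ℕ} (hp : p.Prime) (hF : (p : F) = 0) (hE : Fintype.card E = p ^ k)
    {q : α} (h : ∃ e : E, e • q ≠ q) {f : α → M} (hf : ∀ e : E, f (e • q) = f q) :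
    ∑ b ∈ Finset.univ.image (fun e : E => e • q), f b = 0 := by
  classical
  rw [Finset.sum_congr rfl (g := fun _ => f q) fun b hb => by
    obtain ⟨e, -, rfl⟩ := Finset.mem_image.1 hb
    exact hf e, Finset.sum_const, ← Nat.cast_smul_eq_nsmul F]
  have h1 : (Finset.univ.image (fun e : E => e • q)).card = Nat.card (MulAction.orbit E q) := by
    rw [Nat.card_coe_set_eq, ← Set.ncard_coe_finset]
    congr 1
    ext; simp [MulAction.mem_orbit_iff]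
  have h2 : Nat.card (MulAction.orbit E q) ∣ p ^ k := by
    rw [← hE, ← Nat.card_eq_fintype_card, Nat.card_congr (MulAction.orbitEquivQuotientStabilizer E q)]
    exact Subgroup.card_quotient_dvd_card _
  obtain ⟨j, -, hj⟩ := (Nat.dvd_prime_pow hp).1 h2
  rw [h1, hj]
  obtain _ | j := j
  · obtain ⟨e, he⟩ := h
    exact (he (congrArg Subtype.val ((Nat.card_eq_one_iff_unique.1 hj).1.elim
      ⟨_, MulAction.mem_orbit q e⟩ ⟨_, MulAction.mem_orbit_self q⟩))).elim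
  · simp [hF]

end Orbit

section Sum

variable {𝒜 : Finset ((V₁ ⊗[F] W ≃ₗ[F] V₁ ⊗[F] W) ⧸ TenG F V₁ W)}

variable (𝒜) in
/-- The sum of the projections onto a family of conjugates of the second factor. -/
noncomputable def Ps : End F (End F (V₁ ⊗[F] W)) := ∑ q ∈ 𝒜, Gm q.out

variable (𝒜) in
/-- The part of `Ps` coming from conjugates in general position. -/
noncomputable def Dl : End F (End F (V₁ ⊗[F] W)) := by
  classical exact Ps (𝒜.filter fun q => ¬ Good q.out)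

theorem Gm_smul (x : V₁ ⊗[F] W ≃ₗ[F] V₁ ⊗[F] W) (q : _ ⧸ TenG F V₁ W) (y : End F (V₁ ⊗[F] W)) :
    Gm (x • q).out y = adG x (Gm q.out (adG x⁻¹ y)) := by
  induction q using QuotientGroup.induction_on with
  | H g => rw [MulAction.Quotient.smul_mk, Gm_out, Gm_out, smul_eq_mul, Gm_mul]

theorem Ps_image [DecidableEq ((V₁ ⊗[F] W ≃ₗ[F] V₁ ⊗[F] W) ⧸ TenG F V₁ W)]
    (x : V₁ ⊗[F] W ≃ₗ[F] V₁ ⊗[F] W) (y : End F (V₁ ⊗[F] W)) :
    Ps (𝒜.image (x • ·)) y = adG x (Ps 𝒜 (adG x⁻¹ y)) := by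
  rw [Ps, Finset.sum_image fun a _ b _ e => MulAction.injective x e]
  simp only [Ps, LinearMap.sum_apply, map_sum, Gm_smul]

theorem adG_Ps {x : V₁ ⊗[F] W ≃ₗ[F] V₁ ⊗[F] W} (h : ∀ q ∈ 𝒜, x • q ∈ 𝒜) (y : End F (V₁ ⊗[F] W)) :
    adG x (Ps 𝒜 y) = Ps 𝒜 (adG x y) := by
  classical
  have : 𝒜.image (x • ·) = 𝒜 := Finset.eq_of_subset_of_card_le
    (Finset.image_subset_iff.2 h) (Finset.card_image_of_injective _ (MulAction.injective x)).ge
  conv_rhs => rw [← this, Ps_image, adG_inv_adG]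

theorem trace_Dl (y z : End F (V₁ ⊗[F] W)) :
    trace F _ (Dl 𝒜 y * z) = trace F _ (y * Dl 𝒜 z) := by
  simp only [Dl, Ps, LinearMap.sum_apply, Finset.sum_mul, Finset.mul_sum, map_sum, trace_Gm]

theorem Ps_apply [Nontrivial W] (h1 : ((1 : V₁ ⊗[F] W ≃ₗ[F] V₁ ⊗[F] W) : _ ⧸ TenG F V₁ W) ∈ 𝒜)
    (y : End F (V₁ ⊗[F] W)) : ∃ c ∈ Cm (rA V₁ (W := W)), Ps 𝒜 y = Dl 𝒜 y + rA V₁ (ptr y) + c ∧
      ∀ A a, y = lA W A * rA V₁ a → trace F W a = 0 → c = 0 := by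
  classical
  have H : ∀ q ∈ (𝒜.filter fun q => Good q.out).erase (1 : V₁ ⊗[F] W ≃ₗ[F] V₁ ⊗[F] W),
      Opp q.out := fun q hq => by
    obtain ⟨a1, a2⟩ := Finset.mem_erase.1 hq
    refine (Finset.mem_filter.1 a2).2.resolve_left fun e => a1 ?_
    rw [← q.out_eq', eq_comm, QuotientGroup.eq]
    simpa using e
  refine ⟨Ps ((𝒜.filter fun q => Good q.out).erase (1 : V₁ ⊗[F] W ≃ₗ[F] V₁ ⊗[F] W)) y, ?_, ?_, ?_⟩
  · rw [Ps, LinearMap.sum_apply]
    exact sum_mem fun q hq => H q hq _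
  · rw [← Gm_ten (one_mem _), ← Gm_out, Dl, Ps, Ps, Ps, add_assoc, ← LinearMap.add_apply,
      Finset.add_sum_erase _ (fun q : _ ⧸ TenG F V₁ W => Gm q.out)
        (Finset.mem_filter.2 ⟨h1, (good_out _).2 (.inl (one_mem _))⟩), ← LinearMap.add_apply,
      Finset.sum_filter_not_add_sum_filter]
  · rintro A a rfl ha
    rw [Ps, LinearMap.sum_apply]
    exact Finset.sum_eq_zero fun q hq => (H q hq).Gm_eq_zero A ha

theorem Dl_mem {E : Type*} [Group E] [Fintype E] (ε : E →* (W ≃ₗ[F] W))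
    (hA : ∀ e, ∀ q ∈ 𝒜, rG V₁ (ε e) • q ∈ 𝒜) {y : End F (V₁ ⊗[F] W)}
    (hy : ∀ e, adG (rG V₁ (ε e)) y = y) {L : Submodule F (End F (V₁ ⊗[F] W))}
    (hL : ∀ z, ∑ e, adG (rG V₁ (ε e)) z ∈ L)
    (hK : ∀ g : V₁ ⊗[F] W ≃ₗ[F] V₁ ⊗[F] W, (g : _ ⧸ TenG F V₁ W) ∈ 𝒜 → ¬ Good g →
      (∀ e, g⁻¹ * rG V₁ (ε e) * g ∈ TenG F V₁ W → e = 1) ∨
      ∃ p k : ℕ, p.Prime ∧ (p : F) = 0 ∧ Fintype.card E = p ^ k ∧
        (∃ e, g⁻¹ * rG V₁ (ε e) * g ∉ TenG F V₁ W) ∧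
        ∀ e ≠ 1, ∀ z, adG (rG V₁ (ε e)) z = z → ∀ e', adG (rG V₁ (ε e')) z = z) :
    Dl 𝒜 y ∈ L := by
  classical
  let _ := MulAction.compHom (_ ⧸ TenG F V₁ W) ((rG V₁).comp ε)
  have e0 : ∀ (e : E) (q : _ ⧸ TenG F V₁ W), e • q = rG V₁ (ε e) • q := fun _ _ => rfl
  have e1 : ∀ (e : E) (g : V₁ ⊗[F] W ≃ₗ[F] V₁ ⊗[F] W), e • (g : _ ⧸ TenG F V₁ W) = g ↔
      g⁻¹ * rG V₁ (ε e) * g ∈ TenG F V₁ W := fun e g => by
    rw [e0, MulAction.Quotient.smul_mk, eq_comm, QuotientGroup.eq, smul_eq_mul, mul_assoc]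
  have e2 : ∀ (e : E) (q : _ ⧸ TenG F V₁ W), Gm (e • q).out y = adG (rG V₁ (ε e)) (Gm q.out y) :=
    fun e q => by rw [e0, Gm_smul, ← map_inv, ← map_inv, hy]
  rw [Dl, Ps, LinearMap.sum_apply]
  refine sum_mem_of_orbit (E := E) (fun e q hq => ?_) fun q hq => ?_ <;>
    obtain ⟨a1, a2⟩ := Finset.mem_filter.1 hq <;>
    induction q using QuotientGroup.induction_on with | H g => ?_
  · refine Finset.mem_filter.2 ⟨hA e _ a1, fun h => a2 ?_⟩
    rw [e0, MulAction.Quotient.smul_mk, good_out] at h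
    simpa [good_out] using h.mul_left (inv_mem (rG_mem (ε e)))
  by_cases hf : ∀ e, g⁻¹ * rG V₁ (ε e) * g ∈ TenG F V₁ W → e = 1
  · rw [sum_orbit_free fun e h => hf e ((e1 e g).1 h)]
    simpa only [e2] using hL _
  obtain ⟨p, k, b1, b2, b3, ⟨e, b4⟩, b5⟩ := (hK g a1 (by rwa [← good_out])).resolve_left hf
  push Not at hf
  obtain ⟨e₁, b6, b7⟩ := hf
  rw [sum_orbit_const b1 b2 b3 ⟨e, mt (e1 e g).1 b4⟩ fun e => by
    rw [e2]; exact b5 e₁ b7 _ (by rw [← e2, (e1 e₁ g).2 b6]) e]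
  exact zero_mem _

end Sum

end CF.MaxSub
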