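/-
Pure elements in subspaces of the endomorphism algebra invariant under a classical group, I.
-/
import Cfsg.Agent.MaxSub.WF
import Cfsg.Agent.MaxSub.WC
import Cfsg.Agent.MaxSub.TK

set_option autoImplicit false

namespace CF.MaxSub

open Module Geom

variable {F W : Type*} [Field F] [AddCommGroup W] [Module F W] {σ : F →+* F}
  {K : Set F} {G : Subgroup (W ≃ₗ[F] W)} {P : Set (End F W)}

theorem adG_mem_OpR {g : W ≃ₗ[F] W} (hg : g ∈ G) : adG g ∈ OpR F W K G := conj_mem_OpR hg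

theorem dG_mem_OpR {g : W ≃ₗ[F] W} (hg : g ∈ G) : adG g - 1 ∈ OpR F W K G :=
  sub_mem (adG_mem_OpR hg) (one_mem _)

theorem Pur.mono {K' : Set F} {G' : Subgroup (W ≃ₗ[F] W)} (h : Pur K G P) (hK : K ⊆ K')
    (hG : G ≤ G') : Pur K' G' P := fun U a1 a2 => by
  obtain ⟨D, a3, a4⟩ := h U (fun g hg => a1 g (hG hg)) a2
  refine ⟨D, Subring.closure_mono (Set.union_subset_union ?_ ?_) a3, a4⟩
  · rintro _ ⟨g, hg, e⟩; exact ⟨g, hG hg, e⟩
  · rintro _ ⟨c, hc, e⟩; exact ⟨c, hK hc, e⟩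

theorem Wd.mono {G' : Subgroup (W ≃ₗ[F] W)} {r : End F W} (h : Wd G r) (hG : G ≤ G') : Wd G' r := by
  have : Orb G r ≤ Orb G' r := Submodule.span_mono fun _ ⟨g, hg, e⟩ => ⟨g, hG hg, e⟩
  have := mul_le_mul' (mul_le_mul' this this) (mul_le_mul' this this)
  exact top_le_iff.1 (h.ge.trans (mul_le_mul' this this))

theorem adG_mem_Orb {g : W ≃ₗ[F] W} (hg : g ∈ G) (r : End F W) : adG g r ∈ Orb G r :=
  conj_mem_Orb hg r

theorem adG_Orb {g : W ≃ₗ[F] W} (hg : g ∈ G) {r a : End F W} (ha : a ∈ Orb G r) :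
    adG g a ∈ Orb G r :=
  Submodule.span_le (p := (Orb G r).comap (adG g)).2 (by
    rintro _ ⟨k, hk, rfl⟩
    change adG g (adG k r) ∈ Orb G r
    rw [adG_adG]
    exact adG_mem_Orb (mul_mem hg hk) r) ha

theorem adG_mul_mem {S T : Submodule F (End F W)} {g : W ≃ₗ[F] W} (hS : ∀ a ∈ S, adG g a ∈ S)
    (hT : ∀ a ∈ T, adG g a ∈ T) {a : End F W} (ha : a ∈ S * T) : adG g a ∈ S * T :=
  Submodule.mul_induction_on ha (fun s hs t ht => by
    rw [adG_mul]; exact Submodule.mul_mem_mul (hS s hs) (hT t ht))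
    fun x y hx hy => by rw [map_add]; exact add_mem hx hy

theorem adG_smulRight (g : W ≃ₗ[F] W) (φ : Dual F W) (x : W) :
    adG g (φ.smulRight x) = (φ ∘ₗ (g⁻¹ : W ≃ₗ[F] W)).smulRight (g x) := by
  ext v; simp [adG_apply]

variable {B : W →ₛₗ[σ] W →ₗ[F] F} {Q : W → F}

theorem adG_form {g : W ≃ₗ[F] W} (hg : ∀ x y, B (g x) (g y) = B x y) (w x : W) :
    adG g ((B w).smulRight x) = (B (g w)).smulRight (g x) := by
  ext v
  obtain ⟨v, rfl⟩ := g.surjective v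
  simp [adG_apply, inv_apply_apply, hg]

/-- `s ↦ B u s • w - B w s • u`. -/
def wgB (B : W →ₛₗ[σ] W →ₗ[F] F) (u w : W) : End F W := (B u).smulRight w - (B w).smulRight u

@[simp] theorem wgB_apply (u w s : W) : wgB B u w s = B u s • w - B w s • u := rfl

theorem adG_wgB {g : W ≃ₗ[F] W} (hg : ∀ x y, B (g x) (g y) = B x y) (u w : W) :
    adG g (wgB B u w) = wgB B (g u) (g w) := by
  rw [wgB, map_sub, adG_form hg, adG_form hg, wgB]

theorem tvE_inv {u : W} (hu : B u u = 0) {c : F} {t : W ≃ₗ[F] W}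
    (e : ∀ w, t w = w + (c * B u w) • u) (w : W) : t⁻¹ w = w + (-c * B u w) • u :=
  t.injective (by rw [apply_inv_apply, e]; simp [hu])

theorem dG_tv {u : W} (hu : B u u = 0) {c : F} {t : W ≃ₗ[F] W} (e : ∀ w, t w = w + (c * B u w) • u)
    (y : End F W) : (adG t - 1) y = c • ((B u ∘ₗ y).smulRight u - (B u).smulRight (y u)) -
      (c ^ 2 * B u (y u)) • nU B u := by
  ext v
  simp [adG_apply, tvE_inv hu e, -LinearEquiv.coe_inv, e]
  module

variable [FiniteDimensional F W]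

theorem Pur.of (h : ∀ U : Submodule F (End F W), (∀ g ∈ G, ∀ a ∈ U, adG g a ∈ U) →
    (∃ a ∈ U, ∀ c : F, a ≠ c • 1) → ∃ D ∈ OpR F W K G, ∃ r ∈ P,
      (∀ a ∈ U, D a ∈ F ∙ r) ∧ ∃ a ∈ U, D a ≠ 0) : Pur K G P := fun U a1 a2 => by
  obtain ⟨D, b1, r, b2, b3, a, b4, b5⟩ := h U a1 (by
    by_contra! H
    exact a2 fun a ha => (H a ha).elim fun c e => Submodule.mem_span_singleton.2 ⟨c, e.symm⟩)
  obtain ⟨l, hl⟩ := exists_dual_eq_one (F := F) (u := r) (by rintro rfl; simpa [b5] using b3 a b4)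
  have H : ∀ a ∈ U, D a = l (D a) • r := fun a ha => by
    obtain ⟨c, e⟩ := Submodule.mem_span_singleton.1 (b3 a ha)
    simp [← e, hl]
  exact ⟨D, b1, r, b2, l ∘ₗ D, H, a, b4, fun e => b5 (by rw [H a b4]; simpa using .inl e)⟩

section Witt

variable (hW : IsWittPair σ B Q)
include hW

theorem eq_top_of_sing {s : W} (s0 : s ≠ 0) (hs : Q s = Q 0) {S : Submodule F (End F W)}
    (h : ∀ x z, x ≠ 0 → z ≠ 0 → Q x = Q 0 → Q z = Q 0 → (B z).smulRight x ∈ S) : S = ⊤ := by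
  have a1 : ∀ {P : W → Prop}, (∀ a b, P a → P b → P (a + b)) → P 0 →
      (∀ t, t ≠ 0 → Q t = Q 0 → P t) → ∀ w, P w := fun hadd h0 h1 => all_ind hW s0 hs hadd
    (fun c => by
      by_cases e : c = 0
      · simpa [e]
      exact h1 _ (by simp [e, s0]) (hW.norm_smul_singular hs c))
    fun t a b => h1 t (by rintro rfl; simp at b) a
  have a2 : ∀ x z, (B z).smulRight x ∈ S := a1 (fun a b ha hb z => by
      convert add_mem (ha z) (hb z) using 1; ext; simp) (by simp) fun x x0 hx =>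
    a1 (fun a b ha hb => by convert add_mem ha hb using 1; ext; simp [add_smul]) (by simp)
      fun z z0 hz => h x z x0 z0 hx hz
  refine eq_top_iff.2 fun a _ => ?_
  rw [← sum_eu a]
  refine sum_mem fun i _ => sum_mem fun j _ => S.smul_mem _ ?_
  obtain ⟨z, e⟩ := exists_repr_dual hW.surj B hW.nondeg ((finBasis F W).coord j)
  exact eu.eq_1 (F := F) i j ▸ e ▸ a2 _ z

theorem pow_four_top (cp : CP B Q) {s : W} (s0 : s ≠ 0) (hs : Q s = Q 0) {S : Submodule F (End F W)}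
    (h : ∀ x, x ≠ 0 → Q x = Q 0 → nU B x ∈ S) : S * S * (S * S) = ⊤ :=
  eq_top_of_sing hW s0 hs fun x z x0 z0 hx hz => by
    obtain ⟨y, hy, e⟩ := hW.exists_hyperbolic x0 hx
    have y0 : y ≠ 0 := by rintro rfl; simp at e
    obtain ⟨y', hy', a1, a2⟩ := cp y z y0 z0 hy hz
    have := Submodule.mul_mem_mul (Submodule.mul_mem_mul (h x x0 hx) (h y y0 hy))
      (Submodule.mul_mem_mul (h y' (by rintro rfl; simp at a1) hy') (h z z0 hz))
    simp only [nU, smulRight_mul, e, one_smul, mul_smul_comm, smul_smul] at this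
    exact (Submodule.smul_mem_iff _ (mul_ne_zero (mt hW.refl a2) a1)).1 this

theorem nU_mem_of_inv (cp : CP B Q) {S : Submodule F (End F W)}
    (hS : ∀ g ∈ RGp B Q, ∀ a ∈ S, adG g a ∈ S) {u : W} (u0 : u ≠ 0) (hu : Q u = Q 0)
    (h : nU B u ∈ S) (x : W) (x0 : x ≠ 0) (hx : Q x = Q 0) : nU B x ∈ S := by
  obtain ⟨g, hg, c, c0, e⟩ := exists_mv hW cp u0 x0 hu hx
  have := hS g hg _ h
  rw [nU, adG_form (RGp_le_isom hg).1, e] at this
  refine (Submodule.smul_mem_iff _ (show c * σ c ≠ 0 by simp [c0])).1 ?_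
  convert this using 1
  ext; simp only [nU_apply, LinearMap.smul_apply, LinearMap.smulRight_apply, smul_smul,
    LinearMap.map_smulₛₗ₂, smul_eq_mul]; congr 1; ring

theorem wd_of_two (cp : CP B Q) {u : W} (u0 : u ≠ 0) (hu : Q u = Q 0) {r : End F W}
    (h : nU B u ∈ Orb (RGp B Q) r * Orb (RGp B Q) r) : Wd (RGp B Q) r := by
  have := pow_four_top hW cp u0 hu (nU_mem_of_inv hW cp (fun g hg a =>
    adG_mul_mem (fun _ => adG_Orb hg) fun _ => adG_Orb hg) u0 hu h)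
  simpa only [Wd, mul_assoc] using this

theorem wd_nU (cp : CP B Q) {u : W} (u0 : u ≠ 0) (hu : Q u = Q 0) : Wd (RGp B Q) (nU B u) := by
  rw [Wd, pow_four_top hW cp u0 hu (nU_mem_of_inv hW cp (fun g hg a => adG_Orb hg) u0 hu
    (self_mem_Orb _))]
  exact eq_top_iff.2 fun a _ => by
    simpa only [mul_one] using Submodule.mul_mem_mul (Submodule.mem_top (x := a))
      (Submodule.mem_top (x := (1 : End F W)))

omit [FiniteDimensional F W] in
theorem rad_two {u f : W} (hf : B u f = 1) {g h : W ≃ₗ[F] W} (hg : g ∈ Rad B Q u ⊤)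
    (hh : h ∈ Rad B Q u ⊤) : ∃ κ : F, κ * B f u = B (h⁻¹ f - f) (g f - f) ∧
      ∀ s, h (g s - s) - (g s - s) = (B u s * κ) • u := by
  obtain ⟨κ, e⟩ := Submodule.mem_span_singleton.1 (hh.2.2.1 _ (Rad_disp_perp hg f))
  refine ⟨κ, ?_, fun s => ?_⟩
  · rw [← smul_eq_mul, ← map_smul, e, map_sub (B f), map_sub B, LinearMap.sub_apply,
      ← hh.1.1 (h⁻¹ f), apply_inv_apply]
  obtain ⟨l, e'⟩ := Submodule.mem_span_singleton.1 (hg.2.2.1 (s - B u s • f) (by simp [hf]))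
  have : g s - s = B u s • (g f - f) + l • u := by rw [e', map_sub, map_smul]; module
  rw [this, map_add, map_smul, map_smul, hh.2.1, mul_smul, e]
  module

omit [FiniteDimensional F W] in
theorem dG_three {u f : W} (hu : Q u = Q 0) (hf : B u f = 1) {g h t : W ≃ₗ[F] W}
    (hg : g ∈ Rad B Q u ⊤) (hh : h ∈ Rad B Q u ⊤) {c : F} (e : ∀ w, t w = w + (c * B u w) • u) :
    ∃ κ : F, κ * B f u = B (g f - f) (h f - f) - B (h f - f) (g f - f) ∧ ∀ y,
      ((adG h⁻¹ - 1) * (adG g - 1) * (adG t - 1)) y = (c * B u (y u) * κ) • nU B u := by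
  obtain ⟨κ, a1, a2⟩ := rad_two hW hf hh (inv_mem hg)
  obtain ⟨κ', a3, a4⟩ := rad_two hW hf hg (inv_mem hh)
  rw [inv_inv] at a1 a3
  refine ⟨κ - κ', by rw [sub_mul, a1, a3], fun y => ?_⟩
  have b1 : ∀ k ∈ Rad B Q u ⊤, ∀ x, adG k ((B u).smulRight x) = (B u).smulRight (k x) :=
    fun k hk x => by rw [adG_form hk.1.1, hk.2.1]
  rw [End.mul_apply, End.mul_apply, dG_tv (hW.self_eq_zero hu) e]
  simp only [LinearMap.sub_apply, End.one_apply, map_sub, map_smul, nU, b1 _ hg, b1 _ (inv_mem hh),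
    adG_smulRight, hg.2.1, (inv_mem hh).2.1, inv_inv]
  ext s
  have b2 := congrArg (fun x => B u (y x)) (a2 s)
  have b3 := congrArg (B u s • ·) (a4 (y u))
  simp only [map_sub, map_smul, smul_eq_mul, smul_sub] at b2 b3
  simp only [LinearMap.sub_apply, LinearMap.smul_apply, LinearMap.smulRight_apply,
    LinearMap.comp_apply, LinearEquiv.coe_coe]
  linear_combination (norm := module) (c * (b2 :)) • u - c • b3

end Witt

theorem scalar_of_herm [Finite F] (hH : IsHerm B) (hB : B.Nondegenerate) (h2 : 2 ≤ finrank F W)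
    {a : End F W} (h : ∀ x, B x x = 0 → B x (a x) = 0) : ∃ c : F, a = c • 1 := by
  have hW := hH.wittPair hB
  refine eigen_herm hH hB h2 a fun u hu => ?_
  by_cases u0 : u = 0
  · simp [u0]
  obtain ⟨f, hf, e⟩ := hW.exists_hyperbolic u0 hu
  obtain ⟨s, s0, hs⟩ := exists_skew_ne_zero hH.ne_id hH.invol
  obtain ⟨l, hl⟩ : ∃ l, σ l ≠ l := by
    by_contra! hc
    exact hH.ne_id (RingHom.ext hc)
  rw [map_zero] at hu hf
  have a1 : ∀ f, B f f = 0 → B u f = 1 → B u (a f) = B f (a u) := fun f hf e =>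
    mul_left_cancel₀ s0 (by
      have := h (u + s • f) (by simp [hu, hf, e, hH.flip_one e, hs])
      simp only [map_add, map_smul, LinearMap.add_apply, LinearMap.map_smulₛₗ₂, h u hu, h f hf, hs,
        smul_eq_mul] at this
      linear_combination this)
  have a2 : ∀ w, B u w = 0 → B u (a w) = B w (a u) := fun w hw => by
    obtain ⟨c, hc⟩ := hW.slide u f (f + w) (by simpa using hu) (by simp [e, hw])
    simpa [a1 f hf e, h u hu] using a1 _ (hc.trans hf) (by simp [e, hw, hu])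
  rw [← hW.perp_perp (F ∙ u)]
  refine mem_perp.2 fun w hw => ?_
  have a3 := mem_perp_singleton.1 hw
  have a4 := a2 (l • w) (by simp [a3])
  simp only [map_smul, LinearMap.map_smulₛₗ₂, smul_eq_mul, a2 w a3] at a4
  exact (mul_eq_mul_right_iff.1 a4).resolve_left hl.symm

theorem pur_herm [Finite F] (hH : IsHerm B) (hB : B.Nondegenerate) (h3 : 3 ≤ finrank F W) :
    Pur ∅ (RGp B fun x => B x x) {r | ∃ u, u ≠ 0 ∧ B u u = 0 ∧ r = nU B u} := by
  have hW := hH.wittPair hB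
  refine .of fun U _ ⟨y, hy, hy'⟩ => ?_
  obtain ⟨u, hu, a1⟩ : ∃ u, B u u = 0 ∧ B u (y u) ≠ 0 := by
    by_contra! hc
    obtain ⟨c, e⟩ := scalar_of_herm hH hB (by omega) hc
    exact hy' c e
  have u0 : u ≠ 0 := by rintro rfl; simp at a1
  have hu' : B u u = B 0 0 := by simpa using hu
  obtain ⟨f, hf, e⟩ := hW.exists_hyperbolic u0 hu'
  obtain ⟨s, s0, hs⟩ := exists_skew_ne_zero hH.ne_id hH.invol
  obtain ⟨l, hl⟩ : ∃ l, σ l ≠ l := by
    by_contra! hc
    exact hH.ne_id (RingHom.ext hc)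
  obtain ⟨w, w', b1, -, b2, -, b3⟩ := hW.exists_perp_pair h3 hu' hf (by simp [e])
  obtain ⟨g, c1, c, c2⟩ := hW.exists_Rad_add hu' (A := ⊤) trivial (y := f) (by simp [e]) b1 trivial
  obtain ⟨h, c3, c', c4⟩ := hW.exists_Rad_add hu' (A := ⊤) trivial (y := f) (w := l • w')
    (by simp [e]) (by simp [b2]) trivial
  have c5 := uTrans_mem_Rad hH hu hs (A := ⊤) trivial
  obtain ⟨κ, d1, d2⟩ := dG_three hW hu' e c1 c3 (uTrans_apply hH hu hs)
  refine ⟨_, mul_mem (mul_mem (dG_mem_OpR (inv_mem (mem_RGp hu' c3))) (dG_mem_OpR (mem_RGp hu' c1)))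
    (dG_mem_OpR (mem_RGp hu' c5)), _, ⟨u, u0, hu, rfl⟩, fun a _ => d2 a ▸
      Submodule.smul_mem _ _ (Submodule.mem_span_singleton_self _), y, hy, fun e' => hl ?_⟩
  have d3 : κ = 0 := by simpa [d2, e, s0, a1, u0] using LinearMap.congr_fun e' f
  refine (sub_eq_zero.1 ?_).symm
  simpa [d3, c2, c4, add_assoc, hu, b1, b2, hH.refl b1, hH.refl b2, b3, hH.flip_one b3]
    using d1.symm

theorem pur_odd (hW : IsWittPair σ B Q) (h2 : (2 : F) ≠ 0) {c : F} (c0 : c ≠ 0)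
    (hT : ∀ u, Q u = Q 0 → ∃ t ∈ Rad B Q u ⊤, ∀ w, t w = w + (c * B u w) • u)
    (he : ∀ a : End F W, (∀ u, Q u = Q 0 → B u (a u) = 0) → ∃ c : F, a = c • 1) :
    Pur ∅ (RGp B Q) {r | ∃ u, u ≠ 0 ∧ Q u = Q 0 ∧ r = nU B u} := by
  refine .of fun U _ ⟨y, hy, hy'⟩ => ?_
  obtain ⟨u, hu, a1⟩ : ∃ u, Q u = Q 0 ∧ B u (y u) ≠ 0 := by
    by_contra! hc
    obtain ⟨c, e⟩ := he y hc
    exact hy' c e
  have u0 : u ≠ 0 := by rintro rfl; simp at a1
  obtain ⟨f, -, e⟩ := hW.exists_hyperbolic u0 hu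
  obtain ⟨t, a2, a3⟩ := hT u hu
  have hu' := hW.self_eq_zero hu
  have H : ∀ a, (adG t - 1 + (adG t⁻¹ - 1)) a = (-2 * c ^ 2 * B u (a u)) • nU B u := fun a => by
    rw [LinearMap.add_apply, dG_tv hu' a3, dG_tv hu' (tvE_inv hu' a3)]
    module
  exact ⟨_, add_mem (dG_mem_OpR (mem_RGp hu a2)) (dG_mem_OpR (inv_mem (mem_RGp hu a2))), _,
    ⟨u, u0, hu, rfl⟩, fun a _ => H a ▸ Submodule.smul_mem _ _ (Submodule.mem_span_singleton_self _),
    y, hy, fun e' => by simpa [H, e, c0, a1, u0, h2] using LinearMap.congr_fun e' f⟩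

theorem uDil_mem_RGp (hH : IsHerm B) (hB : B.Nondegenerate) {u f : W} (hu : B u u = 0)
    (hf : B f f = 0) (e : B u f = 1) {γ : Fˣ} (hγ : σ γ = γ) :
    (uDil hH hu hf e γ).1 ∈ RGp B fun x => B x x :=
  (polarG_su hH hB (by rintro rfl; simp at e) hu).le_RGp
    (mem_SUG.2 ⟨UG_map _, by simp [det_uDil, hγ]⟩)

theorem pur_herm_two [Finite F] (hH : IsHerm B) (hB : B.Nondegenerate) (h2 : finrank F W = 2)
    {γ : F} (γ0 : γ ≠ 0) (γ1 : γ ≠ 1) (hγ : σ γ = γ) :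
    Pur ∅ (RGp B fun x => B x x) {r | ∃ u, u ≠ 0 ∧ B u u = 0 ∧ r = nU B u} := by
  have hW := hH.wittPair hB
  obtain ⟨s, s0, hs⟩ := exists_skew_ne_zero hH.ne_id hH.invol
  by_cases p2 : (2 : F) ≠ 0
  · simpa using pur_odd hW p2 s0 (fun u hu => ⟨_, uTrans_mem_Rad hH (by simpa using hu) hs
      (A := ⊤) trivial, uTrans_apply hH _ hs⟩) fun a e => scalar_of_herm hH hB h2.ge (by simpa using e)
  refine .of fun U _ ⟨y, hy, hy'⟩ => ?_
  obtain ⟨u, hu, a1⟩ : ∃ u, B u u = 0 ∧ B u (y u) ≠ 0 := by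
    by_contra! hc
    obtain ⟨c, e⟩ := scalar_of_herm hH hB h2.ge hc
    exact hy' c e
  have u0 : u ≠ 0 := by rintro rfl; simp at a1
  have hu' : B u u = B 0 0 := by simpa using hu
  obtain ⟨f, hf, e⟩ := hW.exists_hyperbolic u0 hu'
  rw [map_zero] at hf
  obtain ⟨c, c0, hc, a2⟩ : ∃ c, c ≠ 0 ∧ σ c = -c ∧ B u (y f) - B f (y u) - c * B u (y u) ≠ 0 := by
    by_contra! H
    exact γ1 (mul_right_cancel₀ (mul_ne_zero s0 a1) (by
      linear_combination H s s0 hs - H (γ * s) (mul_ne_zero γ0 s0) (by simp [hs, hγ])))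
  have a3 : ∀ v, v = B f v • u + B u v • f := fun v => by
    obtain ⟨a, b, rfl⟩ := Submodule.mem_span_pair.1 ((Submodule.eq_top_of_finrank_eq
      ((IsWittPair.finrank_span_hyperbolic hu (by simp [e] : B u f ≠ 0)).trans h2.symm)).ge
      (trivial : v ∈ ⊤))
    simp [hu, hf, e, hH.flip_one e]
  let k := (uDil hH hu hf e (Units.mk0 γ γ0)).1
  have k1 : k u = γ • u := uDil_left ..
  have k2 : k f = γ⁻¹ • f := by simpa [hγ] using uDil_right hH hu hf e (Units.mk0 γ γ0)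
  have k3 : k⁻¹ u = γ⁻¹ • u := k.injective (by simp [apply_inv_apply, k1, smul_smul, γ0])
  have k4 : k⁻¹ f = γ • f := k.injective (by simp [apply_inv_apply, k2, smul_smul, γ0])
  have H : ∀ a, ((adG k - 1) * (adG (uTrans hH hu hc).1 - 1)) a = ((γ ^ 2 - 1) * c *
      (B u (a f) - B f (a u) - c * B u (a u))) • nU B u := fun a => by
    rw [End.mul_apply, dG_tv hu (uTrans_apply hH hu hc), a3 (a u)]
    ext v
    rw [a3 v]
    simp [adG_apply, k1, k2, k3, k4, hu, hf, e, hH.flip_one e, -LinearEquiv.coe_inv]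
    match_scalars <;> field_simp <;> ring
  refine ⟨_, mul_mem (dG_mem_OpR (uDil_mem_RGp hH hB hu hf e hγ)) (dG_mem_OpR
    (mem_RGp hu' (uTrans_mem_Rad hH hu hc (A := ⊤) trivial))), _, ⟨u, u0, hu, rfl⟩,
    fun a _ => H a ▸ Submodule.smul_mem _ _ (Submodule.mem_span_singleton_self _), y, hy, fun e' =>
      γ1 ?_⟩
  have a4 : γ ^ 2 - 1 = 0 := by
    simpa [e, c0, a2, u0] using LinearMap.congr_fun ((H y).symm.trans e') f
  exact sub_eq_zero.1 (pow_eq_zero_iff two_ne_zero |>.1 (by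
    linear_combination a4 + (1 - γ) * not_not.1 p2))

section Alt

variable {B : LinearMap.BilinForm F W} (hB : B.Nondegenerate) (hA : B.IsAlt)
include hB hA

/-- The pure elements of the endomorphism algebra of a symplectic space. -/
def PSp (B : LinearMap.BilinForm F W) : Set (End F W) :=
  {r | ∃ u, u ≠ 0 ∧ (r = nU B u ∨ ∃ u', B u u' = 0 ∧ u' ∉ F ∙ u ∧ r = wgB B u u')}

theorem pur_alt (h3 : 3 ≤ finrank F W) : Pur ∅ (RGp B fun _ => 0) (PSp B) := by
  have hW := isWittPair_alt B hB hA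
  have H : ∀ u u', B u u' = 0 → ∃ D ∈ OpR F W ∅ (RGp B fun _ => 0), ∀ a, D a =
      -(B u (a u') • (B u').smulRight u) - B u' (a u) • (B u).smulRight u' := fun u u' e => by
    obtain ⟨t, a1, a2⟩ := tv_alt hA u 1
    obtain ⟨t', a3, a4⟩ := tv_alt hA u' 1
    refine ⟨_, mul_mem (dG_mem_OpR (mem_RGp (u := u') rfl a3))
      (dG_mem_OpR (mem_RGp (u := u) rfl a1)), fun a => ?_⟩
    rw [End.mul_apply, dG_tv (hA u) a2, dG_tv (hA u') a4]
    ext v
    simp [e, hW.refl e]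
    module
  refine .of fun U _ ⟨y, hy, hy'⟩ => ?_
  by_cases h : ∃ y ∈ U, ∃ u u', B u u' = 0 ∧ u' ∉ F ∙ u ∧ u ≠ 0 ∧ B u (y u') + B u' (y u) ≠ 0
  · obtain ⟨y, hy, u, u', a1, a2, u0, a3⟩ := h
    obtain ⟨D, b1, b2⟩ := H u u' a1
    obtain ⟨φ, b3, b4⟩ := exists_dual_sep a2
    obtain ⟨g, c1, c2, c3⟩ := exists_rd hW u0 rfl b3
    obtain ⟨f, -, e⟩ := hW.exists_hyperbolic u0 rfl
    have H' : ∀ a, ((adG g - 1) * D) a = -(B u (a u') + B u' (a u)) • nU B u := fun a => by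
      simp only [End.mul_apply, b2, LinearMap.sub_apply, map_sub, map_neg, map_smul,
        adG_form (RGp_le_isom c1).1, c2, c3 u' a1, b4, End.one_apply]
      ext; simp; module
    exact ⟨_, mul_mem (dG_mem_OpR c1) b1, _, ⟨u, u0, .inl rfl⟩,
      fun a _ => H' a ▸ Submodule.smul_mem _ _ (Submodule.mem_span_singleton_self _), y, hy,
      fun e' => by simpa [H', e, u0, a3, -neg_add_rev] using LinearMap.congr_fun e' f⟩
  push Not at h
  obtain ⟨z, hz⟩ := exists_not_eigen_end hy'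
  have z0 : z ≠ 0 := by rintro rfl; simp at hz
  obtain ⟨u, a1, a2, a3⟩ : ∃ u, B u z = 0 ∧ u ∉ F ∙ z ∧ B u (y z) ≠ 0 := by
    obtain ⟨u, a1, a2⟩ := hW.exists_dual_vec hz
    have a3 := a2 z (Submodule.mem_span_singleton_self z)
    have a4 : B u (y z) ≠ 0 := fun e => by simpa [a1] using hW.refl e
    by_cases a5 : u ∈ F ∙ z
    · obtain ⟨s, -, b1, b2⟩ := idx_alt hW h3 z z0 rfl
      by_cases b3 : B s (y z) = 0
      · exact ⟨u + s, by simp [hW.refl a3, hW.refl b1],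
          fun e => b2 ((add_mem_cancel_left a5).1 e), by simpa [b3]⟩
      exact ⟨s, hW.refl b1, b2, b3⟩
    exact ⟨u, hW.refl a3, a5, a4⟩
  have u0 : u ≠ 0 := by rintro rfl; simp at a3
  have a4 : z ∉ F ∙ u := fun e => a2 (by
    obtain ⟨c, rfl⟩ := Submodule.mem_span_singleton.1 e
    exact (Submodule.span_singleton_smul_eq (left_ne_zero_of_smul z0).isUnit u).ge
      (Submodule.mem_span_singleton_self u))
  obtain ⟨D, b1, b2⟩ := H u z a1
  have H' : ∀ a ∈ U, D a = B u (a z) • wgB B u z := fun a ha => by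
    rw [b2, eq_neg_of_add_eq_zero_right (h a ha u z a1 a4 u0), wgB]; module
  obtain ⟨f, b3, b4⟩ := hW.exists_dual_vec a4
  exact ⟨D, b1, _, ⟨u, u0, .inr ⟨z, a1, a4, rfl⟩⟩,
    fun a ha => H' a ha ▸ Submodule.smul_mem _ _ (Submodule.mem_span_singleton_self _), y, hy,
    fun e' => by simpa [H' y hy, b3, b4 u (Submodule.mem_span_singleton_self u), u0, a3] using
      LinearMap.congr_fun e' f⟩

omit hB [FiniteDimensional F W] in
theorem PSp.sq {r : End F W} (h : r ∈ PSp B) : r * r = 0 := by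
  obtain ⟨u, -, rfl | ⟨u', e, -, rfl⟩⟩ := h <;> ext <;> simp [hA.self_eq_zero, *, ← hA.neg_eq u]

theorem PSp.wd (cp : CP B fun _ => 0) {r : End F W} (h : r ∈ PSp B) : Wd (RGp B fun _ => 0) r := by
  have hW := isWittPair_alt B hB hA
  obtain ⟨u, u0, rfl | ⟨u', e, e', rfl⟩⟩ := h
  · exact wd_nU hW cp u0 rfl
  obtain ⟨z, a1, a2⟩ := hW.exists_dual_vec e'
  obtain ⟨t, a3, a4⟩ := tv_alt hA z 1
  refine wd_of_two hW cp u0 rfl ?_
  convert Submodule.mul_mem_mul (self_mem_Orb _) (adG_mem_Orb (mem_RGp (u := z) rfl a3) _) using 1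
  ext
  have a5 := a2 u (Submodule.mem_span_singleton_self u)
  simp [adG_wgB a3.1.1, a4, a1, a5, hW.refl a5, ← hA.neg_eq u' z, e, hW.refl e, hA.self_eq_zero]

end Alt

end CF.MaxSub
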