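/-
Overgroups of one tensor factor of a classical group: the unipotent radical.
-/
import Cfsg.Agent.MaxSub.WC
import Cfsg.Agent.MaxSub.TE

set_option autoImplicit false

namespace CF.MaxSub

open Module Geom TensorProduct

variable {F V₁ W : Type*} [Field F] [AddCommGroup V₁] [Module F V₁] [AddCommGroup W]
  [Module F W] {σ : F →+* F}

/-- Left multipliers of a subspace of an algebra. -/
def ML {R : Type*} [Ring R] [Algebra F R] (S : Submodule F R) : Subalgebra F R where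
  carrier := {a | ∀ A ∈ S, a * A ∈ S}
  mul_mem' ha hb A hA := by rw [mul_assoc]; exact ha _ (hb A hA)
  add_mem' ha hb A hA := by rw [add_mul]; exact add_mem (ha A hA) (hb A hA)
  algebraMap_mem' c A hA := by rw [← Algebra.smul_def]; exact S.smul_mem c hA

variable {B₁ : V₁ →ₛₗ[σ] V₁ →ₗ[F] F} {Q₁ : V₁ → F} {B₂ : W →ₛₗ[σ] W →ₗ[F] F} {Q₂ : W → F}
  {B : V₁ ⊗[F] W →ₛₗ[σ] V₁ ⊗[F] W →ₗ[F] F} {Q : V₁ ⊗[F] W → F}
  {G X : Subgroup (V₁ ⊗[F] W ≃ₗ[F] V₁ ⊗[F] W)}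

theorem conj_mem_AL (hW : IsWittPair σ B₂ Q₂) {a : V₁ ≃ₗ[F] V₁} (ha : lG W a ∈ X) {A : End F V₁}
    (hA : A ∈ AL X hW) : (a : End F V₁) * A * (a⁻¹ : V₁ ≃ₗ[F] V₁) ∈ AL X hW := fun u u0 hu w hw =>
  (hA u u0 hu w hw).conj (b := 1) ha (c := 1) (by simp) (fun _ => id) fun x w _ => by
    simp [inv_apply_apply]

theorem conj_mem_ML {R : Type*} [Ring R] [Algebra F R] {S : Submodule F R} {a a' : R}
    (e : a' * a = 1) (h : ∀ A ∈ S, a * A * a' ∈ S) (h' : ∀ A ∈ S, a' * A * a ∈ S) (e' : a * a' = 1)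
    {A : R} (hA : A ∈ ML S) : a * A * a' ∈ ML S := fun C hC => by
  have := h _ (hA _ (h' C hC))
  rwa [mul_assoc a, mul_assoc A, mul_assoc _ a, e', mul_one, ← mul_assoc, ← mul_assoc] at this

/-- The second factors of square zero elements of `X` with a given first factor. -/
def DP (X : Subgroup (V₁ ⊗[F] W ≃ₗ[F] V₁ ⊗[F] W)) (p : End F V₁) (hp : p * p = 0) :
    AddSubgroup (End F W) where
  carrier := {b | Un X (map p b)}
  zero_mem' := by simpa using Un.zero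
  add_mem' {a b} ha hb := by
    simpa only [Set.mem_setOf_eq, map_add_right] using Un.add ha hb (by simp [← TensorProduct.map_mul, hp])
      (by simp [← TensorProduct.map_mul, hp])
  neg_mem' {a} ha := (Un.neg ha).congr fun v => by
    rw [← neg_one_smul F a, TensorProduct.map_smul_right]; simp

namespace WP

variable (h : WP B₁ Q₁ B₂ Q₂ B Q G X)
include h

theorem isom {g : V₁ ⊗[F] W ≃ₗ[F] V₁ ⊗[F] W} (hg : g ∈ X) : g ∈ Isom B Q := h.pol.le (h.le hg)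

theorem conj_DP {p : End F V₁} {hp : p * p = 0} {b b' : End F W} (hb : b ∈ DP X p hp)
    {c : W ≃ₗ[F] W} (hc : c ∈ RGp B₂ Q₂) (e : ∀ w, b' (c w) = c (b w)) : b' ∈ DP X p hp :=
  Un.of_conj hb (h.rad c hc) (congr_apply_map 1 c (fun _ => rfl) e)

theorem un_nU {s : End F V₁} {u : W} (hs : Un X (map s (nU B₂ u))) {c : W ≃ₗ[F] W}
    (hc : c ∈ RGp B₂ Q₂) : Un X (map s (nU B₂ (c u))) :=
  Un.of_conj hs (h.rad c hc) (congr_apply_map 1 c (fun _ => rfl) fun w => by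
    simp [(RGp_le_isom hc).1])

omit h in
theorem levi (hW : IsWittPair σ B₂ Q₂) {p : End F V₁} {hp : p * p = 0}
    (H : ∀ u, u ≠ 0 → Q₂ u = Q₂ 0 → ∃ b ∈ DP X p hp, (∃ l : F, l ≠ 0 ∧ b u = l • u) ∧
      ∀ w, B₂ u w = 0 → b w ∈ F ∙ u) : p ∈ ML (AL X hW) := fun A hA u u0 hu w₀ hw => by
  obtain ⟨b, a1, ⟨l, l0, a2⟩, a3⟩ := H u u0 hu
  obtain ⟨c, hc⟩ := hW.surj l⁻¹
  have a4 := hA u u0 hu (c • w₀) (by simp [hw])
  obtain ⟨k, b1, b2, b3⟩ := id a4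
  have pp : ∀ x, p (p x) = 0 := LinearMap.congr_fun hp
  refine (RT.sub (θ := (B₂ (c • w₀)).smulRight ((1 + l • p) * A)) ⟨_ * k * _,
    mul_mem (mul_mem a1.unip_mem b1) a1.neg.unip_mem, fun x => ?_, fun x w hw => ?_⟩ a4).congr
    fun w _ => by simp [add_mul, hc, smul_smul, mul_comm l, mul_right_comm, l0]
  · simp [unip_apply, a2, b2, pp]
  · obtain ⟨m, e⟩ := Submodule.mem_span_singleton.1 (a3 w hw)
    simp [unip_apply, a2, b2, b3 x w hw, ← e, pp, add_tmul, ← smul_tmul']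
    module

variable [FiniteDimensional F V₁] [FiniteDimensional F W]

omit [FiniteDimensional F V₁] in
/-- A square zero element of the centre of the radical is a multiplier: transvections. -/
theorem levi_tv (hT : ∀ u, u ≠ 0 → Q₂ u = Q₂ 0 → ∃ f, Q₂ f = Q₂ 0 ∧ B₂ u f ≠ 0 ∧ Q₂ (u + f) = Q₂ 0)
    {p : End F V₁} (hp : p * p = 0) {u : W} (u0 : u ≠ 0) (hu : Q₂ u = Q₂ 0)
    (hs : Un X (map p (nU B₂ u))) : p ∈ ML (AL X h.w₂) := by
  have hW := h.w₂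
  refine levi hW (hp := hp) fun u' a1 a2 => ?_
  obtain ⟨c, hc, γ, γ0, e⟩ := h.exists_move u0 a1 hu a2
  have a3 := h.un_nU hs hc
  have a4 : Q₂ (c u) = Q₂ 0 := ((RGp_le_isom hc).2 u).trans hu
  obtain ⟨f, b1, b2, b3⟩ := hT (c u) (by simpa using u0) a4
  obtain ⟨g, c1, c2⟩ := hW.exists_Rad b1 (A := ⊤) trivial (mt hW.refl b2) (y' := c u + f)
    (by simp [hW.self_eq_zero b1]) (b3.trans a4.symm) trivial
  obtain ⟨g', c3, c4⟩ := hW.exists_Rad a4 (A := ⊤) trivial (y := c u + f) (y' := f)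
    (by simpa [hW.self_eq_zero a4]) (by simp [hW.self_eq_zero a4]) (b1.trans b3.symm) trivial
  have a5 := h.un_nU a3 (mem_RGp b1 c1)
  have a6 := h.un_nU a5 (mem_RGp a4 c3)
  rw [c2, c4] at a6
  rw [c2] at a5
  refine ⟨_, sub_mem (sub_mem (show _ ∈ DP X p hp from a5) a3) a6, ⟨γ * B₂ f u', mul_ne_zero γ0
    fun e' => b2 (by simp [e, hW.refl e']), ?_⟩, fun w hw => Submodule.mem_span_singleton.2
      ⟨γ * B₂ f w, ?_⟩⟩ <;>
  simp [*, hW.self_eq_zero a2, smul_smul, mul_comm]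

omit [FiniteDimensional F V₁] in
theorem rt_one {u : W} (u0 : u ≠ 0) (hu : Q₂ u = Q₂ 0) {φ : Dual F W} (e : φ u = 0) :
    RT X B₂ u (φ.smulRight 1) := by
  obtain ⟨ρ, h1, h2, h3⟩ := h.exists_rad u0 hu e
  exact ⟨_, h.rad ρ h1, fun x => by simp [h2], fun x w hw => by simp [h3 w hw, tmul_add, smul_tmul]⟩

omit [FiniteDimensional F V₁] in
theorem one_mem_AL : 1 ∈ AL X h.w₂ := fun _ u0 hu _ hw => h.rt_one u0 hu (h.w₂.refl hw)

omit [FiniteDimensional F V₁] [FiniteDimensional F W] in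
theorem rt_aux {u f : W} (hf : B₂ u f = 1) {θ : W →ₗ[F] End F V₁}
    {k : V₁ ⊗[F] W ≃ₗ[F] V₁ ⊗[F] W} (a1 : k ∈ X) (a2 : ∀ x, k (x ⊗ₜ u) = x ⊗ₜ u)
    (a3 : ∀ x w, B₂ u w = 0 → k (x ⊗ₜ w) = x ⊗ₜ w + θ w x ⊗ₜ u) :
    (∀ y, ct (B₂ u) (k (y ⊗ₜ f) - y ⊗ₜ f) = 0) ∧
      (∀ x y w, B₂ u w = 0 → B₁ x (ct (B₂ w) (k (y ⊗ₜ f) - y ⊗ₜ f)) = -B₁ (θ w x) y) ∧
      ∀ v, ct (B₂ u) v = 0 → ∃ x, k v = v + x ⊗ₜ u := by
  have c1 := h.ct_eq (h.isom a1).1 a2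
  refine ⟨fun y => by simp [c1], fun x y w hw => ?_, fun v hv => ?_⟩
  · have := (h.isom a1).1 (x ⊗ₜ w) (y ⊗ₜ f)
    rw [a3 x w hw, map_add, LinearMap.add_apply, h.eq_ct, h.eq_ct, h.eq_ct, c1] at this
    simp only [ct_tmul, hf, one_smul, map_sub] at this ⊢
    linear_combination this
  · obtain ⟨x, e⟩ := sub_mem_of_tmul (k := k) (S := LinearMap.range (tr u))
      (fun x w hw => ⟨θ w x, by simp [a3 x w hw]⟩) hv
    exact ⟨x, eq_add_of_sub_eq' e.symm⟩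

omit [FiniteDimensional F V₁] in
theorem rt_f {u f : W} (u0 : u ≠ 0) (hf : B₂ u f = 1) {θ : W →ₗ[F] End F V₁}
    {k : V₁ ⊗[F] W ≃ₗ[F] V₁ ⊗[F] W} (a1 : k ∈ X) (a2 : ∀ x, k (x ⊗ₜ u) = x ⊗ₜ u)
    (a3 : ∀ x w, B₂ u w = 0 → k (x ⊗ₜ w) = x ⊗ₜ w + θ w x ⊗ₜ u) {w₀ w₁ : W} {A A' : End F V₁}
    (e : ∀ w, B₂ u w = 0 → θ w = B₂ w₀ w • A) (e' : ∀ w, B₂ u w = 0 → σ (B₂ w₀ w) = B₂ w w₁)
    (hA : ∀ x y, B₁ (A x) y = B₁ x (A' y)) (y : V₁) :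
    ∃ z, k (y ⊗ₜ f) = y ⊗ₜ f + z ⊗ₜ u - A' y ⊗ₜ w₁ := by
  obtain ⟨z, c3⟩ := h.mem_range u0 (v := k (y ⊗ₜ f) - y ⊗ₜ f + A' y ⊗ₜ w₁) fun r hr =>
    h.ext₁ fun x => by
      rw [map_add, map_add, (h.rt_aux hf a1 a2 a3).2.1 x y r hr, e r hr]
      simp [e' r hr, hA]
  exact ⟨z, by rw [← tr_apply (F := F) u z, c3]; abel⟩

omit [FiniteDimensional F V₁] in
/-- Commutator of an element of the radical with a pure one. -/
theorem rt_comm {u : W} (u0 : u ≠ 0) (hu : Q₂ u = Q₂ 0) {θ θ' : W →ₗ[F] End F V₁}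
    (hθ : RT X B₂ u θ) (hθ' : RT X B₂ u θ') {w₀ w₁ : W} (h0 : B₂ u w₀ = 0) (h1 : B₂ u w₁ = 0)
    {A A' C : End F V₁} (e : ∀ w, B₂ u w = 0 → θ' w = B₂ w₀ w • A)
    (e' : ∀ w, B₂ u w = 0 → σ (B₂ w₀ w) = B₂ w w₁) (hA : ∀ x y, B₁ (A x) y = B₁ x (A' y))
    (hC : ∀ x y, B₁ (θ w₀ x) y = B₁ x (C y)) : Un X (map (A * C - θ w₁ * A') (nU B₂ u)) := by
  obtain ⟨f, -, hf⟩ := h.w₂.exists_hyperbolic u0 hu
  have hu' := h.w₂.self_eq_zero hu
  obtain ⟨k, a1, a2, a3⟩ := hθ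
  obtain ⟨k', b1, b2, b3⟩ := hθ'
  obtain ⟨a4, a5, a6⟩ := h.rt_aux hf a1 a2 a3
  obtain ⟨-, -, b6⟩ := h.rt_aux hf b1 b2 b3
  have c1 : ∀ v, ct (B₂ u) v = 0 → k' v = v + A (ct (B₂ w₀) v) ⊗ₜ u := fun v hv => by
    have := mem_of_ct_eq_zero (S := LinearMap.ker (k'.toLinearMap - 1 - tr u ∘ₗ A ∘ₗ ct (B₂ w₀)))
      (fun x w hw => by simp [b3 x w hw, e w hw, smul_tmul']) hv
    simpa [sub_sub, sub_eq_zero] using this
  have d1 := mul_mem (inv_mem (mul_mem b1 a1)) (mul_mem a1 b1)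
  obtain ⟨s, hs⟩ := h.eq_of_fix u0 hu (h.isom d1).1 fun x w hw => (k' * k).injective (by
    rw [LinearEquiv.mul_apply (_⁻¹), apply_inv_apply]
    simp only [LinearEquiv.mul_apply, a3 x w hw, b3 x w hw, map_add, a2, b2]
    abel)
  convert un_of_eq hu' d1 hs using 2
  ext y
  have c2 : ct (B₂ w₀) (k (y ⊗ₜ f) - y ⊗ₜ f) = -C y := h.ext₁ fun x => by
    rw [a5 x y w₀ h0, hC, map_neg]
  obtain ⟨z, c5⟩ := h.rt_f u0 hf b1 b2 b3 e e' hA y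
  have c4 := c1 _ (a4 y)
  have c6 := congrArg (k' * k) (hs (y ⊗ₜ f))
  rw [LinearEquiv.mul_apply (_⁻¹), apply_inv_apply] at c6
  rw [c2, map_sub, sub_eq_iff_eq_add] at c4
  simp only [LinearEquiv.mul_apply, map_add, a2, b2, c4, c5, map_sub, a3 _ _ h1, map_neg, neg_tmul,
    map_tmul, nU_apply, hf, one_smul] at c6
  refine tmul_left_inj (F := F) u0 ?_
  simp only [LinearMap.sub_apply, Module.End.mul_apply, sub_tmul]
  linear_combination (norm := abel) c6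

omit [FiniteDimensional F V₁] in
theorem un_comm (h3 : 3 ≤ finrank F W) {ε : F} (hε : ∀ x y, σ (B₂ y x) = ε * B₂ x y) {u : W}
    (u0 : u ≠ 0) (hu : Q₂ u = Q₂ 0) {A A' C C' : End F V₁} (hA : A ∈ AL X h.w₂) (hC : C ∈ AL X h.w₂)
    (eA : ∀ x y, B₁ (A x) y = B₁ x (A' y)) (eC : ∀ x y, B₁ (C x) y = B₁ x (C' y)) :
    Un X (map (A * C' - ε • (C * A')) (nU B₂ u)) := by
  obtain ⟨f, qf, hf⟩ := h.w₂.exists_hyperbolic u0 hu
  obtain ⟨w, w', a1, -, a2, -, a3⟩ := h.w₂.exists_perp_pair h3 hu qf (by simp [hf])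
  simpa [a3] using h.rt_comm u0 hu (hC u u0 hu w a1) (hA u u0 hu w' a2) a2 (w₁ := ε • w')
    (by simp [a2]) (fun _ _ => rfl) (fun r _ => by simp [hε]) eA (C := C') (by simpa [a3] using eC)

theorem le_of_full (com : ComT B Q) (h2 : 2 ≤ finrank F V₁)
    (hV : 3 ≤ finrank F V₁ ∨ ∃ l, σ l ≠ l) (ex : ∃ u, u ≠ 0 ∧ Q₂ u = Q₂ 0)
    {ε : F} (hε : ∀ x y, σ (B₂ y x) = ε * B₂ x y)
    (hZ : ∀ u, u ≠ 0 → Q₂ u = Q₂ 0 → ∀ A A' : End F V₁, (∀ x y, B₁ (A x) y = B₁ x (A' y)) →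
      Un X (map (A - ε • A') (nU B₂ u))) (hT : AL X h.w₂ = ⊤) : G ≤ X := by
  have hW := h.w₂
  have hV' := h.pol.witt
  obtain ⟨u, u0, hu⟩ := ex
  obtain ⟨f, hf, e⟩ := hW.exists_hyperbolic u0 hu
  have ε0 : ε ≠ 0 := fun e' => by simpa [e', e] using hε f u
  obtain ⟨δ, δ0, hδ⟩ := h.w₁.exists_eps
  have H0 : ∀ y z a b, B₁ ((B₁ y).smulRight z a) b = B₁ a ((B₁ z).smulRight (δ • y) b) :=
    fun y z a b => by simp [hδ]; ring
  have H1 : ∀ u, u ≠ 0 → Q₂ u = Q₂ 0 → ∀ x y, RD B Q X (x ⊗ₜ u) (y ⊗ₜ u) := fun u u0 hu x y => by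
    have hu' := hW.self_eq_zero hu
    obtain ⟨-, k, a1, a3⟩ := hZ u u0 hu _ _ (H0 (-(ε * δ)⁻¹ • y) x)
    have a2 : ∀ v, k v = v + B (x ⊗ₜ u) v • y ⊗ₜ u +
        B₁ (-(ε * δ)⁻¹ • y) (ct (B₂ u) v) • x ⊗ₜ u := fun v => by
      rw [← k.coe_coe, a3, LinearMap.add_apply, map_nU, h.eq_ct, add_assoc]
      simp only [End.one_apply, LinearMap.sub_apply, LinearMap.smul_apply,
        LinearMap.smulRight_apply, smul_smul, sub_tmul, ← smul_tmul', add_right_inj]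
      match_scalars <;> field_simp
    refine ⟨k, a1, ⟨h.isom a1, by simp [a2, h.eq, hu'], fun v hv => ?_,
      fun _ => trivial⟩, fun v hv => ?_⟩ <;>
    exact Submodule.mem_span_singleton.2 ⟨_, by rw [a2, hv]; module⟩
  have HS : ∀ x z, B₁ x z = 0 → ∃ (A A' : End F V₁) (y : V₁), (∀ x y, B₁ (A x) y = B₁ x (A' y)) ∧
      (A - ε • A') x = 0 ∧ (A - ε • A') y = z := fun x z hz => by
    have hz' := h.w₁.refl hz
    by_cases z0 : z = 0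
    · exact ⟨0, 0, 0, by simp, by simp, by simp [z0]⟩
    obtain h3 | ⟨l, hl⟩ := hV
    · have b1 := h.w₁.finrank_perp (F ∙ z)
      have b2 := finrank_span_singleton_le (F := F) x
      rw [finrank_span_singleton z0] at b1
      obtain ⟨y, b3, b4⟩ := Geom.exists_notMem_of_finrank_lt (X := perp B₁ (F ∙ z)) (Z := F ∙ x)
        (by omega)
      obtain ⟨φ, b5, b6⟩ := exists_dual_sep b4
      obtain ⟨y₁, rfl⟩ := exists_repr_dual h.w₁.surj B₁ h.w₁.nondeg φ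
      exact ⟨_, _, y, H0 y₁ z, by simp [b5, hz'],
        by simp [b6, mem_perp.1 b3 z (Submodule.mem_span_singleton_self z)]⟩
    obtain ⟨y, b1, -⟩ := h.w₁.exists_dual_vec (x := z) (Z := ⊥) (by simpa using z0)
    obtain ⟨m, hm⟩ : ∃ m, σ m - ε * δ * m ≠ 0 := by
      by_contra! H
      exact hl (by linear_combination H l - l * H 1 + l * map_one σ)
    refine ⟨_, _, (σ m - ε * δ * m)⁻¹ • y, H0 (m • z) z, by simp [hz'], ?_⟩
    simp only [LinearMap.sub_apply, LinearMap.smul_apply, LinearMap.smulRight_apply, map_smul,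
      LinearMap.map_smulₛₗ, b1, smul_eq_mul, smul_smul]
    match_scalars
    field_simp
  have H3 : ∀ u f, Q₂ u = Q₂ 0 → Q₂ f = Q₂ 0 → B₂ u f ≠ 0 → ∀ x z, B₁ x z = 0 →
      RD B Q X (x ⊗ₜ u) (z ⊗ₜ f) := fun u f hu hf e x z hz => by
    have a1 := mt hW.refl e
    obtain ⟨A, A', y, a2, a3, a4⟩ := HS x z hz
    have a6 := hZ f (by rintro rfl; simp at e) hf A A' a2
    generalize A - ε • A' = s at *
    have a5 := a6.unip_mem
    simpa [unip_apply, a4, smul_tmul', smul_smul, a1] using (H1 u (by rintro rfl; simp at e) hu x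
      ((B₂ f u)⁻¹ • y)).move (h.isom a5) a5 (by simp [unip_apply, a3])
  have H4 : ∀ x, ∃ z z', B₁ x z = 0 ∧ B₁ z' z = 1 := fun x => by
    have b1 := h.w₁.finrank_perp (F ∙ x)
    have b2 := finrank_span_singleton_le (F := F) x
    obtain ⟨z, b3, b4⟩ := Geom.exists_notMem_of_finrank_lt (X := perp B₁ (F ∙ x)) (Z := ⊥)
      (by rw [finrank_bot]; omega)
    obtain ⟨φ, b5⟩ := exists_dual_eq_one (F := F) b4
    obtain ⟨z', rfl⟩ := exists_repr_dual h.w₁.surj B₁ h.w₁.nondeg φ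
    exact ⟨z, z', mem_perp.1 b3 x (Submodule.mem_span_singleton_self x), b5⟩
  have H5 : ∀ u f, Q₂ u = Q₂ 0 → Q₂ f = Q₂ 0 → B₂ u f ≠ 0 → ∀ x y, B₁ x y ≠ 0 →
      Rad B Q (x ⊗ₜ u) ⊤ ≤ X := fun u f hu hf e x y e' => by
    have u0 : u ≠ 0 := by rintro rfl; simp at e
    obtain ⟨f, hf, e⟩ := hW.exists_hyperbolic u0 hu
    obtain ⟨z, z', a1, a2⟩ := H4 x
    refine hV'.Rad_le_of_RD com (fun e1 => e' (by simpa [e1, e] using (h.eq x y u f).symm))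
      (h.sing x u hu) (fun v hv => ?_) (w := z' ⊗ₜ u) (w' := z ⊗ₜ f)
      (by simp [h.eq, hW.self_eq_zero hu]) (by simp [h.eq, a1]) (by simp [h.eq, a2, e])
    rw [h.eq_ct] at hv
    have b1 := mem_of_ct_eq_zero (φ := B₂ u) (S := RS B Q X (x ⊗ₜ u)) (fun y w hw c => by
      obtain ⟨k, c1, c2, c3⟩ := (hT.ge trivial : (B₁ (-δ⁻¹ • c • y)).smulRight z' ∈ AL X hW) u u0 hu
        (ε⁻¹ • w) (by simp [hw])
      obtain ⟨z₁, c4⟩ := h.rt_f u0 e c1 c2 c3 (fun _ _ => rfl) (w₁ := w)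
        (fun r _ => by rw [hε, map_smul, smul_eq_mul, mul_inv_cancel_left₀ ε0]) (H0 _ _) z
      convert ((H3 u f hu hf (by simp [e]) x z a1).move (h.isom c1) c1 (c2 x)).sub (H1 u u0 hu x z₁)
        using 1
      rw [c4, LinearMap.smulRight_apply, a2, one_smul, neg_smul, smul_neg, smul_inv_smul₀ δ0,
        neg_tmul, smul_tmul']
      abel) (v := v - ct (B₂ u) v ⊗ₜ f) (by simp [e]) 1
    simpa using b1.add (H3 u f hu hf (by simp [e]) x _ hv)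
  obtain ⟨x₀, y₀, e₀⟩ := h.exists_one
  exact h.pol.le_of_pair (h.sing x₀ u hu) (h.sing y₀ f hf) (by simp [h.eq, e, e₀])
    (H5 u f hu hf (by simp [e]) x₀ y₀ (by simp [e₀]))
    (H5 f u hf hu (mt hW.refl (by simp [e])) y₀ x₀ (mt h.w₁.refl (by simp [e₀])))

theorem le_of_ML (com : ComT B Q) (h2 : 2 ≤ finrank F V₁) (hV : 3 ≤ finrank F V₁ ∨ ∃ l, σ l ≠ l)
    (ex : ∃ u, u ≠ 0 ∧ Q₂ u = Q₂ 0) (h3 : 3 ≤ finrank F W) (hT : ∀ a, a ∈ ML (AL X h.w₂)) :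
    G ≤ X := by
  obtain ⟨ε, -, hε⟩ := h.w₂.exists_eps
  have H : ∀ a, a ∈ AL X h.w₂ := fun a => by simpa using hT a 1 h.one_mem_AL
  exact h.le_of_full com h2 hV ex hε (fun u u0 hu A A' e => by
    simpa using h.un_comm h3 hε u0 hu (H A) (H 1) e (C' := 1) fun _ _ => rfl)
    (eq_top_iff.2 fun a _ => H a)

end WP

end CF.MaxSub
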