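/-
A trace argument for overgroups of tensor decomposition stabilisers, II: root elements.
-/
import Cfsg.Agent.MaxSub.WF

set_option autoImplicit false

namespace CF.MaxSub

open Module Geom TensorProduct LinearMap

variable {F V₁ W : Type*} [Field F] [AddCommGroup V₁] [Module F V₁] [AddCommGroup W] [Module F W]

theorem rA_mem_range {n : End F W} {u : W} (h : ∀ w, n w ∈ F ∙ u) (v : V₁ ⊗[F] W) :
    rA V₁ n v ∈ range (tr u) := by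
  induction v with
  | zero => simp
  | add a b ha hb => rw [map_add]; exact add_mem ha hb
  | tmul x w =>
    obtain ⟨c, e⟩ := Submodule.mem_span_singleton.1 (h w)
    exact ⟨c • x, by simp [← e, smul_tmul]⟩

theorem adG_mem_range {g : V₁ ⊗[F] W ≃ₗ[F] V₁ ⊗[F] W} {n a e : End F W} {A : End F V₁} {u : W}
    (h : adG g (rA V₁ n) = rA V₁ a + lA W A) (hu : a u ∈ F ∙ u) (he : e ∈ Algebra.adjoin F {n}) :
    ∀ v ∈ range (tr u), adG g (rA V₁ e) v ∈ range (tr (F := F) (V₁ := V₁) u) := by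
  induction he using Algebra.adjoin_induction with
  | mem e he =>
    obtain ⟨c, hc⟩ := Submodule.mem_span_singleton.1 hu
    rintro _ ⟨x, rfl⟩
    exact ⟨c • x + A x, by simp [show e = n from he, h, ← hc, add_tmul, smul_tmul]⟩
  | algebraMap c => intro v hv; simpa [Algebra.algebraMap_eq_smul_one] using Submodule.smul_mem _ c hv
  | add a b _ _ ha hb => intro v hv; simpa using add_mem (ha v hv) (hb v hv)
  | mul a b _ _ ha hb => intro v hv; rw [map_mul, adG_mul]; exact ha _ (hb v hv)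

variable [FiniteDimensional F W]

theorem scalar_of_comm {a : End F W} (h : ∀ b, a * b = b * a) : ∃ c : F, a = c • 1 := by
  by_contra H
  obtain ⟨z, hz⟩ := exists_not_eigen_end (not_exists.1 H)
  obtain ⟨l, hl⟩ := exists_dual_eq_one (F := F) (u := z) (by rintro rfl; simp at hz)
  exact hz (Submodule.mem_span_singleton.2
    ⟨l (a z), by simpa [hl] using (LinearMap.congr_fun (h (l.smulRight z)) z).symm⟩)

variable [FiniteDimensional F V₁] [Nontrivial V₁]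

omit [FiniteDimensional F W] in
theorem rA_injective : Function.Injective (rA V₁ (F := F) (W := W)) :=
  (injective_iff_map_eq_zero _).2 fun a e => LinearMap.ext fun w => by
    obtain ⟨x, hx⟩ := exists_ne (0 : V₁)
    obtain ⟨l, hl⟩ := exists_dual_eq_one (F := F) hx
    simpa [hl] using congrArg (cl l) (LinearMap.congr_fun e (x ⊗ₜ w))

theorem exists_nilpotent [Finite F] [Nontrivial W] {a : End F W} {A : End F V₁}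
    (h : IsNilpotent (rA V₁ a + lA W A)) : ∃ c : F, IsNilpotent (a - c • 1) := by
  obtain ⟨p, hp⟩ := CharP.exists F
  have := Fact.mk (CharP.char_is_prime F p)
  have : Nontrivial (End F (V₁ ⊗[F] W)) := (rA_injective (V₁ := V₁)).nontrivial
  have := charP_of_injective_algebraMap (algebraMap F (End F (V₁ ⊗[F] W))).injective p
  have := charP_of_injective_algebraMap (algebraMap F (End F W)).injective p
  obtain ⟨k, hk⟩ := h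
  have h1 := pow_eq_zero_of_le (Nat.lt_pow_self (Fact.out : p.Prime).one_lt).le hk
  rw [add_pow_char_pow_of_commute _ _ (mem_Cm.1 (lA_mem A) a), ← map_pow, ← map_pow,
    add_eq_zero_iff_eq_neg, ← map_neg] at h1
  obtain ⟨μ, h2⟩ := scalar_of_comm (a := a ^ p ^ k) fun b => rA_injective (V₁ := V₁) (by
    rw [map_mul, map_mul, h1, mem_Cm.1 (lA_mem _)])
  obtain ⟨c, rfl⟩ := (iterateFrobeniusEquiv F p k).surjective μ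
  refine ⟨c, p ^ k, ?_⟩
  rw [sub_pow_char_pow_of_commute _ _ ((Commute.one_right a).smul_right c), h2, smul_pow, one_pow,
    iterateFrobeniusEquiv_def, sub_self]

omit [Nontrivial V₁] [FiniteDimensional F V₁] in
theorem mem_Cm_of_gen {I : Type*} {ε : I → W ≃ₗ[F] W}
    (h : ∀ a : End F W, (∀ i, adG (ε i) a = a) → a ∈ F ∙ (1 : End F W)) {y : End F (V₁ ⊗[F] W)}
    (hy : ∀ i, adG (rG V₁ (ε i)) y = y) : y ∈ Cm (rA V₁ (W := W)) :=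
  mem_Cm_of_lam fun l => h _ fun i => by
    rw [adG_conj, ← LinearEquiv.coe_coe, ← lam_lft, lft_conj, ← coe_rG, ← coe_rG, map_inv,
      ← adG_eq, hy]

/-- A system of root elements of the second factor, with the local properties needed. -/
structure RSys (𝒟 : Set (V₁ ⊗[F] W ≃ₗ[F] V₁ ⊗[F] W)) (S : Set W) {I : Type*}
    (E : I → Set (W ≃ₗ[F] W)) (ε : I → W ≃ₗ[F] W) : Prop where
  cr : ∀ i, ∃ u ∈ S, ∃ k : ℕ, ((ε i : End F W) - 1) ^ k ≠ 0 ∧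
    ∀ w, (((ε i : End F W) - 1) ^ k) w ∈ F ∙ u
  di : ∀ g ∈ 𝒟, ∀ i, (∀ e ∈ E i, g⁻¹ * rG V₁ e * g ∈ TenG F V₁ W) →
    (∃ b, g⁻¹ * rG V₁ (ε i) * g = rG V₁ b) ∨ ∃ a, g⁻¹ * rG V₁ (ε i) * g = lG W a
  loc : ∀ g ∈ 𝒟, ∀ w ≠ 0, ∀ u ∈ S, (∀ x, g (x ⊗ₜ w) ∈ range (tr u)) → g ∈ TenG F V₁ W
  inv : ∀ g ∈ 𝒟, g⁻¹ ∈ 𝒟
  rt : ∀ g ∈ 𝒟, ∀ i, ∀ e ∈ E i, g * rG V₁ e * g⁻¹ ∈ 𝒟
  gen : ∀ a : End F W, (∀ i, adG (ε i) a = a) → a ∈ F ∙ (1 : End F W)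

namespace RSys

variable {𝒟 : Set (V₁ ⊗[F] W ≃ₗ[F] V₁ ⊗[F] W)} {S : Set W} {I : Type*}
  {E : I → Set (W ≃ₗ[F] W)} {ε : I → W ≃ₗ[F] W} (h : RSys 𝒟 S E ε)
  {g : V₁ ⊗[F] W ≃ₗ[F] V₁ ⊗[F] W} (hg : g ∈ 𝒟)
include h hg

omit [FiniteDimensional F W] in
theorem cross {i : I} {b : W ≃ₗ[F] W} (e : g⁻¹ * rG V₁ (ε i) * g = rG V₁ b) : g ∈ TenG F V₁ W := by
  obtain ⟨u, hu, k, a1, a2⟩ := h.cr i
  have a3 : adG g (rA V₁ (((b : End F W) - 1) ^ k)) = rA V₁ (((ε i : End F W) - 1) ^ k) := by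
    rw [map_pow (rA V₁), map_pow (rA V₁), adG_pow, map_sub (rA V₁), map_sub (rA V₁), map_sub,
      map_one, adG_one, ← coe_rG, ← coe_rG, ← e, adG_coe]
    simp [mul_assoc]
  obtain ⟨s, hs⟩ : ∃ s, (((b : End F W) - 1) ^ k) s ≠ 0 := by
    by_contra! H
    rw [show ((b : End F W) - 1) ^ k = 0 from LinearMap.ext H] at a3
    exact a1 (rA_injective (V₁ := V₁) (by simpa using a3.symm))
  refine h.loc g hg _ hs u hu fun x => ?_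
  have := rA_mem_range a2 (g (x ⊗ₜ s))
  rwa [← a3, adG_apply, inv_apply_apply] at this

theorem good {i : I} (e : ∀ e ∈ E i, g⁻¹ * rG V₁ e * g ∈ TenG F V₁ W) : Good g := by
  obtain ⟨b, hb⟩ | ⟨a, ha⟩ := h.di g hg i e
  · exact .inl (h.cross hg hb)
  obtain ⟨u, hu, k, a1, a2⟩ := h.cr i
  obtain ⟨s, hs⟩ : ∃ s, (((ε i : End F W) - 1) ^ k) s ≠ 0 := by
    by_contra! H; exact a1 (LinearMap.ext H)
  have H : ∀ j, ∀ e ∈ E j, g⁻¹⁻¹ * rG V₁ e * g⁻¹ ∈ TenG F V₁ W := fun j e he => by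
    rw [inv_inv]
    refine h.loc _ (h.rt g hg j e he) _ hs u hu fun x => ?_
    have b1 : Commute (g * rG V₁ e * g⁻¹) (rG V₁ (ε i)) := by
      rw [show rG V₁ (ε i) = g * lG W a * g⁻¹ by simp [← ha, mul_assoc]]
      exact Commute.conj (show Commute (rG V₁ e) (lG W a) from tensor_ext fun _ _ => rfl) g
    have b2 : Commute ((g * rG V₁ e * g⁻¹ : _ ≃ₗ[F] _) : End F (V₁ ⊗[F] W))
        (rA V₁ (((ε i : End F W) - 1) ^ k)) := by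
      rw [map_pow, map_sub, map_one, ← coe_rG]
      exact (Commute.sub_right (congrArg LinearEquiv.toLinearMap b1) (.one_right _)).pow_right k
    have := rA_mem_range a2 ((g * rG V₁ e * g⁻¹) (x ⊗ₜ s))
    rwa [← LinearEquiv.coe_coe, ← End.mul_apply, ← b2.eq] at this
  by_cases H' : ∃ j b, g⁻¹⁻¹ * rG V₁ (ε j) * g⁻¹ = rG V₁ b
  · obtain ⟨j, b, hb⟩ := H'
    exact .inl (inv_mem_iff.1 (h.cross (h.inv g hg) hb))
  refine .inr (Opp.inv (g := g⁻¹) fun b => mem_Cm_of_gen h.gen fun j => ?_)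
  obtain ⟨a', ha'⟩ := (h.di _ (h.inv g hg) j (H j)).resolve_left fun e => H' ⟨j, e⟩
  rw [show rG V₁ (ε j) = g⁻¹ * lG W a' * g by simp [← ha', mul_assoc], map_mul, map_mul,
    End.mul_apply, End.mul_apply, adG_adG_inv, adG_lG_rA]

theorem good_of_sum [Nontrivial W] {i : I} (H : ∀ e ∈ E i, ∃ n, (e : End F W) ∈ Algebra.adjoin F {n} ∧
    ∃ a A, adG g (rA V₁ n) = rA V₁ a + lA W A ∧ ∃ u ∈ S, u ≠ 0 ∧ a u ∈ F ∙ u) : Good g := by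
  refine inv_inv g ▸ (h.good (h.inv g hg) (i := i) fun e he => ?_).inv
  obtain ⟨n, a1, a, A, a2, u, a3, a4, a5⟩ := H e he
  rw [inv_inv]
  refine h.loc _ (h.rt g hg i e he) u a4 u a3 fun x => ?_
  have := adG_mem_range a2 a5 a1 _ ⟨x, rfl⟩
  rwa [← coe_rG, adG_coe] at this

end RSys

/-- Quotients of elements of a set. -/
def Df {G : Type*} [Group G] (𝒳 : Set G) : Set G := {g | ∃ g₁ ∈ 𝒳, ∃ g₂ ∈ 𝒳, g = g₁⁻¹ * g₂}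

/-- A finite family of conjugates of the second factor. -/
structure Fam (G₂ : Subgroup (W ≃ₗ[F] W)) (𝒟 : Set (V₁ ⊗[F] W ≃ₗ[F] V₁ ⊗[F] W))
    (𝒜 : Finset ((V₁ ⊗[F] W ≃ₗ[F] V₁ ⊗[F] W) ⧸ TenG F V₁ W)) : Prop where
  one : ((1 : V₁ ⊗[F] W ≃ₗ[F] V₁ ⊗[F] W) : _ ⧸ TenG F V₁ W) ∈ 𝒜
  inv : ∀ b ∈ G₂, ∀ q ∈ 𝒜, rG V₁ b • q ∈ 𝒜
  rep : ∀ g : V₁ ⊗[F] W ≃ₗ[F] V₁ ⊗[F] W, (g : _ ⧸ TenG F V₁ W) ∈ 𝒜 →
    ∃ g' ∈ 𝒟, ∃ t ∈ TenG F V₁ W, g = g' * t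

omit [Nontrivial V₁] in
theorem Fam.Dl_mem {G₂ : Subgroup (W ≃ₗ[F] W)} {𝒟 : Set (V₁ ⊗[F] W ≃ₗ[F] V₁ ⊗[F] W)}
    {𝒜 : Finset ((V₁ ⊗[F] W ≃ₗ[F] V₁ ⊗[F] W) ⧸ TenG F V₁ W)} (h : Fam G₂ 𝒟 𝒜)
    {E : Type*} [Group E] [Fintype E] (ε : E →* (W ≃ₗ[F] W)) (hG : ∀ e, ε e ∈ G₂) (A : End F V₁)
    {a : End F W} (ha : ∀ e, adG (ε e) a = a) {L : Submodule F (End F (V₁ ⊗[F] W))}
    (hL : ∀ z, ∑ e, adG (rG V₁ (ε e)) z ∈ L)
    (hK : ∀ g ∈ 𝒟, ¬ Good g → (∀ e, g⁻¹ * rG V₁ (ε e) * g ∈ TenG F V₁ W → e = 1) ∨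
      ∃ p k : ℕ, p.Prime ∧ (p : F) = 0 ∧ Fintype.card E = p ^ k ∧
        (∃ e, g⁻¹ * rG V₁ (ε e) * g ∉ TenG F V₁ W) ∧
        ∀ e ≠ 1, ∀ z, adG (rG V₁ (ε e)) z = z → ∀ e', adG (rG V₁ (ε e')) z = z) :
    Dl 𝒜 (lA W A * rA V₁ a) ∈ L := by
  refine CF.MaxSub.Dl_mem ε (fun e => h.inv _ (hG e)) (fun e => ?_) hL fun g hg hg' => ?_
  · simp [adG_mul, ha]
  obtain ⟨g, a1, t, a2, rfl⟩ := h.rep g hg
  have H : ∀ e, (g * t)⁻¹ * rG V₁ (ε e) * (g * t) ∈ TenG F V₁ W ↔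
      g⁻¹ * rG V₁ (ε e) * g ∈ TenG F V₁ W := fun e => by
    rw [show (g * t)⁻¹ * rG V₁ (ε e) * (g * t) = t⁻¹ * (g⁻¹ * rG V₁ (ε e) * g) * t by group,
      mul_mem_cancel_right a2, mul_mem_cancel_left (inv_mem a2)]
  simpa only [H] using hK g a1 fun e => hg' (e.mul_right a2)

omit [Nontrivial V₁] in
theorem Dl_mem_Cm {𝒜 : Finset ((V₁ ⊗[F] W ≃ₗ[F] V₁ ⊗[F] W) ⧸ TenG F V₁ W)} {𝒩 : Set (End F W)}
    (h : ∀ A, ∀ a ∈ 𝒩, Dl 𝒜 (lA W A * rA V₁ a) = 0)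
    (h' : ∀ b : End F W, (∀ a ∈ 𝒩, trace F W (b * a) = 0) → ∃ c : F, b = c • 1)
    (y : End F (V₁ ⊗[F] W)) : Dl 𝒜 y ∈ Cm (rA V₁ (W := W)) :=
  mem_Cm.2 fun b => sub_eq_zero.1 (eq_zero_of_trace fun z => by
    refine LinearMap.congr_fun (end_ext (f := trace F _ ∘ₗ mulLeft F (rA V₁ b * Dl 𝒜 y -
      Dl 𝒜 y * rA V₁ b)) (g := 0) fun A a => ?_) z
    obtain ⟨c, e⟩ := h' (ptr (Dl 𝒜 y * lA W A)) fun a ha => by
      rw [← trace_mul_rA, mul_assoc, trace_Dl, h A a ha, mul_zero, map_zero]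
    rw [LinearMap.comp_apply, mulLeft_apply, sub_mul, map_sub, mul_assoc, trace_mul_comm,
      mul_assoc (Dl 𝒜 y) (rA V₁ b), ← mul_assoc (rA V₁ b), mem_Cm.1 (lA_mem A)]
    simp only [mul_assoc, ← map_mul]
    simp only [← mul_assoc, trace_mul_rA, e, smul_mul_assoc, one_mul, map_smul, trace_mul_comm F a]
    simp)

section Glob

variable [Finite F] [Nontrivial W] {G₂ : Subgroup (W ≃ₗ[F] W)}
  {𝒳 : Set (V₁ ⊗[F] W ≃ₗ[F] V₁ ⊗[F] W)}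
  (hX : ∀ g ∈ 𝒳, ∀ b ∈ G₂, ∀ g' ∈ 𝒳, g * rG V₁ b * g⁻¹ * g' ∈ 𝒳)
include hX

omit [Nontrivial V₁] [Nontrivial W] in
theorem exists_fam : ∃ 𝒜 : _ → Finset ((V₁ ⊗[F] W ≃ₗ[F] V₁ ⊗[F] W) ⧸ TenG F V₁ W),
    (∀ g ∈ 𝒳, Fam G₂ (Df 𝒳) (𝒜 g)) ∧
      ∀ g₁ g₂ y, Ps (𝒜 g₁) (adG (g₁⁻¹ * g₂) y) = adG (g₁⁻¹ * g₂) (Ps (𝒜 g₂) y) := by
  classical
  have : Finite (V₁ ⊗[F] W) := Module.finite_of_finite F
  have : Finite (V₁ ⊗[F] W ≃ₗ[F] V₁ ⊗[F] W) := DFunLike.finite _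
  have h𝒳 := 𝒳.toFinite
  refine ⟨fun g => h𝒳.toFinset.image fun x => (g⁻¹ * x : _ ≃ₗ[F] _), fun g hg =>
    ⟨by simpa using ⟨g, hg, by simp⟩, fun b hb q hq => ?_, fun g' hg' => ?_⟩, fun g₁ g₂ y => ?_⟩
  · obtain ⟨x, hx, rfl⟩ := Finset.mem_image.1 hq
    refine Finset.mem_image.2 ⟨_, h𝒳.mem_toFinset.2 (hX g hg b hb x (h𝒳.mem_toFinset.1 hx)), ?_⟩
    rw [MulAction.Quotient.smul_mk, smul_eq_mul]
    congr 1; group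
  · obtain ⟨x, hx, e⟩ := Finset.mem_image.1 hg'
    exact ⟨_, ⟨g, hg, x, h𝒳.mem_toFinset.1 hx, rfl⟩, _, QuotientGroup.eq.1 e, by group⟩
  · conv_rhs => rw [← adG_inv_adG (g₁⁻¹ * g₂) y, ← Ps_image, Finset.image_image]
    congr 2
    refine Finset.image_congr fun x _ => ?_
    simp only [Function.comp, MulAction.Quotient.smul_mk, smul_eq_mul]
    congr 1; group

theorem glob_single (hΔ : ∀ 𝒜, Fam G₂ (Df 𝒳) 𝒜 → ∀ y, Dl 𝒜 y ∈ Cm (rA V₁ (W := W)))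
    {g : V₁ ⊗[F] W ≃ₗ[F] V₁ ⊗[F] W} (hg : g ∈ Df 𝒳) {n : End F W}
    (hn : n ∈ Submodule.span F {n | ∃ b ∈ G₂, ∃ a, n = adG b a - a}) :
    ∃ a A, adG g (rA V₁ n) = rA V₁ a + lA W A := by
  obtain ⟨𝒜, h1, h2⟩ := exists_fam hX
  obtain ⟨g₁, a1, g₂, a2, rfl⟩ := hg
  have H : ∀ g ∈ 𝒳, ∀ y, ∃ A, Ps (𝒜 g) y = rA V₁ (ptr y) + lA W A := fun g hg y => by
    obtain ⟨c, b1, b2, -⟩ := Ps_apply (h1 g hg).one y
    obtain ⟨A, e⟩ := exists_lA (add_mem (hΔ _ (h1 g hg) y) b1)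
    exact ⟨A, by rw [b2, ← e]; abel⟩
  obtain ⟨y, e⟩ : rA V₁ n ∈ range (Ps (𝒜 g₂)) := by
    refine Submodule.span_le (p := (range (Ps (𝒜 g₂))).comap (rA V₁).toLinearMap).2 ?_ hn
    rintro _ ⟨b, hb, a, rfl⟩
    obtain ⟨x₀, hx⟩ := exists_ne (0 : V₁)
    obtain ⟨l, hl⟩ := exists_dual_eq_one (F := F) hx
    obtain ⟨A, e⟩ := H g₂ a2 (lA W (l.smulRight x₀) * rA V₁ a)
    refine ⟨adG (rG V₁ b) (lA W (l.smulRight x₀) * rA V₁ a) - lA W (l.smulRight x₀) * rA V₁ a, ?_⟩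
    rw [map_sub, ← adG_Ps ((h1 g₂ a2).inv b hb), e, ptr_mul]
    simp [hl]
  obtain ⟨A, e'⟩ := H g₁ a1 (adG (g₁⁻¹ * g₂) y)
  exact ⟨_, A, by rw [← e', h2, e]⟩

omit [Nontrivial V₁] in
theorem glob_multi {𝒩 : Set (End F W)} (h0 : ∀ a ∈ 𝒩, trace F W a = 0)
    (hΔ : ∀ 𝒜, Fam G₂ (Df 𝒳) 𝒜 → ∀ A, ∀ a ∈ 𝒩, Dl 𝒜 (lA W A * rA V₁ a) = 0)
    {g₁ g₂ : V₁ ⊗[F] W ≃ₗ[F] V₁ ⊗[F] W} (a1 : g₁ ∈ 𝒳) (a2 : g₂ ∈ 𝒳) {n : End F W} (hn : n ∈ 𝒩)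
    {C : End F V₁} (hC : trace F V₁ C = 1) (hY : adG (g₁⁻¹ * g₂) (lA W C * rA V₁ n) ∈
      Submodule.span F {y | ∃ g ∈ 𝒳, Good (g₁⁻¹ * g) ∧ ∃ A, ∃ a ∈ 𝒩,
        y = adG (g₁⁻¹ * g) (lA W A * rA V₁ a)}) :
    ∃ a A, adG (g₁⁻¹ * g₂) (rA V₁ n) = rA V₁ a + lA W A := by
  obtain ⟨𝒜, h1, h2⟩ := exists_fam hX
  have H : ∀ g ∈ 𝒳, ∀ A, ∀ a ∈ 𝒩, Ps (𝒜 g) (lA W A * rA V₁ a) = trace F V₁ A • rA V₁ a :=
    fun g hg A a ha => by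
    obtain ⟨c, -, b2, b3⟩ := Ps_apply (h1 g hg).one (lA W A * rA V₁ a)
    rw [b2, b3 A a rfl (h0 a ha), hΔ _ (h1 g hg) A a ha, ptr_mul, map_smul, zero_add, add_zero]
  have := Submodule.span_le (p := (range (rA V₁ (W := W)).toLinearMap ⊔
    range (lA W (V₁ := V₁)).toLinearMap).comap (Ps (𝒜 g₁))).2 ?_ hY
  · rw [Submodule.mem_comap, h2, H g₂ a2 C n hn, hC, one_smul, Submodule.mem_sup] at this
    obtain ⟨_, ⟨a, rfl⟩, _, ⟨A, rfl⟩, e⟩ := this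
    exact ⟨a, A, e.symm⟩
  rintro _ ⟨g, b1, b2, A, a, b3, rfl⟩
  rw [SetLike.mem_coe, Submodule.mem_comap, h2, H g b1 A a b3, map_smul]
  refine Submodule.smul_mem _ _ ?_
  obtain b2 | b2 := b2
  · obtain ⟨b, hb⟩ := adG_ten_rA b2
    exact Submodule.mem_sup_left ⟨_, (hb a).symm⟩
  · obtain ⟨A', e⟩ := exists_lA (b2 a)
    exact Submodule.mem_sup_right ⟨_, e.symm⟩

end Glob

end CF.MaxSub
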