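/-
Overgroups of one tensor factor of a classical group: systems of factors.
-/
import Cfsg.Agent.MaxSub.WB
import Cfsg.Agent.MaxSub.WD
import Cfsg.Agent.MaxSub.WG

set_option autoImplicit false

namespace CF.MaxSub

open Module Geom TensorProduct

variable {F V₁ W W' : Type*} [Field F] [AddCommGroup V₁] [Module F V₁] [AddCommGroup W]
  [Module F W] [AddCommGroup W'] [Module F W'] {σ : F →+* F}

/-- The automorphisms induced by a factor. -/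
def aut (φ : End F W' →ₐ[F] End F V₁) : (W' ≃ₗ[F] W') →* (V₁ ≃ₗ[F] V₁) where
  toFun g := LinearEquiv.ofLinear (φ g) (φ (g⁻¹ : W' ≃ₗ[F] W'))
    (by rw [← End.mul_eq_comp, ← map_mul, coe_mul_inv_end, map_one]; rfl)
    (by rw [← End.mul_eq_comp, ← map_mul, coe_inv_mul_end, map_one]; rfl)
  map_one' := LinearEquiv.toLinearMap_injective (map_one φ)
  map_mul' a b := LinearEquiv.toLinearMap_injective (map_mul φ (a : End F W') b)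

theorem coe_aut (φ : End F W' →ₐ[F] End F V₁) (g : W' ≃ₗ[F] W') : (aut φ g : End F V₁) = φ g := rfl

theorem adG_aut (φ : End F W' →ₐ[F] End F V₁) (g : W' ≃ₗ[F] W') (a : End F V₁) :
    adG (aut φ g) a = φ g * a * φ (g⁻¹ : W' ≃ₗ[F] W') := rfl

variable {B₁ : V₁ →ₛₗ[σ] V₁ →ₗ[F] F} {Q₁ : V₁ → F} {B₂ : W →ₛₗ[σ] W →ₗ[F] F} {Q₂ : W → F}
  {B : V₁ ⊗[F] W →ₛₗ[σ] V₁ ⊗[F] W →ₗ[F] F} {Q : V₁ ⊗[F] W → F}
  {G X : Subgroup (V₁ ⊗[F] W ≃ₗ[F] V₁ ⊗[F] W)}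

/-- The centre of the radical. -/
def ZG (X : Subgroup (V₁ ⊗[F] W ≃ₗ[F] V₁ ⊗[F] W)) {n : End F W} (hn : n * n = 0) :
    AddSubgroup (End F V₁) where
  carrier := {s | Un X (map s n)}
  zero_mem' := by simpa using Un.zero
  add_mem' {a b} ha hb := by
    simpa only [Set.mem_setOf_eq, map_add_left] using Un.add ha hb
      (by simp [← TensorProduct.map_mul, hn]) (by simp [← TensorProduct.map_mul, hn])
  neg_mem' {a} ha := (Un.neg ha).congr fun v => by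
    rw [← neg_one_smul F a, TensorProduct.map_smul_left]; simp

theorem mem_ZG {n : End F W} {hn : n * n = 0} {s : End F V₁} : s ∈ ZG X hn ↔ Un X (map s n) := .rfl

theorem nU_sq {u : W} (hu : B₂ u u = 0) : nU B₂ u * nU B₂ u = 0 := by ext; simp [hu]

theorem Un.lG {s : End F V₁} {n : End F W} (h : Un X (map s n)) {a : V₁ ≃ₗ[F] V₁}
    (ha : lG W a ∈ X) : Un X (map (adG a s) n) :=
  h.of_conj ha (congr_apply_map a 1 (fun v => by simp [adG_apply, inv_apply_apply]) fun _ => rfl)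

variable {τ : Type*} [Fintype τ] [DecidableEq τ]

/-- A system of tensor factors of the first space, with a group acting on each. -/
structure FS (X : Subgroup (V₁ ⊗[F] W ≃ₗ[F] V₁ ⊗[F] W)) (ψ : τ → End F W' →ₐ[F] End F V₁)
    (G' : Subgroup (W' ≃ₗ[F] W')) : Prop where
  pc : PC ψ
  cen : ∀ c, (∀ i, c ∈ Cm (ψ i)) → c ∈ F ∙ (1 : End F V₁)
  mem : ∀ i, ∀ g ∈ G', lG W (aut (ψ i) g) ∈ X

theorem fs_id {G' : Subgroup (V₁ ≃ₗ[F] V₁)} [FiniteDimensional F V₁] (h : ∀ g ∈ G', lG W g ∈ X) :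
    FS X (fun _ : Unit => AlgHom.id F (End F V₁)) G' :=
  ⟨fun _ _ e => (e rfl).elim, fun c e => (scalar_of_comm fun b => (mem_Cm.1 (e ()) b).symm).elim
    fun d e => Submodule.mem_span_singleton.2 ⟨d, e.symm⟩, fun _ => h⟩

theorem exists_not_comm [FiniteDimensional F W'] {r : End F W'} (h0 : r ≠ 0) (h : r * r = 0) :
    ∃ a, a * r ≠ r * a := by
  by_contra! H
  obtain ⟨c, rfl⟩ := scalar_of_comm fun b => (H b).symm
  exact left_ne_zero_of_smul h0 (by simpa [smul_smul, right_ne_zero_of_smul h0] using h)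

namespace FS

variable {ψ : τ → End F W' →ₐ[F] End F V₁} {G' : Subgroup (W' ≃ₗ[F] W')} (f : FS X ψ G')
  {K : Set F} {P : Set (End F W')}
include f

omit [DecidableEq τ] in
theorem exists_notMem {y : End F V₁} (hy : ∀ c : F, y ≠ c • 1) : ∃ i, y ∉ Cm (ψ i) := by
  by_contra! H
  obtain ⟨c, e⟩ := Submodule.mem_span_singleton.1 (f.cen y H)
  exact hy c e.symm

omit [Fintype τ] [DecidableEq τ] in
theorem conj_AL (hW : IsWittPair σ B₂ Q₂) (i : τ) (g : W' ≃ₗ[F] W') (hg : g ∈ G') (y : End F V₁)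
    (hy : y ∈ AL X hW) : ψ i g * y * ψ i (g⁻¹ : W' ≃ₗ[F] W') ∈ AL X hW :=
  conj_mem_AL hW (f.mem i g hg) hy

omit [Fintype τ] [DecidableEq τ] in
theorem conj_ML (hW : IsWittPair σ B₂ Q₂) (i : τ) (g : W' ≃ₗ[F] W') (hg : g ∈ G') (y : End F V₁)
    (hy : y ∈ ML (AL X hW)) : ψ i g * y * ψ i (g⁻¹ : W' ≃ₗ[F] W') ∈ ML (AL X hW) :=
  conj_mem_ML (by rw [← map_mul, coe_inv_mul_end, map_one]) (f.conj_AL hW i g hg)
    (f.conj_AL hW i g⁻¹ (inv_mem hg)) (by rw [← map_mul, coe_mul_inv_end, map_one]) hy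

variable [FiniteDimensional F W']

theorem exists_pure (hP : Pur K G' P) (h0 : (0 : End F W') ∉ P) {S : AddSubgroup (End F V₁)}
    (hK : ∀ c ∈ K, ∀ y ∈ S, c • y ∈ S)
    (hG : ∀ i, ∀ g ∈ G', ∀ y ∈ S, ψ i g * y * ψ i (g⁻¹ : W' ≃ₗ[F] W') ∈ S) {i : τ}
    (hS : ∃ y ∈ S, y ∉ Cm (ψ i)) : ∃ c : F, c ≠ 0 ∧ ∃ r, r i ∈ P ∧ (∀ j, r j ∈ P ∨ r j = 1) ∧
      c • f.pc.pu r ∈ S := by
  obtain ⟨c, a1, a2, r, a3, a4, a5⟩ := f.pc.exists_pure hK hG hP h0 hS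
  obtain ⟨c, rfl⟩ := Submodule.mem_span_singleton.1 (f.cen c a2)
  exact ⟨c, left_ne_zero_of_smul a1, r, a3, a4, by simpa using a5⟩

theorem exists_sq [Nontrivial V₁] (hP : Pur K G' P) (h0 : ∀ r ∈ P, r ≠ 0 ∧ r * r = 0)
    {S : AddSubgroup (End F V₁)} (hK : ∀ c ∈ K, ∀ y ∈ S, c • y ∈ S)
    (hG : ∀ i, ∀ g ∈ G', ∀ y ∈ S, ψ i g * y * ψ i (g⁻¹ : W' ≃ₗ[F] W') ∈ S) {i : τ}
    (hS : ∃ y ∈ S, y ∉ Cm (ψ i)) : ∃ p ∈ S, p * p = 0 ∧ p ∉ Cm (ψ i) := by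
  obtain ⟨c, c0, r, a1, a2, a3⟩ := f.exists_pure hP (fun e => (h0 0 e).1 rfl) hK hG hS
  refine ⟨_, a3, ?_, fun e => f.pc.pu_notMem (fun j => ?_)
    (exists_not_comm (h0 _ a1).1 (h0 _ a1).2) (by
      simpa [c0] using Subalgebra.smul_mem _ e c⁻¹)⟩
  · rw [smul_mul_smul_comm, ← map_mul, ← Function.update_eq_self i (r * r), f.pc.update,
      Pi.mul_apply, (h0 _ a1).2, map_zero, mul_zero, smul_zero]
  obtain e | e := a2 j
  · exact (h0 _ e).1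
  · exact e ▸ fun e' => (h0 _ a1).1 (by rw [← mul_one (r i), e', mul_zero])

theorem mem_ML (hW : IsWittPair σ B₂ Q₂) (hP : Pur K G' P) (h0 : (0 : End F W') ∉ P)
    (hD : ∀ r ∈ P, Wd G' r) {i : τ} {p : End F V₁} (hp : p ∈ ML (AL X hW)) (e : p ∉ Cm (ψ i))
    (a : End F W') : ψ i a ∈ ML (AL X hW) :=
  f.pc.mem_alg f.cen (S := (ML (AL X hW)).toSubmodule) (f.conj_ML hW)
    (hP.mono (Set.subset_univ _) le_rfl) h0 hD ⟨p, hp, e⟩ (fun _ => id) a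

end FS

namespace WP

variable (h : WP B₁ Q₁ B₂ Q₂ B Q G X) [FiniteDimensional F V₁] [FiniteDimensional F W]
include h

omit [FiniteDimensional F V₁] in
theorem ml_of_un [FiniteDimensional F W'] {ψ : τ → End F W' →ₐ[F] End F V₁}
    {G' : Subgroup (W' ≃ₗ[F] W')} (f : FS X ψ G') {P : Set (End F W')} (hP : Pur ∅ G' P)
    (h0 : ∀ r ∈ P, r ≠ 0 ∧ r * r = 0) (hD : ∀ r ∈ P, Wd G' r)
    (hT : ∀ u, u ≠ 0 → Q₂ u = Q₂ 0 → ∃ f, Q₂ f = Q₂ 0 ∧ B₂ u f ≠ 0 ∧ Q₂ (u + f) = Q₂ 0)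
    {u : W} (u0 : u ≠ 0) (hu : Q₂ u = Q₂ 0) {s : End F V₁} (hs : Un X (map s (nU B₂ u))) {i : τ}
    (e : s ∉ Cm (ψ i)) (a : End F W') : ψ i a ∈ ML (AL X h.w₂) := by
  have := h.nt
  obtain ⟨p, a1, a2, a3⟩ := f.exists_sq hP h0 (S := ZG X (nU_sq (h.w₂.self_eq_zero hu))) (by simp)
    (fun i g hg y hy => mem_ZG.2 (adG_aut (ψ i) g y ▸ (mem_ZG.1 hy).lG (f.mem i g hg))) ⟨s, hs, e⟩
  exact f.mem_ML h.w₂ hP (fun e => (h0 0 e).1 rfl) hD (h.levi_tv hT a2 u0 hu a1) a3 a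

theorem loc_of_z {l : F} (hl : σ l ≠ l) {u : W} (u0 : u ≠ 0) (hu : Q₂ u = Q₂ 0)
    (hz : ∀ s, Un X (map s (nU B₂ u)) → ∃ c : F, s = c • 1) : Loc X B₂ u := by
  refine ⟨hz, fun θ hθ w hw => ?_⟩
  obtain ⟨ε, ε0, hε⟩ := h.w₂.exists_eps
  obtain ⟨C, hC⟩ := h.w₁.exists_adj (θ w)
  have H : ∀ m : F, ∃ c : F, σ m • C - (ε * m) • θ w = c • 1 := fun m => by
    simpa [smul_smul] using hz _ (h.rt_comm u0 hu hθ (h.rt_one u0 hu (φ := B₂ (m • w))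
      (h.w₂.refl (by simp [hw]))) (w₀ := m • w) (w₁ := ε • m • w) (by simp [hw]) (by simp [hw])
      (fun _ _ => rfl) (fun r _ => by rw [hε, map_smul _ ε, smul_eq_mul]) (A' := 1) (fun _ _ => rfl)
      (C := σ m • C) fun x y => by simp [hC])
  obtain ⟨c, e⟩ := H l
  obtain ⟨c', e'⟩ := H 1
  refine ⟨(ε * (σ l - l))⁻¹ * (c - σ l * c'), ?_⟩
  rw [mul_smul, eq_inv_smul_iff₀ (mul_ne_zero ε0 (sub_ne_zero.2 hl)), sub_smul, mul_smul (σ l),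
    ← e, ← e', map_one]
  module

end WP

end CF.MaxSub
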