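/-
Overgroups of one tensor factor of a classical group: factors with transvections.
-/
import Cfsg.Agent.MaxSub.WH

set_option autoImplicit false

namespace CF.MaxSub

open Module Geom TensorProduct LinearMap

variable {F V₁ W : Type*} [Field F] [AddCommGroup V₁] [Module F V₁] [AddCommGroup W]
  [Module F W] {σ : F →+* F}

theorem rG_or_lG_of_rank [FiniteDimensional F V₁] [FiniteDimensional F W] [Nontrivial V₁]
    (h3 : 3 ≤ finrank F W) {k : V₁ ⊗[F] W ≃ₗ[F] V₁ ⊗[F] W} (hk : k ∈ TenG F V₁ W)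
    {M : Submodule F (V₁ ⊗[F] W)} (hM : finrank F M ≤ finrank F V₁) (e : ∀ v, k v - v ∈ M) :
    (∃ b, k = rG V₁ b) ∨ ∃ a, k = lG W a := by
  have : Nontrivial W := nontrivial_of_finrank_pos (R := F) (by omega)
  obtain ⟨a, b, rfl⟩ := hk
  by_cases hb : ∃ c : F, (b : End F W) = c • 1
  · obtain ⟨c, hc⟩ := hb
    exact .inr (lG_of_scalar (LinearMap.congr_fun hc) a)
  obtain ⟨w, hw⟩ := exists_not_eigen_end (not_exists.1 hb)
  obtain ⟨φ, a1, a2⟩ := exists_dual_sep hw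
  let f := ((TensorProduct.congr a b).toLinearMap - 1) ∘ₗ tr w
  have a3 : range f = M := Submodule.eq_of_le_of_finrank_le (by rintro _ ⟨x, rfl⟩; exact e (x ⊗ₜ w))
    (by
      rw [finrank_range_of_inj fun x y e => a.injective ?_]
      · exact hM
      simpa [f, a1, show φ (b w) = 1 from a2] using congrArg (ct φ) e)
  have a4 := IsWittPair.finrank_span_pair_le (F := F) w (b w)
  obtain ⟨w', -, a5⟩ := Geom.exists_notMem_of_finrank_lt (X := ⊤) (Z := Submodule.span F {w, b w})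
    (by rw [finrank_top]; omega)
  obtain ⟨χ, a6, a7⟩ := exists_dual_one a5
  have a8 : ∀ x, χ (b w') • a x = x := fun x => by
    obtain ⟨y, hy⟩ := a3.ge (e (x ⊗ₜ w'))
    refine sub_eq_zero.1 ?_
    simpa [f, a6, a7 w (Submodule.subset_span (by simp)), a7 (b w) (Submodule.subset_span (by simp))]
      using (congrArg (ct χ) hy).symm
  obtain ⟨x, hx⟩ := exists_ne (0 : V₁)
  have a9 : χ (b w') ≠ 0 := fun e => hx (by rw [← a8 x, e, zero_smul])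
  exact .inl (rG_of_scalar (c := (χ (b w'))⁻¹) (fun x => by rw [eq_inv_smul_iff₀ a9, a8]) b)

theorem exists_sq_zero {N : End F W} (h : IsNilpotent N) (h0 : N ≠ 0) :
    ∃ s, N s ≠ 0 ∧ N (N s) = 0 := by
  by_contra! H
  obtain ⟨s, hs⟩ := DFunLike.ne_iff.1 h0
  obtain ⟨k, hk⟩ := h
  have : ∀ k, N ((N ^ k) s) ≠ 0 := fun k => by
    induction k with
    | zero => exact hs
    | succ k ih => rw [pow_succ']; exact H _ ih
  exact this k (by simp [hk])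

variable {B₁ : V₁ →ₛₗ[σ] V₁ →ₗ[F] F} {Q₁ : V₁ → F} {B₂ : W →ₛₗ[σ] W →ₗ[F] F} {Q₂ : W → F}
  {B : V₁ ⊗[F] W →ₛₗ[σ] V₁ ⊗[F] W →ₗ[F] F} {Q : V₁ ⊗[F] W → F}
  {G X : Subgroup (V₁ ⊗[F] W ≃ₗ[F] V₁ ⊗[F] W)}

theorem WZ.exists_eigen [Finite F] [FiniteDimensional F V₁] [FiniteDimensional F W]
    (h : WZ B₁ Q₁ B₂ Q₂ B Q G) (ex : ∃ u, u ≠ 0 ∧ Q₂ u = Q₂ 0) {a : End F W} {A : End F V₁}
    (hn : IsNilpotent (rA V₁ a + lA W A))
    (e : ∀ v w, B ((rA V₁ a + lA W A) v) w = -B v ((rA V₁ a + lA W A) w)) :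
    ∃ u, u ≠ 0 ∧ Q₂ u = Q₂ 0 ∧ a u ∈ F ∙ u := by
  obtain ⟨u, u0, hu⟩ := ex
  have := h.nt
  have := nontrivial_of_ne u 0 u0
  obtain ⟨c, hc⟩ := exists_nilpotent hn
  obtain ⟨N, rfl⟩ : ∃ N, a = N + c • 1 := ⟨a - c • 1, by simp⟩
  rw [add_sub_cancel_right] at hc
  by_cases N0 : N = 0
  · exact ⟨u, u0, hu, Submodule.mem_span_singleton.2 ⟨c, by simp [N0]⟩⟩
  obtain ⟨x, y, e'⟩ := h.exists_one
  obtain ⟨ν, a1⟩ : ∃ ν : F, ∀ s t, B₂ (N s) t = B₂ s ((ν • 1 - N) t) :=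
    ⟨-(σ c + c + B₁ (A x) y + B₁ x (A y)), fun s t => by
      have := e (x ⊗ₜ s) (y ⊗ₜ t)
      simp [h.eq, e'] at this ⊢
      linear_combination this⟩
  have a2 : ∀ k s t, B₂ ((N ^ k) s) t = B₂ s (((ν • 1 - N) ^ k) t) := fun k => by
    induction k with
    | zero => simp
    | succ k ih => intro s t; rw [pow_succ', End.mul_apply, a1, ih, pow_succ, End.mul_apply]
  have a3 : ν = 0 := by
    have := (Commute.sub_left (Commute.smul_left (Commute.one_left N) ν) (.refl N)).isNilpotent_add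
      (hc.imp fun k hk => LinearMap.ext fun t => h.w₂.nondeg' _ fun s => by simp [← a2, hk]) hc
    obtain ⟨k, hk⟩ := this
    simpa [smul_pow, u0] using (show ν ^ k = 0 by simpa [smul_pow, u0] using LinearMap.congr_fun hk u)
      |> pow_eq_zero_iff'.1 |>.1
  obtain ⟨s, a4, a5⟩ := exists_sq_zero hc N0
  exact ⟨N s, a4, h.iso₂ _ (by simp [a1, a3, a5]), Submodule.mem_span_singleton.2 ⟨c, by simp [a5]⟩⟩

/-- The transvections with a given centre. -/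
def tvH {u : W} (hu : B₂ u u = 0) : Multiplicative F →* (W ≃ₗ[F] W) where
  toFun c := unip (c.toAdd • nU B₂ u) (by simp [nU_sq hu])
  map_one' := by ext; simp [unip_apply]
  map_mul' a b := by ext; simp [unip_apply, hu]; module

theorem tvH_apply {u : W} (hu : B₂ u u = 0) (c : Multiplicative F) (w : W) :
    tvH hu c w = w + (c.toAdd * B₂ u w) • u := by simp [tvH, unip_apply, smul_smul]

theorem coe_tvH {u : W} (hu : B₂ u u = 0) (c : Multiplicative F) :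
    (tvH hu c : End F W) = 1 + c.toAdd • nU B₂ u := rfl

/-- A space with transvections. -/
structure TT (B : W →ₛₗ[σ] W →ₗ[F] F) (Q : W → F) (T : AddSubgroup F) : Prop where
  ne : ∃ c ∈ T, c ≠ 0
  ex : ∃ u, u ≠ 0 ∧ Q u = Q 0
  tv : ∀ c ∈ T, ∀ u, Q u = Q 0 → ∃ t ∈ Rad B Q u ⊤, ∀ w, t w = w + (c * B u w) • u
  eig : ∀ a : End F W, (∀ u, Q u = Q 0 → a u ∈ F ∙ u) → ∃ c : F, a = c • 1

theorem TT.mem {T : AddSubgroup F} (t : TT B₂ Q₂ T) {u : W} (hu : Q₂ u = Q₂ 0) (hu' : B₂ u u = 0)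
    {c : F} (hc : c ∈ T) : tvH hu' (.ofAdd c) ∈ Rad B₂ Q₂ u ⊤ := by
  obtain ⟨k, a1, a2⟩ := t.tv c hc u hu
  rwa [show tvH hu' (.ofAdd c) = k from LinearEquiv.ext fun w => by simp [tvH_apply, a2]]

theorem rA_nU (u : W) (v : V₁ ⊗[F] W) : rA V₁ (nU B₂ u) v = ct (B₂ u) v ⊗ₜ u := map_nU B₂ u 1 v

theorem rA_nU_mul (u : W) (z : End F (V₁ ⊗[F] W)) : rA V₁ (nU B₂ u) * z * rA V₁ (nU B₂ u) =
    lA W (ct (B₂ u) ∘ₗ z ∘ₗ tr u) * rA V₁ (nU B₂ u) := TensorProduct.ext' fun x w => by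
  simp [rA_nU]

theorem sum_tvH [Finite F] {u : W} (hu : B₂ u u = 0) {T : AddSubgroup F} [Fintype T]
    (hT : ∃ c ∈ T, c ≠ 0) (z : End F (V₁ ⊗[F] W)) :
    ∑ e : Multiplicative T, adG (rG V₁ (tvH hu (.ofAdd (e.toAdd : F)))) z =
      (∑ c : T, (c : F)) • (rA V₁ (nU B₂ u) * z - z * rA V₁ (nU B₂ u)) -
        (∑ c : T, (c : F) ^ 2) • (rA V₁ (nU B₂ u) * z * rA V₁ (nU B₂ u)) := by
  obtain ⟨c, a1, a2⟩ := hT
  have a3 : (Fintype.card T : F) = 0 := by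
    have : Fintype.card T • c = 0 := congrArg Subtype.val (card_nsmul_eq_zero (x := (⟨c, a1⟩ : T)))
    simpa [a2] using this
  have a4 : ∀ c : F, adG (rG V₁ (tvH hu (.ofAdd c))) z = z +
      c • (rA V₁ (nU B₂ u) * z - z * rA V₁ (nU B₂ u)) -
        c ^ 2 • (rA V₁ (nU B₂ u) * z * rA V₁ (nU B₂ u)) := fun c => by
    rw [adG_eq, ← map_inv, ← map_inv, coe_rG, coe_rG, coe_tvH, coe_tvH]
    simp only [map_add, map_one, map_smul, toAdd_inv, toAdd_ofAdd, add_mul, mul_add, one_mul,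
      mul_one, smul_mul_assoc, mul_smul_comm]
    module
  rw [← Multiplicative.ofAdd.sum_comp]
  simp only [a4, Finset.sum_sub_distrib, Finset.sum_add_distrib, Finset.sum_const, Finset.card_univ,
    ← Nat.cast_smul_eq_nsmul F, a3, zero_smul, zero_add, Finset.sum_smul, toAdd_ofAdd]

/-- Maps sending `V₁ ⊗ u^⊥` into `V₁ ⊗ u`. -/
def LU (V₁ : Type*) [AddCommGroup V₁] [Module F V₁] (B : W →ₛₗ[σ] W →ₗ[F] F) (u : W) :
    Submodule F (End F (V₁ ⊗[F] W)) where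
  carrier := {ρ | ∀ x w, B u w = 0 → ρ (x ⊗ₜ w) ∈ range (tr u)}
  add_mem' a b x w e := add_mem (a x w e) (b x w e)
  zero_mem' _ _ _ := zero_mem _
  smul_mem' c _ a x w e := Submodule.smul_mem _ c (a x w e)

theorem eq_zero_of_range [FiniteDimensional F W] {u u' : W} (h : u' ∉ F ∙ u) {v : V₁ ⊗[F] W}
    (e : v ∈ range (tr u)) (e' : v ∈ range (tr u')) : v = 0 := by
  obtain ⟨φ, a1, a2⟩ := exists_dual_sep h
  obtain ⟨x, rfl⟩ := e
  obtain ⟨y, e⟩ := e'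
  rw [← e, show y = 0 by simpa [a1, a2] using congrArg (ct φ) e, map_zero]

section Glob

variable [Finite F] [FiniteDimensional F V₁] [FiniteDimensional F W] (h : WZ B₁ Q₁ B₂ Q₂ B Q G)
  {T : AddSubgroup F} (t : TT B₂ Q₂ T) (h3 : 3 ≤ finrank F W ∨ (2 : F) ≠ 0)
  {𝒳 : Set (V₁ ⊗[F] W ≃ₗ[F] V₁ ⊗[F] W)}
  (hX : ∀ g ∈ 𝒳, ∀ b ∈ RGp B₂ Q₂, ∀ g' ∈ 𝒳, g * rG V₁ b * g⁻¹ * g' ∈ 𝒳)
  (hL : ∀ g ∈ Df 𝒳, ∀ w ≠ 0, ∀ u, u ≠ 0 ∧ Q₂ u = Q₂ 0 → (∀ x, g (x ⊗ₜ w) ∈ range (tr u)) →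
    g ∈ TenG F V₁ W)
include h t h3 hX hL

omit [Finite F] in
theorem WZ.rsys : RSys (Df 𝒳) {u | u ≠ 0 ∧ Q₂ u = Q₂ 0}
    (I := {p : W × F // p.1 ≠ 0 ∧ Q₂ p.1 = Q₂ 0 ∧ p.2 ∈ T ∧ p.2 ≠ 0})
    (fun p => {tvH (h.w₂.self_eq_zero p.2.2.1) (.ofAdd p.1.2)})
    fun p => tvH (h.w₂.self_eq_zero p.2.2.1) (.ofAdd p.1.2) where
  cr := fun ⟨⟨u, c⟩, u0, hu, _, c0⟩ => ⟨u, ⟨u0, hu⟩, 1, fun e => by
    obtain ⟨f, -, hf⟩ := h.w₂.exists_hyperbolic u0 hu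
    simpa [coe_tvH, hf, c0, u0] using LinearMap.congr_fun e f,
    fun w => Submodule.mem_span_singleton.2 ⟨c * B₂ u w, by simp [coe_tvH, smul_smul]⟩⟩
  di := fun g _ ⟨⟨u, c⟩, u0, hu, _, c0⟩ e => by
    have := h.nt
    have := nontrivial_of_ne u 0 u0
    have a1 : ∀ v, rG V₁ (tvH (h.w₂.self_eq_zero hu) (.ofAdd c)) v =
        v + c • ct (B₂ u) v ⊗ₜ u := fun v => by
      rw [← LinearEquiv.coe_coe, coe_rG, coe_tvH]
      simp [rA_nU]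
    obtain h3 | h3 := h3
    · refine rG_or_lG_of_rank h3 (e _ rfl) (M := (range (tr u)).map (g⁻¹).toLinearMap)
        (by rw [LinearEquiv.finrank_map_eq, finrank_range_tr u0]) fun v =>
          ⟨_, ⟨c • ct (B₂ u) (g v), rfl⟩, ?_⟩
      simp [a1, inv_apply_apply, smul_tmul']
    refine rG_or_lG h3 (e _ rfl) fun v => ?_
    simp [a1, inv_apply_apply, apply_inv_apply, h.w₂.self_eq_zero hu, -LinearEquiv.coe_inv]
    module
  loc := hL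
  inv := by
    rintro _ ⟨a, ha, b, hb, rfl⟩
    exact ⟨b, hb, a, ha, by simp⟩
  rt := by
    rintro _ ⟨a, ha, b, hb, rfl⟩ ⟨⟨u, c⟩, u0, hu, hc, c0⟩ _ rfl
    exact ⟨a, ha, _, hX b hb _ (mem_RGp hu (t.mem hu (h.w₂.self_eq_zero hu) hc)) a ha, by simp [mul_assoc]⟩
  gen a e := by
    obtain ⟨c, hc, c0⟩ := t.ne
    obtain ⟨d, rfl⟩ := t.eig a fun u hu => by
      by_cases u0 : u = 0
      · simp [u0]
      obtain ⟨f, -, hf⟩ := h.w₂.exists_hyperbolic u0 hu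
      have := LinearMap.congr_fun (adG_eq_self.1 (e ⟨⟨u, c⟩, u0, hu, hc, c0⟩)).eq f
      exact Submodule.mem_span_singleton.2 ⟨B₂ u (a f), smul_right_injective _ c0 (by
        simpa [coe_tvH, hf] using this)⟩
    exact Submodule.smul_mem _ _ (Submodule.mem_span_singleton_self _)

theorem WZ.Dl_mem {𝒜} (hA : Fam (RGp B₂ Q₂) (Df 𝒳) 𝒜) {u : W} (u0 : u ≠ 0) (hu : Q₂ u = Q₂ 0)
    (A : End F V₁) {a : End F W} (ha : nU B₂ u * a = a * nU B₂ u) [Fintype T]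
    {L : Submodule F (End F (V₁ ⊗[F] W))}
    (e : ∀ z, (∑ c : T, (c : F)) • (rA V₁ (nU B₂ u) * z - z * rA V₁ (nU B₂ u)) -
        (∑ c : T, (c : F) ^ 2) • (rA V₁ (nU B₂ u) * z * rA V₁ (nU B₂ u)) ∈ L) :
    Dl 𝒜 (lA W A * rA V₁ a) ∈ L := by
  have := h.nt
  refine hA.Dl_mem ((tvH (h.w₂.self_eq_zero hu)).comp (AddMonoidHom.toMultiplicative T.subtype))
    (fun c => mem_RGp hu (t.mem hu (h.w₂.self_eq_zero hu) c.toAdd.2)) A
    (fun c => adG_eq_self.2 ?_)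
    (fun z => (sum_tvH (h.w₂.self_eq_zero hu) t.ne z).symm ▸ e z) fun g hg e => .inl fun c e' =>
      by_contra fun c0 => e ((h.rsys t h3 hX hL).good hg (i := ⟨⟨u, c.toAdd⟩, u0, hu, c.toAdd.2,
        fun e => c0 (Multiplicative.ext (Subtype.ext e))⟩) (by rintro _ rfl; exact e'))
  exact (Commute.one_left a).add_left (Commute.smul_left ha _)

theorem WZ.Dl_mem_LU {𝒜} (hA : Fam (RGp B₂ Q₂) (Df 𝒳) 𝒜) {u : W} (u0 : u ≠ 0) (hu : Q₂ u = Q₂ 0)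
    (A : End F V₁) {a : End F W} (ha : nU B₂ u * a = a * nU B₂ u) :
    Dl 𝒜 (lA W A * rA V₁ a) ∈ LU V₁ B₂ u := by
  have := Fintype.ofFinite T
  refine h.Dl_mem t h3 hX hL hA u0 hu A ha fun z x w hw => ?_
  simpa [hw] using Submodule.smul_mem _ _ (rA_mem_range (fun w => Submodule.mem_span_singleton.2
    ⟨_, rfl⟩) _)

theorem WZ.exists_Dl {l : F} (l0 : l ≠ 0) (l1 : l ≠ 1) (hl : ∀ c ∈ T, l * c ∈ T) {𝒜}
    (hA : Fam (RGp B₂ Q₂) (Df 𝒳) 𝒜) {u : W} (u0 : u ≠ 0) (hu : Q₂ u = Q₂ 0)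
    (A : End F V₁) {a : End F W} (ha : nU B₂ u * a = a * nU B₂ u) :
    ∃ C, Dl 𝒜 (lA W A * rA V₁ a) = lA W C * rA V₁ (nU B₂ u) := by
  have := Fintype.ofFinite T
  have a1 : ∑ c : T, (c : F) = 0 := by
    have := (Finite.injective_iff_bijective.1 (show Function.Injective
      fun c : T => (⟨l * c, hl c c.2⟩ : T) from fun a b e =>
        Subtype.ext (mul_left_cancel₀ l0 (congrArg Subtype.val e)))).sum_comp Subtype.val
    rw [← Finset.mul_sum] at this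
    exact by_contra fun e => l1 (mul_left_injective₀ e (by simpa using this))
  obtain ⟨C, e⟩ := h.Dl_mem t h3 hX hL hA u0 hu A ha
    (L := range (mulRight F (rA V₁ (nU B₂ u)) ∘ₗ (lA W).toLinearMap)) fun z => by
      rw [a1, zero_smul, zero_sub, rA_nU_mul]
      exact neg_mem (Submodule.smul_mem _ _ ⟨_, rfl⟩)
  exact ⟨C, e.symm⟩

theorem WZ.good (hI : ∀ g ∈ 𝒳, g ∈ Isom B Q)
    (hΔ : ∀ 𝒜, Fam (RGp B₂ Q₂) (Df 𝒳) 𝒜 → ∀ y, Dl 𝒜 y ∈ Cm (rA V₁ (W := W)))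
    (hn : ∃ u, u ≠ 0 ∧ Q₂ u = Q₂ 0 ∧
      nU B₂ u ∈ Submodule.span F {n | ∃ b ∈ RGp B₂ Q₂, ∃ a, n = adG b a - a})
    {g : V₁ ⊗[F] W ≃ₗ[F] V₁ ⊗[F] W} (hg : g ∈ Df 𝒳) : Good g := by
  obtain ⟨u, u0, hu, hn⟩ := hn
  have := h.nt
  have := nontrivial_of_ne u 0 u0
  obtain ⟨c, hc, c0⟩ := t.ne
  have hu' := h.w₂.self_eq_zero hu
  refine (h.rsys t h3 hX hL).good_of_sum hg (i := ⟨⟨u, c⟩, u0, hu, hc, c0⟩) ?_
  rintro _ rfl
  obtain ⟨a, A, e⟩ := glob_single hX hΔ hg (Submodule.smul_mem _ c hn)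
  have a1 : g ∈ Isom B Q := by
    obtain ⟨a, ha, b, hb, rfl⟩ := hg
    exact mul_mem (inv_mem (hI a ha)) (hI b hb)
  obtain ⟨u', a2, a3, a4⟩ := h.exists_eigen t.ex (a := a) (A := A) ⟨2, by
    rw [← e, ← adG_pow, ← map_pow, pow_two]; simp [nU_sq hu']⟩ fun v w => by
      obtain ⟨v, rfl⟩ := g.surjective v
      obtain ⟨w, rfl⟩ := g.surjective w
      rw [← e, adG_apply, adG_apply, inv_apply_apply, inv_apply_apply, a1.1, a1.1,
        ← map_neg (B v), ← LinearMap.neg_apply]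
      refine h.form_ext (fun x y s r => ?_) v w
      have := (t.mem hu hu' hc).1.1 s r
      simp [tvH_apply, hu', h.eq] at this ⊢
      linear_combination B₁ x y * this
  exact ⟨_, add_mem (one_mem _) (Algebra.subset_adjoin rfl), a, A, e, u', ⟨a2, a3⟩, a2, a4⟩

end Glob

end CF.MaxSub
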