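/-
Overgroups of one tensor factor of a classical group: unitary factors.
-/
import Cfsg.Agent.MaxSub.WI

set_option autoImplicit false

namespace CF.MaxSub

open Module Geom TensorProduct LinearMap

variable {F V₁ W : Type*} [Field F] [AddCommGroup V₁] [Module F V₁] [AddCommGroup W]
  [Module F W] {σ : F →+* F} [FiniteDimensional F W]

section St

variable {B : W →ₛₗ[σ] W →ₗ[F] F} {Q : W → F} (hW : IsWittPair σ B Q) {u : W} (u0 : u ≠ 0)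
  (hu : Q u = Q 0)
include hW u0 hu

theorem exists_perp_notMem_line (h3 : 3 ≤ finrank F W) : ∃ w, B u w = 0 ∧ w ∉ F ∙ u := by
  have := hW.finrank_perp (F ∙ u)
  obtain ⟨s, h1, h2⟩ := Geom.exists_notMem_of_finrank_lt
    (show finrank F (F ∙ u) < finrank F (perp B (F ∙ u)) by
      rw [finrank_span_singleton u0] at this ⊢; omega)
  exact ⟨s, mem_perp_singleton.1 h1, h2⟩

theorem self_mem_of_St (h3 : 3 ≤ finrank F W) {L : Submodule F W}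
    (h : ∀ c ∈ RGp B Q, ∀ γ : F, c u = γ • u → ∀ w, B u w = 0 → c w - γ • w ∈ L) : u ∈ L := by
  obtain ⟨w, a1, a2⟩ := exists_perp_notMem_line hW u0 hu h3
  obtain ⟨φ, a3, a4⟩ := exists_dual_sep a2
  obtain ⟨ρ, a5, a6, a7⟩ := exists_rd hW u0 hu a3
  simpa [a7 w a1, a4] using h ρ a5 1 (by simp [a6]) w a1

theorem stA_of_idx (h3 : 3 ≤ finrank F W) (idx : ∃ s, Q s = Q 0 ∧ B u s = 0 ∧ s ∉ F ∙ u)
    (pur : 5 ≤ finrank F W ∨ ∃ c : F, c ≠ 0 ∧ ∀ s, Q s = Q 0 →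
      ∃ t ∈ Rad B Q s ⊤, ∀ w, t w = w + (c * B s w) • s) : StA B Q u := fun L h w hw => by
  have H : ∀ s, Q s = Q 0 → B u s = 0 → s ∉ F ∙ u → s ∈ L := fun s hs e hn => by
    obtain h5 | ⟨c, c0, hc⟩ := pur
    · obtain ⟨r, a1, a2, a3⟩ := hW.exists_perp_notMem h5 u s
      obtain ⟨φ, a4, a5⟩ := exists_dual_one a3
      obtain ⟨ρ, a6, -, a7⟩ := exists_rd hW (by rintro rfl; exact hn (zero_mem _)) hs
        (a5 s (Submodule.subset_span (by simp)))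
      simpa [a7 r a2, a4] using h ρ a6 1 (by
        simp [a7 u (hW.refl e), a5 u (Submodule.subset_span (by simp))]) r a1
    obtain ⟨t, a1, a2⟩ := hc s hs
    obtain ⟨r, a3, a4⟩ := hW.exists_dual_vec hn
    simpa [a2, a3, L.smul_mem_iff c0] using h t (mem_RGp hs a1) 1 (by simp [a2, hW.refl e]) r
      (a4 u (Submodule.mem_span_singleton_self u))
  obtain ⟨s, a1, a2, a3⟩ := idx
  refine hW.perp_ind hu a1 a2 a3 (P := (· ∈ L)) (fun _ _ => add_mem)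
    (fun c => L.smul_mem c (H s a1 a2 a3)) (fun t b1 b2 b3 => H t b1 b2 fun e => ?_) hw
  obtain ⟨c, rfl⟩ := Submodule.mem_span_singleton.1 e
  simp [hW.refl a2] at b3

theorem stA_of_torus (h3 : 3 ≤ finrank F W) {f : W} (hf : B f u ≠ 0) {k : W ≃ₗ[F] W}
    (hk : k ∈ RGp B Q) {γ : F} (γ1 : γ ≠ 1) (e : k u = γ • u)
    (e' : ∀ w, B u w = 0 → B f w = 0 → k w = w) : StA B Q u := fun L h w hw => by
  have a1 : B u (w - (B f w / B f u) • u) = 0 := by simp [hw, hW.self_eq_zero hu]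
  have a2 := h k hk γ e _ a1
  rw [e' _ a1 (by simp [hf]), ← one_smul F (w - _), smul_smul, ← sub_smul, mul_one,
    L.smul_mem_iff (sub_ne_zero.2 γ1.symm)] at a2
  simpa using add_mem a2 (L.smul_mem (B f w / B f u) (self_mem_of_St hW u0 hu h3 h))

theorem nU_mem_span (h3 : 3 ≤ finrank F W) :
    nU B u ∈ Submodule.span F {n | ∃ b ∈ RGp B Q, ∃ a, n = adG b a - a} := by
  obtain ⟨w, a1, a2⟩ := exists_perp_notMem_line hW u0 hu h3
  obtain ⟨φ, a3, a4⟩ := exists_dual_sep a2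
  obtain ⟨ρ, a5, a6, a7⟩ := exists_rd hW u0 hu a3
  refine Submodule.subset_span ⟨ρ, a5, (B u).smulRight w, ?_⟩
  ext
  simp [adG_form (RGp_le_isom a5).1, a6, a7 w a1, a4]

end St

section Herm

variable {B : W →ₛₗ[σ] W →ₗ[F] F} (hH : IsHerm B) (hB : B.Nondegenerate) [Finite F]
include hH hB

/-- Skew elements. -/
def skew (σ : F →+* F) : AddSubgroup F := (σ.toAddMonoidHom + AddMonoidHom.id F).ker

omit hH hB [Finite F] in
theorem mem_skew {c : F} : c ∈ skew σ ↔ σ c = -c := by simp [skew, eq_neg_iff_add_eq_zero]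

theorem tt_herm (h2 : 2 ≤ finrank F W) : TT B (fun x => B x x) (skew σ) where
  ne := (exists_skew_ne_zero hH.ne_id hH.invol).imp fun _ e => ⟨mem_skew.2 e.2, e.1⟩
  ex := by simpa using exists_isotropic_of_two_le hH.ne_id hH.invol hH.symm h2
  tv c hc u hu := ⟨_, uTrans_mem_Rad hH (by simpa using hu) (mem_skew.1 hc) (A := ⊤) trivial,
    uTrans_apply hH _ _⟩
  eig := eigen_herm hH hB h2

theorem idx_herm (h4 : 4 ≤ finrank F W) (u : W) (u0 : u ≠ 0) (hu : B u u = B 0 0) :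
    ∃ s, B s s = B 0 0 ∧ B u s = 0 ∧ s ∉ F ∙ u := by
  have w₂ := hH.wittPair hB
  obtain ⟨f, hf, e⟩ := w₂.exists_hyperbolic u0 hu
  have a1 := w₂.finrank_perp (Submodule.span F {u, f})
  have a2 := IsWittPair.finrank_span_pair_le (F := F) u f
  obtain ⟨s, a3, a4, a5⟩ := exists_isotropic_mem hH.ne_id hH.invol hH.symm
    (U := perp B (Submodule.span F {u, f})) (by omega)
  refine ⟨s, by simpa using a5, (mem_perp_pair.1 a3).1, fun e' => ?_⟩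
  obtain ⟨c, rfl⟩ := Submodule.mem_span_singleton.1 e'
  exact a4 (by simpa [hH.flip_one e] using congrArg (· • u) (mem_perp_pair.1 a3).2)

theorem st_herm (h3 : 3 ≤ finrank F W)
    (h4 : 4 ≤ finrank F W ∨ ∃ c : F, c ≠ 0 ∧ c ≠ 1 ∧ σ c = c) {u : W} (u0 : u ≠ 0)
    (hu : B u u = B 0 0) : StA B (fun x => B x x) u ∧ StB B (fun x => B x x) u := by
  have hW := hH.wittPair hB
  obtain h4 | ⟨c, c0, c1, hc⟩ := h4
  · obtain ⟨c, a1, a2⟩ := (tt_herm hH hB (by omega)).ne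
    exact ⟨stA_of_idx hW u0 hu h3 (idx_herm hH hB h4 u u0 hu)
      (.inr ⟨c, a2, (tt_herm hH hB (by omega)).tv c a1⟩), .inr (idx_herm hH hB h4 u u0 hu)⟩
  obtain ⟨f, hf, e⟩ := hW.exists_hyperbolic u0 hu
  obtain ⟨w, w', a1, a2, a3, a4, a5⟩ := hW.exists_perp_pair h3 hu hf (by simp [e])
  have hu' := hu
  rw [map_zero] at hu' hf
  refine ⟨stA_of_torus hW u0 hu h3 (by simp [hH.flip_one e])
    (uDil_mem_RGp hH hB hu' hf e (γ := .mk0 c c0) hc) c1 (uDil_left ..)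
    fun w => uDil_of_perp hH _ _ _ _, .inl ?_⟩
  obtain ⟨γ, rfl⟩ := exists_norm_eq hH.ne_id hH.invol hc
  obtain ⟨a, b, a6⟩ := exists_nonisotropic (.inl hH.ne_id) hH.symm (x := w) (y := w') (by simp [a5])
  have γ0 : γ ≠ 0 := right_ne_zero_of_mul c0
  have γ0' : σ γ ≠ 0 := left_ne_zero_of_mul c0
  have a7 := hH.eq (a • w + b • w') (a • w + b • w')
  have a8 : B u (a • w + b • w') = 0 := by simp [a1, a3]
  generalize a • w + b • w' = d at a6 a7 a8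
  refine ⟨(uDil hH hu' hf e (.mk0 γ γ0) * uRank1 hH d ((σ γ / γ - 1) / B d d) (by
      simp only [map_div₀, map_sub, map_one, hH.invol, a7]; field_simp; ring)).1,
    (polarG_su hH hB u0 hu').le_RGp (mem_SUG.2 ⟨UG_map _, ?_⟩), γ, ?_, by rwa [mul_comm]⟩
  · rw [Subgroup.coe_mul, coe_mul_end, map_mul, det_uDil, det_uRank1]
    simp; field_simp; ring
  · simp [uRank1_apply, hH.refl a8, uDil_left]

end Herm

variable {B₁ : V₁ →ₛₗ[σ] V₁ →ₗ[F] F} {Q₁ : V₁ → F} {B₂ : W →ₛₗ[σ] W →ₗ[F] F} {Q₂ : W → F}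
  {B : V₁ ⊗[F] W →ₛₗ[σ] V₁ ⊗[F] W →ₗ[F] F} {Q : V₁ ⊗[F] W → F}
  {G X : Subgroup (V₁ ⊗[F] W ≃ₗ[F] V₁ ⊗[F] W)}

theorem not_opp_of_stab [Nontrivial V₁] (h2 : 2 ≤ finrank F W) {u : W} (u0 : u ≠ 0)
    {g : V₁ ⊗[F] W ≃ₗ[F] V₁ ⊗[F] W} (h : ∀ x, g (x ⊗ₜ u) ∈ range (tr u)) : ¬ Opp g := fun e => by
  have := nontrivial_of_ne u 0 u0
  obtain ⟨φ, hφ⟩ := exists_dual_eq_one (F := F) u0
  obtain ⟨A, hA⟩ := exists_lA (e (φ.smulRight u))
  obtain ⟨w, hw⟩ := exists_notMem_line h2 u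
  obtain ⟨x, hx⟩ := exists_ne (0 : V₁)
  have a1 : A = 0 := LinearMap.ext fun y => tmul_left_inj (F := F) (u := w)
    (by rintro rfl; exact hw (zero_mem _)) (by
      rw [LinearMap.zero_apply, zero_tmul]
      refine eq_zero_of_range hw ?_ ⟨_, rfl⟩
      rw [← lA_tmul, ← hA, adG_apply]
      obtain ⟨z, e⟩ := rA_mem_range (n := φ.smulRight u)
        (fun w => Submodule.mem_span_singleton.2 ⟨_, rfl⟩) (g⁻¹ (y ⊗ₜ w))
      exact e ▸ h z)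
  exact hx (tmul_left_inj (F := F) u0 (by
    simpa [a1, adG_apply, inv_apply_apply, hφ] using LinearMap.congr_fun hA (g (x ⊗ₜ u))))

variable [FiniteDimensional F V₁]

theorem not_opp_of_lt [Nontrivial V₁] (h : finrank F V₁ < finrank F W)
    (g : V₁ ⊗[F] W ≃ₗ[F] V₁ ⊗[F] W) : ¬ Opp g := fun e => by
  have : Nontrivial W := nontrivial_of_finrank_pos (R := F) (by omega)
  have a1 := Submodule.finrank_mono (show range (adG g ∘ₗ (rA V₁ (W := W)).toLinearMap) ≤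
    range (lA W (V₁ := V₁)).toLinearMap by
      rintro _ ⟨a, rfl⟩
      exact (exists_lA (e a)).imp fun _ => Eq.symm)
  rw [finrank_range_of_inj fun a b e => rA_injective (V₁ := V₁)
    (by simpa using congrArg (adG g⁻¹) e)] at a1
  have a2 := a1.trans (finrank_range_le _)
  simp only [finrank_linearMap] at a2
  nlinarith

theorem WZ.exists_not_good (h : WZ B₁ Q₁ B₂ Q₂ B Q G) (h2 : 2 ≤ finrank F V₁)
    (h3 : 3 ≤ finrank F W) (ex : ∃ u, u ≠ 0 ∧ Q₂ u = Q₂ 0) : ∃ g ∈ G, ¬ Good g := by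
  have := h.nt
  obtain ⟨u, u0, hu⟩ := ex
  obtain ⟨w, a1, a2⟩ := exists_perp_notMem_line h.w₂ u0 hu h3
  obtain ⟨f, -, a3⟩ := h.w₂.exists_hyperbolic u0 hu
  obtain ⟨x, y, hy⟩ := h.exists_one
  obtain ⟨x', a4⟩ := exists_notMem_line h2 y
  obtain ⟨l, a5, a6⟩ := exists_dual_sep a4
  have hu' := h.sing x u hu
  obtain ⟨g, a7, c, a8⟩ := h.pol.witt.exists_Rad_add hu' (A := ⊤) trivial (y := y ⊗ₜ f)
    (w := x' ⊗ₜ w) (by simp [h.eq, hy, a3]) (by simp [h.eq, a1]) trivial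
  refine ⟨g, h.pol.rad_le _ (fun e => by simpa [e, hy, a3] using h.eq x y u f) hu' a7, ?_⟩
  rintro (⟨a, b, rfl⟩ | e)
  swap
  · refine not_opp_of_stab (by omega) u0 (fun z => ?_) e
    obtain ⟨d, e⟩ := Submodule.mem_span_singleton.1 (a7.2.2.1 (z ⊗ₜ u)
      (by simp [h.eq, h.w₂.self_eq_zero hu]))
    exact ⟨d • x + z, by rw [sub_eq_iff_eq_add.1 e.symm]; simp [smul_tmul', add_tmul]⟩
  have b1 : B₂ u (b f) • a y = y := by
    simpa [a1, a3, h.w₂.self_eq_zero hu] using congrArg (ct (B₂ u)) a8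
  have b2 : l (a y) = 0 := by
    have := congrArg l b1
    rw [map_smul, a5, smul_eq_zero] at this
    exact this.resolve_left fun e => by
      rw [e, zero_smul] at b1
      simp [← b1] at hy
  exact a2 (Submodule.mem_span_singleton.2 ⟨-(c * l x), by
    simpa [a5, a6, b2, smul_smul, neg_eq_iff_add_eq_zero, add_comm] using
      (congrArg (cl l) a8).symm⟩)

section Glob

variable [Finite F] (h : WZ B₁ Q₁ B₂ Q₂ B Q G)
  {T : AddSubgroup F} (t : TT B₂ Q₂ T) (h3 : 3 ≤ finrank F W)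
  {𝒳 : Set (V₁ ⊗[F] W ≃ₗ[F] V₁ ⊗[F] W)}
  (hX : ∀ g ∈ 𝒳, ∀ b ∈ RGp B₂ Q₂, ∀ g' ∈ 𝒳, g * rG V₁ b * g⁻¹ * g' ∈ 𝒳)
  (hL : ∀ g ∈ Df 𝒳, ∀ w ≠ 0, ∀ u, u ≠ 0 ∧ Q₂ u = Q₂ 0 → (∀ x, g (x ⊗ₜ w) ∈ range (tr u)) →
    g ∈ TenG F V₁ W) {𝒜 : Finset ((V₁ ⊗[F] W ≃ₗ[F] V₁ ⊗[F] W) ⧸ TenG F V₁ W)}
  (hA : Fam (RGp B₂ Q₂) (Df 𝒳) 𝒜)
include h t h3 hX hL hA

theorem WZ.Dl_tmul (A : End F V₁) {a : End F W} {u u' w : W} (u0 : u ≠ 0) (hu : Q₂ u = Q₂ 0)
    (hu' : Q₂ u' = Q₂ 0) (e : u' ∉ F ∙ u) (ha : nU B₂ u * a = a * nU B₂ u)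
    (ha' : nU B₂ u' * a = a * nU B₂ u') (hw : B₂ u w = 0) (hw' : B₂ u' w = 0) (x : V₁) :
    Dl 𝒜 (lA W A * rA V₁ a) (x ⊗ₜ w) = 0 :=
  eq_zero_of_range e (h.Dl_mem_LU t (.inl h3) hX hL hA u0 hu A ha x w hw)
    (h.Dl_mem_LU t (.inl h3) hX hL hA (by rintro rfl; exact e (zero_mem _)) hu' A ha' x w hw')

theorem WZ.Dl_nU_idx {v : W} (v0 : v ≠ 0) (hv : Q₂ v = Q₂ 0)
    (idx : ∃ s, Q₂ s = Q₂ 0 ∧ B₂ v s = 0 ∧ s ∉ F ∙ v) (A : End F V₁) :
    Dl 𝒜 (lA W A * rA V₁ (nU B₂ v)) = 0 := by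
  have hW := h.w₂
  obtain ⟨s, a1, a2, a3⟩ := idx
  have hv' := hW.self_eq_zero hv
  have H : ∀ u, B₂ v u = 0 → nU B₂ u * nU B₂ v = nU B₂ v * nU B₂ u := fun u e => by
    ext; simp [e, hW.refl e]
  refine TensorProduct.ext' fun x w => all_ind hW v0 hv
    (P := fun w => Dl 𝒜 (lA W A * rA V₁ (nU B₂ v)) (x ⊗ₜ w) = 0)
    (fun a b ha hb => by rw [tmul_add, map_add, ha, hb, add_zero]) (fun c =>
      h.Dl_tmul t h3 hX hL hA A v0 hv a1 a3 rfl (H s a2) (by simp [hv']) (by simp [hW.refl a2]) x)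
    (fun f b1 b2 => ?_) w
  have b3 := mt hW.refl b2
  obtain ⟨u, c1, c2, c3, c4⟩ : ∃ u, Q₂ u = Q₂ 0 ∧ B₂ v u = 0 ∧ B₂ f u = 0 ∧ u ≠ 0 :=
    ⟨s + (-(B₂ f s / B₂ f v)) • v, (hW.norm_add_singular (hW.norm_smul_singular hv _)
      (by simp [hW.refl a2])).trans a1, by simp [a2, hv'], by simp [b3], fun e => a3
        (Submodule.mem_span_singleton.2 ⟨_, by rw [eq_neg_of_add_eq_zero_left e, ← neg_smul]⟩)⟩
  obtain ⟨u', d1, d2, d3⟩ := hW.exists_partner (x := u) (Z := Submodule.span F {v, f}) (fun e => by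
    obtain ⟨a, b, rfl⟩ := Submodule.mem_span_pair.1 e
    simp [hv', b2, b3, hW.self_eq_zero b1] at c2 c3
    simp [c2, c3] at c4) c1 fun z hz => by
      obtain ⟨a, b, rfl⟩ := Submodule.mem_span_pair.1 hz
      simp [c2, c3]
  refine h.Dl_tmul t h3 hX hL hA A c4 c1 d1 (fun e => ?_) (H u c2)
    (H u' (d3 v (Submodule.subset_span (by simp)))) (hW.refl c3)
    (hW.refl (d3 f (Submodule.subset_span (by simp)))) x
  obtain ⟨c, rfl⟩ := Submodule.mem_span_singleton.1 e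
  simp [hW.self_eq_zero c1] at d2

theorem WZ.Dl_nU_three {l : F} (l0 : l ≠ 0) (l1 : l ≠ 1) (hl : ∀ c ∈ T, l * c ∈ T) {v : W}
    (v0 : v ≠ 0) (hv : Q₂ v = Q₂ 0) (C : End F V₁) : Dl 𝒜 (lA W C * rA V₁ (nU B₂ v)) = 0 := by
  have hW := h.w₂
  have D := @h.exists_Dl _ _ _ _ _ _ _ _ _ _ _ _ _ _ _ _ _ _ _ _ t (.inl h3) _ hX hL _ l0 l1 hl _ hA
  obtain ⟨u, hu, e⟩ := hW.exists_hyperbolic v0 hv
  have u0 : u ≠ 0 := by rintro rfl; simp at e
  have hu' := hW.self_eq_zero hu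
  have e' : B₂ u v ≠ 0 := fun e' => by simpa [e] using hW.refl e'
  obtain ⟨w, w', a1, a2, a3, a4, a5⟩ := hW.exists_perp_pair h3 hv hu (by simp [e])
  obtain ⟨c, a6⟩ := hW.slide u 0 (v + w) hu (by simpa [a2])
  have H : ∀ A A' C C' : End F V₁, ∀ f,
      Dl 𝒜 (lA W A * rA V₁ ((B₂ u).smulRight (w' - u))) = lA W A' * rA V₁ (nU B₂ u) →
      Dl 𝒜 (lA W C * rA V₁ (nU B₂ f)) = lA W C' * rA V₁ (nU B₂ f) →
      trace F V₁ (A' * C) * (B₂ u f * B₂ f u) = trace F V₁ (A * C') * (B₂ u f * B₂ f (w' - u)) :=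
    fun A A' C C' f e1 e2 => by
      have := trace_Dl (𝒜 := 𝒜) (lA W A * rA V₁ ((B₂ u).smulRight (w' - u)))
        (lA W C * rA V₁ (nU B₂ f))
      rw [e1, e2] at this
      simpa only [lA_mul_rA, ← TensorProduct.map_mul, trace_tensorProduct', nU,
        smulRight_mul, map_smul, trace_smulRight, smul_eq_mul] using this
  obtain ⟨C', b1⟩ := D v0 hv C rfl
  rw [b1, eq_zero_of_trace (a := C') fun A => ?_, map_zero, zero_mul]
  obtain ⟨A', b2⟩ := D u0 hu A (a := (B₂ u).smulRight (w' - u)) (by ext; simp [a4, hu'])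
  have b3 : A' = 0 := eq_zero_of_trace fun C => by
    obtain ⟨C', b4⟩ := D (u := v + w + c • u) (fun e => by simpa [a2, hu', e'] using congrArg (B₂ u) e)
      a6 C rfl
    simpa [a2, a3, a4, a5, hu', e, e', hW.refl a2] using H A A' C C' _ b2 b4
  rw [trace_mul_comm]
  simpa [b3, e, e', a3] using H A A' C C' _ b2 b1

end Glob

end CF.MaxSub
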