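/-
Tensor powers: the stabiliser of a decomposition into equal factors.
-/
import Cfsg.Agent.MaxSub.WJ

set_option autoImplicit false

namespace CF.MaxSub

open Module Geom TensorProduct LinearMap

variable {F V₁ W : Type*} [Field F] [AddCommGroup V₁] [Module F V₁] [AddCommGroup W]
  [Module F W] {σ : F →+* F} {τ : Type*}

/-- The group permuting a family of factors. -/
def WrG {V : Type*} [AddCommGroup V] [Module F V] (Ψ : τ → End F W →ₐ[F] End F V) :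
    Subgroup (V ≃ₗ[F] V) where
  carrier := {g | ∃ s : Equiv.Perm τ, ∀ i, ∃ b, ∀ a, adG g (Ψ i a) = Ψ (s i) (adG b a)}
  one_mem' := ⟨1, fun _ => ⟨1, by simp⟩⟩
  mul_mem' := by
    rintro g h ⟨s, hs⟩ ⟨t, ht⟩
    refine ⟨s * t, fun i => ?_⟩
    obtain ⟨b, hb⟩ := ht i
    obtain ⟨c, hc⟩ := hs (t i)
    exact ⟨c * b, fun a => by rw [← adG_adG, hb, hc, adG_adG]; rfl⟩
  inv_mem' := by
    rintro g ⟨s, hs⟩
    refine ⟨s⁻¹, fun i => ?_⟩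
    obtain ⟨b, hb⟩ := hs (s⁻¹ i)
    exact ⟨b⁻¹, fun a => by
      rw [← adG_inv_adG g (Ψ (s⁻¹ i) _), hb, adG_adG_inv]; simp⟩

/-- All the factors. -/
noncomputable def aF (ψ : τ → End F W →ₐ[F] End F V₁) :
    Option τ → End F W →ₐ[F] End F (V₁ ⊗[F] W)
  | none => rA V₁
  | some j => (lA W).comp (ψ j)

/-- All the swaps. -/
def aP {G : Type*} [One G] (π : τ → G) : Option τ → G
  | none => 1
  | some j => π j

theorem rG_mem_WrG (ψ : τ → End F W →ₐ[F] End F V₁) (b : W ≃ₗ[F] W) : rG V₁ b ∈ WrG (aF ψ) :=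
  ⟨1, fun | none => ⟨b, adG_rG_rA b⟩ | some j => ⟨1, fun a => by simp [aF]⟩⟩

theorem lA_injective [FiniteDimensional F W] [Nontrivial W] :
    Function.Injective (lA W (F := F) (V₁ := V₁)) :=
  (injective_iff_map_eq_zero _).2 fun a e => LinearMap.ext fun x => by
    obtain ⟨w, hw⟩ := exists_ne (0 : W)
    exact tmul_left_inj (F := F) hw (by simpa using LinearMap.congr_fun e (x ⊗ₜ w))

theorem mem_ten_of_adG [FiniteDimensional F W] [Nontrivial W] {g : V₁ ⊗[F] W ≃ₗ[F] V₁ ⊗[F] W}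
    {b : W ≃ₗ[F] W} (h : ∀ a, adG g (rA V₁ a) = rA V₁ (adG b a)) : g ∈ TenG F V₁ W := by
  have H : ∀ a, adG ((rG V₁ b)⁻¹ * g) (rA V₁ a) = rA V₁ a := fun a => by
    rw [← adG_adG, h, ← map_inv, adG_rG_rA, adG_inv_adG]
  generalize e : (rG V₁ b)⁻¹ * g = k at H
  obtain ⟨A, h1⟩ := exists_lA (c := (k : End F (V₁ ⊗[F] W))) 
    (mem_Cm.2 fun a => (adG_eq_self.1 (H a)).eq.symm)
  obtain ⟨A', h2⟩ := exists_lA (c := ((k⁻¹ : _ ≃ₗ[F] _) : End F (V₁ ⊗[F] W))) (mem_Cm.2 fun a =>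
    (adG_eq_self.1 ((congrArg (adG k⁻¹) (H a).symm).trans (adG_inv_adG _ _))).eq.symm)
  have h3 : A * A' = 1 := lA_injective (W := W) (by
    rw [map_mul, ← h1, ← h2, coe_mul_inv_end, map_one])
  have h4 : A' * A = 1 := lA_injective (W := W) (by
    rw [map_mul, ← h1, ← h2, coe_inv_mul_end, map_one])
  have h5 : k = lG W (LinearEquiv.ofLinear A A' h3 h4) :=
    LinearEquiv.toLinearMap_injective (by rw [coe_lG, h1]; rfl)
  rw [inv_mul_eq_iff_eq_mul.1 e, h5]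
  exact mul_mem (rG_mem b) (lG_mem _)

variable [Fintype τ] [DecidableEq τ]

/-- A tensor power of a classical space. -/
structure WS (B₁ : V₁ →ₛₗ[σ] V₁ →ₗ[F] F) (Q₁ : V₁ → F) (B₂ : W →ₛₗ[σ] W →ₗ[F] F) (Q₂ : W → F)
    (B : V₁ ⊗[F] W →ₛₗ[σ] V₁ ⊗[F] W →ₗ[F] F) (Q : V₁ ⊗[F] W → F)
    (G : Subgroup (V₁ ⊗[F] W ≃ₗ[F] V₁ ⊗[F] W)) (ψ : τ → End F W →ₐ[F] End F V₁)
    (π : τ → V₁ ⊗[F] W ≃ₗ[F] V₁ ⊗[F] W) : Prop extends WZ B₁ Q₁ B₂ Q₂ B Q G where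
  pc : PC ψ
  cen : ∀ c, (∀ i, c ∈ Cm (ψ i)) → c ∈ F ∙ (1 : End F V₁)
  isom : ∀ j, π j ∈ Isom B Q
  com : ∀ a ∈ Isom B Q, ∀ b ∈ Isom B Q, a * b * a⁻¹ * b⁻¹ ∈ G
  r : ∀ j a, adG (π j) (rA V₁ a) = lA W (ψ j a)
  l : ∀ j a, adG (π j) (lA W (ψ j a)) = rA V₁ a
  o : ∀ i j, i ≠ j → ∀ a, adG (π j) (lA W (ψ i a)) = lA W (ψ i a)
  ne : Nonempty τ
  two : 2 ≤ finrank F W
  ex : ∃ u, u ≠ 0 ∧ Q₂ u = Q₂ 0

/-- A proper overgroup. -/
structure Adm {Γ : Type*} [Group Γ] (G H X : Subgroup Γ) : Prop where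
  lo : G ⊓ H ≤ X
  hi : X ≤ G
  ne : ¬ G ≤ X

theorem maxIn_of_adm {Γ : Type*} [Group Γ] {G H : Subgroup Γ} (h : ¬ G ≤ H)
    (e : ∀ X, Adm G H X → X ≤ H) : MaxIn G H :=
  ⟨h, fun X a b _ c d => by_contra fun e' => d (e X ⟨a, b, e'⟩ c)⟩

theorem Adm.conj {Γ : Type*} [Group Γ] {G H X : Subgroup Γ} (h : Adm G H X) {p : Γ} (hp : p ∈ H)
    (hG : ∀ g, p * g * p⁻¹ ∈ G ↔ g ∈ G) : Adm G H (X.comap (MulAut.conj p).toMonoidHom) :=
  ⟨fun g hg => h.lo ⟨(hG g).2 hg.1, H.mul_mem (H.mul_mem hp hg.2) (inv_mem hp)⟩,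
    fun g hg => (hG g).1 (h.hi hg), fun e => h.ne fun g hg => by
      simpa [mul_assoc] using e ((hG (p⁻¹ * g * p)).1 (by simpa [mul_assoc]))⟩

variable {B₁ : V₁ →ₛₗ[σ] V₁ →ₗ[F] F} {Q₁ : V₁ → F} {B₂ : W →ₛₗ[σ] W →ₗ[F] F} {Q₂ : W → F}
  {B : V₁ ⊗[F] W →ₛₗ[σ] V₁ ⊗[F] W →ₗ[F] F} {Q : V₁ ⊗[F] W → F}
  {G X : Subgroup (V₁ ⊗[F] W ≃ₗ[F] V₁ ⊗[F] W)} {ψ : τ → End F W →ₐ[F] End F V₁}
  {π : τ → V₁ ⊗[F] W ≃ₗ[F] V₁ ⊗[F] W}

/-- The local criterion for membership of the tensor product subgroup. -/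
def LocI (B₂ : W →ₛₗ[σ] W →ₗ[F] F) (Q₂ : W → F) (B : V₁ ⊗[F] W →ₛₗ[σ] V₁ ⊗[F] W →ₗ[F] F)
    (Q : V₁ ⊗[F] W → F) (X : Subgroup (V₁ ⊗[F] W ≃ₗ[F] V₁ ⊗[F] W)) : Prop :=
  ∀ u w, u ≠ 0 → Q₂ u = Q₂ 0 → w ≠ 0 → ∀ g ∈ Isom B Q, (∀ b ∈ RGp B₂ Q₂, g⁻¹ * rG V₁ b * g ∈ X) →
    (∀ x, g (x ⊗ₜ w) ∈ range (tr u)) → g ∈ TenG F V₁ W

/-- The cosets of `X` by the swaps. -/
def XS (X : Subgroup (V₁ ⊗[F] W ≃ₗ[F] V₁ ⊗[F] W)) (π : τ → V₁ ⊗[F] W ≃ₗ[F] V₁ ⊗[F] W) :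
    Set (V₁ ⊗[F] W ≃ₗ[F] V₁ ⊗[F] W) := {g | ∃ x ∈ X, ∃ i, g = x * aP π i}

namespace WS

variable (h : WS B₁ Q₁ B₂ Q₂ B Q G ψ π)
include h

theorem ntW : Nontrivial W := nontrivial_of_finrank_pos (R := F) (by have := h.two; omega)

theorem r' (j : τ) (a : End F W) : adG (π j)⁻¹ (rA V₁ a) = lA W (ψ j a) := by
  rw [← h.l j, adG_inv_adG]

theorem l' (j : τ) (a : End F W) : adG (π j)⁻¹ (lA W (ψ j a)) = rA V₁ a := by
  rw [← h.r j, adG_inv_adG]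

theorem o' {i j : τ} (e : i ≠ j) (a : End F W) : adG (π j)⁻¹ (lA W (ψ i a)) = lA W (ψ i a) := by
  conv_lhs => rw [← h.o i j e, adG_inv_adG]

theorem adG_aP (i : Option τ) (a : End F W) : adG (aP π i) (rA V₁ a) = aF ψ i a := by
  cases i
  · simp [aP, aF]
  · exact h.r _ a

theorem aP_isom (i : Option τ) : aP π i ∈ Isom B Q := by
  cases i
  exacts [one_mem _, h.isom _]

theorem aP_mem (i : Option τ) : aP π i ∈ WrG (aF ψ) := by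
  obtain _ | j := i
  · exact one_mem _
  refine ⟨Equiv.swap none (some j), fun i => ⟨1, fun a => ?_⟩⟩
  obtain _ | i := i
  · simpa [aP, aF] using h.r j a
  by_cases e : i = j
  · simpa [e, aP, aF] using h.l j a
  · simpa [Equiv.swap_apply_of_ne_of_ne, e, aP, aF] using h.o i j e a

theorem conj_mem {p g : V₁ ⊗[F] W ≃ₗ[F] V₁ ⊗[F] W} (hp : p ∈ Isom B Q) (hg : g ∈ G) :
    p * g * p⁻¹ ∈ G := by simpa using mul_mem (h.com p hp g (h.pol.le hg)) hg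

theorem conj (hX : Adm G (WrG (aF ψ)) X) (i : Option τ) :
    Adm G (WrG (aF ψ)) (X.comap (MulAut.conj (aP π i)).toMonoidHom) :=
  hX.conj (h.aP_mem i) fun g => ⟨fun e => by
    simpa [mul_assoc] using h.conj_mem (inv_mem (h.aP_isom i)) e, h.conj_mem (h.aP_isom i)⟩

theorem lG_aut (j : τ) (b : W ≃ₗ[F] W) : lG W (aut (ψ j) b) = π j * rG V₁ b * (π j)⁻¹ :=
  LinearEquiv.toLinearMap_injective (by rw [coe_lG, coe_aut, ← h.r, ← coe_rG, adG_coe])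

theorem adj (j : τ) {a a' : End F W} (e : ∀ s t, B₂ (a s) t = B₂ s (a' t)) (x y : V₁) :
    B₁ (ψ j a x) y = B₁ x (ψ j a' y) := by
  have := h.ntW
  obtain ⟨s, hs⟩ := exists_ne (0 : W)
  obtain ⟨t, ht⟩ := exists_apply_eq_one (φ := B₂ s) fun e => hs (h.w₂.nondeg s fun y => by simp [e])
  have a1 := h.form_ext (a := rA V₁ a) (b := rA V₁ a') (fun x y s t => by simp [h.eq, e])
    ((π j)⁻¹ (x ⊗ₜ s)) ((π j)⁻¹ (y ⊗ₜ t))
  rw [← (h.isom j).1, ← (h.isom j).1 ((π j)⁻¹ _), ← adG_apply, ← adG_apply, h.r, h.r,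
    apply_inv_apply, apply_inv_apply] at a1
  simpa [h.eq, ht] using a1

theorem comm {i j : Option τ} (e : i ≠ j) (a b : End F W) :
    aF ψ i a * aF ψ j b = aF ψ j b * aF ψ i a := by
  obtain _ | i := i <;> obtain _ | j := j
  · exact (e rfl).elim
  · exact mem_Cm.1 (lA_mem _) a
  · exact (mem_Cm.1 (lA_mem _) b).symm
  · exact (map_mul (lA W) _ _).symm.trans
      ((congrArg _ (h.pc (fun e' => e (congrArg _ e')) a b)).trans (map_mul (lA W) _ _))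

variable [FiniteDimensional F V₁] [FiniteDimensional F W]

theorem aF_injective (i : Option τ) : Function.Injective (aF ψ i) := fun a b e => by
  have := h.nt
  rw [← h.adG_aP, ← h.adG_aP] at e
  exact rA_injective (V₁ := V₁) (by simpa using congrArg (adG (aP π i)⁻¹) e)

theorem finrank_le : finrank F W ≤ finrank F V₁ := by
  obtain ⟨j⟩ := h.ne
  have := finrank_le_finrank_of_injective (f := (ψ j).toLinearMap)
    fun a b e => h.aF_injective (some j) (congrArg (lA W) e)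
  simp only [finrank_linearMap] at this
  nlinarith

omit [FiniteDimensional F V₁] in
theorem exists_not_comm : ∃ a b : End F W, a * b ≠ b * a := by
  obtain ⟨u, u0, hu⟩ := h.ex
  obtain ⟨f, -, e⟩ := h.w₂.exists_hyperbolic u0 hu
  exact (MaxSub.exists_not_comm (r := nU B₂ u) (fun e' => by
    simpa [e, u0] using LinearMap.congr_fun e' f) (nU_sq (h.w₂.self_eq_zero hu))).imp
      fun _ e => ⟨_, e⟩

theorem conj_rG (hX : Adm G (WrG (aF ψ)) X) (i : Option τ) {b : W ≃ₗ[F] W} (hb : b ∈ RGp B₂ Q₂) :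
    aP π i * rG V₁ b * (aP π i)⁻¹ ∈ X :=
  hX.lo ⟨h.conj_mem (h.aP_isom i) (h.rG_mem_G hb),
    (WrG _).mul_mem (mul_mem (h.aP_mem i) (rG_mem_WrG ψ b)) (inv_mem (h.aP_mem i))⟩

theorem wp (hX : Adm G (WrG (aF ψ)) X) : WP B₁ Q₁ B₂ Q₂ B Q G X :=
  ⟨h.toWZ, fun b hb => hX.lo ⟨h.rG_mem_G hb, rG_mem_WrG ψ b⟩, hX.hi⟩

theorem fs (hX : Adm G (WrG (aF ψ)) X) : FS X ψ (RGp B₂ Q₂) :=
  ⟨h.pc, h.cen, fun i _ hg => h.lG_aut i _ ▸ h.conj_rG hX (some i) hg⟩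

theorem xs_mul (hX : Adm G (WrG (aF ψ)) X) :
    ∀ g ∈ XS X π, ∀ b ∈ RGp B₂ Q₂, ∀ g' ∈ XS X π, g * rG V₁ b * g⁻¹ * g' ∈ XS X π := by
  rintro _ ⟨x, hx, i, rfl⟩ b hb _ ⟨y, hy, j, rfl⟩
  exact ⟨_, mul_mem (mul_mem (mul_mem hx (h.conj_rG hX i hb)) (inv_mem hx)) hy, j, by group⟩

omit [FiniteDimensional F V₁] [FiniteDimensional F W] in
theorem xs_isom (hX : Adm G (WrG (aF ψ)) X) : ∀ g ∈ XS X π, g ∈ Isom B Q := by
  rintro _ ⟨x, hx, i, rfl⟩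
  exact mul_mem (h.pol.le (hX.hi hx)) (h.aP_isom i)

theorem xs_loc (H : ∀ X, Adm G (WrG (aF ψ)) X → LocI B₂ Q₂ B Q X) (hX : Adm G (WrG (aF ψ)) X) :
    ∀ g ∈ Df (XS X π), ∀ w ≠ 0, ∀ u, u ≠ 0 ∧ Q₂ u = Q₂ 0 → (∀ x, g (x ⊗ₜ w) ∈ range (tr u)) →
      g ∈ TenG F V₁ W := by
  rintro _ ⟨g, hg, g', hg', rfl⟩ w w0 u ⟨u0, hu⟩
  have a1 := mul_mem (inv_mem (h.xs_isom hX g hg)) (h.xs_isom hX g' hg')
  obtain ⟨x, hx, i, rfl⟩ := hg
  obtain ⟨y, hy, j, rfl⟩ := hg'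
  refine H _ (h.conj hX j) u w u0 hu w0 _ a1 fun b hb => ?_
  simpa [mul_assoc] using mul_mem (mul_mem (mul_mem (mul_mem (inv_mem hy) hx) (h.conj_rG hX i hb))
    (inv_mem hx)) hy

theorem le_of_good (H : ∀ g ∈ Df (XS X π), Good g) : X ≤ WrG (aF ψ) := fun x hx => by
  have := h.ntW
  have := h.nt
  obtain ⟨a₀, b₀, e₀⟩ := h.exists_not_comm
  have a1 : ∀ i j, Good ((aP π j)⁻¹ * (x * aP π i)) := fun i j =>
    H _ ⟨_, ⟨1, one_mem _, j, (one_mul _).symm⟩, _, ⟨x, hx, i, rfl⟩, rfl⟩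
  have a2 : ∀ i j a, adG x (aF ψ i a) = adG (aP π j) (adG ((aP π j)⁻¹ * (x * aP π i)) (rA V₁ a)) :=
    fun i j a => by rw [adG_adG, mul_inv_cancel_left, ← adG_adG, h.adG_aP]
  have a3 : ∀ i, ∃ j b, ∀ a, adG x (aF ψ i a) = aF ψ j (adG b a) := fun i => by
    by_cases e : ∃ j, (aP π j)⁻¹ * (x * aP π i) ∈ TenG F V₁ W
    · obtain ⟨j, e⟩ := e
      obtain ⟨b, hb⟩ := adG_ten_rA e
      exact ⟨j, b, fun a => by rw [a2 i j, hb, h.adG_aP]⟩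
    have b1 : ∀ j b, aF ψ j b * adG x (aF ψ i a₀) = adG x (aF ψ i a₀) * aF ψ j b := fun j b => by
      rw [a2 i j, ← h.adG_aP j b, ← adG_mul, ← adG_mul,
        mem_Cm.1 ((a1 i j).resolve_left (fun e' => e ⟨j, e'⟩) a₀)]
    obtain ⟨A, hA⟩ := exists_lA (mem_Cm.2 (b1 none))
    obtain ⟨c, rfl⟩ := Submodule.mem_span_singleton.1 (h.cen A fun j => mem_Cm.2 fun b =>
      lA_injective (W := W) (by rw [map_mul, map_mul, ← hA]; exact b1 (some j) b))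
    have b2 : a₀ = c • 1 := h.aF_injective i (by simpa using congrArg (adG x⁻¹) hA)
    simp [b2] at e₀
  choose s b hb using a3
  refine ⟨.ofBijective s (Finite.injective_iff_bijective.1 fun i j e => by_contra fun e' => e₀ ?_),
    fun i => ⟨b i, hb i⟩⟩
  have := congrArg (adG x) (h.comm e' (adG (b i)⁻¹ a₀) (adG (b j)⁻¹ b₀))
  rw [adG_mul, adG_mul, hb, hb, e, adG_adG_inv, adG_adG_inv, ← map_mul, ← map_mul] at this
  exact h.aF_injective _ this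

omit [FiniteDimensional F V₁] in
theorem good_of_mem {g : V₁ ⊗[F] W ≃ₗ[F] V₁ ⊗[F] W} (hg : g ∈ WrG (aF ψ)) : Good g := by
  have := h.ntW
  obtain ⟨s, hs⟩ := hg
  obtain ⟨b, hb⟩ := hs none
  obtain e | ⟨j, e⟩ := (s none).eq_none_or_eq_some <;> rw [e] at hb
  · exact .inl (mem_ten_of_adG hb)
  · exact .inr fun a => hb a ▸ lA_mem _

theorem un_cyc (hX : Adm G (WrG (aF ψ)) X) {i j : τ} (e : i ≠ j) {a b : End F W}
    (hab : Un X (map (ψ i a) b)) : Un X (map (ψ j b) a) := by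
  have := hab.conj (hX.lo ⟨h.com _ (h.isom j) _ (h.isom i), (WrG _).mul_mem (mul_mem (mul_mem
    (h.aP_mem (some j)) (h.aP_mem (some i))) (inv_mem (h.aP_mem (some j))))
      (inv_mem (h.aP_mem (some i)))⟩)
  rwa [← adG_eq, ← lA_mul_rA, adG_mul, ← adG_adG, ← adG_adG, ← adG_adG, ← adG_adG, ← adG_adG,
    ← adG_adG, h.l', h.r', h.r', h.o' e, h.o j i e.symm, h.l, h.l, h.r, mem_Cm.1 (lA_mem _),
    lA_mul_rA] at this

theorem le_of_ml (hX : Adm G (WrG (aF ψ)) X) (com : ComT B Q) (h3 : 3 ≤ finrank F W)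
    {K : Set F} {G' : Subgroup (W ≃ₗ[F] W)} (f : FS X ψ G') {P : Set (End F W)} (hP : Pur K G' P)
    (h0 : (0 : End F W) ∉ P) (hD : ∀ r ∈ P, Wd G' r) {i : τ}
    (hi : ∀ a, ψ i a ∈ ML (AL X h.w₂)) : G ≤ X := by
  have := h.finrank_le
  have w := h.wp hX
  have hW := h.w₂
  refine w.le_of_ML com (by omega) (.inl (by omega)) h.ex h3 (h.pc.mem_of_gen h.cen fun j => ?_)
  by_cases e : i = j
  · exact e ▸ hi
  obtain ⟨u, u0, hu⟩ := h.ex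
  obtain ⟨ε, -, hε⟩ := hW.exists_eps
  have hu' := nU_sq (hW.self_eq_zero hu)
  refine f.mem_ML hW hP h0 hD (p := ψ j (nU B₂ u)) (WP.levi hW
    (hp := by rw [← map_mul, hu', map_zero]) fun v v0 hv => ?_) fun e => ?_
  · obtain ⟨g, -, hg⟩ := hW.exists_hyperbolic v0 hv
    have := w.un_comm h3 hε u0 hu (A := ψ i ((B₂ g).smulRight v)) (C := 1) (C' := 1)
      (by simpa using hi _ 1 w.one_mem_AL) w.one_mem_AL
      (h.adj i (a' := (B₂ v).smulRight (ε • g)) fun s t => by simp [hε]; ring) fun _ _ => rfl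
    rw [mul_one, one_mul, ← map_smul, ← map_sub] at this
    exact ⟨_, h.un_cyc hX e this, ⟨B₂ g v, fun e => by simpa [hg] using hW.refl e,
      by simp [hW.self_eq_zero hv]⟩, fun w hw =>
        Submodule.mem_span_singleton.2 ⟨B₂ g w, by simp [hw]⟩⟩
  obtain ⟨f, -, hf⟩ := hW.exists_hyperbolic u0 hu
  obtain ⟨a, ha⟩ := MaxSub.exists_not_comm (r := nU B₂ u) (fun e' => by
    simpa [hf, u0] using LinearMap.congr_fun e' f) hu'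
  exact ha (h.aF_injective (some j) (by simpa [aF] using congrArg (lA W) (mem_Cm.1 e a)))

end WS

end CF.MaxSub
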