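/-
Maximality of tensor product and tensor power subgroups of unitary groups.
-/
import Cfsg.Agent.MaxSub.WS
import Cfsg.Agent.MaxSub.TM

set_option autoImplicit false

namespace CF.MaxSub

open Module Geom TensorProduct LinearMap

variable {F V₁ W W' : Type*} [Field F] [AddCommGroup V₁] [Module F V₁] [AddCommGroup W]
  [Module F W] [AddCommGroup W'] [Module F W'] {σ : F →+* F} [FiniteDimensional F V₁]
  [FiniteDimensional F W]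

section General

variable {B₁ : V₁ →ₛₗ[σ] V₁ →ₗ[F] F} {Q₁ : V₁ → F} {B₂ : W →ₛₗ[σ] W →ₗ[F] F} {Q₂ : W → F}
  {B : V₁ ⊗[F] W →ₛₗ[σ] V₁ ⊗[F] W →ₗ[F] F} {Q : V₁ ⊗[F] W → F}
  {G X : Subgroup (V₁ ⊗[F] W ≃ₗ[F] V₁ ⊗[F] W)}

theorem WZ.lG_mem_G (h : WZ B₁ Q₁ B₂ Q₂ B Q G) (sing : ∀ x u, Q₁ x = Q₁ 0 → Q (x ⊗ₜ u) = Q 0)
    {a : V₁ ≃ₗ[F] V₁} (ha : a ∈ RGp B₁ Q₁) : lG W a ∈ G := by
  refine RGp_le (M := G.comap (lG W)) (fun x hx a ha => Subgroup.mem_comap.2 ?_) ha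
  refine mem_of_radical h.pol (range (TensorProduct.mk F V₁ W x))
    (by rintro _ ⟨s, rfl⟩; exact sing x s hx) ?_
    (h.congr_isom fun x y s t => by simp [ha.1.1]) (by rintro _ ⟨s, rfl⟩; simp [ha.2.1])
    fun v hv => ?_
  · rintro _ ⟨s, rfl⟩
    exact mem_perp.2 (by rintro _ ⟨t, rfl⟩; simp [h.eq, h.w₁.self_eq_zero hx])
  have h1 : ct (B₁ x) (TensorProduct.comm F V₁ W v) = 0 := h.w₂.nondeg' _ fun s => by
    rw [← mem_perp.1 hv _ ⟨s, rfl⟩, mk_apply]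
    clear hv
    induction v with
    | zero => simp
    | add a b ha hb => simp only [map_add, ha, hb]
    | tmul y t => simp [h.eq]
  have := mem_of_ct_eq_zero (S := (range (TensorProduct.mk F V₁ W x)).comap
    (((lG W a).toLinearMap - 1) ∘ₗ (TensorProduct.comm F W V₁).toLinearMap)) (fun s y hy => by
      obtain ⟨c, e⟩ := Submodule.mem_span_singleton.1 (ha.2.2.1 y hy)
      exact ⟨c • s, by simp [← sub_tmul, ← e, smul_tmul]⟩) h1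
  simpa [LinearMap.sub_apply, -LinearMap.mem_range] using this

theorem WP.locI (h : WP B₁ Q₁ B₂ Q₂ B Q G X) (h3 : 3 ≤ finrank F W ∨ ∃ c : F, c ≠ 0 ∧
      ∀ u, Q₂ u = Q₂ 0 → ∃ t ∈ Rad B₂ Q₂ u ⊤, ∀ w, t w = w + (c * B₂ u w) • u)
    (H : ∀ u, u ≠ 0 → Q₂ u = Q₂ 0 → Loc X B₂ u ∧ StA B₂ Q₂ u ∧ StB B₂ Q₂ u) :
    LocI B₂ Q₂ B Q X := fun _ _ u0 hu w0 _ hg hX => h.loc_of_St (fun u u0 hu =>
      ⟨(H u u0 hu).1, (H u u0 hu).2.1, (H u u0 hu).2.2,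
        h3.imp_right fun ⟨c, c0, e⟩ => ⟨c, c0, e u hu⟩⟩) u0 hu w0 hg hX

omit [FiniteDimensional F V₁] [FiniteDimensional F W] in
theorem WP.loc_Df (h : WP B₁ Q₁ B₂ Q₂ B Q G X) (H : LocI B₂ Q₂ B Q X) :
    ∀ g ∈ Df (X : Set (V₁ ⊗[F] W ≃ₗ[F] V₁ ⊗[F] W)), ∀ w ≠ 0, ∀ u, u ≠ 0 ∧ Q₂ u = Q₂ 0 →
      (∀ x, g (x ⊗ₜ w) ∈ range (tr u)) → g ∈ TenG F V₁ W := by
  rintro _ ⟨a, ha, b, hb, rfl⟩ w w0 u ⟨u0, hu⟩
  have := mul_mem (inv_mem ha) hb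
  exact H u w u0 hu w0 _ (h.isom this) fun c hc => mul_mem (mul_mem (inv_mem this) (h.rad c hc)) this

omit [FiniteDimensional F V₁] [FiniteDimensional F W] in
theorem WP.mul_X (h : WP B₁ Q₁ B₂ Q₂ B Q G X) : ∀ g ∈ (X : Set (V₁ ⊗[F] W ≃ₗ[F] V₁ ⊗[F] W)),
    ∀ b ∈ RGp B₂ Q₂, ∀ g' ∈ (X : Set (V₁ ⊗[F] W ≃ₗ[F] V₁ ⊗[F] W)),
      g * rG V₁ b * g⁻¹ * g' ∈ (X : Set (V₁ ⊗[F] W ≃ₗ[F] V₁ ⊗[F] W)) :=
  fun _ hg b hb _ hg' => X.mul_mem (X.mul_mem (X.mul_mem hg (h.rad b hb)) (X.inv_mem hg)) hg'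

theorem WZ.wp (h : WZ B₁ Q₁ B₂ Q₂ B Q G) (hX : Adm G (TenG F V₁ W) X) : WP B₁ Q₁ B₂ Q₂ B Q G X :=
  ⟨h, fun b hb => hX.lo ⟨h.rG_mem_G hb, rG_mem b⟩, hX.hi⟩

theorem trace_mul_nU (b : End F W) (u : W) : trace F W (b * nU B₂ u) = B₂ u (b u) := by
  rw [nU, mul_smulRight, trace_smulRight]

end General

variable [Finite F] {B₁ : V₁ →ₛₗ[σ] V₁ →ₗ[F] F} {Q₁ : V₁ → F} {B₂ : W →ₛₗ[σ] W →ₗ[F] F}
  {B : V₁ ⊗[F] W →ₛₗ[σ] V₁ ⊗[F] W →ₗ[F] F} {Q : V₁ ⊗[F] W → F}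
  {G X : Subgroup (V₁ ⊗[F] W ≃ₗ[F] V₁ ⊗[F] W)} (hH : IsHerm B₂) (hB : B₂.Nondegenerate)
  (h3 : 3 ≤ finrank F W) (h4 : 4 ≤ finrank F W ∨ ∃ c : F, c ≠ 0 ∧ c ≠ 1 ∧ σ c = c)
include hH hB

omit [FiniteDimensional F W] [Finite F] hB in
theorem exists_ne_conj : ∃ l, σ l ≠ l := by
  by_contra! hc
  exact hH.ne_id (RingHom.ext hc)

omit [Finite F] in
theorem hT_herm (u : W) (u0 : u ≠ 0) (hu : B₂ u u = B₂ 0 0) :
    ∃ f, B₂ f f = B₂ 0 0 ∧ B₂ u f ≠ 0 ∧ B₂ (u + f) (u + f) = B₂ 0 0 := by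
  obtain ⟨f, hf, e⟩ := (hH.wittPair hB).exists_hyperbolic u0 hu
  obtain ⟨s, s0, hs⟩ := exists_skew_ne_zero hH.ne_id hH.invol
  rw [map_zero] at hu hf
  exact ⟨s • f, by simp [hf], by simp [e, s0], by simp [hu, hf, e, hH.flip_one e, hs]⟩

omit [Finite F] in
theorem cp_herm : CP B₂ fun x => B₂ x x := by
  have hW := hH.wittPair hB
  intro u f u0 f0 hu hf
  by_cases e : B₂ u f = 0
  · by_cases e' : f ∈ F ∙ u
    · obtain ⟨c, rfl⟩ := Submodule.mem_span_singleton.1 e'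
      obtain ⟨z, a1, a2⟩ := hW.exists_hyperbolic u0 hu
      exact ⟨z, a1, by simp [a2], by simp [a2, left_ne_zero_of_smul f0]⟩
    refine cp_of_three hW ?_ u f u0 f0 hu hf
    have a1 := hW.two_mul_finrank_le (U := Submodule.span F {u, f}) (Submodule.span_le.2 (by
      rintro x (rfl | rfl) <;> exact mem_perp_pair.2 (by
        simp [hW.self_eq_zero hu, hW.self_eq_zero hf, e, hW.refl e])))
    have := finrank_span_eq_card (LinearIndependent.pair_iff' u0 |>.2 fun c e =>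
      e' (Submodule.mem_span_singleton.2 ⟨c, e⟩) : LinearIndependent F ![u, f])
    rw [Matrix.range_cons_cons_empty, Fintype.card_fin] at this
    omega
  obtain ⟨s, s0, hs⟩ := exists_skew_ne_zero hH.ne_id hH.invol
  simp only [map_zero] at hu hf
  exact ⟨u + (s / B₂ u f) • f, by simp [hu, hf, e, hH.eq, hs, mt hH.refl e],
    by simp [hu, e, s0], by simp [hf, mt hH.refl e]⟩

theorem pu_herm : ∀ r ∈ {r | ∃ u, u ≠ 0 ∧ B₂ u u = 0 ∧ r = nU B₂ u}, r ≠ 0 ∧ r * r = 0 := by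
  rintro _ ⟨u, u0, hu, rfl⟩
  obtain ⟨f, -, e⟩ := (hH.wittPair hB).exists_hyperbolic u0 (by simpa using hu)
  exact ⟨fun e' => by simpa [e, u0] using LinearMap.congr_fun e' f, nU_sq hu⟩

include h3 h4

theorem WZ.good_herm (h : WZ B₁ Q₁ B₂ (fun x => B₂ x x) B Q G)
    {𝒳 : Set (V₁ ⊗[F] W ≃ₗ[F] V₁ ⊗[F] W)}
    (hX : ∀ g ∈ 𝒳, ∀ b ∈ RGp B₂ fun x => B₂ x x, ∀ g' ∈ 𝒳, g * rG V₁ b * g⁻¹ * g' ∈ 𝒳)
    (hL : ∀ g ∈ Df 𝒳, ∀ w ≠ 0, ∀ u, u ≠ 0 ∧ B₂ u u = B₂ 0 0 → (∀ x, g (x ⊗ₜ w) ∈ range (tr u)) →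
      g ∈ TenG F V₁ W) (hI : ∀ g ∈ 𝒳, g ∈ Isom B Q) : ∀ g ∈ Df 𝒳, Good g := fun g hg => by
  have t := tt_herm hH hB (by omega)
  refine h.good t (.inl h3) hX hL hI (fun 𝒜 hA => Dl_mem_Cm
    (𝒩 := {a | ∃ u, u ≠ 0 ∧ B₂ u u = B₂ 0 0 ∧ a = nU B₂ u}) ?_ fun b e => ?_)
    (t.ex.imp fun u e => ⟨e.1, e.2, nU_mem_span h.w₂ e.1 e.2 h3⟩) hg
  · rintro A _ ⟨u, u0, hu, rfl⟩
    obtain h4 | ⟨c, c0, c1, hc⟩ := h4
    · exact h.Dl_nU_idx t h3 hX hL hA u0 hu (idx_herm hH hB h4 u u0 hu) A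
    exact h.Dl_nU_three t h3 hX hL hA c0 c1 (fun d hd => mem_skew.2 (by
      simp [hc, mem_skew.1 hd])) u0 hu A
  refine scalar_of_herm hH hB (by omega) fun x hx => ?_
  by_cases x0 : x = 0
  · simp [x0]
  exact trace_mul_nU b x ▸ e _ ⟨x, x0, by simpa using hx, rfl⟩

theorem WP.locI_herm [FiniteDimensional F W'] {τ : Type*} [Fintype τ] [DecidableEq τ]
    (h : WP B₁ Q₁ B₂ (fun x => B₂ x x) B Q G X) {ψ : τ → End F W' →ₐ[F] End F V₁}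
    {G' : Subgroup (W' ≃ₗ[F] W')} (f : FS X ψ G') {P : Set (End F W')} (hP : Pur ∅ G' P)
    (h0 : ∀ r ∈ P, r ≠ 0 ∧ r * r = 0) (hD : ∀ r ∈ P, Wd G' r)
    (hne : ∀ i, ¬ ∀ a, ψ i a ∈ ML (AL X h.w₂)) : LocI B₂ (fun x => B₂ x x) B Q X := by
  obtain ⟨l, hl⟩ := exists_ne_conj hH
  refine h.locI (.inl h3) fun u u0 hu => ⟨h.loc_of_z hl u0 hu fun s hs => by_contra fun e => ?_,
    st_herm hH hB h3 h4 u0 hu⟩
  obtain ⟨i, e⟩ := f.exists_notMem (not_exists.1 e)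
  exact hne i (h.ml_of_un f hP h0 hD (hT_herm hH hB) u0 hu hs e)

/-- `U_d ⊗ U_m` in `SU_{dm}`. -/
theorem su_maxIn_ten' (h₁ : IsHerm B₁) (n₁ : B₁.Nondegenerate) (hH' : IsHerm B) (hB' : B.Nondegenerate)
    (eq : ∀ x y s t, B (x ⊗ₜ s) (y ⊗ₜ t) = B₁ x y * B₂ s t)
    (d₁ : 3 ≤ finrank F V₁ ∨ finrank F V₁ = 2 ∧ ∃ c : F, c ≠ 0 ∧ c ≠ 1 ∧ σ c = c)
    (hlt : finrank F V₁ < finrank F W) : MaxIn (SUG B) (TenG F V₁ W) := by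
  have two : 2 ≤ finrank F V₁ := by omega
  have : Nontrivial V₁ := nontrivial_of_finrank_pos (R := F) (by omega)
  have t := tt_herm hH hB (by omega)
  have h : WZ B₁ (fun x => B₁ x x) B₂ (fun x => B₂ x x) B (fun x => B x x) (SUG B) :=
    ⟨h₁.wittPair n₁, hH.wittPair hB, polarG_su' hH' hB' (by rw [finrank_tensorProduct]; nlinarith),
      eq, fun a b => mem_UG.2, fun x u e => by simp [eq, show B₂ u u = 0 by simpa using e], this,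
      fun _ e => by simpa using e, fun _ => mem_UG.2, cp_of_three (hH.wittPair hB) h3⟩
  obtain ⟨g, a1, a2⟩ := h.exists_not_good two h3 t.ex
  refine maxIn_of_adm (fun e => a2 (.inl (e a1))) fun X hX x hx => ?_
  have w := h.wp hX
  refine (h.good_herm hH hB h3 h4 w.mul_X (w.loc_Df (w.locI_herm hH hB h3 h4
    (fs_id fun a ha => hX.lo ⟨h.lG_mem_G (fun x u e => by
      simp [eq, show B₁ x x = 0 by simpa using e]) ha, lG_mem a⟩)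
    (d₁.elim (pur_herm h₁ n₁) fun ⟨a, c, b, d, e⟩ => pur_herm_two h₁ n₁ a b d e) (pu_herm h₁ n₁)
    ?_ fun _ e => hX.ne (w.le_of_ML (comT_herm hH') two (.inr (exists_ne_conj hH)) t.ex h3 e)))
    (fun _ => w.isom) x ⟨1, one_mem X, x, hx, by simp⟩).resolve_right (not_opp_of_lt hlt x)
  rintro _ ⟨u, u0, hu, rfl⟩
  exact wd_nU h.w₁ (cp_herm h₁ n₁) u0 (by simpa using hu)

/-- Tensor powers of unitary groups. -/
theorem WS.maxIn_herm {τ : Type*} [Fintype τ] [DecidableEq τ] {ψ : τ → End F W →ₐ[F] End F V₁}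
    {π : τ → V₁ ⊗[F] W ≃ₗ[F] V₁ ⊗[F] W} (h : WS B₁ Q₁ B₂ (fun x => B₂ x x) B Q G ψ π)
    (com : ComT B Q) : MaxIn G (WrG (aF ψ)) := by
  obtain ⟨g, a1, a2⟩ := h.exists_not_good (h.two.trans h.finrank_le) h3 h.ex
  have hD : ∀ r ∈ {r | ∃ u, u ≠ 0 ∧ B₂ u u = 0 ∧ r = nU B₂ u}, Wd (RGp B₂ fun x => B₂ x x) r := by
    rintro _ ⟨u, u0, hu, rfl⟩
    exact wd_nU h.w₂ h.cp u0 (by simpa using hu)
  exact maxIn_of_adm (fun e => a2 (h.good_of_mem (e a1))) fun X hX => h.le_of_good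
    (h.good_herm hH hB h3 h4 (h.xs_mul hX) (h.xs_loc (fun X hX => (h.wp hX).locI_herm hH hB h3 h4
      (h.fs hX) (pur_herm hH hB h3) (pu_herm hH hB) hD fun _ e => hX.ne (h.le_of_ml hX com h3
        (h.fs hX) (pur_herm hH hB h3) (fun e => (pu_herm hH hB 0 e).1 rfl) hD e)) hX) (h.xs_isom hX))

end CF.MaxSub
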