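/-
Tensor powers: further local tools.
-/
import Cfsg.Agent.MaxSub.WU

set_option autoImplicit false

namespace CF.MaxSub

open Module Geom TensorProduct LinearMap

variable {F V₁ W W' : Type*} [Field F] [AddCommGroup V₁] [Module F V₁] [AddCommGroup W]
  [Module F W] [AddCommGroup W'] [Module F W'] {σ : F →+* F}
  {B₁ : V₁ →ₛₗ[σ] V₁ →ₗ[F] F} {Q₁ : V₁ → F} {B₂ : W →ₛₗ[σ] W →ₗ[F] F} {Q₂ : W → F}
  {B : V₁ ⊗[F] W →ₛₗ[σ] V₁ ⊗[F] W →ₗ[F] F} {Q : V₁ ⊗[F] W → F}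
  {G X : Subgroup (V₁ ⊗[F] W ≃ₗ[F] V₁ ⊗[F] W)} {τ : Type*} [Fintype τ] [DecidableEq τ]

namespace WP

variable (h : WP B₁ Q₁ B₂ Q₂ B Q G X)
include h

theorem rt_comp {u : W} {θ : W →ₗ[F] End F V₁} (hθ : RT X B₂ u θ) {b : W ≃ₗ[F] W}
    (hb : b ∈ RGp B₂ Q₂) (e : b u = u) : RT X B₂ u (θ ∘ₗ b.toLinearMap - θ) :=
  (hθ.map (b := b⁻¹) (h.rad _ (inv_mem hb)) one_ne_zero
    (b.injective (by rw [apply_inv_apply, one_smul, e]))
    (fun w hw => by rwa [← (RGp_le_isom hb).1, e, apply_inv_apply] at hw)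
    fun w _ => by simp [apply_inv_apply]).sub hθ

variable [FiniteDimensional F W] (pur : 5 ≤ finrank F W ∨
  ∀ s (c : F), ∃ t ∈ Rad B₂ Q₂ s ⊤, ∀ w, t w = w + (c * B₂ s w) • s)
include pur

theorem rt_pure {u s : W} (hs : Q₂ s = Q₂ 0) (e : B₂ u s = 0)
    (hn : s ∉ F ∙ u) {θ : W →ₗ[F] End F V₁} (hθ : RT X B₂ u θ) (c : F) :
    RT X B₂ u ((B₂ s).smulRight (c • θ s)) := by
  have hW := h.w₂
  have s0 : s ≠ 0 := by rintro rfl; exact hn (zero_mem _)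
  obtain h5 | h5 := pur
  · obtain ⟨r, a1, a2, a3⟩ := hW.exists_perp_notMem h5 u s
    obtain ⟨y, a4, a5⟩ := hW.exists_dual_vec a3
    obtain ⟨f, -, b1, -⟩ := hW.exists_partner (Z := ⊥) (by simpa using s0) hs (by simp)
    obtain ⟨ρ', b2, d, b3⟩ := hW.exists_Rad_add hs (A := ⊤) trivial (y := f) (by simp [b1]) a2 trivial
    have b4 : ρ' f - f - r ∈ F ∙ s := Submodule.mem_span_singleton.2 ⟨d, by rw [b3]; abel⟩
    obtain ⟨l, b5, b6⟩ := hW.Rad_perp_eq hs b2 b4 (hW.refl e)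
    rw [hW.refl a1, neg_zero, mul_eq_zero, or_iff_left (mt hW.refl (by simp [b1]))] at b6
    have a6 : B₂ y r ≠ 0 := mt hW.refl (by simp [a4])
    obtain ⟨ρ, c1, c2, c3⟩ := h.exists_rad s0 hs (φ := (c / B₂ y r) • B₂ y)
      (by simp [hW.refl (a5 s (Submodule.subset_span (by simp)))])
    refine (h.rt_comp (h.rt_comp hθ c1 (by
      simp [c3 u (hW.refl e), hW.refl (a5 u (Submodule.subset_span (by simp)))]))
      (mem_RGp hs b2) (by simp [b5, b6])).congr fun w _ => ?_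
    obtain ⟨l, b7⟩ := Rad_disp_eq b2 b1 b4 w
    simp [b7, c2, c3 r a2, a6]
    abel
  · obtain ⟨t, a1, a2⟩ := h5 s c
    exact (h.rt_comp hθ (mem_RGp hs a1) (by simp [a2, hW.refl e])).congr fun w _ => by
      simp [a2, smul_smul, mul_comm]

theorem mem_AL {u : W} (u0 : u ≠ 0) (hu : Q₂ u = Q₂ 0)
    (idx : ∃ s, Q₂ s = Q₂ 0 ∧ B₂ u s = 0 ∧ s ∉ F ∙ u) {θ : W →ₗ[F] End F V₁}
    (hθ : RT X B₂ u θ) {w : W} (hw : B₂ u w = 0) : θ w ∈ AL X h.w₂ := by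
  have hW := h.w₂
  have H : ∀ s, Q₂ s = Q₂ 0 → B₂ u s = 0 → s ∉ F ∙ u → θ s ∈ AL X hW :=
    fun s hs e hn u' a1 a2 w' a3 => by
    obtain ⟨b, a5, c, a6, a7⟩ := h.exists_move u0 a1 hu a2
    have a4 := (RGp_le_isom a5).1
    have a8 : ∀ w, B₂ u' (b w) = 0 → B₂ u w = 0 := fun w hw => by simp [← a4 u, a7, hw]
    obtain ⟨w', rfl⟩ := b.surjective w'
    obtain ⟨d, hd⟩ := hW.surj c⁻¹
    refine RT.map (θ := (B₂ (d • w')).smulRight (θ s)) ?_ (h.rad b a5) a6 a7 a8 fun w _ => by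
      simp [a4, hd, smul_smul, a6]
    refine hW.perp_ind hu hs e hn (P := fun w => RT X B₂ u ((B₂ w).smulRight (θ s)))
      (fun a b ha hb => (ha.add hb).congr fun _ _ => by simp [add_smul])
      (fun c => (h.rt_pure pur hs e hn hθ (σ c)).congr fun _ _ => by simp [smul_smul, mul_comm])
      (fun t b1 b2 b3 => ?_) (by simp [a8 _ a3])
    refine (h.rt_pure pur b1 b2 (fun e' => ?_) (h.rt_pure pur hs e hn hθ 1) (B₂ s t)⁻¹).congr
      fun _ _ => by simp [smul_smul, b3]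
    obtain ⟨c, rfl⟩ := Submodule.mem_span_singleton.1 e'
    simp [hW.refl e] at b3
  obtain ⟨s, hs, e, hn⟩ := idx
  exact hW.perp_ind hu hs e hn (P := fun w => θ w ∈ AL X hW)
    (fun a b ha hb => by simpa using add_mem ha hb)
    (fun c => by simpa using Submodule.smul_mem _ c (H s hs e hn))
    (fun t b1 b2 b3 => H t b1 b2 fun e' => by
      obtain ⟨c, rfl⟩ := Submodule.mem_span_singleton.1 e'
      simp [hW.refl e] at b3) hw

end WP

theorem WP.un_adj (h : WP B₁ Q₁ B₂ Q₂ B Q G X) {N : End F (V₁ ⊗[F] W)} (hN : Un X N)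
    (e : ∀ v w, B (N v) (N w) = 0) (v w : V₁ ⊗[F] W) : B (N v) w = -B v (N w) := by
  have := (h.isom hN.unip_mem).1 v w
  simp only [unip_apply, map_add, LinearMap.add_apply, e] at this
  linear_combination this

theorem PC.pu_adj {ψ : τ → End F W' →ₐ[F] End F V₁} (h : PC ψ) {r r' : τ → End F W'}
    (e : ∀ i x y, B₁ (ψ i (r i) x) y = B₁ x (ψ i (r' i) y)) (x y : V₁) :
    B₁ (h.pu r x) y = B₁ x (h.pu r' y) := by
  suffices H : ∀ I : Finset τ, ∀ r r' : τ → End F W', (∀ i x y, B₁ (ψ i (r i) x) y =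
      B₁ x (ψ i (r' i) y)) → (∀ i ∉ I, r i = 1 ∧ r' i = 1) → ∀ x y,
      B₁ (h.pu r x) y = B₁ x (h.pu r' y) from H Finset.univ r r' e (by simp) x y
  intro I
  induction I using Finset.induction_on with
  | empty =>
    intro r r' _ e x y
    simp [show r = 1 from funext fun i => (e i (by simp)).1,
      show r' = 1 from funext fun i => (e i (by simp)).2]
  | insert j I hj ih =>
    intro r r' a1 a2 x y
    rw [← Function.update_eq_self j r, ← Function.update_eq_self j r', h.update, h.update r',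
      ← mem_Cm.1 (h.pu_mem (r := Function.update r' j 1) (by simp)), End.mul_apply, End.mul_apply,
      ← a1]
    refine ih _ _ (fun i x y => ?_) (fun i hi => ?_) _ _ <;> by_cases e : i = j
    · simp [e]
    · simp [e, a1]
    · simp [e]
    · simpa [e] using a2 i (by simp [e, hi])

/-- The conjugates of `r` do not generate a Clifford algebra. -/
def NC (G : Subgroup (W ≃ₗ[F] W)) (r : End F W) : Prop :=
  ∃ a ∈ Orb G r, ∃ b ∈ Orb G r, ∀ μ ν : F, a * b + μ • (b * a) ≠ ν • 1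

theorem Wd.exists_mul [Nontrivial W] {G : Subgroup (W ≃ₗ[F] W)} {r : End F W} (h : Wd G r) :
    ∃ a ∈ Orb G r, ∃ b ∈ Orb G r, a * b ≠ 0 := by
  by_contra! H
  rw [Wd, show Orb G r * Orb G r = ⊥ from eq_bot_iff.2 (Submodule.mul_le.2 H)] at h
  simp at h

theorem PC.not_clifford [FiniteDimensional F W'] {R : Type*} [Ring R] [Algebra F R] [Nontrivial R]
    {ψ : τ → End F W' →ₐ[F] R} (h : PC ψ) {G' : Subgroup (W' ≃ₗ[F] W')} {S : Submodule F R}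
    (hG : ∀ i, ∀ g ∈ G', ∀ y ∈ S, ψ i g * y * ψ i (g⁻¹ : W' ≃ₗ[F] W') ∈ S) {r : τ → End F W'}
    (hr : h.pu r ∈ S) (h1 : ∀ i, ∃ a ∈ Orb G' (r i), ∃ b ∈ Orb G' (r i), a * b ≠ 0) {j : τ}
    (hj : NC G' (r j)) {ε : F} (hS : ∀ A ∈ S, ∀ C ∈ S, ∃ c : F, A * C + ε • (C * A) = c • 1) :
    False := by
  choose a ha b hb e using h1
  obtain ⟨a', a1, b', a2, a3⟩ := hj
  have H : ∀ {a : τ → End F W'} {a'}, (∀ i, a i ∈ Orb G' (r i)) → a' ∈ Orb G' (r j) →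
      h.pu (Function.update a j a') ∈ S := fun ha ha' => h.pu_orb hG hr _ fun i => by
    by_cases e : i = j
    · simpa [e]
    · simpa [e] using ha i
  obtain ⟨c, hc⟩ := hS _ (H ha a1) _ (H hb a2)
  rw [← map_mul, ← map_mul, ← Function.update_mul, ← Function.update_mul, h.update,
    h.update (b * a)] at hc
  obtain ⟨l, hl⟩ := Module.Projective.exists_dual_eq_one F (h.pu_ne_zero
    (r := Function.update (a * b) j 1) fun i => by
      by_cases e' : i = j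
      · subst e'
        simpa using fun e' : (1 : End F W') = 0 => e i (by rw [← mul_one (a i), e']; simp)
      · simpa [e'] using e i)
  have := congrArg (lam (ψ j) l) hc
  rw [map_add, map_smul, lam_mul (h.pu_mem (by simp)), lam_mul (h.pu_mem (by simp)), hl, one_smul,
    smul_smul, show c • (1 : R) = c • 1 * ψ j 1 by simp,
    lam_mul (Subalgebra.smul_mem _ (one_mem _) _)] at this
  exact a3 _ _ this

variable [FiniteDimensional F V₁] [FiniteDimensional F W]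

theorem WS.un_cyc' {ψ : τ → End F W →ₐ[F] End F V₁} {π : τ → V₁ ⊗[F] W ≃ₗ[F] V₁ ⊗[F] W}
    (h : WS B₁ Q₁ B₂ Q₂ B Q G ψ π) (hX : Adm G (WrG (aF ψ)) X) {i j l : τ} (e : i ≠ j)
    (e₁ : l ≠ i) (e₂ : l ≠ j) {a b c : End F W} (hab : Un X (map (ψ i a * ψ l c) b)) :
    Un X (map (ψ j b * ψ l c) a) := by
  have := hab.conj (hX.lo ⟨h.com _ (h.isom j) _ (h.isom i), (WrG _).mul_mem (mul_mem (mul_mem
    (h.aP_mem (some j)) (h.aP_mem (some i))) (inv_mem (h.aP_mem (some j))))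
      (inv_mem (h.aP_mem (some i)))⟩)
  rw [← adG_eq, ← lA_mul_rA, map_mul (lA W)] at this
  simp only [adG_mul, ← adG_adG, h.l', h.r', h.o' e, h.o' e₁, h.o' e₂, h.o j i e.symm, h.o l i e₁,
    h.o l j e₂, h.l, h.r] at this
  rwa [mul_assoc, ← map_mul, ← mem_Cm.1 (h.pc.mem e₂ c), mem_Cm.1 (lA_mem _), lA_mul_rA] at this

theorem WP.locI_two (h : WP B₁ Q₁ B₂ Q₂ B Q G X) (h2 : ∀ u w, u ≠ 0 → B₂ u w = 0 → w ∈ F ∙ u)
    {c : F} (c0 : c ≠ 0)
    (hT : ∀ u, Q₂ u = Q₂ 0 → ∃ t ∈ Rad B₂ Q₂ u ⊤, ∀ w, t w = w + (c * B₂ u w) • u)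
    (H : ∀ u, u ≠ 0 → Q₂ u = Q₂ 0 →
      (∀ s, Un X (map s (nU B₂ u)) → ∃ c : F, s = c • 1) ∧ StB B₂ Q₂ u) :
    LocI B₂ Q₂ B Q X := fun _ w u0 hu w0 g hg hX h1 => h.mem_ten u0 hu w0 hg h1 fun hw b hb e => by
  have hL : Loc X B₂ w := ⟨(H w w0 hw).1, fun θ hθ v hv => by
    obtain ⟨d, rfl⟩ := Submodule.mem_span_singleton.1 (h2 w v w0 hv)
    exact ⟨0, by simp [hθ.self w0 (h.w₂.self_eq_zero hw)]⟩⟩
  have a0 := mul_mem (h.rG_isom (RGp_le_isom hb)) hg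
  have hX' : ∀ c ∈ RGp B₂ Q₂, (rG V₁ b * g)⁻¹ * rG V₁ c * (rG V₁ b * g) ∈ X := fun c hc => by
    simpa [mul_assoc] using hX _ (mul_mem (mul_mem (inv_mem hb) hc) hb)
  generalize rG V₁ b * g = g at *
  obtain ⟨α, b, μ, μ0, a1, a2, a3, -⟩ := h.exists_levi w0 hw hL a0 hX' (.inr ⟨c, c0, hT w hw⟩) e
  have a5 := mul_mem (inv_mem a2) a0
  obtain ⟨s, hs⟩ := h.eq_of_fix w0 hw a5.1 fun x v hv => by
    obtain ⟨d, rfl⟩ := Submodule.mem_span_singleton.1 (h2 w v w0 hv)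
    rw [← smul_tmul, a3]
  obtain ⟨d, rfl⟩ := h.scalar_of_StB w0 hw hL h.rad (H w w0 hw).2 a5 (fun c hc => by
    convert hX' _ (conj_mem_RGp h.sing_iff h.isoW μ0 a1 hc) using 1
    rw [show rG V₁ (b * c * b⁻¹) = TensorProduct.congr α b * rG V₁ c * (TensorProduct.congr α b)⁻¹
      from tensor_ext fun x w => by
        change x ⊗ₜ b (c (b⁻¹ w)) = α (α⁻¹ x) ⊗ₜ b (c (b⁻¹ w))
        rw [apply_inv_apply]]
    group) hs
  simpa using mul_mem (congr_mem_TenG α b) (mem_ten_of_eq (h.w₂.self_eq_zero hw) hs)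

theorem WZ.not_good (h : WZ B₁ Q₁ B₂ Q₂ B Q G) (h2 : 2 ≤ finrank F W) {u : W} (u0 : u ≠ 0)
    (hu : Q₂ u = Q₂ 0) {k : V₁ ⊗[F] W ≃ₗ[F] V₁ ⊗[F] W} {s : End F V₁}
    (e : ∀ v, k v = v + map s (nU B₂ u) v) (hs : ∀ c : F, s ≠ c • 1) : ¬ Good k := by
  have := h.nt
  have hu' := h.w₂.self_eq_zero hu
  obtain ⟨f, -, hf⟩ := h.w₂.exists_hyperbolic u0 hu
  obtain ⟨φ, hφ⟩ := exists_dual_eq_one (F := F) u0
  rintro (e' | e')
  · obtain ⟨b, rfl⟩ := rG_of_ct e' (φ := φ) (r := u) fun x => by simp [e, hu', hφ]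
    exact hs (φ (b f) - φ f) (LinearMap.ext fun x => by
      simpa [hf, hφ, sub_smul, eq_sub_iff_add_eq'] using congrArg (ct φ) (e (x ⊗ₜ f)).symm)
  exact not_opp_of_stab h2 u0 (fun x => ⟨x, by simp [e, hu']⟩) e'

end CF.MaxSub
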