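/-
Tensor powers of symplectic spaces of dimension at least four.
-/
import Cfsg.Agent.MaxSub.WN

set_option autoImplicit false

namespace CF.MaxSub

open Module Geom TensorProduct LinearMap

variable {F V₁ W : Type*} [Field F] [AddCommGroup V₁] [Module F V₁] [AddCommGroup W]
  [Module F W] [FiniteDimensional F W]

section Witt

variable {σ : F →+* F} {B : W →ₛₗ[σ] W →ₗ[F] F} {Q : W → F} (hW : IsWittPair σ B Q)
include hW

theorem le_finrank_perp (l : List W) :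
    finrank F W ≤ l.length + finrank F (perp B (Submodule.span F {x | x ∈ l})) := by
  classical
  have := hW.finrank_perp (Submodule.span F {x | x ∈ l})
  have := (finrank_span_finset_le_card (R := F) l.toFinset).trans l.toFinset_card_le
  rw [Set.finrank, List.coe_toFinset] at this
  omega

theorem exists_perp_list (l : List W) (h : l.length < finrank F W) :
    ∃ u, u ≠ 0 ∧ ∀ x ∈ l, B x u = 0 := by
  have := le_finrank_perp hW l
  obtain ⟨u, a1, a2⟩ := Geom.exists_notMem_of_finrank_lt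
    (X := perp B (Submodule.span F {x | x ∈ l})) (Z := ⊥) (by rw [finrank_bot]; omega)
  exact ⟨u, a2, mem_perp_span.1 a1⟩

theorem exists_perp_two (l : List W) (h : l.length + 2 ≤ finrank F W) :
    ∃ u u', u ≠ 0 ∧ u' ∉ F ∙ u ∧ ∀ x ∈ l, B x u = 0 ∧ B x u' = 0 := by
  have := le_finrank_perp hW l
  obtain ⟨u, a1, a2⟩ := exists_perp_list hW l (by omega)
  obtain ⟨u', a3, a4⟩ := Geom.exists_notMem_of_finrank_lt
    (X := perp B (Submodule.span F {x | x ∈ l})) (Z := F ∙ u)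
    (by rw [finrank_span_singleton a1]; omega)
  exact ⟨u, u', a1, a4, fun x hx => ⟨a2 x hx, mem_perp_span.1 a3 x hx⟩⟩

theorem nc_nU (h3 : 3 ≤ finrank F W) {u : W} (u0 : u ≠ 0) (hu : Q u = Q 0) :
    NC (RGp B Q) (nU B u) := by
  obtain ⟨f, a1, a2⟩ := hW.exists_hyperbolic u0 hu
  obtain ⟨w, a3, a4⟩ := exists_perp_list hW [u, f] h3
  refine ⟨_, self_mem_Orb _, nU B f, nU_mem_of_inv hW (cp_of_three hW h3) (fun g hg a => adG_Orb hg)
    u0 hu (self_mem_Orb _) f (by rintro rfl; simp at a2) a1, fun μ ν e => ?_⟩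
  have b1 : ν = 0 := by simpa [a3, a4 u, a4 f] using (LinearMap.congr_fun e w).symm
  simpa [b1, hW.self_eq_zero hu, a2, u0, mt hW.refl (show B u f ≠ 0 by simp [a2])] using
    LinearMap.congr_fun e u

end Witt

theorem notMem_symm {u z : W} (u0 : u ≠ 0) (h : z ∉ F ∙ u) : u ∉ F ∙ z := fun e => by
  obtain ⟨c, rfl⟩ := Submodule.mem_span_singleton.1 e
  exact h ((Submodule.smul_mem_iff _ (left_ne_zero_of_smul u0)).1
    (Submodule.mem_span_singleton_self _))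

variable {B₂ : LinearMap.BilinForm F W} (hB : B₂.Nondegenerate) (hA : B₂.IsAlt)
include hB hA

theorem hT_alt (u : W) (u0 : u ≠ 0) (_ : (0 : F) = 0) :
    ∃ f, (0 : F) = 0 ∧ B₂ u f ≠ 0 ∧ (0 : F) = 0 := by
  obtain ⟨f, -, e⟩ := (isWittPair_alt B₂ hB hA).exists_hyperbolic u0 rfl
  exact ⟨f, rfl, by simp [e], rfl⟩

theorem cp_alt : CP B₂ fun _ => 0 := fun u f u0 f0 _ _ => by
  obtain ⟨a, -, a1, -⟩ := hT_alt hB hA u u0 rfl
  obtain ⟨b, -, a2, -⟩ := hT_alt hB hA f f0 rfl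
  by_cases e : B₂ f a = 0
  · by_cases e' : B₂ u b = 0
    · exact ⟨a + b, rfl, by simpa [e'], by simpa [e]⟩
    exact ⟨b, rfl, e', a2⟩
  exact ⟨a, rfl, a1, e⟩

omit hB [FiniteDimensional F W] in
theorem tt_alt [Nontrivial W] : TT B₂ (fun _ => 0) ⊤ :=
  ⟨⟨1, trivial, one_ne_zero⟩, by simpa using exists_ne (0 : W), fun c _ u _ => tv_alt hA u c,
    eigen_alt⟩

theorem psp_sq : ∀ r ∈ PSp B₂, r ≠ 0 ∧ r * r = 0 := fun r hr => ⟨by
  have hW := isWittPair_alt B₂ hB hA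
  obtain ⟨u, u0, rfl | ⟨z, -, e, rfl⟩⟩ := hr
  · obtain ⟨f, -, e⟩ := hW.exists_hyperbolic u0 rfl
    exact fun e' => by simpa [e, u0] using LinearMap.congr_fun e' f
  obtain ⟨f, a1, a2⟩ := hW.exists_dual_vec e
  exact fun e' => by
    simpa [a1, a2 u (Submodule.mem_span_singleton_self u), u0] using LinearMap.congr_fun e' f,
  PSp.sq hA hr⟩

theorem nc_wgB (h5 : 5 ≤ finrank F W) {u z : W} (u0 : u ≠ 0) (e : B₂ u z = 0) (e' : z ∉ F ∙ u) :
    NC (RGp B₂ fun _ => 0) (wgB B₂ u z) := by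
  have hW := isWittPair_alt B₂ hB hA
  have z0 : z ≠ 0 := by rintro rfl; exact e' (zero_mem _)
  obtain ⟨y, a1, a2⟩ := hW.exists_dual_vec (notMem_symm u0 e')
  replace a2 := a2 z (Submodule.mem_span_singleton_self z)
  obtain ⟨y', a3, a4⟩ := hW.exists_dual_vec (x := z) (Z := F ∙ y) fun h => by
    obtain ⟨c, rfl⟩ := Submodule.mem_span_singleton.1 h
    simp [a1] at e
    simp [e] at z0
  replace a4 := a4 y (Submodule.mem_span_singleton_self y)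
  obtain ⟨t, b1, b2⟩ := tv_alt hA y 1
  obtain ⟨t', b3, b4⟩ := tv_alt hA y' 1
  have c1 := sub_mem (adG_mem_Orb (mem_RGp (u := y) rfl b1) (wgB B₂ u z)) (self_mem_Orb _)
  have c2 := sub_mem (adG_Orb (mem_RGp (u := y') rfl b3) c1) c1
  obtain ⟨w, d1, d2⟩ := exists_perp_list hW [u, z, y, y'] h5
  refine ⟨_, self_mem_Orb _, wgB B₂ y y', ?_, fun μ ν h => ?_⟩
  · convert c2 using 1
    ext
    simp [adG_wgB b1.1.1, adG_wgB b3.1.1, b2, b4, ← hA.neg_eq u y, a1, hW.refl a2, hW.refl a4,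
      ← hA.neg_eq z y', a3]
    module
  have b1 : ν = 0 := by simpa [d1, d2 u, d2 z, d2 y, d2 y'] using (LinearMap.congr_fun h w).symm
  simpa [b1, e, hA.self_eq_zero, hW.refl a2, ← hA.neg_eq z y', a3, a1, a2, z0] using
    LinearMap.congr_fun h z

variable [FiniteDimensional F V₁] {B₁ : LinearMap.BilinForm F V₁} {Q₁ : V₁ → F}
  {B : LinearMap.BilinForm F (V₁ ⊗[F] W)} {Q : V₁ ⊗[F] W → F}
  {G X : Subgroup (V₁ ⊗[F] W ≃ₗ[F] V₁ ⊗[F] W)} {τ : Type*} [Fintype τ] [DecidableEq τ]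
  {ψ : τ → End F W →ₐ[F] End F V₁} {π : τ → V₁ ⊗[F] W ≃ₗ[F] V₁ ⊗[F] W}

theorem WS.scalar_alt (h : WS B₁ Q₁ B₂ (fun _ => 0) B Q G ψ π) (hX : Adm G (WrG (aF ψ)) X)
    (h3 : 3 ≤ finrank F W) (h5 : (2 : F) ≠ 0 ∨ 5 ≤ finrank F W) {u : W} (u0 : u ≠ 0)
    (hz : ∀ s, Un X (map s (nU B₂ u)) → ∃ c : F, s = c • 1) {A : End F V₁}
    (hA' : A ∈ AL X h.w₂) : ∃ c : F, A = c • 1 := by
  have w := h.wp hX
  have f := h.fs hX
  have := h.nt
  have := h.ntW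
  have hε : ∀ x y, RingHom.id F (B₂ y x) = -1 * B₂ x y := fun x y => by simp [hA.neg_eq]
  by_contra e
  obtain ⟨i, e⟩ := f.exists_notMem (not_exists.1 e)
  obtain ⟨c, c0, r, a1, a2, a3⟩ := f.exists_pure (pur_alt hB hA h3) (fun e => (psp_sq hB hA 0 e).1 rfl)
    (S := (AL X h.w₂).toAddSubgroup) (by simp) (f.conj_AL h.w₂) ⟨A, hA', e⟩
  replace a3 : f.pc.pu r ∈ AL X h.w₂ := (Submodule.smul_mem_iff _ c0).1 a3
  have a4 : f.pc.pu r ≠ 0 := f.pc.pu_ne_zero fun j =>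
    (a2 j).elim (fun e => (psp_sq hB hA _ e).1) fun e => e ▸ one_ne_zero
  have a5 : f.pc.pu r * f.pc.pu r = 0 := by
    rw [← map_mul, ← Function.update_eq_self i (r * r), f.pc.update, Pi.mul_apply,
      (psp_sq hB hA _ a1).2, map_zero, mul_zero]
  obtain ⟨p, a6⟩ := h.w₁.exists_adj (f.pc.pu r)
  obtain ⟨d, a7⟩ := hz _ (w.un_comm h3 hε u0 rfl a3 w.one_mem_AL a6 (C' := 1) fun _ _ => rfl)
  rw [mul_one, one_mul, neg_smul, one_smul, sub_neg_eq_add, ← eq_sub_iff_add_eq'] at a7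
  have a8 : p * p = 0 := LinearMap.ext fun y => h.w₁.nondeg' _ fun x => by
    rw [End.mul_apply, ← a6, ← a6, ← End.mul_apply, a5]; simp
  have a9 : d = 0 := by
    have : (d * d) • f.pc.pu r = 0 := by
      have := congrArg (· * f.pc.pu r) a8
      simpa [a7, sub_mul, mul_sub, mul_assoc, a5, smul_smul] using this
    simpa [a4] using this
  let S : Submodule F (End F V₁) :=
    { carrier := {A | A ∈ AL X h.w₂ ∧ ∀ x y, B₁ (A x) y = B₁ x ((-A) y)}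
      add_mem' := fun a b => ⟨add_mem a.1 b.1, fun x y => by simp [a.2, b.2, add_comm]⟩
      zero_mem' := ⟨zero_mem _, by simp⟩
      smul_mem' := fun c _ a => ⟨Submodule.smul_mem _ c a.1, fun x y => by simp [a.2]⟩ }
  obtain ⟨j, hj⟩ : ∃ j, NC (RGp B₂ fun _ => 0) (r j) := by
    by_contra! H
    have b1 : ∀ j, ∀ u, u ≠ 0 → r j ≠ nU B₂ u := fun j u u0 e => H j (e ▸ nc_nU h.w₂ h3 u0 rfl)
    obtain h2 | h5 := h5
    · refine a4 (LinearMap.ext fun y => h.w₁.nondeg' _ fun x => mul_left_cancel₀ h2 ?_)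
      have := f.pc.pu_adj (r := r) (r' := r) (fun j => h.adj j fun s t => ?_) x y
      · rw [a6, a7, a9] at this
        simp only [zero_smul, zero_sub, LinearMap.neg_apply, map_neg] at this
        linear_combination -this
      obtain ⟨u, u0, e | ⟨z, -, -, e⟩⟩ | e := a2 j
      · exact (b1 j u u0 e).elim
      · simp [e, ← hA.neg_eq s]; ring
      · simp [e]
    obtain ⟨u, u0, e | ⟨z, b2, b3, e⟩⟩ := a1
    · exact b1 i u u0 e
    · exact H i (e ▸ nc_wgB hB hA h5 u0 b2 b3)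
  refine f.pc.not_clifford (S := S) (fun i g hg y hy => ⟨f.conj_AL _ i g hg y hy.1, fun s t => ?_⟩)
    ⟨a3, fun x y => by simp [a6, a7, a9]⟩ (fun j => ?_) hj (ε := 1) fun A a C b => ?_
  · have := (RGp_le_isom hg).1
    rw [End.mul_apply, End.mul_apply, h.adj i (a' := (g⁻¹ : W ≃ₗ[F] W)) fun s t => by
      simp [← this s, apply_inv_apply, -LinearEquiv.coe_inv], hy.2,
      h.adj i (a' := g) fun s t => by simp [← this _ t, apply_inv_apply, -LinearEquiv.coe_inv]]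
    simp
  · obtain e | e := a2 j
    · exact (PSp.wd hB hA h.cp e).exists_mul
    · exact ⟨_, self_mem_Orb _, _, self_mem_Orb _, by simp [e]⟩
  obtain ⟨c, hc⟩ := hz _ (w.un_comm h3 hε u0 rfl a.1 b.1 a.2 b.2)
  exact ⟨-c, by rw [neg_smul, ← hc]; simp [add_comm]⟩

theorem WS.locI_alt (h : WS B₁ Q₁ B₂ (fun _ => 0) B Q G ψ π) (com : ComT B Q)
    (h3 : 3 ≤ finrank F W) (h5 : (2 : F) ≠ 0 ∨ 5 ≤ finrank F W) (hX : Adm G (WrG (aF ψ)) X) :
    LocI B₂ (fun _ => 0) B Q X := by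
  have w := h.wp hX
  have f := h.fs hX
  refine w.locI (.inl h3) fun u u0 _ => ?_
  have a1 := idx_alt h.w₂ h3 u u0 rfl
  have hz : ∀ s, Un X (map s (nU B₂ u)) → ∃ c : F, s = c • 1 := fun s hs => by_contra fun e => by
    obtain ⟨i, e⟩ := f.exists_notMem (not_exists.1 e)
    exact hX.ne (h.le_of_ml hX com h3 f (pur_alt hB hA h3) (fun e => (psp_sq hB hA 0 e).1 rfl)
      (fun _ => PSp.wd hB hA h.cp) (w.ml_of_un f (pur_alt hB hA h3) (psp_sq hB hA)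
        (fun _ => PSp.wd hB hA h.cp) (hT_alt hB hA) u0 rfl hs e))
  exact ⟨⟨hz, fun θ hθ v hv => h.scalar_alt hB hA hX h3 h5 u0 hz
    (w.mem_AL (.inr (tv_alt hA)) u0 rfl a1 hθ hv)⟩,
    stA_of_idx h.w₂ u0 rfl h3 a1 (.inr ⟨1, one_ne_zero, fun s _ => tv_alt hA s 1⟩), .inr a1⟩

variable [Finite F]

theorem WZ.good_alt (h : WZ B₁ Q₁ B₂ (fun _ => 0) B Q G) (h4 : 4 ≤ finrank F W)
    (h5 : (2 : F) ≠ 0 ∨ 5 ≤ finrank F W) {𝒳 : Set (V₁ ⊗[F] W ≃ₗ[F] V₁ ⊗[F] W)}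
    (hX : ∀ g ∈ 𝒳, ∀ b ∈ RGp B₂ fun _ => 0, ∀ g' ∈ 𝒳, g * rG V₁ b * g⁻¹ * g' ∈ 𝒳)
    (hL : ∀ g ∈ Df 𝒳, ∀ w ≠ 0, ∀ u, u ≠ 0 ∧ (0 : F) = 0 → (∀ x, g (x ⊗ₜ w) ∈ range (tr u)) →
      g ∈ TenG F V₁ W) (hI : ∀ g ∈ 𝒳, g ∈ Isom B Q) : ∀ g ∈ Df 𝒳, Good g := fun g hg => by
  have : Nontrivial W := nontrivial_of_finrank_pos (R := F) (by omega)
  have t := tt_alt hA
  have h3 : 3 ≤ finrank F W := by omega
  refine h.good t (.inl h3) hX hL hI (fun 𝒜 h𝒜 => Dl_mem_Cm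
    (𝒩 := {a | ∃ x z, B₂ z x = 0 ∧ a = (B₂ z).smulRight x}) ?_ fun b e => ?_)
    (t.ex.imp fun u e => ⟨e.1, e.2, nU_mem_span h.w₂ e.1 e.2 h3⟩) hg
  · rintro A _ ⟨x, z, e, rfl⟩
    have H : ∀ u, B₂ x u = 0 → B₂ z u = 0 →
        nU B₂ u * (B₂ z).smulRight x = (B₂ z).smulRight x * nU B₂ u := fun u a b => by
      ext; simp [b, h.w₂.refl a]
    obtain h2 | h5 := h5
    · obtain ⟨u, u', a1, a2, a3⟩ := exists_perp_two h.w₂ [x, z] h4
      simp only [List.mem_cons, List.not_mem_nil, or_false, forall_eq_or_imp, forall_eq] at a3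
      have D := fun u u0 a b => h.exists_Dl t (.inl h3) hX hL (exists_ne_zero_one h2).1
        (exists_ne_zero_one h2).2 (fun _ _ => trivial) h𝒜 u0 rfl A (H u a b)
      obtain ⟨C, b1⟩ := D u a1 a3.1.1 a3.2.1
      obtain ⟨C', b2⟩ := D u' (by rintro rfl; exact a2 (zero_mem _)) a3.1.2 a3.2.2
      exact LinearMap.ext fun v => eq_zero_of_range a2 ⟨_, by rw [b1, lA_mul_rA, map_nU]; rfl⟩
        ⟨_, by rw [b2, lA_mul_rA, map_nU]; rfl⟩
    refine TensorProduct.ext' fun y w => ?_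
    obtain ⟨u, u', a1, a2, a3⟩ := exists_perp_two h.w₂ [x, z, w] h5
    simp only [List.mem_cons, List.not_mem_nil, or_false, forall_eq_or_imp, forall_eq] at a3
    exact h.Dl_tmul t h3 hX hL h𝒜 A a1 rfl rfl a2 (H u a3.1.1 a3.2.1.1) (H u' a3.1.2 a3.2.1.2)
      (h.w₂.refl a3.2.2.1) (h.w₂.refl a3.2.2.2) y
  refine eigen_alt b fun x _ => ?_
  rw [← h.w₂.perp_perp (F ∙ x)]
  refine mem_perp.2 fun z hz => ?_
  simpa [mul_smulRight] using e _ ⟨x, z, h.w₂.refl (mem_perp_singleton.1 hz), rfl⟩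

/-- Tensor powers of symplectic groups. -/
theorem WS.maxIn_alt (h : WS B₁ Q₁ B₂ (fun _ => 0) B Q G ψ π) (com : ComT B Q)
    (h4 : 4 ≤ finrank F W) (h5 : (2 : F) ≠ 0 ∨ 5 ≤ finrank F W) : MaxIn G (WrG (aF ψ)) := by
  obtain ⟨g, a1, a2⟩ := h.exists_not_good (h.two.trans h.finrank_le) (by omega) h.ex
  exact maxIn_of_adm (fun e => a2 (h.good_of_mem (e a1))) fun X hX => h.le_of_good
    (h.good_alt hB hA h4 h5 (h.xs_mul hX)
      (h.xs_loc (fun _ => h.locI_alt hB hA com (by omega) h5) hX) (h.xs_isom hX))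

end CF.MaxSub
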