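/-
Tensor powers of symplectic planes.
-/
import Cfsg.Agent.MaxSub.WO

set_option autoImplicit false

namespace CF.MaxSub

open Module Geom TensorProduct LinearMap

variable {F V₁ W : Type*} [Field F] [AddCommGroup V₁] [Module F V₁] [AddCommGroup W]
  [Module F W] [FiniteDimensional F W] {τ : Type*} [Fintype τ] [DecidableEq τ]

theorem PC.span_pu {R : Type*} [Ring R] [Algebra F R] {ψ : τ → End F W →ₐ[F] R} (h : PC ψ)
    (hc : ∀ c, (∀ i, c ∈ Cm (ψ i)) → c ∈ F ∙ (1 : R)) {T : Submodule F R} (hT : ∀ a, h.pu a ∈ T)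
    (y : R) : y ∈ T := by
  have := h.mem_of_gen hc (M := ML (Submodule.span F (Set.range h.pu))) (fun i a A hA =>
    Submodule.span_le (p := (Submodule.span F (Set.range h.pu)).comap (mulLeft F (ψ i a))).2 (by
      rintro _ ⟨b, rfl⟩
      exact Submodule.subset_span ⟨Pi.mulSingle i a * b, by simp [h.single]⟩) hA) y 1
    (Submodule.subset_span ⟨1, map_one _⟩)
  exact Submodule.span_le.2 (Set.range_subset_iff.2 hT) (by simpa using this)

theorem sum_pow_top [Fintype (⊤ : AddSubgroup F)] {l : F} (l0 : l ≠ 0) {k : ℕ} (l1 : l ^ k ≠ 1) :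
    ∑ c : (⊤ : AddSubgroup F), (c : F) ^ k = 0 := by
  have := (Finite.injective_iff_bijective.1 (show Function.Injective
    fun c : (⊤ : AddSubgroup F) => (⟨l * c, trivial⟩ : (⊤ : AddSubgroup F)) from fun a b e =>
      Subtype.ext (mul_left_cancel₀ l0 (congrArg Subtype.val e)))).sum_comp fun c => (c : F) ^ k
  simp only [mul_pow, ← Finset.mul_sum] at this
  exact by_contra fun e => l1 (mul_left_injective₀ e (by simpa using this))

variable {B₂ : LinearMap.BilinForm F W} (hB : B₂.Nondegenerate) (hA : B₂.IsAlt)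
include hB hA

theorem alt_scale {u : W} (u0 : u ≠ 0) {γ : F} (γ0 : γ ≠ 0) :
    ∃ b ∈ RGp B₂ fun _ => 0, b u = γ • u := by
  have hW := isWittPair_alt B₂ hB hA
  obtain ⟨f, -, e⟩ := hW.exists_hyperbolic u0 rfl
  have e' : B₂ f u = -1 := by rw [← hA.neg_eq, e]
  obtain ⟨a, a1, a2⟩ := hW.exists_Rad (u := f) rfl (A := ⊤) trivial (y := u) (y' := u + f)
    (by simp [e']) (by simp [hA.self_eq_zero]) rfl trivial
  obtain ⟨b, b1, b2⟩ := hW.exists_Rad (u := (1 - γ) • u + f) rfl (A := ⊤) trivial (y := u + f)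
    (y' := γ • u) (by simp [e, e', hA.self_eq_zero, γ0, sub_add_eq_add_sub])
    (by simp [e, e', hA.self_eq_zero, sub_add_eq_add_sub]) rfl trivial
  exact ⟨b * a, mul_mem (mem_RGp (u := (1 - γ) • u + f) rfl b1) (mem_RGp (u := f) rfl a1),
    by simp [a2, b2]⟩

theorem alt_move {u x : W} (u0 : u ≠ 0) (x0 : x ≠ 0) : ∃ b ∈ RGp B₂ fun _ => 0, b u = x := by
  obtain ⟨a, a1, c, c0, a2⟩ := exists_mv (isWittPair_alt B₂ hB hA) (cp_alt hB hA) u0 x0 rfl rfl
  obtain ⟨b, b1, b2⟩ := alt_scale hB hA x0 (inv_ne_zero c0)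
  exact ⟨b * a, mul_mem b1 a1, by simp [a2, b2, smul_smul, c0]⟩

theorem nU_mem_orb {u : W} (u0 : u ≠ 0) (x : W) : nU B₂ x ∈ Orb (RGp B₂ fun _ => 0) (nU B₂ u) := by
  by_cases x0 : x = 0
  · simp [x0, show nU B₂ 0 = 0 from LinearMap.ext fun _ => by simp]
  exact nU_mem_of_inv (isWittPair_alt B₂ hB hA) (cp_alt hB hA) (fun g hg a => adG_Orb hg) u0 rfl
    (self_mem_Orb _) x x0 rfl

variable (hm : finrank F W = 2)
include hm

theorem mem_line_two (u w : W) (u0 : u ≠ 0) (e : B₂ u w = 0) : w ∈ F ∙ u := by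
  have hW := isWittPair_alt B₂ hB hA
  have := hW.finrank_perp (F ∙ u)
  rw [finrank_span_singleton u0] at this
  exact (Submodule.eq_of_le_of_finrank_eq ((Submodule.span_singleton_le_iff_mem _ _).2
    (mem_perp_singleton.2 (hA u))) (by rw [finrank_span_singleton u0]; omega)).ge
      (mem_perp_singleton.2 e)

theorem scalar_two (a : End F W) (h : ∀ u, (0 : F) = 0 → B₂ u (a u) = 0) : ∃ c : F, a = c • 1 :=
  eigen_alt a fun x _ => by
    by_cases x0 : x = 0
    · simp [x0]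
    exact mem_line_two hB hA hm x _ x0 (h x rfl)

theorem eq_pair {u f : W} (e : B₂ u f = 1) (v : W) : v = -B₂ f v • u + B₂ u v • f := by
  obtain ⟨c, hc⟩ := Submodule.mem_span_singleton.1 (mem_line_two hB hA hm u (v - B₂ u v • f)
    (by rintro rfl; simp at e) (by simp [e]))
  have := congrArg (B₂ f) hc
  simp only [map_smul, ← hA.neg_eq u f, e, map_sub, hA.self_eq_zero, smul_eq_mul] at this
  rw [show -B₂ f v = c by linear_combination this, hc, sub_add_cancel]

variable (h2 : (2 : F) ≠ 0)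
include h2

theorem span_two (a : End F W) : a ∈ Submodule.span F {a | a = 1 ∨ ∃ x, a = nU B₂ x} := by
  have : Nontrivial W := nontrivial_of_finrank_pos (R := F) (by omega)
  obtain ⟨u, u0⟩ := exists_ne (0 : W)
  obtain ⟨f, -, e⟩ := (isWittPair_alt B₂ hB hA).exists_hyperbolic u0 rfl
  have H : ∀ x, nU B₂ x ∈ Submodule.span F {a | a = 1 ∨ ∃ x, a = nU B₂ x} := fun x =>
    Submodule.subset_span (.inr ⟨x, rfl⟩)
  convert add_mem (add_mem (add_mem (Submodule.smul_mem _ ((B₂ u (a f) - B₂ f (a u)) / 2)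
    (Submodule.subset_span (.inl rfl))) (Submodule.smul_mem _ (-B₂ f (a f)) (H u)))
    (Submodule.smul_mem _ (-B₂ u (a u)) (H f))) (Submodule.smul_mem _
      ((B₂ u (a f) + B₂ f (a u)) / 2) (sub_mem (sub_mem (H (u + f)) (H u)) (H f))) using 1
  ext v
  rw [eq_pair hB hA hm e v, map_add, map_smul, map_smul, eq_pair hB hA hm e (a u),
    eq_pair hB hA hm e (a f)]
  simp [e, ← hA.neg_eq u f, hA.self_eq_zero]
  match_scalars <;> field_simp <;> ring

variable [FiniteDimensional F V₁] {B₁ : LinearMap.BilinForm F V₁} {Q₁ : V₁ → F}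
  {B : LinearMap.BilinForm F (V₁ ⊗[F] W)} {Q : V₁ ⊗[F] W → F}
  {G X : Subgroup (V₁ ⊗[F] W ≃ₗ[F] V₁ ⊗[F] W)}
  {ψ : τ → End F W →ₐ[F] End F V₁} {π : τ → V₁ ⊗[F] W ≃ₗ[F] V₁ ⊗[F] W}

omit hB hm [FiniteDimensional F W] [FiniteDimensional F V₁] in
variable (X) in
/-- The Jordan algebra of the centres of the radicals. -/
def ZS : Submodule F (End F V₁) where
  carrier := {s | ∀ u, Un X (map s (nU B₂ u))}
  add_mem' a b u := add_mem (show _ ∈ ZG X (nU_sq (hA u)) from a u) (b u)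
  zero_mem' u := zero_mem (ZG X (nU_sq (hA u)))
  smul_mem' c s h u := by
    have H : ∀ d : F, (d * d) • s ∈ ZG X (nU_sq (hA u)) := fun d => (h (d • u)).congr fun v => by
      rw [show nU B₂ (d • u) = (d * d) • nU B₂ u by ext; simp [smul_smul, mul_right_comm],
        TensorProduct.map_smul_right, TensorProduct.map_smul_left]
    have := sub_mem (H ((c + 1) / 2)) (H ((c - 1) / 2))
    rwa [← sub_smul, show (c + 1) / 2 * ((c + 1) / 2) - (c - 1) / 2 * ((c - 1) / 2) = c by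
      field_simp; ring] at this

omit hm [FiniteDimensional F V₁] in
theorem ZS_jordan {p s : End F V₁} (hp : p ∈ ZS hA h2 X) (e : p * p = 0) (hs : s ∈ ZS hA h2 X) :
    p * s + s * p ∈ ZS hA h2 X := by
  have H : ∀ p ∈ ZS hA h2 X, p * p = 0 → (1 - p) * s * (1 - p) ∈ ZS hA h2 X := fun p hp e u => by
    by_cases u0 : u = 0
    · simpa [u0, show nU B₂ 0 = 0 from LinearMap.ext fun _ => by simp] using Un.zero
    obtain ⟨f, -, a1⟩ := (isWittPair_alt B₂ hB hA).exists_hyperbolic u0 rfl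
    have a2 : Un X _ := sub_mem (sub_mem (show _ ∈ DP X p e from hp (u + f)) (hp u)) (hp f)
    refine (hs u).of_conj a2.unip_mem fun v => ?_
    induction v with
    | zero => simp
    | add a b ha hb => simp only [map_add, ha, hb]
    | tmul x w =>
      simp [unip_apply, a1, ← hA.neg_eq u f, hA.self_eq_zero, show ∀ x, p (p x) = 0 from
        LinearMap.congr_fun e, tmul_add, tmul_sub, sub_tmul, tmul_neg]
      module
  refine (Submodule.smul_mem_iff _ h2).1 ?_
  convert sub_mem (H (-p) (neg_mem hp) (by simpa)) (H p hp e) using 1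
  rw [two_smul]
  noncomm_ring

omit hm in
theorem WP.ZS_adj (h : WP B₁ Q₁ B₂ (fun _ => 0) B Q G X) [Nontrivial W] {s : End F V₁}
    (hs : s ∈ ZS hA h2 X) (x y : V₁) : B₁ (s x) y = B₁ x (s y) := by
  obtain ⟨u, u0⟩ := exists_ne (0 : W)
  obtain ⟨f, -, e⟩ := h.w₂.exists_hyperbolic u0 rfl
  simpa [h.eq, e, ← hA.neg_eq u f] using h.un_adj (hs u)
    (fun v w => by simp [map_nU, h.eq, hA.self_eq_zero]) (x ⊗ₜ f) (y ⊗ₜ f)

omit hB hm h2 [FiniteDimensional F W] [FiniteDimensional F V₁] in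
theorem WS.adj_nU (h : WS B₁ Q₁ B₂ (fun _ => 0) B Q G ψ π) (j : τ) (u : W) (x y : V₁) :
    B₁ (ψ j (nU B₂ u) x) y = -B₁ x (ψ j (nU B₂ u) y) := by
  simpa using h.adj j (a := nU B₂ u) (a' := -nU B₂ u)
    (fun s t => by simp [← hA.neg_eq u s, mul_comm]) x y

theorem WS.pair_two (h : WS B₁ Q₁ B₂ (fun _ => 0) B Q G ψ π) (hX : Adm G (WrG (aF ψ)) X)
    {s : End F V₁} (hs : s ∈ ZS hA h2 X) (e : ∀ c : F, s ≠ c • 1) :
    ∃ i j, i ≠ j ∧ ∀ x y, ψ i (nU B₂ x) * ψ j (nU B₂ y) ∈ ZS hA h2 X := by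
  classical
  have f := h.fs hX
  have := h.ntW
  have hG : ∀ i, ∀ g ∈ RGp B₂ fun _ => 0, ∀ y ∈ ZS hA h2 X,
      ψ i g * y * ψ i (g⁻¹ : W ≃ₗ[F] W) ∈ ZS hA h2 X := fun i g hg y hy u =>
    adG_aut (ψ i) g y ▸ (hy u).lG (f.mem i g hg)
  have h0 : ∀ u, u ≠ 0 → nU B₂ u ≠ 0 := fun u u0 => (psp_sq hB hA _ ⟨u, u0, .inl rfl⟩).1
  obtain ⟨i, e⟩ := f.exists_notMem e
  obtain ⟨c, c0, r, a1, a2, a3⟩ := f.exists_pure (pur_odd h.w₂ h2 one_ne_zero
    (fun u _ => tv_alt hA u 1) (scalar_two hB hA hm)) (fun ⟨u, u0, _, e⟩ => h0 u u0 e.symm)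
    (S := (ZS hA h2 X).toAddSubgroup) (by simp) hG ⟨s, hs, e⟩
  replace a3 : h.pc.pu r ∈ ZS hA h2 X := (Submodule.smul_mem_iff _ c0).1 a3
  obtain ⟨j, b1, b2⟩ : ∃ j, j ≠ i ∧ r j ≠ 1 := by
    by_contra! H
    obtain ⟨u, u0, -, e⟩ := a1
    rw [show r = Pi.mulSingle i (nU B₂ u) from funext fun j => by
      by_cases e' : j = i
      · simp [e', e]
      · simp [e', H j e'], h.pc.single] at a3
    refine h0 u u0 (h.aF_injective (some i) (congrArg (lA W) ((map_zero (ψ i)).symm ▸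
      LinearMap.ext fun y => h.w₁.nondeg' _ fun x => mul_left_cancel₀ h2 ?_)))
    change 2 * B₁ x (ψ i (nU B₂ u) y) = 2 * 0
    linear_combination h.adj_nU hA i u x y - (h.wp hX).ZS_adj hB hA h2 a3 x y
  have b3 : r i ≠ 1 := by
    obtain ⟨u, u0, -, e⟩ := a1
    exact fun e' => h0 u u0 (by rw [← nU_sq (hA u), ← e, e', mul_one])
  obtain ⟨u, u0⟩ := exists_ne (0 : W)
  obtain ⟨g, -, hg⟩ := h.w₂.exists_hyperbolic u0 rfl
  let k := nU B₂ (u + g) - nU B₂ u - nU B₂ g
  have k1 : k * k = 1 := LinearMap.ext fun v => by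
    conv_rhs => rw [End.one_apply, eq_pair hB hA hm hg v]
    simp [k, hg, ← hA.neg_eq u g, hA.self_eq_zero]
    module
  have k2 : k * nU B₂ u = -nU B₂ u := by ext; simp [k, hg, ← hA.neg_eq u g, hA.self_eq_zero]
  have k3 : nU B₂ u * k = nU B₂ u := by ext; simp [k, hg, hA.self_eq_zero]
  let a : τ → End F W := fun l => if r l = 1 then 1 else k
  have c1 : ∀ l, r l ≠ 1 → h.pc.pu (Function.update a l (nU B₂ u)) ∈ ZS hA h2 X := fun l hl =>
    h.pc.pu_orb hG a3 _ fun m => by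
      by_cases e : r m = 1
      · simpa [a, e, show m ≠ l by rintro rfl; exact hl e] using self_mem_Orb (1 : End F W)
      obtain ⟨v, v0, -, e'⟩ := (a2 m).resolve_right e
      have := nU_mem_orb hB hA v0
      rw [Function.update_apply, ← e'] at *
      split_ifs
      · exact this u
      · simpa only [a, if_neg e] using sub_mem (sub_mem (this _) (this _)) (this _)
  have c2 : ∀ i j, i ≠ j → r i ≠ 1 → r j ≠ 1 → h.pc.pu (Function.update a i (nU B₂ u)) *
      h.pc.pu (Function.update a j (nU B₂ u)) = -(ψ i (nU B₂ u) * ψ j (nU B₂ u)) :=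
    fun i j e b1 b2 => by
    rw [← map_mul, ← mul_neg, ← map_neg, ← h.pc.single, ← h.pc.single, ← map_mul]
    congr 1
    funext m
    by_cases e1 : m = i
    · simp [e1, e, a, b1, k3]
    by_cases e2 : m = j
    · simp [e2, e.symm, a, b2, k2]
    by_cases e3 : r m = 1 <;> simp [e1, e2, a, e3, k1]
  have c3 := ZS_jordan hB hA h2 (c1 i b3) (by
    rw [← map_mul, ← Function.update_mul, h.pc.update, nU_sq (hA u), map_zero, mul_zero]) (c1 j b2)
  rw [c2 i j b1.symm b3 b2, c2 j i b1 b2 b3, mem_Cm.1 (h.pc.mem b1.symm _), ← two_smul F,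
    Submodule.smul_mem_iff _ h2, neg_mem_iff, ← h.pc.single, ← h.pc.single, ← map_mul] at c3
  refine ⟨i, j, b1.symm, fun x y => ?_⟩
  rw [← h.pc.single, ← h.pc.single, ← map_mul]
  refine h.pc.pu_orb hG c3 _ fun m => ?_
  by_cases e1 : m = i
  · simpa [e1, b1.symm] using nU_mem_orb hB hA u0 x
  by_cases e2 : m = j
  · simpa [e2, b1] using nU_mem_orb hB hA u0 y
  simpa [e1, e2] using self_mem_Orb (1 : End F W)

theorem WS.le_of_two (h : WS B₁ Q₁ B₂ (fun _ => 0) B Q G ψ π) (hX : Adm G (WrG (aF ψ)) X)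
    (com : ComT B Q) (h3 : 3 ≤ finrank F V₁) {s : End F V₁} (hs : s ∈ ZS hA h2 X)
    (e : ∀ c : F, s ≠ c • 1) : G ≤ X := by
  have w := h.wp hX
  have := h.ntW
  obtain ⟨i, j, a1, a2⟩ := h.pair_two hB hA hm h2 hX hs e
  let P := fun i j => ∀ x y, ψ i (nU B₂ x) * ψ j (nU B₂ y) ∈ ZS hA h2 X
  have b1 : ∀ i j, i ≠ j → P i j → P j i := fun i j e a x y => mem_Cm.1 (h.pc.mem e _) _ ▸ a y x
  have b2 : ∀ i j k, i ≠ j → k ≠ j → P i j → P k j := fun i j k e e' a x y z => by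
    by_cases e'' : i = k
    · exact e'' ▸ a x y z
    exact h.un_cyc' hX e'' e.symm e'.symm (a z y x)
  have b3 : ∀ k l, k ≠ l → P k l := fun k l e => by
    by_cases e' : k = j
    · exact b1 _ _ e.symm (e' ▸ b2 i j l a1 (e' ▸ e.symm) a2)
    exact b1 _ _ e.symm (b2 j k l (Ne.symm e') e.symm (b1 _ _ e' (b2 i j k a1 e' a2)))
  have H : ∀ I : Finset τ, ∀ a : τ → End F W, (∀ l, a l = 1 ∨ ∃ x, a l = nU B₂ x) →
      (∀ l ∉ I, a l = 1) → h.pc.pu a ∈ ZS hA h2 X ∨ (∀ x y, B₁ (h.pc.pu a x) y =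
        -B₁ x (h.pc.pu a y)) ∧ ∀ l, a l = 1 → ∀ x, h.pc.pu a * ψ l (nU B₂ x) ∈ ZS hA h2 X := by
    intro I
    induction I using Finset.induction_on with
    | empty =>
      refine fun a _ e => .inl fun u => ?_
      obtain ⟨t, c1, c2⟩ := tv_alt hA u 1
      rw [show a = 1 from funext fun l => e l (by simp), map_one]
      exact un_of_eq (hA u) (w.rad t (mem_RGp (u := u) rfl c1)) fun v => by
        induction v with
        | zero => simp
        | add a b ha hb => simp only [map_add, ha, hb]; abel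
        | tmul x s => simp [c2, tmul_add]
    | insert j I hj ih =>
      intro a c1 c2
      by_cases c3 : a j = 1
      · exact ih a c1 fun l hl => by
          by_cases e : l = j
          · exact e ▸ c3
          · exact c2 l (by simp [e, hl])
      obtain ⟨z, c4⟩ := (c1 j).resolve_left c3
      have c5 := h.pc.update a j (a j)
      have c6 := mem_Cm.1 (h.pc.pu_mem (r := Function.update a j 1) (i := j) (by simp))
      rw [Function.update_eq_self, c4] at c5
      obtain c7 | c7 := ih (Function.update a j 1) (fun l => by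
        by_cases e : l = j
        · simp [e]
        · simpa [e] using c1 l) fun l hl => by
          by_cases e : l = j
          · simp [e]
          · simpa [e] using c2 l (by simp [e, hl])
      swap
      · exact .inl (c5 ▸ c7.2 j (by simp) z)
      refine .inr ⟨fun x y => ?_, fun l hl x => ?_⟩
      · rw [c5, End.mul_apply, w.ZS_adj hB hA h2 c7, h.adj_nU hA, ← c6, End.mul_apply]
      have d1 : j ≠ l := by rintro rfl; exact c3 hl
      have d2 := mem_Cm.1 (h.pc.pu_mem (r := Function.update a j 1) (i := l) (by simp [d1.symm, hl]))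
      have := ZS_jordan hB hA h2 (b3 j l d1 z x) (by
        rw [mul_assoc, ← mul_assoc (ψ l _), mem_Cm.1 (h.pc.mem d1 _), ← mul_assoc, ← mul_assoc,
          ← map_mul, nU_sq (hA z)]; simp) c7
      rwa [mul_assoc, d2, ← mul_assoc, c6, ← mul_assoc, ← c5, ← two_smul F,
        Submodule.smul_mem_iff _ h2] at this
  let T : Submodule F (End F V₁) :=
    { carrier := {y | ∃ y', (∀ x z, B₁ (y x) z = B₁ x (y' z)) ∧ y + y' ∈ ZS hA h2 X}
      add_mem' := fun ⟨a, a1, a2⟩ ⟨b, b1, b2⟩ => ⟨a + b, fun x z => by simp [a1, b1],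
        by rw [add_add_add_comm]; exact add_mem a2 b2⟩
      zero_mem' := ⟨0, by simp, by simp⟩
      smul_mem' := fun c _ ⟨a, a1, a2⟩ => ⟨c • a, fun x z => by simp [a1],
        by rw [← smul_add]; exact Submodule.smul_mem _ c a2⟩ }
  refine w.le_of_full com (by omega) (.inl h3) h.ex (ε := -1) (fun x y => by simp [hA.neg_eq])
    (fun u _ _ A A' e => ?_) (eq_top_iff.2 fun A _ u u0 _ v hv => RT.zero.congr fun z hz => ?_)
  · obtain ⟨A'', c1, c2⟩ := h.pc.span_pu h.cen (T := T) (fun a => h.pc.pu_span (fun a ha => by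
      obtain e | e := H Finset.univ a ha (by simp)
      · exact ⟨_, w.ZS_adj hB hA h2 e, add_mem e e⟩
      · exact ⟨-h.pc.pu a, by simpa using e.1, by simp⟩) fun i => span_two hB hA hm h2 (a i)) A
    simpa [show A' = A'' from LinearMap.ext fun y => h.ext₁ fun x => by rw [← e, c1]] using c2 u
  obtain ⟨c, rfl⟩ := Submodule.mem_span_singleton.1 (mem_line_two hB hA hm u v u0 hv)
  simp [hz]

/-- Tensor powers of `Sp₂`. -/
theorem WS.maxIn_two [Finite F] [Nontrivial τ] (h : WS B₁ Q₁ B₂ (fun _ => 0) B Q G ψ π)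
    (com : ComT B Q) (h3 : 3 ≤ finrank F V₁) {γ : F} (γ0 : γ ≠ 0) (γ1 : γ ^ 2 ≠ 1)
    (iso : ∀ g : V₁ ⊗[F] W ≃ₗ[F] V₁ ⊗[F] W, (∀ v w, B (g v) (g w) = B v w) → g ∈ Isom B Q) :
    MaxIn G (WrG (aF ψ)) := by
  have := h.ntW
  have := h.nt
  obtain ⟨u, u0⟩ := exists_ne (0 : W)
  obtain ⟨b, b1, b2⟩ := alt_scale hB hA u0 γ0
  refine maxIn_of_adm (fun e => ?_) fun X hX => h.le_of_good fun g => ?_
  · obtain ⟨i, j, a1⟩ := exists_pair_ne τ
    have a2 := (psp_sq hB hA _ ⟨u, u0, .inl rfl⟩).1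
    refine h.not_good h.two u0 rfl (s := ψ i (nU B₂ u) * ψ j (nU B₂ u))
      (k := unip (map _ (nU B₂ u)) (LinearMap.ext fun v => by simp [map_nU, hA.self_eq_zero]))
      (fun _ => rfl) (fun c e => ?_) (h.good_of_mem (e (h.mem_G (u := u) rfl (iso _ fun v w => ?_)
        (fun x => by simp [unip_apply, hA.self_eq_zero]) fun x w hw => by simp [unip_apply, hw])))
    · have a3 : c • ψ i (nU B₂ u) = 0 := by
        simpa [← mul_assoc, ← map_mul, nU_sq (hA u)] using congrArg (ψ i (nU B₂ u) * ·) e.symm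
      have a4 : ψ i (nU B₂ u) ≠ 0 := fun e => a2 (h.aF_injective (some i) (by simp [aF, e]))
      exact a4 (eq_zero_of_mul (h.pc.mem a1 _) a2 (by simpa [(smul_eq_zero.1 a3).resolve_right a4]
        using e))
    have a3 := h.form_ext (a := map (ψ i (nU B₂ u) * ψ j (nU B₂ u)) (nU B₂ u))
      (b := -map (ψ i (nU B₂ u) * ψ j (nU B₂ u)) (nU B₂ u)) fun x y s t => by
        rw [← mem_Cm.1 (h.pc.mem a1 _)]
        conv_lhs => rw [mem_Cm.1 (h.pc.mem a1 _)]
        simp [h.eq, h.adj_nU hA, ← hA.neg_eq u s]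
        ring
    rw [unip_apply, unip_apply, map_add, map_add, LinearMap.add_apply, LinearMap.add_apply, a3 v w]
    simp [map_nU, h.eq, hA.self_eq_zero]
  have t := tt_alt hA
  have hL := h.xs_loc (fun X hX => (h.wp hX).locI_two (mem_line_two hB hA hm) one_ne_zero
    (fun u _ => tv_alt hA u 1) fun u u0 _ => ⟨fun s hs => by_contra fun e => hX.ne
      (h.le_of_two hB hA hm h2 hX com h3 (fun x => by
        by_cases x0 : x = 0
        · simpa [x0, show nU B₂ 0 = 0 from LinearMap.ext fun _ => by simp] using Un.zero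
        obtain ⟨b, b1, rfl⟩ := alt_move hB hA u0 x0
        exact (h.wp hX).un_nU hs b1) (not_exists.1 e)), .inl (by
          obtain ⟨b, b1, b2⟩ := alt_scale hB hA u0 γ0
          exact ⟨b, b1, γ, b2, by rwa [RingHom.id_apply, ← sq]⟩)⟩) hX
  refine h.good t (.inr h2) (h.xs_mul hX) hL (h.xs_isom hX) (fun 𝒜 h𝒜 => Dl_mem_Cm
    (𝒩 := {a | ∃ u, u ≠ 0 ∧ a = nU B₂ u}) ?_ fun b e => scalar_two hB hA hm b fun x _ => ?_)
    ⟨u, u0, rfl, (Submodule.smul_mem_iff _ (sub_ne_zero.2 γ1)).1 (Submodule.subset_span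
      ⟨b, b1, nU B₂ u, ?_⟩)⟩
  · rintro A _ ⟨u, u0, rfl⟩
    have := Fintype.ofFinite (⊤ : AddSubgroup F)
    refine h.Dl_mem t (.inr h2) (h.xs_mul hX) hL h𝒜 u0 rfl A rfl (L := ⊥) fun z => ?_
    have := sum_pow_top γ0 (k := 1) fun e => γ1 (by rw [← pow_one γ, e, one_pow])
    simp only [pow_one] at this
    simp [this, sum_pow_top γ0 γ1]
  · by_cases x0 : x = 0
    · simp [x0]
    exact trace_mul_nU b x ▸ e _ ⟨x, x0, rfl⟩
  ext
  simp [nU, adG_form (RGp_le_isom b1).1, b2]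
  module

end CF.MaxSub
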