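/-
Pure elements in subspaces of the endomorphism algebra invariant under an orthogonal group.
-/
import Cfsg.Agent.MaxSub.WQ

set_option autoImplicit false

namespace CF.MaxSub

open Module Geom QuadraticMap

variable {F W : Type*} [Field F] [AddCommGroup W] [Module F W]

/-- The group generated by the stabilisers of singular vectors. -/
def SGp {σ : F →+* F} (B : W →ₛₗ[σ] W →ₗ[F] F) (Q : W → F) : Subgroup (W ≃ₗ[F] W) :=
  Subgroup.closure {g | g ∈ Isom B Q ∧ ∃ u, u ≠ 0 ∧ Q u = Q 0 ∧ g u = u}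

theorem RGp_le_SGp {σ : F →+* F} {B : W →ₛₗ[σ] W →ₗ[F] F} {Q : W → F} : RGp B Q ≤ SGp B Q :=
  RGp_le fun u hu g hg => by
    by_cases u0 : u = 0
    · rw [show g = 1 from LinearEquiv.ext fun x => by
        simpa [u0, sub_eq_zero] using hg.2.2.1 x (by simp [u0])]
      exact one_mem _
    exact Subgroup.subset_closure ⟨hg.1, u, u0, hu, hg.2.1⟩

theorem SGp_le_isom {σ : F →+* F} {B : W →ₛₗ[σ] W →ₗ[F] F} {Q : W → F} : SGp B Q ≤ Isom B Q :=
  (Subgroup.closure_le _).2 fun _ h => h.1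

theorem OpR_mem {K : Set F} {G : Subgroup (W ≃ₗ[F] W)} {S : AddSubgroup (End F W)}
    (hK : ∀ c ∈ K, ∀ y ∈ S, c • y ∈ S) (hG : ∀ g ∈ G, ∀ y ∈ S, adG g y ∈ S) {D : End F (End F W)}
    (hD : D ∈ OpR F W K G) {y : End F W} (hy : y ∈ S) : D y ∈ S := by
  induction hD using Subring.closure_induction generalizing y with
  | mem D hD =>
    obtain ⟨g, hg, rfl⟩ | ⟨c, hc, rfl⟩ := hD
    exacts [hG g hg y hy, hK c hc y hy]
  | zero => exact zero_mem _
  | one => exact hy
  | add D D' _ _ h h' => exact add_mem (h hy) (h' hy)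
  | neg D _ h => exact neg_mem (h hy)
  | mul D D' _ _ h h' => exact h (h' hy)

variable {Q : QuadraticForm F W} {K : Set F} {u w : W}

theorem eich_mem (hu : Q u = 0) (hw : polar Q u w = 0) :
    (eichler hu hw).1 ∈ RGp (polarBilin Q) Q :=
  mem_RGp (by simpa) (eichler_mem_Rad hu hw (A := ⊤) trivial trivial)

theorem coe_eich (hu : Q u = 0) (hw : polar Q u w = 0) :
    ((eichler hu hw).1 : End F W) = 1 + wedge Q u w - Q w • nU (polarBilin Q) u := by
  ext v; simp [eichler_apply, smul_smul]; abel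

theorem adG_eich (hu : Q u = 0) (hw : polar Q u w = 0) (a : End F W) :
    adG (eichler hu hw).1 a = (1 + wedge Q u w - Q w • nU (polarBilin Q) u) * a *
      (1 - wedge Q u w - Q w • nU (polarBilin Q) u) := by
  rw [adG_eq, ← Subgroup.coe_inv, ← eichler_neg, coe_eich, coe_eich, map_neg, Q.map_neg,
    ← sub_eq_add_neg]

theorem adG_wedge {g : W ≃ₗ[F] W} (hg : g ∈ Isom (polarBilin Q) Q) (u w : W) :
    adG g (wedge Q u w) = wedge Q (g u) (g w) := adG_wgB hg.1 u w

theorem adG_nU {σ : F →+* F} {B : W →ₛₗ[σ] W →ₗ[F] F} {Q : W → F} {g : W ≃ₗ[F] W}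
    (hg : g ∈ Isom B Q) (u : W) : adG g (nU B u) = nU B (g u) := adG_form hg.1 u u

variable (Q u w) in
/-- The even part of conjugation by an Eichler transformation. -/
def evO (a : End F W) : End F W := wedge Q u w * a * wedge Q u w +
  Q w • (nU (polarBilin Q) u * a + a * nU (polarBilin Q) u) -
    Q w ^ 2 • (nU (polarBilin Q) u * a * nU (polarBilin Q) u)

theorem exists_evO (hu : Q u = 0) (hw : polar Q u w = 0) :
    ∃ D ∈ OpR F W K (RGp (polarBilin Q) Q), ∀ a, D a = (-2 : F) • evO Q u w a :=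
  ⟨_, add_mem (dG_mem_OpR (eich_mem hu hw)) (dG_mem_OpR (eich_mem (w := -w) hu (by simp [hw]))),
    fun a => by
      simp only [LinearMap.add_apply, LinearMap.sub_apply, End.one_apply, adG_eich, evO, map_neg,
        Q.map_neg, mul_add, add_mul, mul_sub, sub_mul, smul_mul_assoc, mul_smul_comm, one_mul,
        mul_one, neg_mul, mul_neg]
      module⟩

theorem ns_ind (h2 : (2 : F) ≠ 0) {S : Submodule F W} (hw : w ∈ S) (q : Q w ≠ 0) {P : W → Prop}
    (hP : ∀ a b, P a → P b → P (a - b)) (h : ∀ w ∈ S, Q w ≠ 0 → P w) {v : W} (hv : v ∈ S) :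
    P v := by
  by_cases qv : Q v = 0
  swap
  · exact h v hv qv
  by_cases q1 : Q (v + w) = 0
  · simpa using hP _ _ (h (v - w) (sub_mem hv hw) fun q2 => by
      rw [quad_add] at q1
      rw [quad_sub] at q2
      exact mul_ne_zero h2 q (by linear_combination q1 + q2 - 2 * qv))
      (h (-w) (neg_mem hw) (by simpa))
  simpa using hP _ _ (h _ (add_mem hv hw) q1) (h w hw q)

theorem hyp_dec {f : W} (hu : Q u = 0) (hf : Q f = 0) (e : polar Q u f = 1) (x : W) :
    ∃ w, polar Q u w = 0 ∧ polar Q f w = 0 ∧ ∃ α β : F, x = w + α • u + β • f :=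
  ⟨x - polar Q f x • u - polar Q u x • f, by simp [polar_self', hu, e],
    by simp [polar_self', hf, polar_comm Q f u, e], polar Q f x, polar Q u x, by abel⟩

variable [FiniteDimensional F W] (hQ : (polarBilin Q).Nondegenerate) (h2 : (2 : F) ≠ 0)
include hQ

theorem exists_hyp (u0 : u ≠ 0) (hu : Q u = 0) : ∃ f, Q f = 0 ∧ polar Q u f = 1 := by
  simpa using (isWittPair_quad Q hQ).exists_hyperbolic u0 (by simpa using hu)

include h2

theorem exists_ns_perp (h4 : 4 ≤ finrank F W) (u0 : u ≠ 0) (hw : polar Q u w = 0) (qw : Q w ≠ 0) :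
    ∃ w', Q w' ≠ 0 ∧ polar Q u w' = 0 ∧ polar Q w w' = 0 := by
  have hW := isWittPair_quad Q hQ
  by_contra! hc
  have a4 := hW.finrank_perp (Submodule.span F {u, w})
  have a5 := IsWittPair.finrank_span_pair_le (F := F) u w
  obtain ⟨r, a6, a7⟩ := Geom.exists_notMem_of_finrank_lt (show finrank F (F ∙ u) <
    finrank F (perp (polarBilin Q) (Submodule.span F {u, w})) by
      rw [finrank_span_singleton u0]; omega)
  have a8 : r ∉ Submodule.span F {u, w} := fun e => by
    obtain ⟨a, b, rfl⟩ := Submodule.mem_span_pair.1 e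
    have := (mem_perp_pair.1 a6).2
    simp [polar_comm Q w u, hw, polar_self', h2, qw] at this
    exact a7 (by simpa [this] using Submodule.smul_mem _ a (Submodule.mem_span_singleton_self u))
  obtain ⟨s, b1, b2⟩ := hW.exists_dual_vec a8
  have b3 := b2 u (Submodule.subset_span (by simp))
  have b4 := b2 w (Submodule.subset_span (by simp))
  obtain ⟨b5, b6⟩ := mem_perp_pair.1 a6
  rw [polarBilin_apply_apply] at b1 b3 b4 b5 b6
  have b7 := not_not.1 fun e => hc r e b5 b6
  have b8 := not_not.1 fun e => hc s e b3 b4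
  have b9 := not_not.1 fun e => hc (r + s) e (by simp [b3, b5]) (by simp [b4, b6])
  simp [quad_add, b7, b8, b1] at b9

theorem eq_three (h3 : finrank F W = 3) (u0 : u ≠ 0) (hu : Q u = 0) (hw : polar Q u w = 0)
    (qw : Q w ≠ 0) {v : W} (hv : polar Q u v = 0) :
    ∃ c : F, v = c • u + (polar Q w v / (2 * Q w)) • w := by
  have hW := isWittPair_quad Q hQ
  have a1 := hW.finrank_perp (Submodule.span F {u, w})
  rw [finrank_span_pair (linearIndependent_pair_of_notMem u0 fun e => by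
    obtain ⟨c, rfl⟩ := Submodule.mem_span_singleton.1 e
    simp [quad_smul, hu] at qw)] at a1
  obtain ⟨c, e⟩ := Submodule.mem_span_singleton.1 ((Submodule.eq_of_le_of_finrank_eq
    ((Submodule.span_singleton_le_iff_mem _ _).2 (mem_perp_pair.2 (show polarBilin Q u u = 0 ∧
      polarBilin Q w u = 0 by simp [polar_self', hu, polar_comm Q w u, hw])))
    (by rw [finrank_span_singleton u0]; omega)).ge
    (mem_perp_pair.2 (show polarBilin Q u (v - (polar Q w v / (2 * Q w)) • w) = 0 ∧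
      polarBilin Q w _ = 0 by simp [hv, hw, polar_self', h2, qw])))
  exact ⟨c, by rw [e, sub_add_cancel]⟩

variable (h3 : 3 ≤ finrank F W) (h4 : 4 ≤ finrank F W ∨ ∃ t : F, t ≠ 0 ∧ t ^ 2 ≠ 1)
include h3 h4

theorem exists_evn (u0 : u ≠ 0) (hu : Q u = 0) : ∃ D ∈ OpR F W K (RGp (polarBilin Q) Q),
    ∃ κ : F, κ ≠ 0 ∧ ∀ a, D a = (κ * polar Q u (a u)) • nU (polarBilin Q) u := by
  obtain ⟨f, hf, e⟩ := exists_hyp hQ u0 hu
  obtain ⟨w, qw, hw, -⟩ := exists_nonsingular_perp_hyp hQ h3 hu hf e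
  have H : ∀ a, polar Q u (a u) • nU (polarBilin Q) u =
      nU (polarBilin Q) u * a * nU (polarBilin Q) u := fun a => by
    ext; simp [smul_smul, mul_comm]
  simp only [mul_smul, H]
  obtain h4 | ⟨t, t0, t1⟩ := h4
  · obtain ⟨w', b1, b2, b3⟩ := exists_ns_perp hQ h2 h4 u0 hw qw
    obtain ⟨D₁, c1, d1⟩ := exists_evO (K := K) hu (w := w + w') (by simp [hw, b2])
    obtain ⟨D₂, c2, d2⟩ := exists_evO (K := K) hu (w := w - w') (by simp [hw, b2])
    obtain ⟨D₃, c3, d3⟩ := exists_evO (K := K) hu hw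
    obtain ⟨D₄, c4, d4⟩ := exists_evO (K := K) hu b2
    refine ⟨_, sub_mem (add_mem c1 c2) (add_mem (add_mem c3 c3) (add_mem c4 c4)),
      2 * 2 * 2 * Q w * Q w', by simp [h2, qw, b1], fun a => ?_⟩
    simp only [LinearMap.add_apply, LinearMap.sub_apply, d1, d2, d3, d4, evO, quad_add, quad_sub,
      b3, map_add, map_sub, mul_add, add_mul, mul_sub, sub_mul]
    module
  obtain ⟨D₁, c1, d1⟩ := exists_evO (K := K) hu (w := (1 + t ^ 2) • w) (by simp [hw])
  obtain ⟨D₂, c2, d2⟩ := exists_evO (K := K) hu (w := (1 - t ^ 2) • w) (by simp [hw])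
  obtain ⟨D₃, c3, d3⟩ := exists_evO (K := K) hu (w := (2 * t) • w) (by simp [hw])
  refine ⟨_, sub_mem (sub_mem c1 c2) c3, (2 * 2 * t * (t ^ 2 - 1) * Q w) ^ 2,
    by simp [h2, qw, t0, sub_eq_zero, t1], fun a => ?_⟩
  simp only [LinearMap.sub_apply, d1, d2, d3, evO, quad_smul, map_smul, smul_mul_assoc,
    mul_smul_comm]
  module

theorem skew_of_sing (u0 : u ≠ 0) (hu : Q u = 0) {a : End F W}
    (h : ∀ x, Q x = 0 → polar Q x (a x) = 0) :
    ∃ c : F, ∀ x y, polar Q (a x) y + polar Q x (a y) = c * polar Q x y := by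
  obtain ⟨f, hf, e⟩ := exists_hyp hQ u0 hu
  obtain ⟨z, qz, z1, z2⟩ := exists_nonsingular_perp_hyp hQ h3 hu hf e
  have H : ∀ w, polar Q u w = 0 → polar Q f w = 0 → polar Q w (a w) + polar Q u (a w) +
      polar Q w (a u) = Q w * (polar Q u (a f) + polar Q f (a u) + polar Q f (a w) +
        polar Q w (a f)) := fun w h1 h2 => by
    have := h (u + w - Q w • f) (by simp [quad_add, quad_sub, quad_smul, hu, hf, h1, e,
      polar_comm Q w f, h2])
    simp only [map_add, map_sub, map_smul, polar_add_left, polar_add_right, polar_sub_left,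
      polar_sub_right, polar_smul_left, polar_smul_right, smul_eq_mul, h u hu, h f hf] at this
    linear_combination this
  have H1 : ∀ w, polar Q u w = 0 → polar Q f w = 0 →
      polar Q w (a w) = Q w * (polar Q u (a f) + polar Q f (a u)) ∧ polar Q u (a w) +
      polar Q w (a u) = Q w * (polar Q f (a w) + polar Q w (a f)) := fun w h1 h2' => by
    have a1 := H w h1 h2'
    have a2 := H (-w) (by simp [h1]) (by simp [h2'])
    simp only [map_neg, polar_neg_left, polar_neg_right, Q.map_neg] at a2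
    exact ⟨mul_left_cancel₀ h2 (by linear_combination a1 + a2),
      mul_left_cancel₀ h2 (by linear_combination a1 - a2)⟩
  have H2 : ∀ w ∈ perp (polarBilin Q) (Submodule.span F {u, f}),
      polar Q f (a w) + polar Q w (a f) = 0 := fun w hw =>
    ns_ind h2 (mem_perp_pair.2 ⟨z1, z2⟩) qz (P := fun w => polar Q f (a w) + polar Q w (a f) = 0)
      (fun x y hx hy => by simp only [map_sub, polar_sub_left, polar_sub_right]
                           linear_combination hx - hy) (fun w hw qw => by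
      obtain ⟨w1, w2⟩ := mem_perp_pair.1 hw
      rw [polarBilin_apply_apply] at w1 w2
      have a1 := (H1 w w1 w2).2
      obtain h4 | ⟨t, t0, t1⟩ := h4
      · obtain ⟨w', b1, b2, b3⟩ := exists_ns_perp hQ h2 h4 u0 w1 qw
        obtain ⟨w', b1, b2, b3, b4⟩ : ∃ w', Q w' ≠ 0 ∧ polar Q u w' = 0 ∧ polar Q w w' = 0 ∧
            polar Q f w' = 0 := ⟨w' - polar Q f w' • u, by
          simpa [quad_sub, quad_smul, hu, polar_comm Q w' u, b2], by simp [b2, polar_self', hu],
          by simp [b3, polar_comm Q w u, w1], by simp [polar_comm Q f u, e]⟩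
        have a2 := (H1 (w + w') (by simp [w1, b2]) (by simp [w2, b4])).2
        have a3 := (H1 (w - w') (by simp [w1, b2]) (by simp [w2, b4])).2
        simp only [map_add, map_sub, polar_add_left, polar_add_right, polar_sub_left,
          polar_sub_right, quad_add, quad_sub, b3] at a2 a3
        exact mul_left_cancel₀ (mul_ne_zero h2 b1) (by linear_combination 2 * a1 - a2 - a3)
      have a2 := (H1 (t • w) (by simp [w1]) (by simp [w2])).2
      simp only [map_smul, polar_smul_left, polar_smul_right, quad_smul, smul_eq_mul] at a2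
      exact mul_left_cancel₀ (mul_ne_zero (mul_ne_zero t0 (sub_ne_zero.2 t1)) qw)
        (by linear_combination t * a1 - a2)) hw
  have H3 : ∀ x, polar Q x (a x) = (polar Q u (a f) + polar Q f (a u)) * Q x := fun x => by
    obtain ⟨w, w1, w2, α, β, rfl⟩ := hyp_dec hu hf e x
    have a1 := H1 w w1 w2
    have a2 := H2 w (mem_perp_pair.2 ⟨w1, w2⟩)
    simp only [map_add, map_smul, polar_add_left, polar_add_right, polar_smul_left,
      polar_smul_right, smul_eq_mul, h u hu, h f hf, quad_add, quad_smul, hu, hf, e,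
      polar_comm Q w u, polar_comm Q w f, w1, w2]
    linear_combination a1.1 + α * a1.2 + (α * Q w + β) * a2
  refine ⟨polar Q u (a f) + polar Q f (a u), fun x y => ?_⟩
  have := H3 (x + y)
  simp only [map_add, polar_add_left, polar_add_right, H3, quad_add] at this
  linear_combination this + polar_comm Q (a x) y

omit h3 h4 hQ h2 [FiniteDimensional F W] in
variable (Q) in
/-- The pure elements of the endomorphism algebra of an orthogonal space. -/
def PO : Set (End F W) := {r | ∃ u, u ≠ 0 ∧ Q u = 0 ∧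
  ((∃ x, Q x = 0 ∧ polar Q u x ≠ 0 ∧ r = nU (polarBilin Q) u + nU (polarBilin Q) x) ∨
    ∃ w, polar Q u w = 0 ∧ Q w ≠ 0 ∧ r = wedge Q u w)}

theorem pur_orth (ex : ∃ u, u ≠ 0 ∧ Q u = 0) {G : Subgroup (W ≃ₗ[F] W)}
    (hG : RGp (polarBilin Q) Q ≤ G) (hr : finrank F W = 3 ∨ SGp (polarBilin Q) Q ≤ G) :
    Pur ∅ G (PO Q) := by
  have hW := isWittPair_quad Q hQ
  have hG' : ∀ {D}, D ∈ OpR F W ∅ (RGp (polarBilin Q) Q) → D ∈ OpR F W ∅ G := fun hD =>
    Subring.closure_mono (Set.union_subset_union_left _ (by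
      rintro _ ⟨g, hg, e⟩; exact ⟨g, hG hg, e⟩)) hD
  refine .of fun U _ ⟨y, hy, hy'⟩ => ?_
  by_cases h : ∃ y ∈ U, ∃ u, Q u = 0 ∧ polar Q u (y u) ≠ 0
  · obtain ⟨y, hy, u, hu, a1⟩ := h
    have u0 : u ≠ 0 := by rintro rfl; simp at a1
    obtain ⟨D, a2, κ, a3, a4⟩ := exists_evn (K := ∅) hQ h2 h3 h4 u0 hu
    obtain ⟨f, hf, e⟩ := exists_hyp hQ u0 hu
    obtain ⟨g, b1, c, c0, b2⟩ := exists_mv hW (cp_of_three hW h3) u0 (u' := f)
      (by rintro rfl; simp at e) (by simpa) (by simpa)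
    have H : ∀ a, ((1 + adG g) * D) a = (κ * polar Q u (a u)) •
        (nU (polarBilin Q) u + nU (polarBilin Q) (c • f)) := fun a => by
      simp [a4, adG_nU (RGp_le_isom b1), b2]
    exact ⟨_, hG' (mul_mem (add_mem (one_mem _) (adG_mem_OpR b1)) a2), _,
      ⟨u, u0, hu, .inl ⟨c • f, by simp [quad_smul, hf], by simp [e, c0], rfl⟩⟩,
      fun a _ => H a ▸ Submodule.smul_mem _ _ (Submodule.mem_span_singleton_self _), y, hy,
      fun e' => by simpa [H, e, a1, a3, u0, polar_self', hf] using LinearMap.congr_fun e' f⟩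
  push Not at h
  obtain ⟨u₀, u0, hu⟩ := ex
  obtain ⟨u, hu, a1⟩ : ∃ u, Q u = 0 ∧ y u ∉ F ∙ u := by
    by_contra! H
    obtain ⟨c, e⟩ := scalar_of_eigen hW h3 (exists_ne_zero_one h2).1 (exists_ne_zero_one h2).2 u0
      (by simpa using hu) (by simpa using H)
    exact hy' c e
  replace u0 : u ≠ 0 := by rintro rfl; simp at a1
  obtain ⟨f, hf, e⟩ := exists_hyp hQ u0 hu
  obtain ⟨w, a2, qw, a3⟩ : ∃ w, polar Q u w = 0 ∧ Q w ≠ 0 ∧ polar Q w (y u) ≠ 0 := by
    by_contra! H
    obtain ⟨z, qz, z1, -⟩ := exists_nonsingular_perp_hyp hQ h3 hu hf e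
    refine a1 (hW.perp_perp (F ∙ u) ▸ mem_perp.2 fun v hv => ?_)
    exact ns_ind h2 (mem_perp_singleton.2 z1) qz (P := fun v => polar Q v (y u) = 0)
      (fun a b ha hb => by simp [ha, hb]) (fun w hw => H w (mem_perp_singleton.1 hw)) hv
  obtain ⟨D, b1, b2⟩ := exists_evO (K := ∅) hu a2
  have b3 : ∀ a ∈ U, D a = (-2 : F) • wedge Q u (Q w • a u - polar Q w (a u) • w) := fun a ha => by
    obtain ⟨c, hc⟩ := skew_of_sing hQ h2 h3 h4 u0 hu (h a ha)
    have c1 : ∀ v, polar Q u (a v) = c * polar Q u v - polar Q (a u) v := fun v => by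
      rw [← hc]; ring
    have c2 : polar Q w (a w) = c * Q w := mul_left_cancel₀ h2 (by
      linear_combination hc w w - polar_comm Q (a w) w + c * polar_self' Q w)
    rw [b2]
    congr 1
    ext v
    simp [evO, c1 w, c1 v, c2, a2, h a ha u hu, polar_comm Q (a u) w]
    module
  suffices H : ∃ D ∈ OpR F W ∅ G, ∃ κ : F, κ ≠ 0 ∧ ∀ a ∈ U, D a = (κ * polar Q w (a u)) • wedge Q u w by
    obtain ⟨D, c1, κ, c2, c3⟩ := H
    obtain ⟨f, c4, c5⟩ := hW.exists_dual_vec (x := w) (Z := F ∙ u) fun e => by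
      obtain ⟨c, rfl⟩ := Submodule.mem_span_singleton.1 e
      simp [quad_smul, hu] at qw
    replace c5 := c5 u (Submodule.mem_span_singleton_self u)
    rw [polarBilin_apply_apply] at c4 c5
    exact ⟨D, c1, _, ⟨u, u0, hu, .inr ⟨w, a2, qw, rfl⟩⟩,
      fun a ha => c3 a ha ▸ Submodule.smul_mem _ _ (Submodule.mem_span_singleton_self _), y, hy,
      fun e' => by
        simpa [c3 y hy, c2, a3, u0, c4, c5] using LinearMap.congr_fun e' f⟩
  obtain hr | hr := hr
  · refine ⟨D, hG' b1, 1, one_ne_zero, fun a ha => ?_⟩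
    obtain ⟨c, hc⟩ := eq_three hQ h2 hr u0 hu a2 qw (h a ha u hu)
    rw [b3 a ha]
    generalize polar Q w (a u) = β at hc
    ext v
    simp [hc]
    match_scalars <;> field_simp <;> ring
  refine ⟨_, mul_mem (dG_mem_OpR (g := (oRefl Q w).1) (hr (Subgroup.subset_closure
    ⟨(oRefl Q w).2, u, u0, by simpa, oRefl_of_polar_eq_zero (by rwa [polar_comm])⟩))) (hG' b1),
    -2, by simpa, fun a ha => ?_⟩
  rw [End.mul_apply, b3 a ha, map_smul, LinearMap.sub_apply, adG_wedge (oRefl Q w).2,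
    oRefl_of_polar_eq_zero (by rwa [polar_comm])]
  ext v
  simp [oRefl_apply, polar_self']
  match_scalars <;> field_simp <;> ring

omit h4 in
theorem PO.sq {r : End F W} (h : r ∈ PO Q) : r * r ≠ 0 := fun e' => by
  obtain ⟨u, u0, hu, ⟨x, a1, a2, rfl⟩ | ⟨w, a1, a2, rfl⟩⟩ := h
  · simpa [polar_self', hu, a1, a2, u0, polar_comm Q x u] using LinearMap.congr_fun e' u
  obtain ⟨f, hf, e⟩ := exists_hyp hQ u0 hu
  simpa [polar_self', hu, a1, a2, u0, polar_comm Q w u, e, h2] using LinearMap.congr_fun e' f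

theorem PO.wd {r : End F W} (h : r ∈ PO Q) : Wd (RGp (polarBilin Q) Q) r := by
  have hW := isWittPair_quad Q hQ
  have cp := cp_of_three hW h3
  obtain ⟨u, u0, hu, ⟨x, a1, a2, rfl⟩ | ⟨w, a1, a2, rfl⟩⟩ := h
  · obtain ⟨D, b1, κ, b2, b3⟩ := exists_evn (K := ∅) hQ h2 h3 h4 u0 hu
    have := OpR_mem (S := (Orb (RGp (polarBilin Q) Q) _).toAddSubgroup) (by simp)
      (fun g hg a => adG_Orb hg) b1 (self_mem_Orb (nU (polarBilin Q) u + nU (polarBilin Q) x))
    rw [b3, Submodule.mem_toAddSubgroup, Submodule.smul_mem_iff _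
      (by simp [b2, polar_self', hu, polar_comm Q x u, a2])] at this
    have b4 := pow_four_top hW cp u0 (by simpa) (nU_mem_of_inv hW cp (fun g hg a => adG_Orb hg) u0
      (by simpa) this)
    rw [Wd, b4]
    exact eq_top_iff.2 fun a _ => by
      simpa only [mul_one] using Submodule.mul_mem_mul (Submodule.mem_top (x := a))
        (Submodule.mem_top (x := (1 : End F W)))
  refine wd_of_two hW cp u0 (by simpa) ((Submodule.smul_mem_iff _ (s := -2 * Q w)
    (by simp [h2, a2])).1 ?_)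
  convert Submodule.mul_mem_mul (self_mem_Orb _) (self_mem_Orb _) using 1
  ext v
  simp [polar_self', hu, a1, polar_comm Q w u, smul_smul]
  module

end CF.MaxSub
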