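/-
`O_3 ⊗ Sp_2` in `Sp_6`.
-/
import Cfsg.Agent.MaxSub.WV
import Cfsg.Agent.MaxSub.TabS

set_option autoImplicit false

namespace CF.MaxSub

open Module Geom TensorProduct QuadraticMap
open LinearMap hiding polar

variable {F V₁ W : Type*} [Field F] [AddCommGroup V₁] [Module F V₁] [AddCommGroup W]
  [Module F W] [FiniteDimensional F W] [FiniteDimensional F V₁]

theorem not_opp_of_odd (h2 : finrank F W = 2) (ho : Odd (finrank F V₁))
    (g : V₁ ⊗[F] W ≃ₗ[F] V₁ ⊗[F] W) : ¬ Opp g := fun e => by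
  have : Nontrivial W := nontrivial_of_finrank_pos (R := F) (by omega)
  obtain ⟨u, u0⟩ := exists_ne (0 : W)
  obtain ⟨φ, hφ⟩ := exists_dual_eq_one (F := F) u0
  obtain ⟨A, hA⟩ := exists_lA (e (φ.smulRight u))
  have a1 : range (lA W A) = (range (tr u)).map g.toLinearMap := le_antisymm
    (by
      rintro _ ⟨v, rfl⟩
      exact ⟨_, rA_mem_range (n := φ.smulRight u) (fun w => Submodule.mem_span_singleton.2 ⟨_, rfl⟩)
        (g⁻¹ v), by rw [← hA]; rfl⟩)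
    (by
      rintro _ ⟨_, ⟨x, rfl⟩, rfl⟩
      exact ⟨g (x ⊗ₜ u), by simp [← hA, adG_apply, inv_apply_apply, hφ]⟩)
  have a2 := finrank_range_add_finrank_ker (lA W A)
  have a3 := finrank_range_add_finrank_ker A
  have a4 := finrank_mul_le (J := range A) (M := range (lA W A))
    (by rintro _ ⟨x, rfl⟩ s; exact ⟨x ⊗ₜ s, rfl⟩)
  have a5 := finrank_mul_le (J := ker A) (M := ker (lA W A)) fun x hx s => by
    simp [mem_ker.1 hx]
  rw [a1, LinearEquiv.finrank_map_eq, finrank_range_tr u0] at a2 a4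
  rw [finrank_tensorProduct, h2] at a2
  obtain ⟨k, hk⟩ := ho
  rw [h2] at a4 a5
  omega

variable [Finite F] {B₂ : LinearMap.BilinForm F W} (hB : B₂.Nondegenerate) (hA : B₂.IsAlt)
  (hm : finrank F W = 2) (h2 : (2 : F) ≠ 0) {γ : F} (γ0 : γ ≠ 0) (γ1 : γ ^ 2 ≠ 1)
include hB hA hm h2 γ0 γ1

theorem WZ.good_two {B₁ : LinearMap.BilinForm F V₁} {Q₁ : V₁ → F}
    {B : LinearMap.BilinForm F (V₁ ⊗[F] W)} {Q : V₁ ⊗[F] W → F}
    {G : Subgroup (V₁ ⊗[F] W ≃ₗ[F] V₁ ⊗[F] W)} (h : WZ B₁ Q₁ B₂ (fun _ => 0) B Q G)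
    {𝒳 : Set (V₁ ⊗[F] W ≃ₗ[F] V₁ ⊗[F] W)}
    (hX : ∀ g ∈ 𝒳, ∀ b ∈ RGp B₂ fun _ => 0, ∀ g' ∈ 𝒳, g * rG V₁ b * g⁻¹ * g' ∈ 𝒳)
    (hL : ∀ g ∈ Df 𝒳, ∀ w ≠ 0, ∀ u, u ≠ 0 ∧ (0 : F) = 0 → (∀ x, g (x ⊗ₜ w) ∈ range (tr u)) →
      g ∈ TenG F V₁ W) (hI : ∀ g ∈ 𝒳, g ∈ Isom B Q) : ∀ g ∈ Df 𝒳, Good g := fun g => by
  have : Nontrivial W := nontrivial_of_finrank_pos (R := F) (by omega)
  obtain ⟨u, u0⟩ := exists_ne (0 : W)
  obtain ⟨b, b1, b2⟩ := alt_scale hB hA u0 γ0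
  have t := tt_alt hA
  refine h.good t (.inr h2) hX hL hI (fun 𝒜 h𝒜 => Dl_mem_Cm
    (𝒩 := {a | ∃ u, u ≠ 0 ∧ a = nU B₂ u}) ?_ fun b e => scalar_two hB hA hm b fun x _ => ?_)
    ⟨u, u0, rfl, (Submodule.smul_mem_iff _ (sub_ne_zero.2 γ1)).1 (Submodule.subset_span
      ⟨b, b1, nU B₂ u, ?_⟩)⟩
  · rintro A _ ⟨u, u0, rfl⟩
    have := Fintype.ofFinite (⊤ : AddSubgroup F)
    refine h.Dl_mem t (.inr h2) hX hL h𝒜 u0 rfl A rfl (L := ⊥) fun z => ?_
    have := sum_pow_top γ0 (k := 1) fun e => γ1 (by rw [← pow_one γ, e, one_pow])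
    simp only [pow_one] at this
    simp [this, sum_pow_top γ0 γ1]
  · by_cases x0 : x = 0
    · simp [x0]
    exact trace_mul_nU b x ▸ e _ ⟨x, x0, rfl⟩
  ext
  simp [nU, adG_form (RGp_le_isom b1).1, b2]
  module

theorem sp_maxIn_os_two {B₁ : LinearMap.BilinForm F V₁} (n₁ : B₁.Nondegenerate)
    (s₁ : ∀ x y, B₁ x y = B₁ y x) {B : LinearMap.BilinForm F (V₁ ⊗[F] W)} (nB : B.Nondegenerate)
    (aB : B.IsAlt) (eq : ∀ x y s t, B (x ⊗ₜ s) (y ⊗ₜ t) = B₁ x y * B₂ s t)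
    (d₁ : finrank F V₁ = 3) : MaxIn (SpG B) (TenG F V₁ W) := by
  obtain ⟨Q₁, rfl⟩ := exists_quad h2 s₁
  have : Nontrivial W := nontrivial_of_finrank_pos (R := F) (by omega)
  have : Nontrivial V₁ := nontrivial_of_finrank_pos (R := F) (by omega)
  have hW := isWittPair_quad Q₁ n₁
  have h : WZ (polarBilin Q₁) Q₁ B₂ (fun _ => 0) B (fun _ => 0) (SpG B) :=
    ⟨hW, isWittPair_alt B₂ hB hA, polarG_sp nB aB, eq, fun a b => mem_SpG.2, fun _ _ _ => rfl,
      inferInstance, fun _ _ => rfl, fun _ => mem_SpG.2, cp_alt hB hA⟩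
  obtain ⟨u, u0⟩ := exists_ne (0 : W)
  obtain ⟨x, x0, hx⟩ := exists_singular_of_three_le Q₁ d₁.ge
  obtain ⟨y, hy, e⟩ := exists_hyp n₁ x0 hx
  refine maxIn_of_adm (fun e' => h.not_good hm.ge u0 rfl (s := nU (polarBilin Q₁) x)
    (k := unip (map _ (nU B₂ u)) (LinearMap.ext fun v => by simp [map_nU, hA.self_eq_zero]))
    (fun _ => rfl) (fun c e' => ?_) (.inl (e' (mem_SpG.2 fun v w => ?_)))) fun X hX g hg => ?_
  · have : c = 0 := by simpa [polar_self', hx, x0] using (LinearMap.congr_fun e' x).symm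
    simpa [this, e, x0] using LinearMap.congr_fun e' y
  · have a3 := h.form_ext (a := map (nU (polarBilin Q₁) x) (nU B₂ u))
      (b := -map (nU (polarBilin Q₁) x) (nU B₂ u)) fun x' y s t => by
        simp [eq, ← hA.neg_eq u s, polar_comm Q₁ x' x]
        ring
    rw [unip_apply, unip_apply, map_add, map_add, LinearMap.add_apply, LinearMap.add_apply, a3 v w]
    simp [map_nU, eq, hA.self_eq_zero]
  have w := h.wp hX
  refine (h.good_two hB hA hm h2 γ0 γ1 w.mul_X (w.loc_Df (w.locI_two (mem_line_two hB hA hm)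
    one_ne_zero (fun u _ => tv_alt hA u 1) fun u u0 _ => ⟨fun s hs => by_contra fun e => hX.ne ?_,
      .inl (by
        obtain ⟨b, b1, b2⟩ := alt_scale hB hA u0 γ0
        exact ⟨b, b1, γ, b2, by rwa [RingHom.id_apply, ← pow_two]⟩)⟩)) (fun _ => w.isom) g
    ⟨1, one_mem X, g, hg, by simp⟩).resolve_right (not_opp_of_odd hm (d₁ ▸ by decide) g)
  replace hs : s ∈ ZS hA h2 X := fun x => by
    by_cases x0 : x = 0
    · simpa [x0, show nU B₂ 0 = 0 from LinearMap.ext fun _ => by simp] using Un.zero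
    obtain ⟨b, b1, rfl⟩ := alt_move hB hA u0 x0
    exact w.un_nU hs b1
  have hG : ∀ g ∈ RGp (polarBilin Q₁) Q₁, ∀ a ∈ ZS hA h2 X, adG g a ∈ ZS hA h2 X :=
    fun g hg a ha u => (ha u).lG (hX.lo ⟨h.congr_isom fun x y s t => by
      simp [← polarBilin_apply_apply, (RGp_le_isom hg).1], lG_mem g⟩)
  obtain ⟨x, hx, a1⟩ : ∃ x, Q₁ x = 0 ∧ polar Q₁ x (s x) ≠ 0 := by
    by_contra! H
    obtain ⟨c, hc⟩ := skew_of_sing n₁ h2 d₁.ge (.inr ⟨γ, γ0, γ1⟩) x0 hx H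
    refine e ⟨c / 2, LinearMap.ext fun y => h.ext₁ fun x => mul_left_cancel₀ h2 ?_⟩
    have := w.ZS_adj hB hA h2 hs x y
    simp only [polarBilin_apply_apply, LinearMap.smul_apply, End.one_apply, polar_smul_right,
      smul_eq_mul] at this ⊢
    field_simp
    linear_combination hc x y - this
  replace x0 : x ≠ 0 := by rintro rfl; simp at a1
  obtain ⟨D, a2, κ, a3, a4⟩ := exists_evn (K := ∅) n₁ h2 d₁.ge (.inr ⟨γ, γ0, γ1⟩) x0 hx
  have a5 := OpR_mem (S := (ZS hA h2 X).toAddSubgroup) (by simp) hG a2 hs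
  rw [a4, Submodule.mem_toAddSubgroup, Submodule.smul_mem_iff _ (mul_ne_zero a3 a1)] at a5
  have a6 := nU_mem_of_inv hW (cp_of_three hW d₁.ge) hG x0 (by simpa) a5
  let T : Submodule F (End F V₁) :=
    { carrier := {y | ∃ y', (∀ x z, polarBilin Q₁ (y x) z = polarBilin Q₁ x (y' z)) ∧
        y + y' ∈ ZS hA h2 X}
      add_mem' := fun ⟨a, a1, a2⟩ ⟨b, b1, b2⟩ => ⟨a + b, fun x z => by
        simp only [LinearMap.add_apply, map_add, a1, b1],
        by rw [add_add_add_comm]; exact add_mem a2 b2⟩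
      zero_mem' := ⟨0, by simp, by simp⟩
      smul_mem' := fun c _ ⟨a, a1, a2⟩ => ⟨c • a, fun x z => by
        simp only [LinearMap.smul_apply, map_smul, a1],
        by rw [← smul_add]; exact Submodule.smul_mem _ c a2⟩ }
  have a7 : T = ⊤ := eq_top_of_sing hW x0 (by simpa) fun x z x0 z0 hx hz =>
    ⟨(polarBilin Q₁ x).smulRight z, fun a b => by simp [polar_comm Q₁ a z, mul_comm],
      all_ind hW x0 hx (P := fun z => (polarBilin Q₁ z).smulRight x +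
        (polarBilin Q₁ x).smulRight z ∈ ZS hA h2 X)
        (fun a b ha hb => by convert add_mem ha hb using 1; ext; simp [add_smul]; abel)
        (fun c => by
          convert Submodule.smul_mem _ (2 * c) (a6 x x0 hx) using 1
          ext; simp; module)
        (fun t a b => (Submodule.smul_mem_iff _ b).1 (by
          convert ZS_jordan hB hA h2 (a6 x x0 hx) (nU_sq (hW.self_eq_zero hx))
            (a6 t (by rintro rfl; simp at b) a) using 1
          ext; simp [polar_comm Q₁ t x]; module)) z⟩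
  refine w.le_of_full (comT_alt aB h2) (by omega) (.inl d₁.ge) ⟨u, u0, rfl⟩ (ε := -1)
    (fun x y => by simp [hA.neg_eq]) (fun u _ _ A A' e => ?_)
    (eq_top_iff.2 fun A _ u u0 _ v hv => RT.zero.congr fun z hz => ?_)
  · obtain ⟨A'', c1, c2⟩ := (a7.ge trivial : A ∈ T)
    simpa [show A' = A'' from LinearMap.ext fun y => h.ext₁ fun x => by rw [← e, c1]] using c2 u
  obtain ⟨c, rfl⟩ := Submodule.mem_span_singleton.1 (mem_line_two hB hA hm u v u0 hv)
  simp [hz]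

omit hB hA hm h2 γ0 γ1 [Finite F]

open Cfsg Cfsg.Geo Matrix in
theorem isMaximalIn_sp_two_three [Fintype F] (hodd : Odd (Fintype.card F))
    (h5 : 5 ≤ Fintype.card F) {e : (Fin 3 ⊕ Fin 3) ≃ Fin 2 × Fin 3} {P : GL (Fin 3 ⊕ Fin 3) F}
    {f₁ : (Fin 2 → F) → (Fin 2 → F) → F} {f₂ : (Fin 3 → F) → (Fin 3 → F) → F}
    (hf₁ : IsSymplecticForm f₁) (hf₂ : IsSymmetricForm f₂)
    (hT : IsTensorFormStructure id (sympForm 3 F) f₁ f₂ e P) :
    IsMaximalIn (spGL 3 F) (tensorProductSubgroup 2 3 e P ⊓ spGL 3 F) := by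
  obtain ⟨B₁, a1, a2, a3⟩ := exists_alt hf₁
  obtain ⟨B₂, b1, b2, b3⟩ := exists_sym hf₂
  have hA := sympBilin_isAlt (F := F) 3
  obtain ⟨κ, c, c0, h1, -, h3⟩ := exists_ten (σ := RingHom.id F) (B := -sympBilin 3 F)
    (fun u v => by simp [← sympBilin_apply, hA.neg_eq]) a1 b1 hT
  obtain ⟨γ, γ0, γ1⟩ := exists_sq_ne_one' (three_lt_card hodd (by omega))
  exact sp_of_pull (κ := (TensorProduct.comm F _ _).trans κ) (sp_maxIn_os_two
    (smul_nondeg a2 (neg_ne_zero.2 c0)) (fun x => by simp [a3.self_eq_zero]) (by simp)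
    (Geom.two_ne_zero_of_odd_card hodd) γ0 γ1 b2 b3 (pull_nondeg (sympBilin_nondegenerate 3) _)
    (fun x => hA _) (fun x y s t => by simpa [neg_eq_iff_eq_neg, mul_comm] using h1 s t x y)
    (by simp)) (mem_spGL_iff 3) fun g => (h3 g).trans (autCongr_comm_mem _).symm

open Cfsg Cfsg.Geo in
theorem tabS_nd_three [Fintype F] (U : Submodule F (Fin 3 ⊕ Fin 3 → F)) (h0 : U ≠ ⊥)
    (hU : IsNondegenerateOn (sympForm 3 F) U) (hdim : finrank F U < 3) :
    IsMaximalIn (spGL 3 F) (subspaceStabilizer U ⊓ spGL 3 F) := by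
  have hB := sympBilin_nondegenerate (F := F) 3
  have hA := sympBilin_isAlt (F := F) 3
  have h := polarG_sp hB hA
  have hf := h.witt.finrank_perp U
  simp only [finrank_fintype_fun_eq_card, Fintype.card_sum, Fintype.card_fin] at hf
  exact (h.maxIn_nondeg singDim_alt (big_sp hB hA) h0
    (disjoint_perp_of_nondegOn (Or.inl fun u v => (sympBilin_apply 3 u v).symm) hU) (by omega)
    (fun g _ => not_le_map_of_finrank_lt (by omega) g) (fun h1 h2 => by omega)).isMaximalIn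
    (Geom.glEquiv _ F) (mem_spGL_iff 3) (mem_subspaceStabilizer_iff U)

end CF.MaxSub
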