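/-
`O_4^- ⊗ Sp_2` in `Sp_8`, I: the commutant of a root group of the orthogonal factor.
-/
import Cfsg.Agent.MaxSub.WX
import Cfsg.Agent.Geom.FrD

set_option autoImplicit false

namespace CF.MaxSub

open Module Geom TensorProduct QuadraticMap
open LinearMap hiding polar

variable {F V₁ W : Type*} [Field F] [AddCommGroup V₁] [Module F V₁] [AddCommGroup W]
  [Module F W] [FiniteDimensional F W] [FiniteDimensional F V₁]

omit [FiniteDimensional F W] in
theorem mem_range_mk {x : V₁} (x0 : x ≠ 0) {v : V₁ ⊗[F] W}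
    (h : ∀ l : Dual F V₁, l x = 0 → cl l v = 0) : ∃ s, v = x ⊗ₜ s := by
  have e : ∀ (l : Dual F V₁) (v : V₁ ⊗[F] W), ct l (TensorProduct.comm F V₁ W v) = cl l v :=
    fun l v => by
      induction v with
      | zero => simp
      | add a b ha hb => simp only [map_add, ha, hb]
      | tmul y t => simp
  obtain ⟨s, hs⟩ := mem_range_tr x0 (v := TensorProduct.comm F V₁ W v) fun l hl => by
    rw [e, h l hl]
  exact ⟨s, (TensorProduct.comm F V₁ W).injective (by simp [← hs])⟩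

omit [FiniteDimensional F W] [FiniteDimensional F V₁] in
theorem lA_smulRight (l : Dual F V₁) (x : V₁) (v : V₁ ⊗[F] W) :
    lA W (l.smulRight x) v = x ⊗ₜ cl l v := by
  induction v with
  | zero => simp
  | add a b ha hb => simp only [map_add, ha, hb, tmul_add]
  | tmul y t => simp [smul_tmul]

omit [FiniteDimensional F W] in
theorem tmul_right_inj {x : V₁} (x0 : x ≠ 0) {s t : W} (h : x ⊗ₜ[F] s = x ⊗ₜ t) : s = t := by
  obtain ⟨l, e⟩ := exists_dual_eq_one (F := F) x0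
  simpa [e] using congrArg (cl l) h

variable {Q : QuadraticForm F V₁}

variable (W Q) in
/-- The commutant of the root group at `x`. -/
def CE (x : V₁) : Subalgebra F (End F (V₁ ⊗[F] W)) :=
  Subalgebra.centralizer F {r | ∃ w, polar Q x w = 0 ∧ r = lA W (wedge Q x w)}

omit [FiniteDimensional F W] [FiniteDimensional F V₁] in
theorem mem_CE {x : V₁} {r : End F (V₁ ⊗[F] W)} :
    r ∈ CE W Q x ↔ ∀ w, polar Q x w = 0 → lA W (wedge Q x w) * r = r * lA W (wedge Q x w) := by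
  simp only [CE, Subalgebra.mem_centralizer_iff]
  exact ⟨fun h w hw => h _ ⟨w, hw, rfl⟩, by rintro h _ ⟨w, hw, rfl⟩; exact h w hw⟩

omit [FiniteDimensional F W] [FiniteDimensional F V₁] in
theorem rA_mem_CE (x : V₁) (a : End F W) : rA V₁ a ∈ CE W Q x :=
  mem_CE.2 fun _ _ => (mem_Cm.1 (lA_mem _) a).symm

omit [FiniteDimensional F W] [FiniteDimensional F V₁] in
theorem lA_wedge (x w : V₁) (v : V₁ ⊗[F] W) : lA W (wedge Q x w) v =
    w ⊗ₜ cl (polarBilin Q x) v - x ⊗ₜ cl (polarBilin Q w) v := by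
  rw [← lA_smulRight, ← lA_smulRight, ← LinearMap.sub_apply, ← map_sub]
  rfl

omit [FiniteDimensional F W] [FiniteDimensional F V₁] in
theorem mem_CE_of_eich (h2 : (2 : F) ≠ 0) {x : V₁} (hx : Q x = 0) {r : End F (V₁ ⊗[F] W)}
    (h : ∀ w (hw : polar Q x w = 0), adG (lG W (eichler hx hw).1) r = r) : r ∈ CE W Q x :=
  mem_CE.2 fun w hw => by
    have a1 := (adG_eq_self.1 (h w hw)).sub_left (adG_eq_self.1 (h (-w) (by simp [hw])))
    rw [coe_lG, coe_lG, coe_eich, coe_eich, ← map_sub, map_neg, Q.map_neg,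
      show ∀ a b : End F V₁, 1 + a - b - (1 + -a - b) = (2 : F) • a from fun a b => by module,
      map_smul] at a1
    simpa [smul_smul, h2] using (a1.smul_left (2 : F)⁻¹).eq

variable (hQ : (polarBilin Q).Nondegenerate) (h2 : (2 : F) ≠ 0) (h3 : 3 ≤ finrank F V₁) {x : V₁}
  (x0 : x ≠ 0) (hx : Q x = 0)
include hQ h2 h3 x0 hx

omit [FiniteDimensional F W] in
theorem CE_nU {r : End F (V₁ ⊗[F] W)} (hr : r ∈ CE W Q x) (v : V₁ ⊗[F] W) :
    x ⊗ₜ cl (polarBilin Q x) (r v) = r (x ⊗ₜ cl (polarBilin Q x) v) := by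
  obtain ⟨f, hf, e⟩ := exists_hyp hQ x0 hx
  obtain ⟨w, qw, hw, -⟩ := exists_nonsingular_perp_hyp hQ h3 hx hf e
  have a1 : wedge Q x w * wedge Q x w = (-2 * Q w) • (polarBilin Q x).smulRight x := by
    ext v
    simp [polar_self', hx, hw, polar_comm Q w x, smul_smul]
    module
  have a2 := ((show Commute _ r from mem_CE.1 hr w hw).mul_left (mem_CE.1 hr w hw)).eq
  rw [← map_mul, a1, map_smul, smul_mul_assoc, mul_smul_comm] at a2
  simpa only [End.mul_apply, lA_smulRight] using LinearMap.congr_fun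
    (smul_right_injective _ (by simp [h2, qw]) a2) v

omit [FiniteDimensional F W] in
theorem CE_step {r : End F (V₁ ⊗[F] W)} (hr : r ∈ CE W Q x) {v : V₁ ⊗[F] W}
    (h1 : cl (polarBilin Q x) v = 0)
    (h : ∀ w, polar Q x w = 0 → r (x ⊗ₜ cl (polarBilin Q w) v) = 0) : ∃ s, r v = x ⊗ₜ s := by
  have hW := isWittPair_quad Q hQ
  have a1 : cl (polarBilin Q x) (r v) = 0 := tmul_right_inj x0 (by
    rw [CE_nU hQ h2 h3 x0 hx hr, h1]; simp)
  refine mem_range_mk x0 fun l hl => ?_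
  obtain ⟨w, rfl⟩ := exists_repr_dual hW.surj (polarBilin Q) hW.nondeg l
  have hw : polar Q x w = 0 := by rw [polar_comm]; exact hl
  have := LinearMap.congr_fun (mem_CE.1 hr w hw) v
  simp only [End.mul_apply, lA_wedge, a1, h1, tmul_zero, zero_sub, map_neg, h w hw, neg_inj] at this
  exact tmul_right_inj x0 (by simpa using this)

theorem CE_trace {r : End F (V₁ ⊗[F] W)} (hr : r ∈ CE W Q x) (h : ∀ s, r (x ⊗ₜ s) = 0) :
    trace F _ r = 0 := by
  refine (isNilpotent_trace_of_isNilpotent ⟨3, LinearMap.ext fun v => ?_⟩).eq_zero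
  obtain ⟨s, e⟩ := CE_step hQ h2 h3 x0 hx hr (v := r v) (tmul_right_inj x0 (by
    rw [CE_nU hQ h2 h3 x0 hx hr, h]; simp)) fun w _ => h _
  simp [pow_succ, e, h]

omit [FiniteDimensional F W] in
theorem CE_tmul {r : End F (V₁ ⊗[F] W)} (hr : r ∈ CE W Q x) {l : Dual F V₁} (hl : l x = 1) (s : W) :
    r (x ⊗ₜ s) = x ⊗ₜ cl l (r (x ⊗ₜ s)) := by
  obtain ⟨t, e⟩ := CE_step hQ h2 h3 x0 hx hr (v := x ⊗ₜ s) (by simp [polar_self', hx])
    fun w hw => by simp [polar_comm Q w x, hw]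
  simp [e, hl]

theorem trace_ptr_sq_of_CE (hd : (finrank F V₁ : F) ≠ 0) {g : V₁ ⊗[F] W ≃ₗ[F] V₁ ⊗[F] W}
    (hg : ∀ a, adG g (rA V₁ a) ∈ CE W Q x) {n : End F W} (hn : n * n = 0) :
    trace F W (ptr (adG g⁻¹ (rA V₁ n)) * ptr (adG g⁻¹ (rA V₁ n))) = 0 := by
  obtain ⟨l, hl⟩ := exists_dual_eq_one (F := F) x0
  let ρ : End F (V₁ ⊗[F] W) →ₗ[F] End F W :=
    { toFun := fun r => cl l ∘ₗ r ∘ₗ TensorProduct.mk F V₁ W x
      map_add' := fun a b => by ext; simp
      map_smul' := fun c a => by ext; simp }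
  have r1 : ∀ r ∈ CE W Q x, ∀ s, r (x ⊗ₜ s) = x ⊗ₜ ρ r s := fun r hr s =>
    CE_tmul hQ h2 h3 x0 hx hr hl s
  have r2 : ∀ r, ∀ r' ∈ CE W Q x, ρ (r * r') = ρ r * ρ r' := fun r r' hr' => LinearMap.ext fun s => by
    change cl l (r (r' (x ⊗ₜ s))) = _
    rw [r1 r' hr']
    rfl
  have r0 : ∀ a, trace F _ (rA V₁ a) = finrank F V₁ * trace F W a := fun a => by
    rw [← one_mul (rA V₁ a), ← map_one (lA W), trace_lA_rA, trace_one]
  have r3 : ∀ r ∈ CE W Q x, trace F _ r = finrank F V₁ * trace F W (ρ r) := fun r hr => by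
    rw [← r0, ← sub_eq_zero, ← map_sub]
    exact CE_trace hQ h2 h3 x0 hx (sub_mem hr (rA_mem_CE x _)) fun s => by simp [r1 r hr]
  have r4 : ∀ a, ρ (rA V₁ a) = a := fun a => LinearMap.ext fun s => by simp [ρ, hl]
  let φ : End F (End F W) := ρ ∘ₗ adG g ∘ₗ (rA V₁).toLinearMap
  have p1 : ∀ a b, φ (a * b) = φ a * φ b := fun a b => by
    simp only [φ, LinearMap.comp_apply, AlgHom.toLinearMap_apply, map_mul, adG_mul, r2 _ _ (hg b)]
  have p2 : ∀ a, trace F W (φ a) = trace F W a := fun a => mul_left_cancel₀ hd (by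
    rw [← r0 a]
    simp only [φ, LinearMap.comp_apply, AlgHom.toLinearMap_apply]
    rw [← r3 _ (hg a), ← mul_one (adG g _), trace_adG, adG_one, mul_one])
  obtain ⟨a, ha⟩ := LinearMap.injective_iff_surjective.1 ((injective_iff_map_eq_zero φ).2
    fun a e => eq_zero_of_trace fun b => by rw [← p2, p1, e, zero_mul, map_zero]) n
  have p3 : ∀ c, trace F W (ptr (adG g⁻¹ (rA V₁ n)) * c) = finrank F V₁ * trace F W (n * φ c) :=
    fun c => by
    rw [← trace_mul_rA, trace_adG, inv_inv, r3 _ (mul_mem (rA_mem_CE x n) (hg c)), r2 _ _ (hg c), r4]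
    rfl
  have p4 : ptr (adG g⁻¹ (rA V₁ n)) = (finrank F V₁ : F) • a :=
    sub_eq_zero.1 (eq_zero_of_trace fun c => by
      rw [sub_mul, map_sub, p3, ← ha, ← p1, p2, smul_mul_assoc, map_smul, smul_eq_mul, sub_self])
  rw [p3, p4, map_smul, ha, mul_smul_comm, hn]
  simp

omit hQ h2 h3 x0 hx

theorem ptr_adG_congr (a : V₁ ≃ₗ[F] V₁) (b : W ≃ₗ[F] W) (y : End F (V₁ ⊗[F] W)) :
    ptr (adG (TensorProduct.congr a b) y) = adG b (ptr y) :=
  sub_eq_zero.1 (eq_zero_of_trace fun c => by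
    have : adG (TensorProduct.congr a b)⁻¹ (rA V₁ c) = rA V₁ (adG b⁻¹ c) :=
      TensorProduct.ext' fun x w => by
        change TensorProduct.congr a⁻¹ b⁻¹ (rA V₁ c (a x ⊗ₜ b w)) = _
        simp [adG_apply, inv_apply_apply]
    rw [sub_mul, map_sub, ← trace_mul_rA, trace_adG, this, trace_mul_rA, trace_adG, sub_self])

omit [FiniteDimensional F W] in
theorem exists_nilpotent_of_pow [Finite F] [Nontrivial V₁] [Nontrivial W] {a : V₁ ≃ₗ[F] V₁}
    {b : W ≃ₗ[F] W} (h : TensorProduct.congr a b ^ ringChar F = 1) :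
    ∃ c : F, IsNilpotent ((b : End F W) - c • 1) := by
  have := Fact.mk (CharP.char_is_prime F (ringChar F))
  have := charP_of_injective_algebraMap (algebraMap F (End F W)).injective (ringChar F)
  obtain ⟨x, hx⟩ := exists_ne (0 : V₁)
  obtain ⟨l, hl⟩ := exists_dual_eq_one (F := F) ((map_ne_zero_iff _ (a ^ ringChar F).injective).2 hx)
  obtain ⟨c, hc⟩ := surjective_frobenius F (ringChar F) (l x)
  refine ⟨c, ringChar F, ?_⟩
  rw [sub_pow_char_of_commute _ ((Commute.one_right _).smul_right c), _root_.smul_pow, one_pow,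
    show c ^ ringChar F = l x from hc, sub_eq_zero]
  ext w
  rw [congr_pow] at h
  have := congrArg (cl l) (LinearEquiv.congr_fun h (x ⊗ₜ w))
  rw [congr_tmul, cl_tmul, hl, one_smul] at this
  rw [show ((b : End F W) ^ ringChar F) = (b ^ ringChar F : W ≃ₗ[F] W) from
    (map_pow (LinearEquiv.automorphismGroup.toLinearMapMonoidHom) _ _).symm]
  simpa using this

variable {B₂ : LinearMap.BilinForm F W} (hB : B₂.Nondegenerate) (hA : B₂.IsAlt)
  (hm : finrank F W = 2)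
include hB hA hm h2

omit [FiniteDimensional F V₁] in
theorem trace_sq_two {N a : End F W} (hN : IsNilpotent N) (N0 : N ≠ 0) (e : a * N = N * a)
    (ha : trace F W a = 0) : trace F W (a * a) = 0 := by
  obtain ⟨s, a1, a2⟩ := exists_sq_zero hN N0
  have a3 : B₂ (N s) s ≠ 0 := fun e => by
    obtain ⟨c, hc⟩ := Submodule.mem_span_singleton.1 (mem_line_two hB hA hm _ _ a1 e)
    exact a1 (by rw [← hc, map_smul, a2, smul_zero])
  have a4 : ∀ v, ∃ α β : F, v = α • N s + β • s := fun v =>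
    ⟨_, _, (eq_pair hB hA hm (u := N s) (f := (B₂ (N s) s)⁻¹ • s) (by simp [a3]) v).trans
      (by rw [smul_smul])⟩
  obtain ⟨β, α, a5⟩ := a4 (a s)
  have a6 : a = α • 1 + β • N := LinearMap.ext fun v => by
    obtain ⟨γ, δ, rfl⟩ := a4 v
    have := LinearMap.congr_fun e s
    simp only [End.mul_apply] at this
    simp [this, a5, a2]
    module
  have a7 := (isNilpotent_trace_of_isNilpotent hN).eq_zero
  obtain rfl : α = 0 := by simpa [a6, a7, hm, h2] using ha
  have a8 : N * N = 0 := LinearMap.ext fun v => by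
    obtain ⟨γ, δ, rfl⟩ := a4 v
    simp [a2]
  simp [a6, a8]

include hQ h3 x0 hx in
theorem trace_ptr_sq [Finite F] (hd : (finrank F V₁ : F) ≠ 0) {g : V₁ ⊗[F] W ≃ₗ[F] V₁ ⊗[F] W}
    (hg : ∀ w (hw : polar Q x w = 0), g⁻¹ * lG W (eichler hx hw).1 * g ∈ TenG F V₁ W)
    {n : End F W} (hn : n * n = 0) :
    trace F W (ptr (adG g⁻¹ (rA V₁ n)) * ptr (adG g⁻¹ (rA V₁ n))) = 0 := by
  have : Nontrivial W := nontrivial_of_finrank_pos (R := F) (by omega)
  have := nontrivial_of_ne x 0 x0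
  by_cases H : ∀ w (hw : polar Q x w = 0), ∃ a, g⁻¹ * lG W (eichler hx hw).1 * g = lG W a
  · refine trace_ptr_sq_of_CE hQ h2 h3 x0 hx hd (fun a => mem_CE_of_eich h2 hx fun w hw => ?_) hn
    obtain ⟨c, e⟩ := H w hw
    rw [adG_adG, show lG W (eichler hx hw).1 * g = g * lG W c by rw [← e]; group, ← adG_adG,
      adG_lG_rA]
  push Not at H
  obtain ⟨w, hw, H⟩ := H
  obtain ⟨a, b, e⟩ := hg w hw
  obtain ⟨c, hc⟩ := exists_nilpotent_of_pow (a := a) (b := b) (by
    rw [← e, show g⁻¹ * lG W (eichler hx hw).1 * g = g⁻¹ * lG W (eichler hx hw).1 * g⁻¹⁻¹ by simp,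
      conj_pow, ← map_pow, eichler_pow_char]
    simp)
  refine trace_sq_two h2 hB hA hm hc (fun e' => ?_) ?_ ?_
  · obtain ⟨a', e''⟩ := lG_of_scalar (c := c) (b := b) (fun x => by
      simpa [sub_eq_zero] using LinearMap.congr_fun e' x) a
    exact H a' (e.trans e'')
  · refine (Commute.sub_left (adG_eq_self.1 ?_) ((Commute.one_left _).smul_left c)).eq.symm
    rw [← ptr_adG_congr a, ← e, adG_adG, mul_inv_cancel_right, ← adG_adG, adG_lG_rA]
  · rw [← mul_one (ptr _), ← trace_mul_rA, map_one, trace_adG, adG_one, mul_one]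
    exact (isNilpotent_trace_of_isNilpotent ⟨2, by rw [← map_pow, pow_two, hn, map_zero]⟩).eq_zero

end CF.MaxSub
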