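/-
`O_4^- ⊗ Sp_2` in `Sp_8`, II: the trace argument.
-/
import Cfsg.Agent.MaxSub.TO

set_option autoImplicit false

namespace CF.MaxSub

open Module Geom TensorProduct QuadraticMap
open LinearMap hiding polar

section Sums

variable {F Γ E α : Type*} [Field F] [Group Γ] [Group E] [Fintype E] [MulAction Γ α] (φ : E →* Γ)
  {S : Finset α} (hS : ∀ e, ∀ q ∈ S, φ e • q ∈ S) {f : α → F}
include hS

theorem sum_zero_of_move {p k : ℕ} (hp : p.Prime) (hF : (p : F) = 0) (hE : Fintype.card E = p ^ k)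
    (hf : ∀ e q, f (φ e • q) = f q) (h : ∀ q ∈ S, ∃ e, φ e • q ≠ q) : ∑ q ∈ S, f q = 0 := by
  classical
  let _ := MulAction.compHom α φ
  exact sum_mem_of_orbit (F := F) (E := E) (L := ⊥) hS fun q hq =>
    sum_orbit_const (F := F) hp hF hE (h q hq) fun e => hf e q

theorem sum_zero_of_free (h : ∀ q ∈ S, ∀ e, φ e • q = q → e = 1)
    (hf : ∀ q ∈ S, ∑ e, f (φ e • q) = 0) : ∑ q ∈ S, f q = 0 := by
  classical
  let _ := MulAction.compHom α φ
  exact sum_mem_of_orbit (F := F) (E := E) (L := ⊥) hS fun q hq => by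
    rw [sum_orbit_free (h q hq)]
    exact hf q hq

end Sums

variable {F V₁ W : Type*} [Field F] [AddCommGroup V₁] [Module F V₁] [AddCommGroup W]
  [Module F W] [FiniteDimensional F W] [FiniteDimensional F V₁] [Finite F]

/-- The conjugates of the second factor under `X`. -/
noncomputable def AX (X : Subgroup (V₁ ⊗[F] W ≃ₗ[F] V₁ ⊗[F] W)) :
    Finset ((V₁ ⊗[F] W ≃ₗ[F] V₁ ⊗[F] W) ⧸ TenG F V₁ W) := by
  classical
  have : Finite (V₁ ⊗[F] W) := Module.finite_of_finite F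
  have : Finite (V₁ ⊗[F] W ≃ₗ[F] V₁ ⊗[F] W) := DFunLike.finite _
  exact (X : Set (V₁ ⊗[F] W ≃ₗ[F] V₁ ⊗[F] W)).toFinite.toFinset.image (↑)

variable {X : Subgroup (V₁ ⊗[F] W ≃ₗ[F] V₁ ⊗[F] W)}

theorem mem_AX {q : _ ⧸ TenG F V₁ W} : q ∈ AX X ↔ ∃ g ∈ X, (g : _ ⧸ TenG F V₁ W) = q := by
  simp [AX]

theorem smul_mem_AX {x : V₁ ⊗[F] W ≃ₗ[F] V₁ ⊗[F] W} (hx : x ∈ X) (q : _ ⧸ TenG F V₁ W)
    (hq : q ∈ AX X) : x • q ∈ AX X := by
  obtain ⟨g, hg, rfl⟩ := mem_AX.1 hq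
  exact mem_AX.2 ⟨_, mul_mem hx hg, rfl⟩

omit [FiniteDimensional F W] [FiniteDimensional F V₁] [Finite F] in
theorem mem_Df_iff {g : V₁ ⊗[F] W ≃ₗ[F] V₁ ⊗[F] W} :
    g ∈ Df (X : Set (V₁ ⊗[F] W ≃ₗ[F] V₁ ⊗[F] W)) ↔ g ∈ X :=
  ⟨by rintro ⟨a, ha, b, hb, rfl⟩; exact X.mul_mem (X.inv_mem ha) hb,
    fun h => ⟨1, one_mem X, g, h, by simp⟩⟩

theorem fam_AX {G₂ : Subgroup (W ≃ₗ[F] W)} (h : ∀ b ∈ G₂, rG V₁ b ∈ X) :
    Fam G₂ (Df (X : Set (V₁ ⊗[F] W ≃ₗ[F] V₁ ⊗[F] W))) (AX X) :=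
  ⟨mem_AX.2 ⟨1, one_mem _, rfl⟩, fun b hb => smul_mem_AX (h b hb), fun g hg => by
    obtain ⟨g', a1, e⟩ := mem_AX.1 hg
    exact ⟨g', mem_Df_iff.2 a1, _, QuotientGroup.eq.1 e, by group⟩⟩

theorem Ps_AX (hO : ∀ g ∈ X, ¬ Opp g) (y : End F (V₁ ⊗[F] W)) :
    Ps (AX X) y = Dl (AX X) y + rA V₁ (ptr y) := by
  classical
  have : (AX X).filter (fun q => Good q.out) = {((1 : V₁ ⊗[F] W ≃ₗ[F] V₁ ⊗[F] W) : _ ⧸ _)} := by
    ext q
    simp only [Finset.mem_filter, Finset.mem_singleton]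
    refine ⟨fun ⟨a, b⟩ => ?_, by
      rintro rfl; exact ⟨mem_AX.2 ⟨1, one_mem _, rfl⟩, (good_out _).2 (.inl (one_mem _))⟩⟩
    obtain ⟨g, hg, rfl⟩ := mem_AX.1 a
    exact QuotientGroup.eq.2 (by simpa using ((good_out g).1 b).resolve_right (hO g hg))
  rw [← Gm_ten (one_mem _), ← Gm_out, Dl, Ps, Ps, ← LinearMap.add_apply,
    ← Finset.sum_singleton (fun q : _ ⧸ TenG F V₁ W => Gm q.out), ← this,
    Finset.sum_filter_not_add_sum_filter]

omit [Finite F] in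
theorem trace_Ps (𝒜 : Finset (_ ⧸ TenG F V₁ W)) (y z : End F (V₁ ⊗[F] W)) :
    trace F _ (Ps 𝒜 y * z) = trace F _ (y * Ps 𝒜 z) := by
  simp only [Ps, LinearMap.sum_apply, Finset.sum_mul, Finset.mul_sum, map_sum, trace_Gm]

omit [Finite F] in
theorem trace_mul_map (y : End F (V₁ ⊗[F] W)) (D : End F V₁) (φ : Dual F W) (v : W) :
    trace F _ (y * (lA W D * rA V₁ (φ.smulRight v))) = trace F V₁ ((ct φ ∘ₗ y ∘ₗ tr v) * D) := by
  let Φ : End F (V₁ ⊗[F] W) →ₗ[F] End F V₁ :=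
    { toFun := fun y => ct φ ∘ₗ y ∘ₗ tr v
      map_add' := fun a b => by ext; simp
      map_smul' := fun c a => by ext; simp }
  refine LinearMap.congr_fun (end_ext (f := trace F _ ∘ₗ mulRight F (lA W D * rA V₁ (φ.smulRight v)))
    (g := trace F _ ∘ₗ mulRight F D ∘ₗ Φ) fun A a => ?_) y
  have : Φ (lA W A * rA V₁ a) = φ (a v) • A := by ext; simp [Φ]
  simp only [LinearMap.comp_apply, mulRight_apply, this]
  rw [mul_assoc, ← mul_assoc (rA V₁ a), mem_Cm.1 (lA_mem D), mul_assoc, ← map_mul, ← mul_assoc,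
    ← map_mul, trace_lA_rA, mul_smulRight, trace_smulRight]
  simp [mul_comm]

/-- The root group at a singular vector. -/
def eH {Q : QuadraticForm F V₁} {x : V₁} (hx : Q x = 0) :
    Multiplicative (ker (polarBilin Q x)) →* (V₁ ≃ₗ[F] V₁) where
  toFun w := (eichler hx (w := (w.toAdd : V₁)) w.toAdd.2).1
  map_one' := congrArg Subtype.val (eichler_zero hx)
  map_mul' a b := congrArg Subtype.val (eichler_add hx a.toAdd.2 b.toAdd.2)

variable {Q : QuadraticForm F V₁} {B₂ : LinearMap.BilinForm F W}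
  {B : LinearMap.BilinForm F (V₁ ⊗[F] W)}

/-- The data of the trace argument. -/
structure OT (Q : QuadraticForm F V₁) (B₂ : LinearMap.BilinForm F W)
    (B : LinearMap.BilinForm F (V₁ ⊗[F] W)) (X : Subgroup (V₁ ⊗[F] W ≃ₗ[F] V₁ ⊗[F] W)) : Prop
    extends WP (polarBilin Q) Q B₂ (fun _ => 0) B (fun _ => 0) (SpG B) X where
  nQ : (polarBilin Q).Nondegenerate
  nB : B₂.Nondegenerate
  aB : B₂.IsAlt
  alt : B.IsAlt
  two : (2 : F) ≠ 0
  four : 4 ≤ finrank F V₁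
  dim : (finrank F V₁ : F) ≠ 0
  hm : finrank F W = 2
  lo : ∀ g ∈ RGp (polarBilin Q) Q, lG W g ∈ X
  loc : ∀ g ∈ Df (X : Set (V₁ ⊗[F] W ≃ₗ[F] V₁ ⊗[F] W)), ∀ w ≠ 0, ∀ u, u ≠ 0 ∧ (0 : F) = 0 →
    (∀ x, g (x ⊗ₜ w) ∈ range (tr u)) → g ∈ TenG F V₁ W
  opp : ∀ g ∈ X, ¬ Opp g

namespace OT

variable (h : OT Q B₂ B X)
include h

omit [FiniteDimensional F V₁] [Finite F] in
theorem ntW : Nontrivial W := nontrivial_of_finrank_pos (R := F) (by rw [h.hm]; omega)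

theorem exists_Dl {u : W} (u0 : u ≠ 0) (A : End F V₁) {a : End F W}
    (ha : nU B₂ u * a = a * nU B₂ u) :
    ∃ C, Dl (AX X) (lA W A * rA V₁ a) = lA W C * rA V₁ (nU B₂ u) :=
  have := h.ntW
  h.toWZ.exists_Dl (tt_alt h.aB) (.inr h.two) h.mul_X h.loc (exists_ne_zero_one h.two).1
    (exists_ne_zero_one h.two).2 (fun _ _ => trivial) (fam_AX h.rad) u0 rfl A ha

theorem Ps_lA (A : End F V₁) : Ps (AX X) (lA W A) = trace F V₁ A • 1 := by
  have := h.ntW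
  obtain ⟨u, u0⟩ := exists_ne (0 : W)
  obtain ⟨f, -, e⟩ := h.w₂.exists_hyperbolic u0 rfl
  obtain ⟨C, a1⟩ := h.exists_Dl u0 A (a := 1) (by simp)
  obtain ⟨C', a2⟩ := h.exists_Dl (u := f) (by rintro rfl; simp at e) A (a := 1) (by simp)
  have a3 : Dl (AX X) (lA W A * rA V₁ 1) = 0 := LinearMap.ext fun v => eq_zero_of_range
    (u := u) (u' := f) (fun e' => by
      obtain ⟨c, rfl⟩ := Submodule.mem_span_singleton.1 e'
      simp [h.aB.self_eq_zero] at e)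
    (by rw [a1]; exact ⟨C _, by rw [End.mul_apply, rA_nU]; rfl⟩)
    (by rw [a2]; exact ⟨C' _, by rw [End.mul_apply, rA_nU]; rfl⟩)
  rw [← mul_one (lA W A), ← map_one (rA V₁), Ps_AX h.opp, a3, ptr_mul, zero_add, map_smul]

theorem trace_Dl_eq_zero {u : W} (u0 : u ≠ 0) (f : W) :
    trace F _ (Dl (AX X) (rA V₁ (nU B₂ u)) * rA V₁ (nU B₂ f)) = 0 := by
  classical
  have := h.ntW
  have := h.nt
  have : Finite V₁ := Module.finite_of_finite F
  obtain ⟨x, x0, hx⟩ := exists_singular_of_three_le Q (by have := h.four; omega)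
  have := Fintype.ofFinite (ker (polarBilin Q x))
  have := Fintype.ofFinite F
  have := Fintype.ofFinite (⊤ : AddSubgroup F)
  have hu := h.aB u
  let φ₁ := (lG W).comp (eH hx)
  let φ₂ := (rG V₁).comp ((tvH hu).comp (AddMonoidHom.toMultiplicative (⊤ : AddSubgroup F).subtype))
  have m1 : ∀ e, φ₁ e ∈ X := fun e => h.lo _ (eich_mem hx e.toAdd.2)
  have m2 : ∀ e, φ₂ e ∈ X := fun e => h.rad _ (mem_RGp (u := u) rfl ((tt_alt h.aB).mem rfl hu trivial))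
  have g1 : ∀ t ∈ TenG F V₁ W, ∀ q : _ ⧸ TenG F V₁ W, ¬ Good q.out → ¬ Good (t • q).out :=
    fun t ht q a b => by
    induction q using QuotientGroup.induction_on with | H g => ?_
    rw [MulAction.Quotient.smul_mk, good_out] at b
    exact a (by simpa [good_out] using b.mul_left (inv_mem ht))
  have e1 : ∀ (t g : V₁ ⊗[F] W ≃ₗ[F] V₁ ⊗[F] W), t • (g : _ ⧸ TenG F V₁ W) = g ↔
      g⁻¹ * t * g ∈ TenG F V₁ W := fun t g => by
    rw [MulAction.Quotient.smul_mk, eq_comm, QuotientGroup.eq, smul_eq_mul, mul_assoc]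
  simp only [Dl, Ps, LinearMap.sum_apply, Finset.sum_mul, map_sum]
  rw [← Finset.sum_filter_add_sum_filter_not _ fun q => ∀ e, φ₁ e • q = q]
  obtain ⟨k, hk⟩ := FiniteField.card F (ringChar F)
  rw [sum_zero_of_move φ₁ (S := Finset.filter (fun q => ¬ ∀ e, φ₁ e • q = q) _) (fun e q hq => ?_)
    hk.1 (ringChar.Nat.cast_ringChar) (k := k * finrank F (ker (polarBilin Q x))) (by
      rw [Fintype.card_multiplicative, Module.card_eq_pow_finrank (K := F), hk.2, pow_mul])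
    (fun e q => ?_) (fun q hq => not_forall.1 (Finset.mem_filter.1 hq).2), add_zero]
  rotate_left
  · simp only [Finset.mem_filter] at hq ⊢
    refine ⟨⟨smul_mem_AX (m1 e) q hq.1.1, g1 _ (lG_mem _) q hq.1.2⟩, fun H => hq.2 fun e' =>
      MulAction.injective (φ₁ e) ?_⟩
    simp only [smul_smul, ← map_mul, mul_comm e]
    rw [map_mul, mul_smul, H]
  · rw [Gm_smul, trace_adG, ← map_inv]
    simp only [φ₁, MonoidHom.comp_apply, adG_lG_rA]
  refine sum_zero_of_free φ₂ (fun e q hq => ?_) (fun q hq e he => ?_) fun q hq => ?_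
  · simp only [Finset.mem_filter] at hq ⊢
    refine ⟨⟨smul_mem_AX (m2 e) q hq.1.1, g1 _ (rG_mem _) q hq.1.2⟩, fun e' => ?_⟩
    rw [smul_smul, show φ₁ e' * φ₂ e = φ₂ e * φ₁ e' from tensor_ext fun _ _ => rfl, mul_smul, hq.2]
  · simp only [Finset.mem_filter] at hq
    obtain ⟨g, hg, rfl⟩ := mem_AX.1 hq.1.1
    by_contra c0
    exact hq.1.2 ((good_out g).2 ((h.toWZ.rsys (tt_alt h.aB) (.inr h.two) h.mul_X h.loc).good
      (mem_Df_iff.2 hg) (i := ⟨⟨u, e.toAdd⟩, u0, rfl, trivial,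
        fun e => c0 (Multiplicative.ext (Subtype.ext e))⟩) (by rintro _ rfl; exact (e1 _ g).1 he)))
  simp only [Finset.mem_filter] at hq
  obtain ⟨g, hg, rfl⟩ := mem_AX.1 hq.1.1
  have a1 : ∀ e, Gm (φ₂ e • (g : _ ⧸ TenG F V₁ W)).out (rA V₁ (nU B₂ u)) =
      adG (φ₂ e) (Gm g (rA V₁ (nU B₂ u))) := fun e => by
    rw [Gm_smul, Gm_out, ← map_inv]
    simp only [φ₂, MonoidHom.comp_apply, adG_rG_rA]
    rw [(adG_eq_self (a := nU B₂ u)).2
      ((Commute.one_left _).add_left ((Commute.refl _).smul_left _))]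
  have a2 : trace F _ (Gm g (rA V₁ (nU B₂ u)) * rA V₁ (nU B₂ u)) = 0 := by
    rw [Gm_apply, trace_adG, trace_mul_comm, trace_mul_rA]
    exact trace_ptr_sq h.nQ h.two (by have := h.four; omega) x0 hx h.nB h.aB h.hm h.dim
      (fun w hw => (e1 _ g).1 (hq.2 (.ofAdd ⟨w, hw⟩))) (nU_sq hu)
  simp only [a1, ← map_sum, ← Finset.sum_mul]
  have a3 := sum_pow_top (exists_ne_zero_one h.two).1 (k := 1) (by
    simpa using (exists_ne_zero_one h.two).2)
  simp only [pow_one] at a3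
  rw [show ∑ e, adG (φ₂ e) (Gm g (rA V₁ (nU B₂ u))) = _ from
    sum_tvH hu (T := ⊤) ⟨1, trivial, one_ne_zero⟩ _,
    a3, zero_smul, sub_mul, map_sub, smul_mul_assoc, map_smul, mul_assoc, mul_assoc, zero_mul,
    map_zero,
    trace_mul_comm, mul_assoc, ← map_mul, ← map_mul,
    show nU B₂ u * nU B₂ f * nU B₂ u = (B₂ u f * B₂ f u) • nU B₂ u by
      simp [nU, smulRight_mul, smul_smul, mul_comm], map_smul, mul_smul_comm, map_smul, a2]
  simp

theorem Ps_nU {u : W} (u0 : u ≠ 0) :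
    Ps (AX X) (rA V₁ (nU B₂ u)) = (finrank F V₁ : F) • rA V₁ (nU B₂ u) := by
  have := h.ntW
  have := h.nt
  have h3 : 3 ≤ finrank F V₁ := by have := h.four; omega
  obtain ⟨f, -, e⟩ := h.w₂.exists_hyperbolic u0 rfl
  have n0 : nU B₂ u ≠ 0 := fun e' => by simpa [e, u0] using LinearMap.congr_fun e' f
  obtain ⟨C, a1⟩ := h.exists_Dl u0 1 (a := nU B₂ u) rfl
  have a0 : ptr (rA V₁ (nU B₂ u)) = (finrank F V₁ : F) • nU B₂ u := by
    rw [← one_mul (rA V₁ _), ← map_one (lA W), ptr_mul, trace_one]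
  rw [map_one, one_mul] at a1
  have a2 : ∀ g ∈ RGp (polarBilin Q) Q, adG g C = C := fun g hg => by
    have := adG_Ps (smul_mem_AX (h.lo g hg)) (rA V₁ (nU B₂ u))
    rw [adG_lG_rA, Ps_AX h.opp, map_add, adG_lG_rA, add_left_inj, a1, adG_mul, adG_lG_rA,
      adG_lG_lA, ← sub_eq_zero, ← sub_mul, ← map_sub] at this
    exact sub_eq_zero.1 (lA_injective (W := W) ((eq_zero_of_mul (lA_mem _) n0 this).trans
      (map_zero _).symm))
  obtain ⟨x₀, x0, hx⟩ := exists_singular_of_three_le Q h3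
  obtain ⟨c, rfl⟩ := scalar_of_eigen h.w₁ h3 (exists_ne_zero_one h.two).1
    (exists_ne_zero_one h.two).2 x0 (by simpa using hx) (A := C) fun x hx => by
      by_cases x0 : x = 0
      · simp [x0]
      rw [map_zero] at hx
      obtain ⟨s, hs⟩ := CE_step h.nQ h.two h3 x0 hx (mem_CE_of_eich (W := W) h.two hx
        (r := lA W C) fun w hw => by rw [adG_lG_lA, a2 _ (eich_mem hx hw)]) (v := x ⊗ₜ u)
        (by simp [polar_self', hx]) fun w hw => by simp [polar_comm Q w x, hw]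
      exact Submodule.mem_span_singleton.2 ⟨-B₂ f s, by
        simpa [← h.aB.neg_eq u f, e, neg_eq_iff_eq_neg] using (congrArg (ct (B₂ f)) hs).symm⟩
  have a3 := h.trace_Dl_eq_zero u0 f
  rw [a1, mul_assoc, ← map_mul, trace_lA_rA, trace_mul_nU] at a3
  obtain rfl : c = 0 := by simpa [h.dim, e, ← h.aB.neg_eq u f] using a3
  rw [Ps_AX h.opp, a1, a0]
  simp

end OT

end CF.MaxSub
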