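/-
`O_4^- ⊗ Sp_2` in `Sp_8`, III.
-/
import Cfsg.Agent.MaxSub.TO2

set_option autoImplicit false

namespace CF.MaxSub

open Module Geom TensorProduct QuadraticMap
open LinearMap hiding polar

variable {F V₁ W : Type*} [Field F] [AddCommGroup V₁] [Module F V₁] [AddCommGroup W]
  [Module F W] [FiniteDimensional F W] [FiniteDimensional F V₁] [Finite F]
  {Q : QuadraticForm F V₁} {B₂ : LinearMap.BilinForm F W}
  {B : LinearMap.BilinForm F (V₁ ⊗[F] W)} {X : Subgroup (V₁ ⊗[F] W ≃ₗ[F] V₁ ⊗[F] W)}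

omit [FiniteDimensional F W] in
theorem nU_mem_of_sym (hQ : (polarBilin Q).Nondegenerate) (h2 : (2 : F) ≠ 0)
    (h4 : 4 ≤ finrank F V₁) {Z : Submodule F (End F V₁)}
    (hG : ∀ g ∈ RGp (polarBilin Q) Q, ∀ a ∈ Z, adG g a ∈ Z) {s : End F V₁} (hs : s ∈ Z)
    (adj : ∀ x y, polar Q (s x) y = polar Q x (s y)) (e : ¬ ∃ c : F, s = c • 1) :
    ∀ x, x ≠ 0 → Q x = Q 0 → nU (polarBilin Q) x ∈ Z := by
  have hW := isWittPair_quad Q hQ
  have h3 : 3 ≤ finrank F V₁ := by omega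
  obtain ⟨x, x0, hx⟩ := exists_singular_of_three_le Q h3
  obtain ⟨x, hx, a1⟩ : ∃ x, Q x = 0 ∧ polar Q x (s x) ≠ 0 := by
    by_contra! H
    obtain ⟨c, hc⟩ := skew_of_sing hQ h2 h3 (.inl h4) x0 hx H
    refine e ⟨c / 2, LinearMap.ext fun y => sub_eq_zero.1 (hW.nondeg' _ fun x =>
      mul_left_cancel₀ h2 ?_)⟩
    have := adj x y
    simp only [polarBilin_apply_apply, LinearMap.smul_apply, End.one_apply, polar_smul_right,
      smul_eq_mul, polar_sub_right]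
    field_simp
    linear_combination hc x y - this
  replace x0 : x ≠ 0 := by rintro rfl; simp at a1
  obtain ⟨D, a2, κ, a3, a4⟩ := exists_evn (K := ∅) hQ h2 h3 (.inl h4) x0 hx
  have a5 := OpR_mem (S := Z.toAddSubgroup) (by simp) hG a2 hs
  rw [a4, Submodule.mem_toAddSubgroup, Submodule.smul_mem_iff _ (mul_ne_zero a3 a1)] at a5
  exact nU_mem_of_inv hW (cp_of_three hW h3) hG x0 (by simpa) a5

omit [FiniteDimensional F W] [FiniteDimensional F V₁] [Finite F] in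
theorem adG_tvH {u : W} (hu : B₂ u u = 0) (c : F) (z : End F (V₁ ⊗[F] W)) :
    adG (rG V₁ (tvH hu (.ofAdd c))) z = z +
      c • (rA V₁ (nU B₂ u) * z - z * rA V₁ (nU B₂ u)) -
        c ^ 2 • (rA V₁ (nU B₂ u) * z * rA V₁ (nU B₂ u)) := by
  rw [adG_eq, ← map_inv, ← map_inv, coe_rG, coe_rG, coe_tvH, coe_tvH]
  simp only [map_add, map_one, map_smul, toAdd_inv, toAdd_ofAdd, add_mul, mul_add, one_mul,
    mul_one, smul_mul_assoc, mul_smul_comm]
  module

namespace OT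

variable (h : OT Q B₂ B X)
include h

theorem ct_scalar {g : V₁ ⊗[F] W ≃ₗ[F] V₁ ⊗[F] W} (hg : g ∈ X) {u : W} (u0 : u ≠ 0) (v : W) :
    ∃ c : F, ct (B₂ v) ∘ₗ adG g (rA V₁ (nU B₂ u)) ∘ₗ tr v = c • 1 := by
  have h3 : 3 ≤ finrank F V₁ := by have := h.four; omega
  have := h.ntW
  let E := ker (Ps (AX X) - (finrank F V₁ : F) • 1)
  have e0 : ∀ y, y ∈ E ↔ Ps (AX X) y = (finrank F V₁ : F) • y := fun y => by
    simp [E, sub_eq_zero]
  have e1 : ∀ x ∈ X, ∀ y ∈ E, adG x y ∈ E := fun x hx y hy => by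
    rw [e0, ← adG_Ps (smul_mem_AX hx), (e0 y).1 hy, map_smul]
  have e2 : ∀ y ∈ E, trace F _ y = 0 → ∀ A, trace F _ (y * lA W A) = 0 := fun y hy e A =>
    mul_left_cancel₀ h.dim (by
      rw [← smul_eq_mul, ← map_smul, ← smul_mul_assoc, ← (e0 y).1 hy, trace_Ps, h.Ps_lA]
      simp [e])
  have e3 : ∀ v, ∀ y ∈ E, rA V₁ (nU B₂ v) * y - y * rA V₁ (nU B₂ v) ∈ E ∧
      rA V₁ (nU B₂ v) * y * rA V₁ (nU B₂ v) ∈ E := fun v y hy => by
    have H := fun c => adG_tvH (h.aB v) c y ▸ e1 _ (h.rad _ (mem_RGp (u := v) rfl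
      ((tt_alt h.aB).mem rfl (h.aB v) (c := c) trivial))) y hy
    refine ⟨(E.smul_mem_iff h.two).1 ?_, (E.smul_mem_iff h.two).1 ?_⟩
    · convert sub_mem (H 1) (H (-1)) using 1
      module
    · convert sub_mem (add_mem hy hy) (add_mem (H 1) (H (-1))) using 1
      module
  have e4 : adG g (rA V₁ (nU B₂ u)) ∈ E := e1 g hg _ ((e0 _).2 (h.Ps_nU u0))
  have e5 : ∀ y ∈ E, adG g (rA V₁ (nU B₂ u)) * y - y * adG g (rA V₁ (nU B₂ u)) ∈ E := fun y hy => by
    simpa only [map_sub, adG_mul, adG_adG_inv] using e1 g hg _ (e3 u _ (e1 _ (inv_mem hg) y hy)).1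
  have e6 : ∀ a b, B (adG g (rA V₁ (nU B₂ u)) a) b = -B a (adG g (rA V₁ (nU B₂ u)) b) := fun a b => by
    obtain ⟨a, rfl⟩ := g.surjective a
    obtain ⟨b, rfl⟩ := g.surjective b
    rw [adG_apply, adG_apply, inv_apply_apply, inv_apply_apply, (h.isom hg).1, (h.isom hg).1,
      ← map_neg (B a), ← LinearMap.neg_apply]
    exact h.form_ext (fun x y s r => by simp [h.eq, ← h.aB.neg_eq u s]; ring) a b
  generalize adG g (rA V₁ (nU B₂ u)) = n at e4 e5 e6
  by_contra H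
  have a1 := nU_mem_of_sym h.nQ h.two h.four (Z := E.comap (mulRight F (rA V₁ (nU B₂ v)) ∘ₗ
    (lA W).toLinearMap)) (fun k hk a ha => by
      simpa [adG_mul] using e1 _ (h.lo k hk) _ ha) (s := ct (B₂ v) ∘ₗ n ∘ₗ tr v)
    (show lA W _ * _ ∈ E from rA_nU_mul (B₂ := B₂) v n ▸ (e3 v n e4).2) (fun x y => by
      rw [polar_comm, ← polarBilin_apply_apply, ← polarBilin_apply_apply]
      simp only [LinearMap.comp_apply, ← h.eq_ct, tr_apply]
      rw [← h.alt.neg_eq, e6, neg_neg]) H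
  obtain ⟨x₀, x0, hx⟩ := exists_singular_of_three_le Q h3
  refine H (scalar_of_eigen h.w₁ h3 (exists_ne_zero_one h.two).1 (exists_ne_zero_one h.two).2 x0
    (by simpa using hx) fun x hx => ?_)
  by_cases x0 : x = 0
  · simp [x0]
  obtain ⟨y, -, e⟩ := h.w₁.exists_hyperbolic x0 hx
  have a2 := e2 _ (e5 _ (a1 x x0 hx)) (by rw [map_sub, trace_mul_comm, sub_self])
  have a3 := eq_zero_of_trace (a := (ct (B₂ v) ∘ₗ n ∘ₗ tr v) * nU (polarBilin Q) x -
    nU (polarBilin Q) x * (ct (B₂ v) ∘ₗ n ∘ₗ tr v)) fun A => by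
      have := a2 A
      simp only [LinearMap.comp_apply, mulRight_apply, AlgHom.toLinearMap_apply] at this
      rw [sub_mul, map_sub, mul_assoc _ n, trace_mul_comm F (_ * _) (n * _), mul_assoc n,
        mul_assoc n, mul_assoc, mem_Cm.1 (lA_mem A), ← mul_assoc (lA W _), ← mul_assoc (lA W A),
        ← map_mul, ← map_mul, nU.eq_1 B₂, trace_mul_map, trace_mul_map] at this
      rw [sub_mul, map_sub, mul_assoc, mul_assoc, trace_mul_comm F (nU _ x), mul_assoc]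
      exact this
  exact Submodule.mem_span_singleton.2 ⟨_, by
    simpa [show polar Q x y = 1 from e] using (LinearMap.congr_fun (sub_eq_zero.1 a3) y).symm⟩

theorem exists_sum {g : V₁ ⊗[F] W ≃ₗ[F] V₁ ⊗[F] W} (hg : g ∈ X) {u : W} (u0 : u ≠ 0) :
    ∃ a A, adG g (rA V₁ (nU B₂ u)) = rA V₁ a + lA W A := by
  obtain ⟨f, -, e⟩ := h.w₂.exists_hyperbolic u0 rfl
  obtain ⟨c₁, a1⟩ := h.ct_scalar hg u0 u
  obtain ⟨c₂, a2⟩ := h.ct_scalar hg u0 f
  obtain ⟨c₃, a3⟩ := h.ct_scalar hg u0 (u + f)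
  generalize adG g (rA V₁ (nU B₂ u)) = n at a1 a2 a3
  have H : ∀ v : V₁ ⊗[F] W, v = -ct (B₂ f) v ⊗ₜ u + ct (B₂ u) v ⊗ₜ f := fun v => by
    induction v with
    | zero => simp
    | add a b ha hb => simp only [map_add, add_tmul]; nth_rw 1 [ha, hb]; abel
    | tmul x w =>
      nth_rw 1 [eq_pair h.nB h.aB h.hm e w]
      simp [tmul_add, smul_tmul, tmul_neg]
  refine ⟨(-B₂ f).smulRight (c₁ • f) + (B₂ u).smulRight (-c₂ • u + (c₃ - c₁ - c₂) • f),
    -(ct (B₂ f) ∘ₗ n ∘ₗ tr u), TensorProduct.ext' fun x w => ?_⟩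
  have b1 : ct (B₂ u) (n (x ⊗ₜ u)) = c₁ • x := LinearMap.congr_fun a1 x
  have b2 : ct (B₂ f) (n (x ⊗ₜ f)) = c₂ • x := LinearMap.congr_fun a2 x
  have b3 : ct (B₂ (u + f)) (n (x ⊗ₜ (u + f))) = c₃ • x := LinearMap.congr_fun a3 x
  simp only [map_add, tmul_add, ct_add, b1, b2] at b3
  have b4 : ct (B₂ u) (n (x ⊗ₜ f)) = (c₃ - c₁ - c₂) • x - ct (B₂ f) (n (x ⊗ₜ u)) := by
    linear_combination (norm := module) b3
  rw [eq_pair h.nB h.aB h.hm e w, tmul_add, tmul_smul, tmul_smul, map_add, map_smul, map_smul,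
    H (n (x ⊗ₜ u)), H (n (x ⊗ₜ f)), b1, b2, b4]
  simp [e, ← h.aB.neg_eq u f, h.aB.self_eq_zero, tmul_add, ← smul_tmul', sub_tmul, neg_tmul,
    tmul_neg]
  module

theorem le_ten : X ≤ TenG F V₁ W := fun g hg => by
  have := h.ntW
  have := h.nt
  obtain ⟨u, u0⟩ := exists_ne (0 : W)
  obtain ⟨a, A, e⟩ := h.exists_sum hg u0
  have e1 : IsNilpotent (rA V₁ a + lA W A) := ⟨2, by
    rw [← e, ← adG_pow, ← map_pow, pow_two, nU_sq (h.aB u), map_zero, map_zero]⟩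
  have e2 : ∀ v w, B ((rA V₁ a + lA W A) v) w = -B v ((rA V₁ a + lA W A) w) := fun v w => by
    obtain ⟨v, rfl⟩ := g.surjective v
    obtain ⟨w, rfl⟩ := g.surjective w
    rw [← e, adG_apply, adG_apply, inv_apply_apply, inv_apply_apply, (h.isom hg).1, (h.isom hg).1,
      ← map_neg (B v), ← LinearMap.neg_apply]
    exact h.form_ext (fun x y s r => by simp [h.eq, ← h.aB.neg_eq u s]; ring) v w
  obtain ⟨u', a2, a3, a4⟩ := h.toWZ.exists_eigen ⟨u, u0, rfl⟩ e1 e2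
  have r := h.toWZ.rsys (tt_alt h.aB) (.inr h.two) h.mul_X h.loc
  refine (r.good_of_sum (mem_Df_iff.2 hg)
    (i := ⟨⟨u, 1⟩, u0, rfl, trivial, one_ne_zero⟩) fun k hk => ?_).resolve_right (h.opp g hg)
  refine ⟨nU B₂ u, ?_, a, A, e, u', ⟨a2, a3⟩, a2, a4⟩
  rw [Set.mem_singleton_iff.1 hk, coe_tvH]
  exact add_mem (one_mem _) (Subalgebra.smul_mem _ (Algebra.self_mem_adjoin_singleton F _) _)

end OT

omit [Finite F] in
theorem exists_ts_of_opp (h2 : finrank F W = 2) {B₁ : LinearMap.BilinForm F V₁}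
    (nB : B₂.Nondegenerate) (aB : B₂.IsAlt)
    (eq : ∀ x y s t, B (x ⊗ₜ s) (y ⊗ₜ t) = B₁ x y * B₂ s t) {g : V₁ ⊗[F] W ≃ₗ[F] V₁ ⊗[F] W}
    (hg : ∀ v w, B (g v) (g w) = B v w) (e : Opp g) :
    ∃ U : Submodule F V₁, (∀ x ∈ U, B₁ x x = 0) ∧ 2 * finrank F U = finrank F V₁ := by
  have : Nontrivial W := nontrivial_of_finrank_pos (R := F) (by omega)
  obtain ⟨u, u0⟩ := exists_ne (0 : W)
  obtain ⟨φ, hφ⟩ := exists_dual_eq_one (F := F) u0
  obtain ⟨A, hA⟩ := exists_lA (e (φ.smulRight u))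
  have a1 : range (lA W A) = (range (tr u)).map g.toLinearMap := le_antisymm
    (by
      rintro _ ⟨v, rfl⟩
      exact ⟨_, rA_mem_range (n := φ.smulRight u) (fun w => Submodule.mem_span_singleton.2 ⟨_, rfl⟩)
        (g⁻¹ v), by rw [← hA]; rfl⟩)
    (by
      rintro _ ⟨_, ⟨x, rfl⟩, rfl⟩
      exact ⟨g (x ⊗ₜ u), by simp [← hA, adG_apply, inv_apply_apply, hφ]⟩)
  have a2 := finrank_range_add_finrank_ker (lA W A)
  have a3 := finrank_range_add_finrank_ker A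
  have a4 := finrank_mul_le (J := range A) (M := range (lA W A))
    (by rintro _ ⟨x, rfl⟩ s; exact ⟨x ⊗ₜ s, rfl⟩)
  have a5 := finrank_mul_le (J := ker A) (M := ker (lA W A)) fun x hx s => by
    simp [mem_ker.1 hx]
  rw [a1, LinearEquiv.finrank_map_eq, finrank_range_tr u0] at a2 a4
  rw [finrank_tensorProduct, h2] at a2
  rw [h2] at a4 a5
  refine ⟨range A, ?_, by omega⟩
  rintro _ ⟨x, rfl⟩
  obtain ⟨f, -, hf⟩ := (isWittPair_alt B₂ nB aB).exists_hyperbolic u0 rfl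
  obtain ⟨_, ⟨y, rfl⟩, b1⟩ := a1.le ⟨x ⊗ₜ u, rfl⟩
  obtain ⟨_, ⟨z, rfl⟩, b2⟩ := a1.le ⟨x ⊗ₜ f, rfl⟩
  have := hg (tr u y) (tr u z)
  rw [show g (tr u y) = _ from b1, show g (tr u z) = _ from b2] at this
  simpa [eq, hf, aB.self_eq_zero] using this

/-- `O_4^- ⊗ Sp_2` is maximal in `Sp_8`. -/
theorem sp_maxIn_os_minus (hB : B₂.Nondegenerate) (hA : B₂.IsAlt) (hm : finrank F W = 2)
    (h2 : (2 : F) ≠ 0) {B₁ : LinearMap.BilinForm F V₁} (n₁ : B₁.Nondegenerate)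
    (s₁ : ∀ x y, B₁ x y = B₁ y x) (nB : B.Nondegenerate)
    (aB : B.IsAlt) (eq : ∀ x y s t, B (x ⊗ₜ s) (y ⊗ₜ t) = B₁ x y * B₂ s t)
    (d₁ : 4 ≤ finrank F V₁) (hd : (finrank F V₁ : F) ≠ 0)
    (hU : ∀ U : Submodule F V₁, (∀ x ∈ U, B₁ x x = 0) → 2 * finrank F U ≠ finrank F V₁) :
    MaxIn (SpG B) (TenG F V₁ W) := by
  obtain ⟨Q₁, rfl⟩ := exists_quad h2 s₁
  have : Nontrivial W := nontrivial_of_finrank_pos (R := F) (by omega)
  have : Nontrivial V₁ := nontrivial_of_finrank_pos (R := F) (by omega)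
  have d₃ : 3 ≤ finrank F V₁ := by omega
  have hW := isWittPair_quad Q₁ n₁
  have h : WZ (polarBilin Q₁) Q₁ B₂ (fun _ => 0) B (fun _ => 0) (SpG B) :=
    ⟨hW, isWittPair_alt B₂ hB hA, polarG_sp nB aB, eq, fun a b => mem_SpG.2, fun _ _ _ => rfl,
      inferInstance, fun _ _ => rfl, fun _ => mem_SpG.2, cp_alt hB hA⟩
  obtain ⟨u, u0⟩ := exists_ne (0 : W)
  obtain ⟨x, x0, hx⟩ := exists_singular_of_three_le Q₁ d₃
  obtain ⟨y, hy, e⟩ := exists_hyp n₁ x0 hx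
  refine maxIn_of_adm (fun e' => h.not_good hm.ge u0 rfl (s := nU (polarBilin Q₁) x)
    (k := unip (map _ (nU B₂ u)) (LinearMap.ext fun v => by simp [map_nU, hA.self_eq_zero]))
    (fun _ => rfl) (fun c e' => ?_) (.inl (e' (mem_SpG.2 fun v w => ?_)))) fun X hX => ?_
  · have : c = 0 := by simpa [polar_self', hx, x0] using (LinearMap.congr_fun e' x).symm
    simpa [this, e, x0] using LinearMap.congr_fun e' y
  · have a3 := h.form_ext (a := map (nU (polarBilin Q₁) x) (nU B₂ u))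
      (b := -map (nU (polarBilin Q₁) x) (nU B₂ u)) fun x' y s t => by
        simp [eq, ← hA.neg_eq u s, polar_comm Q₁ x' x]
        ring
    rw [unip_apply, unip_apply, map_add, map_add, LinearMap.add_apply, LinearMap.add_apply, a3 v w]
    simp [map_nU, eq, hA.self_eq_zero]
  have w := h.wp hX
  have hG : ∀ g ∈ RGp (polarBilin Q₁) Q₁, lG W g ∈ X := fun g hg =>
    hX.lo ⟨h.congr_isom fun x y s t => by
      simp [← polarBilin_apply_apply, (RGp_le_isom hg).1], lG_mem g⟩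
  have hz : ∀ u, u ≠ 0 → ∀ s, Un X (map s (nU B₂ u)) → ∃ c : F, s = c • 1 := fun u u0 s hs => by
    by_contra e
    refine hX.ne ?_
    replace hs : s ∈ ZS hA h2 X := fun x => by
      by_cases x0 : x = 0
      · simpa [x0, show nU B₂ 0 = 0 from LinearMap.ext fun _ => by simp] using Un.zero
      obtain ⟨b, b1, rfl⟩ := alt_move hB hA u0 x0
      exact w.un_nU hs b1
    have a6 := nU_mem_of_sym n₁ h2 d₁ (Z := ZS hA h2 X) (fun g hg a ha u => (ha u).lG (hG g hg)) hs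
      (w.ZS_adj hB hA h2 hs) e
    let T : Submodule F (End F V₁) :=
      { carrier := {y | ∃ y', (∀ x z, polarBilin Q₁ (y x) z = polarBilin Q₁ x (y' z)) ∧
          y + y' ∈ ZS hA h2 X}
        add_mem' := fun ⟨a, a1, a2⟩ ⟨b, b1, b2⟩ => ⟨a + b, fun x z => by
          simp only [LinearMap.add_apply, map_add, a1, b1],
          by rw [add_add_add_comm]; exact add_mem a2 b2⟩
        zero_mem' := ⟨0, by simp, by simp⟩
        smul_mem' := fun c _ ⟨a, a1, a2⟩ => ⟨c • a, fun x z => by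
          simp only [LinearMap.smul_apply, map_smul, a1],
          by rw [← smul_add]; exact Submodule.smul_mem _ c a2⟩ }
    have a7 : T = ⊤ := eq_top_of_sing hW x0 (by simpa) fun x z x0 z0 hx hz =>
      ⟨(polarBilin Q₁ x).smulRight z, fun a b => by simp [polar_comm Q₁ a z, mul_comm],
        all_ind hW x0 hx (P := fun z => (polarBilin Q₁ z).smulRight x +
          (polarBilin Q₁ x).smulRight z ∈ ZS hA h2 X)
          (fun a b ha hb => by convert add_mem ha hb using 1; ext; simp [add_smul]; abel)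
          (fun c => by
            convert Submodule.smul_mem _ (2 * c) (a6 x x0 hx) using 1
            ext; simp; module)
          (fun t a b => (Submodule.smul_mem_iff _ b).1 (by
            convert ZS_jordan hB hA h2 (a6 x x0 hx) (nU_sq (hW.self_eq_zero hx))
              (a6 t (by rintro rfl; simp at b) a) using 1
            ext; simp [polar_comm Q₁ t x]; module)) z⟩
    refine w.le_of_full (comT_alt aB h2) (by omega) (.inl d₃) ⟨u, u0, rfl⟩ (ε := -1)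
      (fun x y => by simp [hA.neg_eq]) (fun u _ _ A A' e => ?_)
      (eq_top_iff.2 fun A _ u u0 _ v hv => RT.zero.congr fun z hz => ?_)
    · obtain ⟨A'', c1, c2⟩ := (a7.ge trivial : A ∈ T)
      simpa [show A' = A'' from LinearMap.ext fun y => h.ext₁ fun x => by rw [← e, c1]] using c2 u
    obtain ⟨c, rfl⟩ := Submodule.mem_span_singleton.1 (mem_line_two hB hA hm u v u0 hv)
    simp [hz]
  refine OT.le_ten ⟨w, n₁, hB, hA, aB, h2, d₁, hd, hm, hG, fun g hg v v0 u ⟨u0, _⟩ h1 => ?_,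
    fun g hg e => ?_⟩
  swap
  · obtain ⟨U, a1, a2⟩ := exists_ts_of_opp hm hB hA eq (w.isom hg).1 e
    exact hU U a1 a2
  rw [mem_Df_iff] at hg
  refine w.mem_ten u0 rfl v0 (w.isom hg) h1 fun _ b hb e => ?_
  have a0 := mul_mem (w.rad b hb) hg
  generalize rG V₁ b * g = g at a0 e
  have hL : Loc X B₂ v := ⟨hz v v0, fun θ hθ v' hv => by
    obtain ⟨d, rfl⟩ := Submodule.mem_span_singleton.1 (mem_line_two hB hA hm v v' v0 hv)
    exact ⟨0, by simp [hθ.self v0 (hA v)]⟩⟩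
  obtain ⟨α, b, μ, -, -, a2, a3, -⟩ := h.exists_levi v0 rfl hL (w.isom a0)
    (fun c hc => mul_mem (mul_mem (inv_mem a0) (w.rad c hc)) a0)
    (.inr ⟨1, one_ne_zero, tv_alt hA v 1⟩) e
  have a5 := mul_mem (inv_mem (hX.lo ⟨a2, congr_mem_TenG α b⟩)) a0
  obtain ⟨s, hs⟩ := h.eq_of_fix v0 rfl (w.isom a5).1 fun x v' hv => by
    obtain ⟨d, rfl⟩ := Submodule.mem_span_singleton.1 (mem_line_two hB hA hm v v' v0 hv)
    rw [← smul_tmul, a3]
  obtain ⟨d, rfl⟩ := hz v v0 s (un_of_eq (hA v) a5 hs)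
  simpa using mul_mem (congr_mem_TenG α b) (mem_ten_of_eq (hA v) hs)

omit [Finite F] in
open Cfsg Cfsg.Geo Matrix in
theorem isMaximalIn_sp_two_four [Fintype F] (hodd : Odd (Fintype.card F))
    {e : (Fin 4 ⊕ Fin 4) ≃ Fin 2 × Fin 4} {P : GL (Fin 4 ⊕ Fin 4) F}
    {f₁ : (Fin 2 → F) → (Fin 2 → F) → F} {f₂ : (Fin 4 → F) → (Fin 4 → F) → F}
    (hf₁ : IsSymplecticForm f₁) (hf₂ : IsSymmetricForm f₂)
    (hm : ¬ IsPlusTypeOn (fun v : Fin 4 → F => f₂ v v) ⊤)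
    (hT : IsTensorFormStructure id (sympForm 4 F) f₁ f₂ e P) :
    IsMaximalIn (spGL 4 F) (tensorProductSubgroup 2 4 e P ⊓ spGL 4 F) := by
  obtain ⟨B₁, a1, a2, a3⟩ := exists_alt hf₁
  obtain ⟨B₂, b1, b2, b3⟩ := exists_sym hf₂
  have hA := sympBilin_isAlt (F := F) 4
  have h2 := Geom.two_ne_zero_of_odd_card hodd
  obtain ⟨κ, c, c0, h1, -, h3⟩ := exists_ten (σ := RingHom.id F) (B := -sympBilin 4 F)
    (fun u v => by simp [← sympBilin_apply, hA.neg_eq]) a1 b1 hT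
  exact sp_of_pull (κ := (TensorProduct.comm F _ _).trans κ) (sp_maxIn_os_minus
    (smul_nondeg a2 (neg_ne_zero.2 c0)) (fun x => by simp [a3.self_eq_zero]) (by simp) h2 b2 b3
    (pull_nondeg (sympBilin_nondegenerate 4) _)
    (fun x => hA _) (fun x y s t => by simpa [neg_eq_iff_eq_neg, mul_comm] using h1 s t x y)
    (by simp) (by simpa [show (4 : F) = 2 * 2 by norm_num] using h2)
    fun U c1 c2 => hm ⟨U, le_top, fun x hx => by simpa [b1] using c1 x hx, by simpa using c2⟩)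
    (mem_spGL_iff 4) fun g => (h3 g).trans (autCongr_comm_mem _).symm

end CF.MaxSub
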