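import Cfsg.Agent.MaxSub.TM
import Cfsg.Agent.MaxSub.F3R
import Cfsg.Agent.MaxSub.OrthB
import Cfsg.Agent.Geom.K2D
import Cfsg.Agent.Geom.FrO5
import Cfsg.Agent.Geom.UC2
import Cfsg.Agent.Geom.MaxTSP2
import Cfsg.Agent.Geom.C5C

/-! Matrix forms of the orthogonal maximality theorems, for the low-dimensional tables. -/

set_option autoImplicit false

namespace CF.MaxSub

open Cfsg Cfsg.Geo CF.Geom Module QuadraticMap

variable {F : Type*} [Field F] [Fintype F] {n : ℕ} {Q : (Fin n → F) → F}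
  (hQ : IsNondegenerateQuadraticForm Q)
include hQ

theorem tabO_ts (hn : 5 ≤ n) {W : Submodule F (Fin n → F)} (hW0 : W ≠ ⊥)
    (hW : IsTotallySingularQuad Q W) (hex : 2 * (finrank F W + 1) = n → ¬ IsPlusTypeOn Q ⊤) :
    IsMaximalIn (omegaGL Q) (subspaceStabilizer W ⊓ omegaGL Q) := by
  obtain ⟨Q, rfl, hQ'⟩ := exists_quadraticForm hQ
  exact (omega_maxIn_ts hQ' (by simpa) hW0 hW fun ⟨e, U, h1, h2⟩ => hex (by simpa using e)
    ⟨U, le_top, h2, by rwa [finrank_top]⟩).isMaximalIn (Geom.glEquiv _ F) (mem_omegaGL_iff Q)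
    (mem_subspaceStabilizer_iff W)

theorem tabO_odd (hn : 7 ≤ n) (he : Even n) (hodd : Odd (Fintype.card F))
    {W : Submodule F (Fin n → F)} (hW0 : W ≠ ⊥) (hW1 : W ≠ ⊤) (ho : Odd (finrank F W))
    (hd : 2 * finrank F W ≠ n) (hW : IsNondegenerateOn (polar Q) W) :
    IsMaximalIn (omegaGL Q) (subspaceStabilizer W ⊓ omegaGL Q) := by
  obtain ⟨Q, rfl, hQ'⟩ := exists_quadraticForm hQ
  have hf := (isWittPair_quad Q hQ').finrank_perp W
  simp only [finrank_fintype_fun_eq_card, Fintype.card_fin] at hf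
  refine (omega_maxIn_nondeg_odd' hQ' (Geom.two_ne_zero_of_odd_card hodd) (by simpa) hW0 hW1
    (disjoint_perp_of_nondegOn (Or.inl fun _ _ => rfl) hW) (fun g _ => map_ne_perp_of_finrank hQ'
      (by simpa using hd) g) ?_).isMaximalIn (Geom.glEquiv _ F) (mem_omegaGL_iff Q)
    (mem_subspaceStabilizer_iff W)
  obtain ⟨k, hk⟩ := he
  obtain ⟨j, hj⟩ := ho
  rintro U (rfl | rfl) h3 <;> omega

theorem tabO_small {W : Submodule F (Fin n → F)} (h0 : 0 < finrank F W)
    (hd : 2 * finrank F W < n) (hn : finrank F W + 6 ≤ n) (hW : IsNondegenerateOn (polar Q) W)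
    (hc : finrank F W = 2 → 4 ≤ Fintype.card F ∨ ¬ IsPlusTypeOn Q W) :
    IsMaximalIn (omegaGL Q) (subspaceStabilizer W ⊓ omegaGL Q) := by
  obtain ⟨Q, rfl, hQ'⟩ := exists_quadraticForm hQ
  have hf := (isWittPair_quad Q hQ').finrank_perp W
  simp only [finrank_fintype_fun_eq_card, Fintype.card_fin] at hf
  refine (omega_maxIn_nondeg hQ' (by rintro rfl; simp at h0)
    (disjoint_perp_of_nondegOn (Or.inl fun _ _ => rfl) hW) (by omega) (fun g _ e => ?_)
    fun e => (hc e).imp (by rw [Nat.card_eq_fintype_card]; omega) fun h w hw q =>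
      by_contra fun w0 => h (isPlusTypeOn_of_singular e hw q w0)).isMaximalIn (Geom.glEquiv _ F)
    (mem_omegaGL_iff Q) (mem_subspaceStabilizer_iff W)
  have := Submodule.finrank_mono e
  rw [LinearEquiv.finrank_map_eq] at this
  omega

theorem tabO_half (hn : 8 ≤ n) (hm : ¬ IsPlusTypeOn Q ⊤) {W : Submodule F (Fin n → F)}
    (hd : 2 * finrank F W = n) (he : Even (finrank F W)) (hW : IsNondegenerateOn (polar Q) W) :
    IsMaximalIn (omegaGL Q) (subspaceStabilizer W ⊓ omegaGL Q) := by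
  obtain ⟨Q, rfl, hQ'⟩ := exists_quadraticForm hQ
  have h := isWittPair_quad Q hQ'
  have hW' : Disjoint W (perp (polarBilin Q) W) :=
    disjoint_perp_of_nondegOn (Or.inl fun _ _ => rfl) hW
  have key : ∀ U, Disjoint U (perp (polarBilin Q) U) → 2 * finrank F U = n → Even (finrank F U) →
      ∀ g ∈ OG Q, U.map (g : (Fin n → F) →ₗ[F] (Fin n → F)) ≠ perp (polarBilin Q) U :=
    fun U h1 _ h3 g hg e => by
      obtain ⟨φ, hφ⟩ := exists_isometry_of_map_eq hg e
      obtain ⟨U, h1, h2⟩ := isPlus_of_isom_perp hQ' h1 h3 φ hφ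
      exact hm ⟨U, le_top, h2, by rwa [finrank_top]⟩
  have hf := h.finrank_perp W
  simp only [finrank_fintype_fun_eq_card, Fintype.card_fin] at hf
  have h0 : W ≠ ⊥ := by rintro rfl; simp at hd; omega
  have h1 : W ≠ ⊤ := by rintro rfl; simp at hd; omega
  refine MaxIn.isMaximalIn (Geom.glEquiv _ F) ?_ (mem_omegaGL_iff Q) (mem_subspaceStabilizer_iff W)
  by_cases h12 : 12 ≤ n
  · exact omega_maxIn_nondeg' hQ' (by simpa) h0 h1 hW' (key W hW' hd he)
      (by rintro U (rfl | rfl) e <;> omega)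
  by_cases h2 : (2 : F) = 0
  swap
  · exact omega_maxIn_nondeg_odd' hQ' h2 (by simp; omega) h0 h1 hW' (key W hW' hd he)
      (by rintro U (rfl | rfl) e <;> omega)
  obtain ⟨k, hk⟩ := he
  have key' : ∀ U, Disjoint U (perp (polarBilin Q) U) → finrank F U = 4 → ¬ IsPlusTypeOn Q U →
      MaxIn (OmG Q) (subStab U) := fun U h1 h3 h4 => by
    have hf := h.finrank_perp U
    simp only [finrank_fintype_fun_eq_card, Fintype.card_fin] at hf
    exact omega_maxIn_nondeg_two hQ' h2 h1 h3.ge (by omega) (fun g hg e => key U h1 (by omega)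
      ⟨2, h3⟩ g hg (Submodule.eq_of_le_of_finrank_le e (by rw [LinearEquiv.finrank_map_eq]; omega)))
      fun _ => noTS2_of_not_plus h3 h4
  by_cases hp : IsPlusTypeOn Q W
  · refine (key' _ (h.disjoint_perp_perp hW') (by omega) fun ⟨Y, b1, b2, b3⟩ => ?_).congr
      fun g hg => h.subStab_perp_iff (OmG_le hg)
    obtain ⟨X, a1, a2, a3⟩ := hp
    have := Submodule.finrank_sup_add_finrank_inf_eq X Y
    rw [(hW'.mono a1 b1).eq_bot, finrank_bot] at this
    refine hm ⟨X ⊔ Y, le_top, fun v hv => ?_, by simp; omega⟩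
    obtain ⟨x, hx, y, hy, rfl⟩ := Submodule.mem_sup.1 hv
    rw [quad_add, a2 x hx, b2 y hy]
    simpa using mem_perp.1 (b1 hy) x (a1 hx)
  · exact key' W hW' (by omega) hp

theorem tabO_point (hn : 7 ≤ n) {v : Fin n → F} (hv : Q v ≠ 0) :
    IsMaximalIn (omegaGL Q) (subspaceStabilizer (Submodule.span F {v}) ⊓ omegaGL Q) := by
  obtain ⟨Q, rfl, hQ'⟩ := exists_quadraticForm hQ
  exact (omega_maxIn_point hQ' (by simpa) (by rintro rfl; simp at hv)).isMaximalIn
    (Geom.glEquiv _ F) (mem_omegaGL_iff Q) (mem_subspaceStabilizer_iff _)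

theorem tabO_frame (hn : 9 ≤ n) {p : ℕ} (hp : p.Prime) (ho : Odd p) (e : Fintype.card F = p) {t : ℕ}
    {D : Fin t → Submodule F (Fin n → F)} (hD : IsOrthogonalMDecomposition Q 1 D) :
    IsMaximalIn (omegaGL Q) (decompositionStabilizer D ⊓ omegaGL Q) := by
  obtain ⟨Q, rfl, hQ'⟩ := exists_quadraticForm hQ
  exact (omega_maxIn_frame (odec_quad hQ' hD) (by simpa [e] using hp)
    (Geom.two_ne_zero_of_odd_card (e ▸ ho)) (by simp; omega) (by simp; omega)).isMaximalIn
    (Geom.glEquiv _ F) (mem_omegaGL_iff Q) (mem_decompositionStabilizer_iff D)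

theorem tabO_plus {t k : ℕ} {D : Fin t → Submodule F (Fin n → F)}
    (hD : IsOrthogonalMDecomposition Q k D) (hp : ∀ i, IsPlusTypeOn Q (D i)) :
    IsPlusTypeOn Q ⊤ := by
  obtain ⟨φ, h1, -, h3⟩ := exists_FD_quad hQ
  have h : φ.IsQ Q := ⟨h1, hQ.smul, fun u v => by rw [h3, polar]; ring⟩
  have := h.pl_sup_all (h3 ▸ hD.decomp) hp Finset.univ
  rwa [Finset.sup_univ_eq_iSup, hD.decomp.decomp.iSup_eq_top] at this

theorem tabO_pair (hodd : Odd (Fintype.card F)) {k : ℕ} (hk : 2 * k = n) (h4 : 4 ≤ k)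
    {D : Fin 2 → Submodule F (Fin n → F)} (hD : IsNondegenerateMDecomposition (polar Q) k D)
    (hni : ¬ AreIsometricFor Q (D 0) (D 1)) :
    IsMaximalIn (omegaGL Q) (decompositionStabilizer D ⊓ omegaGL Q) := by
  obtain ⟨Q, rfl, hQ'⟩ := exists_quadraticForm hQ
  have h := isWittPair_quad Q hQ'
  have hf := h.finrank_perp (D 0)
  have h0 := hD.decomp.finrank_eq 0
  have h1 := hD.decomp.finrank_eq 1
  have hV : finrank F (Fin n → F) = n := by simp
  have e1 : D 1 = perp (polarBilin Q) (D 0) :=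
    Submodule.eq_of_le_of_finrank_eq (le_perp_of_orthogonalFor h.isRefl
      (Or.inl fun _ _ => rfl) (hD.orthogonal 0 1 (by decide))) (by omega)
  have hne : ∀ g ∈ OG Q, (D 0).map (g : (Fin n → F) →ₗ[F] (Fin n → F)) ≠ D 1 :=
    fun g hg e => hni (exists_isometry_of_map_eq hg e)
  refine ((omega_maxIn_nondeg_odd' hQ' (Geom.two_ne_zero_of_odd_card hodd) (by omega) (W := D 0)
    (fun e => by rw [e, finrank_bot] at h0; omega) (fun e => by rw [e, finrank_top] at h0; omega)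
    (disjoint_perp_of_nondegOn (Or.inl fun _ _ => rfl) (hD.nondegenerate 0)) (e1 ▸ hne) ?_).congr
    (H' := decStab D) fun g hg => ⟨fun e => ?_, ?_⟩).isMaximalIn
    (Geom.glEquiv _ F) (mem_omegaGL_iff Q) (mem_decompositionStabilizer_iff D)
  · rintro U (rfl | rfl) h2 <;> omega
  · refine mem_decStab_of_subStab fun i => ?_
    fin_cases i
    · exact e
    · change g ∈ subStab (D 1)
      rw [e1]; exact subStab_perp (OmG_le hg) e
  · rintro ⟨s, hs⟩
    have := hs 0
    generalize s 0 = j at this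
    fin_cases j
    · exact this
    · exact absurd this (hne g (OmG_le hg))

theorem tabO_tsp {k : ℕ} (h5 : 5 ≤ k) (he : Even k) {D : Fin 2 → Submodule F (Fin n → F)}
    (hD : IsMDecomposition k D) (hts : ∀ i, IsTotallySingularQuad Q (D i)) :
    IsMaximalIn (omegaGL Q) (decompositionStabilizer D ⊓ omegaGL Q) := by
  obtain ⟨Q, rfl, hQ'⟩ := exists_quadraticForm hQ
  exact (omega_maxIn_tsp
    (tsp_of (isWittPair_quad Q hQ') hD (fun i x hx => by simpa using hts i x hx)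
      fun i x hx y hy => polar_eq_zero_of_totally_singular (hts i) hx hy)
    (by rwa [hD.finrank_eq]) (by rwa [hD.finrank_eq])).isMaximalIn (Geom.glEquiv _ F)
    (mem_omegaGL_iff Q) (mem_decompositionStabilizer_iff D)

theorem tabO_sub (hn : 7 ≤ n) {F₀ : Subfield F} {r : ℕ} {P : GL (Fin n) F} {ζ : F} (hr : r.Prime)
    (hcard : Fintype.card F = Nat.card F₀ ^ r) (hζ : ζ ≠ 0)
    (hP : IsQuadFormRationalStructure (fun v : Fin n → F => ζ * Q v) F₀ P) :
    IsMaximalIn (omegaGL Q) (subfieldSubgroup F₀ P ⊓ omegaGL Q) := by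
  obtain ⟨Q, rfl, hQ'⟩ := exists_quadraticForm hQ
  exact (omega_maxIn_RG (ε := (Geom.glEquiv _ F P).symm) hQ' (by simpa) hr
    (by rw [← hcard, Nat.card_eq_fintype_card]) hζ
    (fun x hx => rat_of_quadStructure hP hx)).isMaximalIn (Geom.glEquiv _ F)
    (mem_omegaGL_iff Q) (mem_subfieldSubgroup_iff P)

end CF.MaxSub
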