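/-
Overgroups of `ΓU_3(q^r) ∩ SU_{3r}(q)` in `SU_{3r}(q)`: the stabiliser of an isotropic point.
-/
import Cfsg.Agent.MaxSub.UF4

set_option autoImplicit false

namespace CF.MaxSub

open Module Geom

variable {F K V : Type*} [Field F] [Field K] [Algebra F K]
  [AddCommGroup V] [Module F V] [Module K V] [IsScalarTower F K V] {σ : F →+* F} {τ : K →+* K}
  {B : V →ₛₗ[σ] V →ₗ[F] F} {Bk : V →ₛₗ[τ] V →ₗ[K] K} {ν : Dual F K} {X : Subgroup (V ≃ₗ[F] V)}

/-- A hyperbolic pair and a non-isotropic vector spanning `V`. -/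
structure U3B (Bk : V →ₛₗ[τ] V →ₗ[K] K) (u f w : V) : Prop where
  uu : Bk u u = 0
  ff : Bk f f = 0
  uf : Bk u f = 1
  fu : Bk f u = 1
  uw : Bk u w = 0
  wu : Bk w u = 0
  wf : Bk w f = 0
  ww : Bk w w ≠ 0
  perp : ∀ x, Bk u x = 0 → ∃ a c : K, x = a • u + c • w

namespace UK

variable (h : UK B Bk ν X)
include h

theorem exists_U3B (hd : finrank K V = 3) {u : V} (u0 : u ≠ 0) (hu : Bk u u = 0) :
    ∃ f w, U3B Bk u f w := by
  have := h.fin
  obtain ⟨f, hf, e⟩ := h.exists_hyp u0 hu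
  have e' := h.hk.flip_one e
  have h4 := h.witt.finrank_perp (Submodule.span K {u, f})
  have h5 := IsWittPair.finrank_span_pair_le (F := K) u f
  obtain ⟨w, hw, w0⟩ := exists_nonisotropic_mem (.inl h.hk.ne_id) h.hk.symm
    (h.witt.disjoint_perp_perp (h.witt.disjoint_hyperbolic hu hf (e ▸ one_ne_zero))) fun e' => by
      rw [e', finrank_bot] at h4
      omega
  obtain ⟨a1, a2⟩ := mem_perp_pair.1 hw
  refine ⟨f, w, hu, hf, e, e', a1, h.hk.refl a1, h.hk.refl a2, w0, fun x hx => ?_⟩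
  have h6 := h.witt.finrank_perp (K ∙ u)
  rw [finrank_span_singleton u0] at h6
  obtain ⟨a, c, e⟩ := Submodule.mem_span_pair.1 ((Submodule.eq_of_le_of_finrank_eq
    (S₁ := Submodule.span K {u, w}) (S₂ := perp Bk (K ∙ u)) (fun x hx => mem_perp_singleton.2 (by
      obtain ⟨a, b, rfl⟩ := Submodule.mem_span_pair.1 hx
      simp [hu, a1])) (by
      rw [finrank_span_pair (linearIndependent_pair_of_notMem u0 fun e => by
        obtain ⟨c, rfl⟩ := Submodule.mem_span_singleton.1 e
        simp [hu] at w0)]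
      omega)).ge (mem_perp_singleton.2 hx))
  exact ⟨a, c, e.symm⟩

variable {u f w : V} (b : U3B Bk u f w)
include b

theorem eich_mem {a c : K} (hc : c + τ c = Bk (a • w) (a • w)) :
    ∃ e ∈ X, ∀ x, e x = uEichMap Bk u (a • w) c x :=
  have := h.fin
  ⟨_, h.memS (uEichSub_le_suSub h.hk (uEich_mem h.hk b.uu (by simp [b.uw]) hc)), fun _ => rfl⟩

theorem comm_form {z : End F V} (hz : ∀ a c : K, c + τ c = Bk (a • w) (a • w) → ∀ x,
      z (uEichMap Bk u (a • w) c x) = uEichMap Bk u (a • w) c (z x)) :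
    ∃ (s : K) (C : End F K), ∀ x, z x = s • x + C (Bk u x) • u := by
  have u0 : u ≠ 0 := fun e => by simpa [e] using b.uf
  obtain ⟨c, c0, hc⟩ := exists_skew_ne_zero h.hk.ne_id h.hk.invol
  have h1 : ∀ k : K, z (k • u) = (c * Bk u (z ((k / c) • f))) • u := fun k => by
    have := hz 0 c (by simp [hc]) ((k / c) • f)
    rw [uEichMap_apply, uEichMap_apply] at this
    simpa [b.uf, mul_div_cancel₀ _ c0] using this
  have h2 : ∀ k : K, Bk w (z (k • u)) = 0 := fun k => by rw [h1]; simp [b.wu]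
  have h3 : ∀ a k : K, ∃ c, z ((k * a) • w) - z ((c * k) • u) = (Bk u (z (k • f)) * a) • w -
      (τ a * Bk w (z (k • f))) • u - (c * Bk u (z (k • f))) • u := fun a k => by
    obtain ⟨c, hc⟩ := h.hk.exists_trace (a • w)
    have := hz a c hc (k • f)
    rw [uEichMap_apply, uEichMap_apply] at this
    simp only [map_add, map_sub, map_smul, LinearMap.map_smulₛₗ₂, b.uf, b.wf,
      smul_eq_mul, mul_one, mul_zero, zero_smul, map_zero, sub_zero, smul_smul] at this
    exact ⟨c, by linear_combination (norm := module) this⟩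
  have h4 : ∀ a k : K, Bk w (z ((k * a) • w)) = Bk u (z (k • f)) * a * Bk w w := fun a k => by
    obtain ⟨c, e⟩ := h3 a k
    simpa [h2, b.wu] using congrArg (Bk w) e
  obtain ⟨s, hs⟩ : ∃ s, s = Bk u (z f) := ⟨_, rfl⟩
  have h5 : ∀ k : K, Bk u (z (k • f)) = s * k := fun k => mul_right_cancel₀ b.ww (by
    have := h4 k 1
    rw [one_mul, one_smul, ← hs] at this
    rw [← this, ← mul_one (Bk u _), ← h4, mul_one])
  have h6 : ∀ k : K, z (k • u) = (s * k) • u := fun k => by
    rw [h1, h5, mul_left_comm, mul_div_cancel₀ _ c0]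
  have h7 : ∀ a k : K, z ((k * a) • w) = (s * k * a) • w - (τ a * Bk w (z (k • f))) • u :=
    fun a k => by
    obtain ⟨c, e⟩ := h3 a k
    rw [h5, h6] at e
    linear_combination (norm := module) e
  have h8 : ∀ k : K, Bk w (z (k • f)) = 0 := fun k => by
    obtain ⟨ω, hω⟩ := h.exists_omega
    have e1 := h7 1 k
    have e2 := h7 (algebraMap F K ω) k
    rw [mul_one, mul_one, map_one] at e1
    rw [mul_comm, mul_smul, algebraMap_smul, map_smul, e1, h.tau, ← algebraMap_smul K] at e2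
    exact (mul_eq_zero.1 ((smul_eq_zero_iff_left u0).1 (show ((algebraMap F K (σ ω) -
      algebraMap F K ω) * Bk w (z (k • f))) • u = 0 by
        linear_combination (norm := module) e2))).resolve_left
      (sub_ne_zero.2 fun e => hω ((algebraMap F K).injective e))
  let C : End F K := (Bk f).restrictScalars F ∘ₗ (z - (LinearMap.lsmul K V s).restrictScalars F) ∘ₗ
    (LinearMap.toSpanSingleton K V f).restrictScalars F
  refine ⟨s, C, fun x => ?_⟩
  obtain ⟨a, d, e⟩ := b.perp (x - Bk u x • f) (by simp [b.uf])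
  obtain ⟨a', d', e'⟩ := b.perp (z (Bk u x • f) - s • Bk u x • f) (by simp [b.uf, h5])
  have e1 := congrArg (Bk w) e'
  have e2 : C (Bk u x) = a' := by
    change Bk f (z (Bk u x • f) - s • Bk u x • f) = a'
    simp [e', b.fu, h.hk.refl b.wf]
  simp only [map_sub, h8, map_smul, b.wf, map_add, b.wu, sub_zero, zero_add,
    smul_eq_mul, mul_zero] at e1
  have e3 := congrArg z e
  have e4 := h7 1 d
  rw [map_sub, map_add, h6, ← mul_one d, e4, h8] at e3
  rw [(mul_eq_zero.1 e1.symm).resolve_right b.ww] at e'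
  rw [e2]
  linear_combination (norm := module) e3 + e' - s • e

variable (hZ : ∀ φ ∈ ZU X Bk u, ∃ k, φ = mL F k)
include hZ

theorem linZ {y : V ≃ₗ[F] V} (hy : y ∈ X) (e : ∀ x, Bk u x = 0 → y x = x) (k : K) (x : V) :
    y (k • x) = k • y x := by
  have := h.fin
  have h1 : ∀ x, y x - x = Bk f (y x - x) • u := fun x => by
    have : y x - x ∈ K ∙ u := (h.witt.perp_perp (K ∙ u)).le (mem_perp.2 fun w hw =>
      h.perp_iff.1 fun k => by
        have h2 := e (k • w) (by simp [mem_perp_singleton.1 hw])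
        rw [map_sub]
        conv_lhs => rw [← h2, h.isom hy, h2, sub_self])
    obtain ⟨c, hc⟩ := Submodule.mem_span_singleton.1 this
    rw [← hc]
    simp [b.fu]
  let φ : End F K := (Bk f).restrictScalars F ∘ₗ (y.toLinearMap - 1) ∘ₗ
    (LinearMap.toSpanSingleton K V f).restrictScalars F
  have h2 : ∀ x, y x = x + zn Bk u φ x := fun x => by
    have := e (x - Bk u x • f) (by simp [b.uf])
    rw [map_sub, show y (Bk u x • f) = Bk u x • f + φ (Bk u x) • u from eq_add_of_sub_eq' (h1 _),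
      sub_eq_iff_eq_add] at this
    rw [this, zn_apply]
    abel
  obtain ⟨c, hc⟩ := hZ φ (un_of_apply (fun v => by simp [zn_apply, b.uu]) hy h2)
  simp [h2, hc, zn_apply, smul_smul, mul_left_comm]

theorem linQ {y : V ≃ₗ[F] V} (hy : y ∈ X) (e1 : ∀ k : K, y (k • u) = k • u)
    (e2 : ∀ x, Bk u x = 0 → ∃ a : K, y x = x + a • u) (k : K) (x : V) : y (k • x) = k • y x := by
  have u0 : u ≠ 0 := fun e => by simpa [e] using b.uf
  have e3 : ∀ k : K, y⁻¹ (k • u) = k • u := fun k => by nth_rw 1 [← e1]; rw [inv_apply_apply]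
  have lin : ∀ k : K, y (k • w) = k • y w := fun k => by
    obtain ⟨s, C, hs⟩ := h.comm_form b (z := (y⁻¹ : V ≃ₗ[F] V).toLinearMap ∘ₗ
      (LinearMap.lsmul K V k).restrictScalars F ∘ₗ y.toLinearMap) fun a c hc v => by
      obtain ⟨e, he, e'⟩ := h.eich_mem b hc
      have e4 : ∀ k : K, e (k • u) = k • u := fun k => by simp [e', uEichMap_apply, b.uu, b.wu]
      have := h.linZ b hZ (mul_mem (mul_mem (mul_mem hy he) (inv_mem hy)) (inv_mem he))
        (fun x hx => by
          obtain ⟨a', ha⟩ := e2 x hx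
          have e5 : e x = x - Bk (a • w) x • u := by simp [e', uEichMap_apply, hx]
          have e6 : e⁻¹ x = x + Bk (a • w) x • u := e.injective (by
            rw [apply_inv_apply, map_add, e4, e5, sub_add_cancel])
          have e7 : y⁻¹ x = x - a' • u := y.injective (by
            rw [apply_inv_apply, map_sub, e1, ha, add_sub_cancel_right])
          simp only [LinearEquiv.mul_apply, e6, e7, map_add, map_sub, e1, e3, e4, e5, ha]
          abel) k (e (y v))
      have e5 : e⁻¹ (k • e (y v)) = k • y v := e.injective (by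
        rw [apply_inv_apply, e', e', map_smul])
      simp only [LinearEquiv.mul_apply, e5, inv_apply_apply] at this
      rw [← e', ← e']
      exact y.injective ((apply_inv_apply ..).trans this.symm)
    have e4 : ∀ x, k • y x = y (s • x + C (Bk u x) • u) := fun x =>
      ((congrArg y (hs x)).symm.trans (apply_inv_apply ..)).symm
    have e5 := e4 u
    rw [b.uu, map_zero, zero_smul, add_zero, e1, ← one_smul K u, e1, one_smul] at e5
    rw [e4, b.uw, map_zero, zero_smul, add_zero, smul_left_injective K u0 e5]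
  obtain ⟨a, ha⟩ := e2 w b.uw
  obtain ⟨c, hc⟩ := h.hk.exists_trace (τ (-a / Bk w w) • w)
  obtain ⟨e, he, e'⟩ := h.eich_mem b hc
  have := h.linZ b hZ (mul_mem (inv_mem he) hy) (fun x hx => e.injective (by
    obtain ⟨a', d, rfl⟩ := b.perp x hx
    rw [LinearEquiv.mul_apply, apply_inv_apply, map_add, e1, lin, ha, e', uEichMap_apply, hx]
    simp only [map_add, map_smul, LinearMap.map_smulₛₗ₂, b.wu, h.hk.invol, smul_eq_mul]
    match_scalars <;> field_simp [b.ww] <;> ring)) k x
  rw [← apply_inv_apply e (y (k • x)), ← apply_inv_apply e (y x), e', e' (e⁻¹ _), ← map_smul]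
  exact congrArg _ this

theorem stab3 [Finite K] {g : V ≃ₗ[F] V} (hg : g ∈ X) (e : ∀ k : K, g (k • u) ∈ K ∙ u) :
    g ∈ SemiG F K V := by
  have u0 : u ≠ 0 := fun e => by simpa [e] using b.uf
  have : Nontrivial V := ⟨u, 0, u0⟩
  have := h.finF
  have e' : ∀ k : K, g⁻¹ (k • u) ∈ K ∙ u := fun k =>
    (mem_map_equiv' (g := g)).1 ((Submodule.eq_of_le_of_finrank_eq
      (S₁ := ((K ∙ u).restrictScalars F).map g.toLinearMap) (S₂ := (K ∙ u).restrictScalars F) (by
        rintro _ ⟨v, hv, rfl⟩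
        obtain ⟨c, rfl⟩ := Submodule.mem_span_singleton.1 hv
        exact e c) (LinearEquiv.finrank_map_eq ..)).ge (Submodule.smul_mem _ k
          (Submodule.mem_span_singleton_self u)))
  have L : ∀ {g}, g ∈ X → (∀ k : K, g (k • u) ∈ K ∙ u) → (∀ k : K, g⁻¹ (k • u) ∈ K ∙ u) →
      (∀ x, Bk u x = 0 → Bk u (g x) = 0) ∧ ∀ κ : K, ∃ (s : K) (C : End F K), ∀ x,
        g (κ • g⁻¹ x) = s • x + C (Bk u x) • u := fun {g} hg e e' => by
    have p : ∀ {g}, g ∈ X → (∀ k : K, g⁻¹ (k • u) ∈ K ∙ u) → ∀ x, Bk u x = 0 → Bk u (g x) = 0 :=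
      fun {g} hg e' x hx => h.perp_iff.1 fun k => by
        obtain ⟨c, hc⟩ := Submodule.mem_span_singleton.1 (e' k)
        rw [← apply_inv_apply g (k • u), h.isom hg, ← hc]
        exact h.perp_iff.2 hx c
    refine ⟨p hg e', fun κ => h.comm_form b (z := g.toLinearMap ∘ₗ
      (LinearMap.lsmul K V κ).restrictScalars F ∘ₗ (g⁻¹ : V ≃ₗ[F] V).toLinearMap) fun a c hc v => ?_⟩
    obtain ⟨t, ht, t'⟩ := h.eich_mem b hc
    have := h.linQ b hZ (mul_mem (mul_mem (inv_mem hg) ht) hg) (fun k => by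
      obtain ⟨c, hc⟩ := Submodule.mem_span_singleton.1 (e k)
      rw [LinearEquiv.mul_apply, LinearEquiv.mul_apply, show t (g (k • u)) = g (k • u) by
        simp [← hc, t', uEichMap_apply, b.uu, b.wu], inv_apply_apply]) (fun x hx => by
      obtain ⟨d, hd⟩ := Submodule.mem_span_singleton.1 (e' (-Bk (a • w) (g x)))
      refine ⟨d, g.injective ?_⟩
      simp [apply_inv_apply, hd, t', uEichMap_apply, p hg e' x hx, sub_eq_add_neg,
        -LinearEquiv.coe_inv]) κ (g⁻¹ v)
    rw [← t', ← t']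
    simp only [LinearEquiv.mul_apply, apply_inv_apply] at this
    exact (congrArg g this.symm).trans (apply_inv_apply ..)
  obtain ⟨p, L1⟩ := L hg e e'
  obtain ⟨p', L2⟩ := L (inv_mem hg) e' (by simpa only [inv_inv] using e)
  refine mem_semiG fun κ => ?_
  obtain ⟨s, C, hs⟩ := L1 κ
  have key : ∀ μ : K, τ μ = μ → μ ≠ 0 → ∀ c, μ * C (μ * c) = C c := fun μ hμ μ0 c => by
    obtain ⟨m, D, hm⟩ := L2 μ
    rw [inv_inv] at hm
    have m1 : ∀ k : K, g⁻¹ (μ • g (k • u)) = m • k • u := fun k => by simp [hm, b.uu]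
    have m0 : m ≠ 0 := fun e => by simpa [e, μ0, u0] using m1 1
    have m2 : τ m = m := sub_eq_zero.1 (eq_zero_of_nu h.nu fun k => by
      have a1 := h.isom hg (g⁻¹ (μ • g (τ k • u))) f
      rw [apply_inv_apply, h.adj, hμ, ← apply_inv_apply g (μ • g f), h.isom hg, hm, m1] at a1
      simp only [h.eq, map_add, map_smul, LinearMap.map_smulₛₗ₂, b.uu, b.uf, h.hk.invol,
        smul_eq_mul, mul_one, mul_zero, add_zero] at a1
      rw [mul_sub, map_sub, mul_comm k, mul_comm k, a1, sub_self])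
    have := h.fin
    have dm : ∀ {a : K}, a ≠ 0 → τ a = a → ∃ t : V ≃ₗ[K] V, t.restrictScalars F ∈ X ∧
        t u = a • u ∧ t f = a⁻¹ • f ∧ ∀ x, Bk u x = 0 → ∃ d : K, t x = x + d • u := fun a0 ha =>
      ⟨(uDil h.hk b.uu b.ff b.uf (Units.mk0 _ a0)).1, h.memS (mem_suSub.2 (by
        simp [det_uDil, ha, a0])), uDil_left .., by simp [uDil_right, ha], fun x hx =>
          ⟨_, by rw [uDil_apply, hx, mul_zero, zero_smul, add_zero]⟩⟩
    obtain ⟨t, ht, t1, t2, t3⟩ := dm μ0 hμ
    obtain ⟨t', ht', t1', -, t3'⟩ := dm (inv_ne_zero m0) (by rw [map_inv₀, m2])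
    have lin := h.linQ b hZ (mul_mem (mul_mem (mul_mem (inv_mem hg) ht) hg) ht') (fun k => by
        obtain ⟨c, hc⟩ := Submodule.mem_span_singleton.1 (e (k * m⁻¹))
        have := m1 (k * m⁻¹)
        simp only [LinearEquiv.mul_apply, LinearEquiv.restrictScalars_apply, map_smul, t1',
          smul_smul k, ← hc, t1] at this ⊢
        rw [smul_comm, this, smul_smul, mul_left_comm, mul_inv_cancel₀ m0, mul_one])
      (fun x hx => by
        obtain ⟨d, hd⟩ := t3' x hx
        obtain ⟨d', hd'⟩ := t3 (g (t' x)) (p _ (by simp [hd, hx, b.uu]))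
        obtain ⟨c, hc⟩ := Submodule.mem_span_singleton.1 (e' d')
        refine ⟨d + c, ?_⟩
        simp only [LinearEquiv.mul_apply, LinearEquiv.restrictScalars_apply]
        rw [hd', map_add, inv_apply_apply, hd, ← hc, add_smul, add_assoc]) κ
        (t'.symm (g⁻¹ ((μ * c) • f)))
    simp only [LinearEquiv.mul_apply, LinearEquiv.restrictScalars_apply, map_smul t',
      LinearEquiv.apply_symm_apply, apply_inv_apply] at lin
    have e1 := congrArg (fun x => Bk f (g x)) lin
    simp only [apply_inv_apply, hs, map_add, map_smul, t1, t2, b.ff, b.fu, b.uf, smul_eq_mul,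
      mul_one, mul_zero, zero_add] at e1
    rw [mul_comm μ (C _), e1, mul_right_comm, mul_inv_cancel₀ μ0, one_mul]
  obtain ⟨μ, m1, m2⟩ := h.exists_mu
  have m3 : μ ≠ 0 := by simpa using m2 0
  have m4 : μ + 1 ≠ 0 := fun e => m2 (-1) (by simpa using eq_neg_of_add_eq_zero_left e)
  have C0 : ∀ c, C c = 0 := fun c => by
    have e1 := key μ m1 m3 c
    have e2 := key (μ + 1) (by simp [m1]) m4 c
    rw [add_mul μ 1 c, map_add, one_mul] at e2
    exact (mul_eq_zero.1 (show (μ * μ + μ + 1) * C c = 0 by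
      linear_combination μ * e2 - (μ + 1) * e1)).resolve_left (quad_ne_zero h.prime h.three m2)
  exact ⟨s, fun v => by simpa [C0, inv_apply_apply, -LinearEquiv.coe_inv] using hs (g v)⟩

end UK

end CF.MaxSub
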