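/-
Maximality of `ΓU_3(q^r) ∩ SU_{3r}(q)` in `SU_{3r}(q)`.
-/
import Cfsg.Agent.MaxSub.UF5

set_option autoImplicit false
set_option linter.unusedSectionVars false

namespace CF.MaxSub

open Module Geom

theorem rep_fix_nc {F G M A : Type*} [Field F] [Group G] [AddCommGroup M] [Module F M] [Fintype A]
    (ρ : Representation F G M) {X : Subgroup G} [Finite X] {Γ : M} {e : A → G}
    (inj : Function.Injective e) (e0 : ∃ a, e a = 1) (hi : ∀ a, ∃ c, e c * e a = 1)
    (hm : ∀ a b, ∃ c, e c = e a * e b) (hX : ∀ a, e a ∈ X) (h0 : ∀ a, ρ (e a) Γ = Γ)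
    (hs : ∀ x ∈ X, ∑ a, ρ (e a) (ρ x Γ) = 0)
    (hf : ∀ x ∈ X, ∀ a, ρ (e a) (ρ x Γ) = ρ x Γ → e a = 1 ∨ ρ x Γ = Γ) {x : G} (hx : x ∈ X) :
    ρ x Γ = Γ := by
  classical
  have := Fintype.ofFinite X
  have e2 : ∀ a, ∃ c, e c * e a = 1 ∧ ∀ γ, ρ (e c) (ρ (e a) γ) = γ := fun a =>
    (hi a).imp fun c hc => ⟨hc, fun γ => by rw [← End.mul_apply, ← map_mul, hc, map_one]; rfl⟩
  let O : Finset M := Finset.univ.image fun y : X => ρ y Γ
  have hO : ∀ γ, γ ∈ O ↔ ∃ y ∈ X, ρ y Γ = γ := fun γ => by simp [O]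
  have h1 : ∀ y ∈ X, ∀ γ ∈ O, ρ y γ ∈ O := fun y hy γ h => by
    obtain ⟨z, hz, rfl⟩ := (hO γ).1 h
    exact (hO _).2 ⟨y * z, mul_mem hy hz, by simp⟩
  let R : Setoid M := ⟨fun γ δ => ∃ a, γ = ρ (e a) δ, fun γ => e0.imp fun a ha => by simp [ha],
    by rintro _ δ ⟨a, rfl⟩; exact (e2 a).imp fun c hc => (hc.2 δ).symm,
    by rintro _ _ δ ⟨a, rfl⟩ ⟨b, rfl⟩; exact (hm a b).imp fun c hc => by simp [hc]⟩
  have h2 : ∑ γ ∈ O.erase Γ, γ = 0 := Finset.sum_cancels_of_partition_cancels R fun γ h => by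
    obtain ⟨h3, h4⟩ := Finset.mem_erase.1 h
    obtain ⟨y, hy, rfl⟩ := (hO γ).1 h4
    rw [← hs y hy, eq_comm]
    refine Finset.sum_bij (fun a _ => ρ (e a) (ρ y Γ)) (fun a _ => Finset.mem_filter.2
      ⟨Finset.mem_erase.2 ⟨fun e' => h3 ?_, h1 _ (hX a) _ h4⟩, a, rfl⟩) (fun a _ b _ e' => ?_)
      (fun δ hδ => ?_) fun _ _ => rfl
    · obtain ⟨c, -, hc⟩ := e2 a
      rw [← hc (ρ y Γ), e', h0]
    · obtain ⟨c, c1, c2⟩ := e2 b
      obtain ⟨d, hd⟩ := hm c a
      refine inj (mul_left_cancel (a := e c) ?_)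
      rw [c1, ← hd]
      refine (hf y hy d ?_).resolve_right h3
      rw [hd, map_mul, End.mul_apply, e', c2]
    · obtain ⟨a, rfl⟩ := (Finset.mem_filter.1 hδ).2
      exact ⟨a, Finset.mem_univ a, rfl⟩
  have h3 : ∑ γ ∈ O, γ = Γ := by
    rw [← Finset.add_sum_erase O _ ((hO Γ).2 ⟨1, one_mem X, by simp⟩), h2, add_zero]
  conv_lhs => rw [← h3, map_sum]
  refine (Finset.sum_bij (fun γ _ => ρ x γ) (h1 x hx) (fun a _ b _ e' => ?_) (fun δ hδ => ?_)
    fun _ _ => rfl).trans h3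
  · simpa using congrArg (ρ x⁻¹) e'
  · exact ⟨ρ x⁻¹ δ, h1 _ (inv_mem hx) δ hδ, by simp⟩

variable {F K V : Type*} [Field F] [Field K] [Algebra F K]
  [AddCommGroup V] [Module F V] [Module K V] [IsScalarTower F K V] {σ : F →+* F} {τ : K →+* K}
  {B : V →ₛₗ[σ] V →ₗ[F] F} {Bk : V →ₛₗ[τ] V →ₗ[K] K} {ν : Dual F K} {X : Subgroup (V ≃ₗ[F] V)}

theorem le_semiG_of_free_nc [Fintype F] [Finite K] [Finite V] [Nontrivial V] {A ι : Type*}
    [AddCommGroup A] [Module F A] [Finite A] [Fintype ι] {b : A ≃ₗ[F] (ι → F)} {d : ℕ}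
    {e : A → V ≃ₗ[F] V} (inj : Function.Injective e) (e0 : ∃ a, e a = 1)
    (hi : ∀ a, ∃ c, e c * e a = 1) (hm : ∀ a b, ∃ c, e c = e a * e b)
    (hX : ∀ a, e a ∈ X) (h0 : ∀ a, e a ∈ SemiG F K V) (h : PD b d fun a => (e a : End F V))
    (h' : PD b d fun a => ((e a)⁻¹ : V ≃ₗ[F] V).toLinearMap)
    (hd : 4 * d < (Fintype.card F - 1) * Fintype.card ι)
    (hf : ∀ x ∈ X, ∀ a, e a ≠ 1 → x⁻¹ * e a * x ∈ SemiG F K V → x ∈ SemiG F K V) :
    X ≤ SemiG F K V := fun x hx => by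
  classical
  have := Fintype.ofFinite K
  have := Fintype.ofFinite A
  have : Finite (V ≃ₗ[F] V) := .of_injective _ DFunLike.coe_injective
  refine r4_gam_iff.1 (rep_fix_nc (r4 F V) inj e0 hi hm hX (fun a => r4_gam_iff.2 (h0 a))
    (fun x _ => sum_r4 h h' hd _) (fun y hy a e => or_iff_not_imp_left.2 fun a0 =>
      r4_gam_iff.2 (hf y hy a a0 (r4_gam_iff.1 ?_))) hx)
  simp only [map_mul, Module.End.mul_apply, e, Representation.inv_self_apply]

section Sub

variable {S : Subfield F} (hτ : ∀ (c : S) (k : K), τ (c • k) = c • τ k)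

/-- The involution as a linear map over the fixed field. -/
def tauS : K →ₗ[S] K := ⟨⟨τ, map_add τ⟩, hτ⟩

/-- The skew elements. -/
def skS : Submodule S K := LinearMap.ker (tauS hτ + 1)

theorem mem_skS {a : K} : a ∈ skS hτ ↔ τ a + a = 0 := Iff.rfl

theorem skS_neg (a : skS hτ) : τ a = -a := eq_neg_of_add_eq_zero_left a.2

theorem finrank_skS [Finite K] (hH : IsHerm Bk) (h2 : 2 ≤ finrank S F) :
    finrank F K ≤ finrank S (skS hτ) := by
  have : Finite F := .of_injective _ (algebraMap F K).injective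
  obtain ⟨c, c0, hc⟩ := exists_skew_ne_zero hH.ne_id hH.invol
  have h3 := (tauS hτ + 1).finrank_range_add_finrank_ker
  have h4 : finrank S (LinearMap.range (tauS hτ + 1)) ≤ finrank S (skS hτ) :=
    LinearMap.finrank_le_finrank_of_injective (f := ((LinearMap.mulLeft S c) ∘ₗ
      (LinearMap.range (tauS hτ + 1)).subtype).codRestrict _ (by
        rintro ⟨_, k, rfl⟩
        change τ (c * (τ k + k)) + c * (τ k + k) = 0
        rw [map_mul, map_add, hc, hH.invol]
        ring)) fun a b e => Subtype.ext (mul_left_cancel₀ c0 (congrArg Subtype.val e))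
  have h5 := finrank_mul_finrank S F K
  change _ + finrank S (skS hτ) = _ at h3
  nlinarith

include hτ in
theorem pd_eich {A ι : Type*} [AddCommGroup A] [Module S A] {β : A ≃ₗ[S] (ι → S)} {d : ℕ}
    {a c : A → K} {e : A → End S V} {u w : V} (ha : PD β d a) (hc : PD β d c)
    (he : ∀ p x, e p x = uEichMap Bk u (a p • w) (c p) x) : PD β d e := by
  let l : End K V →ₗ[S] End S V := LinearMap.restrictScalarsₗ S K V V S
  let N₁ : K →ₗ[S] End K V :=
    { toFun := fun a => a • (Bk u).smulRight w - τ a • (Bk w).smulRight u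
      map_add' := fun a b => by simp only [map_add, add_smul]; abel
      map_smul' := fun c k => by simp [hτ, smul_sub] }
  let N₂ : K →ₗ[S] End K V :=
    (LinearMap.toSpanSingleton K _ (-(Bk u).smulRight u)).restrictScalars S
  convert ((PD.const 1).add (ha.map (l ∘ₗ N₁))).add (hc.map (l ∘ₗ N₂)) using 2
  ext x
  simp [he, uEichMap_apply, l, N₁, N₂, smul_smul, mul_comm]
  abel

end Sub

theorem U3B.usw {u f w : V} (b : U3B Bk u f w) (a : K) : Bk u (a • w) = 0 := by simp [b.uw]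

namespace UK

variable (h : UK B Bk ν X)
include h

/-- Eichler maps. -/
def eS (S : Subfield F) {u f w : V} (b : U3B Bk u f w) (a c : K)
    (hc : c + τ c = Bk (a • w) (a • w)) : V ≃ₗ[S] V :=
  rsHom S ((uEich h.hk b.uu (b.usw a) hc).1.restrictScalars F)

section

variable {S : Subfield F} {u f w : V} (b : U3B Bk u f w) (a c : K)
  (hc : c + τ c = Bk (a • w) (a • w))

theorem eS_mem : h.eS S b a c hc ∈ X.map (rsHom S) :=
  have := h.fin
  ⟨_, h.memS (uEichSub_le_suSub h.hk (uEich_mem h.hk b.uu (b.usw a) hc)), rfl⟩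

theorem eS_semi : h.eS S b a c hc ∈ SemiG S K V :=
  lin_mem_semiG (uEich h.hk b.uu (b.usw a) hc).1.map_smul

theorem eS_apply (x : V) : h.eS S b a c hc x = uEichMap Bk u (a • w) c x := rfl

theorem eS_inv (x : V) : (h.eS S b a c hc)⁻¹ x = uEichMap Bk u (-a • w) (τ c) x := by
  rw [neg_smul]; rfl

end

variable [Finite K] (hd : finrank K V = 3)
  (hZ : ∀ u, u ≠ 0 → Bk u u = 0 → ∀ φ ∈ ZU X Bk u, ∃ k, φ = mL F k)
include hd hZ

theorem free3 {u : V} (u0 : u ≠ 0) (hu : Bk u u = 0) {x t : V ≃ₗ[F] V} (hx : x ∈ X) {c : K}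
    (c0 : c ≠ 0) (ht : ∀ v, t v = v + (c * Bk u v) • u) (hs : x⁻¹ * t * x ∈ SemiG F K V) :
    x ∈ SemiG F K V := by
  have := h.fin
  have := h.finK
  have := h.finF
  obtain ⟨f, w, b⟩ := h.exists_U3B hd u0 hu
  have e : ∀ v, (x⁻¹ * t * x) v = v + x⁻¹ ((c * Bk u (x v)) • u) := fun v => by
    simp [ht, inv_apply_apply, -LinearEquiv.coe_inv]
  have h4 := (semiG_lin_or h.prime hs).resolve_right fun e' => by
    have a1 := finrank_le_fixSp_add (g := x⁻¹ * t * x) (A := LinearMap.range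
      ((x⁻¹ : V ≃ₗ[F] V).toLinearMap ∘ₗ (LinearMap.toSpanSingleton K V u).restrictScalars F))
      fun v => ⟨_, by rw [e, add_sub_cancel_left]; rfl⟩
    have a2 := LinearMap.finrank_range_le
      ((x⁻¹ : V ≃ₗ[F] V).toLinearMap ∘ₗ (LinearMap.toSpanSingleton K V u).restrictScalars F)
    have a3 := finrank_mul_finrank F K V
    have := h.three
    rw [hd] at a3
    omega
  have h5 : ∀ k : K, ∃ d : K, x (k • x⁻¹ u) = d • u := fun k => by
    have := h4 k (x⁻¹ (c⁻¹ • f))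
    rw [e, e, smul_add, add_right_inj, apply_inv_apply, map_smul (Bk u) c⁻¹, b.uf, smul_eq_mul,
      mul_one, mul_inv_cancel₀ c0, one_smul] at this
    exact ⟨_, by rw [← this, apply_inv_apply]⟩
  obtain ⟨g, hg, a, -, e'⟩ := h.exists_move u0 (u' := x⁻¹ u) (by simpa using u0) hu
    (h.perp_iff.1 fun k => by
      obtain ⟨d, hd⟩ := h5 k
      rw [← h.isom hx, hd, apply_inv_apply]
      exact h.perp_iff.2 hu d)
  simpa using mul_mem (h.stab3 b (hZ u u0 hu) (mul_mem hx hg) fun k => by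
    obtain ⟨d, hd⟩ := h5 (k * a)
    exact Submodule.mem_span_singleton.2 ⟨d, by simp [e', smul_smul, ← hd]⟩)
    (inv_mem (restrict_mem_semiG g.1))

variable {S : Subfield F} (hτ : ∀ (c : S) (k : K), τ (c • k) = c • τ k) (h2 : 2 ≤ finrank S F)
include hτ h2

theorem le_semiG_three (hc : 3 ≤ Nat.card S) : X ≤ SemiG F K V := by
  have : Finite F := .of_injective _ (algebraMap F K).injective
  have := h.fin
  have : Finite V := Module.finite_of_finite K
  obtain ⟨u, u0, hu⟩ := exists_isotropic_of_two_le h.hk.ne_id h.hk.invol h.hk.symm h.two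
  obtain ⟨f, w, b⟩ := h.exists_U3B hd u0 hu
  have : Nontrivial V := ⟨u, 0, u0⟩
  have := Fintype.ofFinite S
  have c1 : ∀ a : skS hτ, a + τ a = Bk ((0 : K) • w) ((0 : K) • w) := fun a => by simp [skS_neg]
  intro x hx
  refine le_semiG_of_free (F := S) (K := K) (X := X.map (rsHom S)) (b := (finBasis S _).equivFun)
    (d := 1) (e := fun a => h.eS S b 0 _ (c1 a)) (fun a a' => ?_) (fun a => h.eS_mem ..)
    (fun a => h.eS_semi ..) (pd_eich hτ (PD.const 0) (PD.lin (skS hτ).subtype)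
      fun _ => h.eS_apply b _ _ _) (pd_eich hτ (PD.const (-0)) (PD.lin (tauS hτ ∘ₗ (skS hτ).subtype))
      fun _ => h.eS_inv b _ _ _) ?_ ?_ ⟨x, hx, rfl⟩
  · ext v
    simp [eS_apply, uEichMap_apply, hu, add_mul, add_smul]
    abel
  · rw [Fintype.card_fin, ← Nat.card_eq_fintype_card]
    exact lt_of_lt_of_le (by norm_num) (Nat.mul_le_mul (show 2 ≤ _ from Nat.le_sub_one_of_lt hc)
      (h.three.trans (finrank_skS hτ h.hk h2)))
  rintro _ ⟨x, hx, rfl⟩ a a0 hs
  exact h.free3 hd hZ u0 hu hx (c := -a) (by simpa using a0)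
    (t := (uEich h.hk hu (b.usw 0) (c1 a)).1.restrictScalars F)
    (fun v => by simp [uEich_apply, sub_eq_add_neg]) hs

theorem le_semiG_three' (hc : (2 : K) = 0) : X ≤ SemiG F K V := by
  have : Finite F := .of_injective _ (algebraMap F K).injective
  have := h.fin
  have : Finite V := Module.finite_of_finite K
  obtain ⟨u, u0, hu⟩ := exists_isotropic_of_two_le h.hk.ne_id h.hk.invol h.hk.symm h.two
  obtain ⟨f, w, b⟩ := h.exists_U3B hd u0 hu
  have : Nontrivial V := ⟨u, 0, u0⟩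
  have := Fintype.ofFinite S
  obtain ⟨β, hβ⟩ := h.hk.exists_trace w
  obtain ⟨n, hn, ⟨γ⟩⟩ : ∃ n, 9 ≤ n ∧ Nonempty ((K × skS hτ) ≃ₗ[S] (Fin n → S)) := by
    have h5 := finrank_mul_finrank S F K
    have h6 := finrank_skS hτ h.hk h2
    have h7 := h.three
    exact ⟨_, by rw [finrank_prod]; nlinarith, ⟨(finBasis S _).equivFun⟩⟩
  obtain ⟨c, c0⟩ : ∃ c : K × skS hτ → K, ∀ p, c p = τ p.1 * p.1 * β + p.2 := ⟨_, fun _ => rfl⟩
  have c1 : ∀ p, c p + τ (c p) = Bk (p.1 • w) (p.1 • w) := fun p => by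
    simp only [c0, map_add, map_mul, skS_neg, h.hk.invol, map_smul, LinearMap.map_smulₛₗ₂,
      smul_eq_mul]
    linear_combination p.1 * τ p.1 * hβ
  have c2 : PD γ 2 c := (((PD.bilin (LinearMap.mul S K)
    (PD.lin (tauS hτ ∘ₗ .fst S K _)) (PD.lin (.fst S K _))).map (LinearMap.mulRight S β)).add
      ((PD.lin ((skS hτ).subtype ∘ₗ .snd S K _)).le one_le_two)).of_eq fun p => (c0 p).symm
  have c3 : ∀ a c', c' + τ c' = Bk (a • w) (a • w) → ∃ p, p.1 = a ∧ c p = c' := fun a c' e =>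
    ⟨(a, ⟨c' - τ a * a * β, by
      have := c1 (a, 0)
      simp only [c0, ZeroMemClass.coe_zero, add_zero] at this
      rw [mem_skS, map_sub]
      linear_combination e - this⟩), rfl, (c0 _).trans (add_sub_cancel ..)⟩
  have c4 : PD γ 2 fun p : K × skS hτ => p.1 :=
    (PD.lin (LinearMap.fst S K (skS hτ))).le one_le_two
  have c5 : PD γ 2 fun p : K × skS hτ => -p.1 :=
    (PD.lin (-LinearMap.fst S K (skS hτ))).le one_le_two
  have c6 : PD γ 2 fun p => τ (c p) := c2.map (tauS hτ)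
  intro x hx
  refine le_semiG_of_free_nc (F := S) (K := K) (X := X.map (rsHom S))
    (b := γ) (d := 2) (e := fun p => h.eS S b p.1 _ (c1 p)) (fun p p' e => ?_)
    ⟨0, LinearEquiv.ext fun v => by simp [eS_apply, c0, uEichMap_apply]⟩ (fun p => ?_)
    (fun p p' => ?_) (fun a => h.eS_mem ..) (fun a => h.eS_semi ..)
    (pd_eich hτ c4 c2 fun p => h.eS_apply b p.1 (c p) _)
    (pd_eich hτ c5 c6 fun p => h.eS_inv b p.1 (c p) _) ?_ ?_ ⟨x, hx, rfl⟩
  · have e1 := LinearEquiv.congr_fun e f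
    have e2 := congrArg (Bk w) e1
    have e3 := congrArg (Bk f) e1
    simp [eS_apply, uEichMap_apply, b.uf, b.wf, b.wu, b.ww, b.fu, h.hk.refl b.wf] at e2 e3
    exact Prod.ext e2 (Subtype.ext (by simpa [c0, e2] using e3))
  · obtain ⟨p', e1, e2⟩ := c3 (-p.1) (τ (c p)) (by simp [h.hk.invol, add_comm, c1, mul_left_comm])
    exact ⟨p', mul_eq_one_iff_eq_inv.2 (LinearEquiv.ext fun v => by
      rw [eS_apply, eS_inv, e1, e2])⟩
  · obtain ⟨p'', e1, e2⟩ := c3 (p.1 + p'.1) _ (by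
      rw [add_smul]; exact uEich_add_cond h.hk (c1 p) (c1 p'))
    exact ⟨p'', LinearEquiv.ext fun v => by
      rw [LinearEquiv.mul_apply, eS_apply, eS_apply, eS_apply,
        uEichMap_comp h.hk hu (b.usw _) (b.usw _), e1, e2, add_smul]⟩
  · have h8 : 1 < Fintype.card S := Fintype.one_lt_card
    rw [Fintype.card_fin]
    exact lt_of_lt_of_le (by norm_num) (Nat.mul_le_mul (show 1 ≤ _ by omega) hn)
  rintro _ ⟨x, hx, rfl⟩ p p0 hs
  by_cases a0 : p.1 = 0
  · refine h.free3 hd hZ u0 hu hx (c := -c p) (fun e => p0 (LinearEquiv.ext fun v => ?_))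
      (t := (uEich h.hk hu (b.usw _) (c1 p)).1.restrictScalars F)
      (fun v => by simp [uEich_apply, sub_eq_add_neg, a0]) hs
    simp [eS_apply, uEichMap_apply, a0, neg_eq_zero.1 e]
  · refine h.free3 hd hZ u0 hu hx (c := Bk (p.1 • w) (p.1 • w)) (by simp [a0, b.ww])
      (t := (uEich h.hk hu (b.usw _) (c1 p)).1.restrictScalars F *
        (uEich h.hk hu (b.usw _) (c1 p)).1.restrictScalars F) (fun v => ?_) ?_
    · refine (uEichMap_comp h.hk hu (b.usw _) (b.usw _) _ _ v).trans ?_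
      rw [← two_smul K, ← two_mul, hc, uEichMap_apply]
      simp only [zero_smul, map_zero, smul_zero, LinearMap.zero_apply, zero_mul, zero_add, add_zero,
        sub_zero]
      linear_combination (norm := module) hc • (-(Bk (p.1 • w) (p.1 • w) * Bk u v)) • u
    · rw [show ∀ t, x⁻¹ * (t * t) * x = x⁻¹ * t * x * (x⁻¹ * t * x) from fun t => by group]
      exact mul_mem hs hs

end UK

theorem su_maxIn_field3 [Fintype F] [Finite K] {q : ℕ} (hF : Fintype.card F = q ^ 2)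
    (hσ : ∀ x, σ x = x ^ q) (hH : IsHerm B) (hB : B.Nondegenerate) (hr : (finrank F K).Prime)
    (h3 : 3 ≤ finrank F K) (hs : ∀ k : K, ∃ k' : K, ∀ x y, B (k • x) y = B x (k' • y))
    (hd : finrank K V = 3) : MaxIn (SUG B) (SemiG F K V) := by
  have : FiniteDimensional F K := .of_finrank_pos hr.pos
  have : FiniteDimensional K V := .of_finrank_pos (by omega)
  have : FiniteDimensional F V := Module.Finite.trans K V
  have : Nontrivial V := Module.nontrivial_of_finrank_pos (R := K) (by omega)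
  have hq := two_le_of_card_eq_sq hF
  have hd2 : 2 ≤ finrank K V := by omega
  obtain ⟨τ, h1, h2⟩ := exists_tau B hB.2 hs
  have h4 : ∀ k, τ (τ k) = k := fun k => by
    obtain ⟨y, hy⟩ := exists_ne (0 : V)
    refine smul_left_injective K hy (sub_eq_zero.1 (hB.2 _ fun x => ?_))
    simp only [map_sub]
    rw [← h1, ← hH.eq, ← h1, hH.eq, sub_self]
  have h5 : τ ≠ RingHom.id K := fun e => hH.ne_id (RingHom.ext fun a =>
    (algebraMap F K).injective (by rw [← h2, e]; rfl))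
  let σ' : F ≃+* F := RingEquiv.ofRingHom σ σ (RingHom.ext hH.invol) (RingHom.ext hH.invol)
  let τ' : K ≃+* K := RingEquiv.ofRingHom τ τ (RingHom.ext h4) (RingHom.ext h4)
  have h6 : (algebraMap F K).comp σ'.toRingHom = τ'.toRingHom.comp (algebraMap F K) :=
    RingHom.ext fun a => (h2 a).symm
  have h7 : ∀ k, Algebra.trace F K (τ k) = σ (Algebra.trace F K k) := fun k => by
    rw [Algebra.trace_eq_of_equiv_equiv σ' τ' h6 k]
    exact (hH.invol _).symm
  have ν0 := Algebra.trace_ne_zero F K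
  obtain ⟨Bk, e⟩ := exists_kform B h1 ν0
  have hS : Bk.IsSymm := ⟨fun x y => sub_eq_zero.1 (eq_zero_of_nu ν0 fun k => by
    have := hH.eq x (τ k • y)
    rw [e, e, ← h7] at this
    simpa [h4, mul_sub, sub_eq_zero] using this)⟩
  have hB' : ∀ x, (∀ y, Bk x y = 0) → x = 0 := fun x h => hB.1 x fun y => by simp [e, h]
  have hH' : IsHerm Bk := ⟨h5, h4, hS⟩
  have h9 := finrank_mul_finrank F K V
  have hK : Nat.card K = (q ^ finrank F K) ^ 2 := by
    rw [Module.natCard_eq_pow_finrank (K := F), Nat.card_eq_fintype_card, hF, ← pow_mul, ← pow_mul,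
      mul_comm]
  have hS1 : Nat.card (σ.eqLocusField (RingHom.id F)) = q := Eq.trans
    (Nat.card_congr (Equiv.subtypeEquivRight fun x => by rw [← hσ]; rfl)) (card_fixed_eq hF)
  have hS2 : 2 = finrank (σ.eqLocusField (RingHom.id F)) F := Nat.pow_right_injective hq (by
    simp only
    rw [← hF, ← hS1, ← Module.natCard_eq_pow_finrank, Nat.card_eq_fintype_card])
  have hρ : ∃ ρ : K, τ ρ * ρ = 1 ∧ (∀ a : F, ρ * ρ ≠ algebraMap F K a) ∧
      (Algebra.norm F (ρ * ρ) = 1 ∨ 3 ≤ finrank K V) := by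
    have h10 : ∀ k : K, k ≠ 0 → τ (τ k / k) * (τ k / k) = 1 := fun k k0 => by simp [h4, k0]
    obtain ⟨k, k0, hk⟩ := exists_pow_not_fix hK h5 (M := 2 * (q + 1)) (by omega)
      (le_trans (by nlinarith [mul_le_mul hq hq]) (Nat.pow_le_pow_right (by omega) h3))
    refine ⟨_, h10 k k0, fun a e => hk ?_, .inr (by omega)⟩
    have e1 : σ a * a = 1 := (algebraMap F K).injective (by
      rw [map_mul, ← h2, ← e, map_mul, mul_mul_mul_comm, h10 k k0, mul_one, map_one])
    rw [map_pow, ← div_eq_one_iff_eq (pow_ne_zero _ k0), ← div_pow, pow_mul, sq, e, ← map_pow,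
      pow_succ, ← hσ, e1, map_one]
  refine ⟨fun hle => ?_, fun M a1 a2 m hm hm' => ?_⟩
  · obtain ⟨a, a0, ha⟩ := exists_isotropic_of_two_le hH.ne_id hH.invol hH.symm
      (show 2 ≤ finrank F V by nlinarith)
    obtain ⟨x, -, hx⟩ := (hH.wittPair hB).exists_hyperbolic a0 (by simpa using ha)
    obtain ⟨s, s0, hs⟩ := exists_skew_ne_zero hH.ne_id hH.invol
    refine notMem_semiG hr (a := a) (b := 0) (x := s⁻¹ • x) (fun x => ?_) ?_ a0 (.inl rfl) ?_
      (hle (mem_SUG_iff.2 (mem_suSub.2 (det_uTrans hH ha hs))))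
    · simpa [uTrans_apply] using
        Submodule.smul_mem _ (s * B a x) (Submodule.subset_span (s := {a, 0}) (by simp))
    · simp [uTrans_apply, hx, s0]
    · have := finrank_span_zero_le (F := F) a
      nlinarith
  have h : UK B Bk _ M := ⟨hH, hB, hH', ⟨hB', fun y h => hB' y fun x => hH'.refl (h x)⟩, ν0, e, h2,
    h7, hr, h3, hd2, a2, a1, hρ⟩
  by_contra hc
  have hZ : ∀ u, u ≠ 0 → Bk u u = 0 → ∀ φ ∈ ZU M Bk u, ∃ k, φ = mL F k := fun u u0 hu φ hφ =>
    by_contra fun e => hc (h.le_of_nonlin u0 hu hφ (by simpa using e))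
  by_cases q2 : q = 2
  · subst q2
    have := charP_of_card_eq_prime_pow hF
    exact hm' (h.le_semiG_three' hd hZ h.tau_fix hS2.le (by
      rw [← map_ofNat (algebraMap F K) 2, show (2 : F) = 0 from CharP.cast_eq_zero F 2, map_zero]) hm)
  exact hm' (h.le_semiG_three hd hZ h.tau_fix hS2.le (by omega) hm)

open Matrix Cfsg Cfsg.Geo in
theorem isMaximalIn_su_field3 {F : Type*} [Field F] [Fintype F] {n q r : ℕ}
    (hF : Fintype.card F = q ^ 2) (hr : r.Prime) (h3 : 3 ≤ r)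
    (hd : n = r * 3) {K : Subalgebra F (Matrix (Fin n) (Fin n) F)}
    (hK : IsFieldSubalgebra r K) (hs : IsAdjointClosedFor (hermForm n F q) K) :
    IsMaximalIn (GU n F q ⊓ specialLinear (Fin n) F)
      (subalgebraNormalizer K ⊓ (GU n F q ⊓ specialLinear (Fin n) F)) := by
  have : Nonempty (Fin n) := ⟨⟨0, by omega⟩⟩
  obtain ⟨σ, hσ, a1, a2⟩ := exists_conj hF
  have hH := isHerm_hermSesq (ι := Fin n) a1 a2
  refine isMaximalIn_field hK (mem_SU_iff hσ) fun L _ _ _ _ _ _ h1 h2 h4 h5 =>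
    su_maxIn_field3 hF hσ hH (hermSesq_nondegenerate σ) (h1 ▸ hr) (h1 ▸ h3) (fun k => ?_) ?_
  · obtain ⟨z, hz, e⟩ := h4 k
    obtain ⟨z', hz', e'⟩ := hs z hz
    obtain ⟨k', e''⟩ := h5 z' hz'
    refine ⟨k', fun x y => ?_⟩
    rw [e, e'', ← hH.eq, ← hermForm_eq hσ, e', hermForm_eq hσ, hH.eq]
  · rw [Fintype.card_fin] at h2
    exact Nat.eq_of_mul_eq_mul_left hr.pos (h2.trans hd)

end CF.MaxSub
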