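/-
Tensor powers: the standard model.
-/
import Cfsg.Agent.MaxSub.WU
import Cfsg.Agent.MaxSub.Quad

set_option autoImplicit false

namespace CF.MaxSub

open Module Geom TensorProduct Matrix Cfsg Cfsg.Geo

variable {F : Type*} [Field F] {ι κ : Type} [Fintype ι] [DecidableEq ι] [Fintype κ] [DecidableEq κ]
  {n : ℕ} {σ : F →+* F}

theorem tp_ind {τ : Type} [Fintype τ] [DecidableEq τ] {P : ((τ → κ) → F) → Prop}
    (hadd : ∀ a b, P a → P b → P (a + b)) (hs : ∀ (c : F) a, P a → P (c • a)) (h : ∀ x, P (tp x))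
    (v : (τ → κ) → F) : P v := by
  rw [pi_eq_sum_univ' v]
  exact Finset.sum_induction _ P hadd (by simpa using hs 0 _ (h 0)) fun z _ =>
    hs _ _ (tp_single (F := F) z ▸ h _)

theorem tp_ext {τ : Type} [Fintype τ] [DecidableEq τ] {W M : Type*} [AddCommGroup W] [Module F W]
    [AddCommGroup M] [Module F M] {f g : ((τ → κ) → F) ⊗[F] W →ₗ[F] M}
    (h : ∀ x w, f (tp x ⊗ₜ w) = g (tp x ⊗ₜ w)) : f = g :=
  TensorProduct.ext' fun x w => tp_ind (P := fun x => f (x ⊗ₜ w) = g (x ⊗ₜ w))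
    (fun a b ha hb => by simp [add_tmul, ha, hb]) (fun c a ha => by simp [← smul_tmul', ha])
    (h · w) x

variable (F κ n) in
/-- Splitting off the first factor. -/
noncomputable def pL : ((Fin n → κ) → F) ⊗[F] (κ → F) ≃ₗ[F] ((Fin (n + 1) → κ) → F) :=
  (tenEquiv F _ _).symm.trans (LinearEquiv.funCongrLeft F F
    ((Fin.consEquiv fun _ => κ).symm.trans (Equiv.prodComm _ _)))

omit [DecidableEq κ] in
theorem pL_tmul (x : Fin n → κ → F) (w : κ → F) : pL F κ n (tp x ⊗ₜ w) = tp (Fin.cons w x) :=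
  funext fun z => (tenEquiv_symm_tmul _ _ _).trans (by
    simp [tp, Fin.prod_univ_succ, mul_comm, Fin.tail])

/-- The factors. -/
noncomputable def pψ {τ : Type} [Fintype τ] [DecidableEq τ] (j : τ) :
    End F (κ → F) →ₐ[F] End F ((τ → κ) → F) :=
  (toLinAlgEquiv'.toAlgHom.comp (fac j)).comp LinearMap.toMatrixAlgEquiv'.toAlgHom

theorem pψ_tp {τ : Type} [Fintype τ] [DecidableEq τ] (j : τ) (a : End F (κ → F))
    (x : τ → κ → F) : pψ j a (tp x) = tp (Function.update x j (a (x j))) := by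
  refine (pure_mulVec _ x).trans (funext fun z => Finset.prod_congr rfl fun i _ => ?_)
  by_cases e : i = j
  · subst e
    simp [LinearMap.toMatrixAlgEquiv', ← toLin'_apply]
  · simp [e]

theorem pc_pψ {τ : Type} [Fintype τ] [DecidableEq τ] : PC (pψ (F := F) (κ := κ) (τ := τ)) :=
  fun _ _ e _ _ => (map_mul toLinAlgEquiv' _ _).symm.trans
    ((congrArg _ (fac_commute e _ _)).trans (map_mul toLinAlgEquiv' _ _))

theorem cen_pψ {τ : Type} [Fintype τ] [DecidableEq τ] (c : End F ((τ → κ) → F))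
    (h : ∀ i : τ, c ∈ Cm (pψ (F := F) (κ := κ) i)) : c ∈ F ∙ (1 : End F ((τ → κ) → F)) := by
  obtain ⟨c, rfl⟩ := toLinAlgEquiv'.surjective c
  obtain ⟨d, rfl⟩ := scalar_of_commute_fac (z := c) fun a i j => toLinAlgEquiv'.injective (by
    simpa [pψ, LinearMap.toMatrixAlgEquiv', toLinAlgEquiv', End.mul_eq_comp] using
      (mem_Cm.1 (h a) (toLin' (single i j 1))).symm)
  exact Submodule.mem_span_singleton.2 ⟨d, by simp⟩

variable (F κ n) in
/-- Matrices as endomorphisms of the tensor product. -/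
noncomputable def pΘ : Matrix (Fin (n + 1) → κ) (Fin (n + 1) → κ) F ≃ₐ[F]
    End F (((Fin n → κ) → F) ⊗[F] (κ → F)) :=
  toLinAlgEquiv'.trans ((pL F κ n).symm.conjAlgEquiv F)

theorem pΘ_apply (m : Matrix (Fin (n + 1) → κ) (Fin (n + 1) → κ) F) (v) :
    pΘ F κ n m v = (pL F κ n).symm (m *ᵥ pL F κ n v) := rfl

theorem pΘ_fac (i : Fin (n + 1)) (m : Matrix κ κ F) :
    pΘ F κ n (fac i m) = aF pψ (finSuccEquiv n i) (toLin' m) := tp_ext fun x w => by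
  have := pψ_tp i (toLin' m) (Fin.cons w x)
  rw [pψ, AlgHom.comp_apply, show LinearMap.toMatrixAlgEquiv'.toAlgHom (toLin' m) = m from
    LinearMap.toMatrix'_toLin' m] at this
  rw [pΘ_apply, pL_tmul, LinearEquiv.symm_apply_eq]
  refine this.trans ?_
  cases i using Fin.cases with
  | zero => simp [aF, pL_tmul]
  | succ j => simp [aF, pL_tmul, pψ_tp, Fin.cons_update]

variable (F κ n) in
/-- Invertible matrices as automorphisms of the tensor product. -/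
noncomputable def pG : GL (Fin (n + 1) → κ) F ≃*
    (((Fin n → κ) → F) ⊗[F] (κ → F) ≃ₗ[F] ((Fin n → κ) → F) ⊗[F] (κ → F)) :=
  (Geom.glEquiv _ F).trans (autCongr (pL F κ n).symm)

theorem adG_pG (g : GL (Fin (n + 1) → κ) F) (m : Matrix (Fin (n + 1) → κ) (Fin (n + 1) → κ) F) :
    adG (pG F κ n g) (pΘ F κ n m) = pΘ F κ n (cj g m) := by
  rw [adG_eq, ← map_inv, cj_apply, map_mul, map_mul]; rfl

theorem adG_glEquiv (g : GL κ F) (m : Matrix κ κ F) :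
    adG (Geom.glEquiv κ F g) (toLin' m) = toLin' (cj g m) := by
  rw [adG_eq, ← map_inv, cj_apply, toLin'_mul, toLin'_mul]; rfl

theorem pG_mem {k : ℕ} [NeZero k] (g : GL (Fin (n + 1) → Fin k) F) :
    pG F _ n g ∈ WrG (aF pψ) ↔ g ∈ tensorWreathStandard k (n + 1) F := by
  rw [mem_tensorWreathStandard]
  refine ⟨fun ⟨s, hs⟩ => ?_, ?_⟩
  · refine (exists_eq_pure_perm g ((finSuccEquiv n).symm.permCongr s) fun a i j => ?_).imp
      fun _ e => ⟨_, e⟩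
    obtain ⟨b, hb⟩ := hs (finSuccEquiv n a)
    obtain ⟨b, rfl⟩ := (Geom.glEquiv _ F).surjective b
    exact ⟨cj b (single i j 1), (pΘ F _ n).injective (by
      rw [← adG_pG, pΘ_fac, hb, adG_glEquiv, pΘ_fac]; simp)⟩
  rintro ⟨a, s, rfl⟩
  refine ⟨(finSuccEquiv n).permCongr s, fun i => ?_⟩
  obtain ⟨i, rfl⟩ := (finSuccEquiv n).surjective i
  refine ⟨Geom.glEquiv _ F (a (s i)), fun m => ?_⟩
  obtain ⟨m, rfl⟩ := toLin'.surjective m
  rw [← pΘ_fac, map_mul, ← adG_adG, adG_pG, adG_pG, cj_permGL_fac, cj_pureGL_fac, pΘ_fac,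
    adG_glEquiv]
  simp

variable (F κ) in
/-- The swaps. -/
noncomputable def pπ (j : Fin n) := pG F κ n (permGL κ F (Equiv.swap 0 j.succ))

theorem adG_pπ (j : Fin n) (i : Fin (n + 1)) (a : End F (κ → F)) :
    adG (pπ F κ j) (aF pψ (finSuccEquiv n i) a) =
      aF pψ (finSuccEquiv n (Equiv.swap 0 j.succ i)) a := by
  obtain ⟨m, rfl⟩ := toLin'.surjective a
  rw [← pΘ_fac, pπ, adG_pG, cj_permGL_fac, pΘ_fac]

theorem pL_pπ (j : Fin n) (x : Fin n → κ → F) (w : κ → F) :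
    pL F κ n (pπ F κ j (tp x ⊗ₜ w)) = tp (Fin.cons w x ∘ Equiv.swap 0 j.succ) := by
  simp only [pπ, pG, MulEquiv.trans_apply, autCongr_apply, LinearEquiv.symm_symm, pL_tmul,
    LinearEquiv.apply_symm_apply, glEquiv_apply]
  exact permGL_mulVec_pure _ _

theorem ws_of {B₁ : ((Fin n → κ) → F) →ₛₗ[σ] ((Fin n → κ) → F) →ₗ[F] F} {Q₁ B₂ Q₂ B Q G}
    (h : WZ B₁ Q₁ B₂ Q₂ B Q G) [NeZero n] (hI : ∀ j, pπ F κ j ∈ Isom B Q)
    (com : ∀ a ∈ Isom B Q, ∀ b ∈ Isom B Q, a * b * a⁻¹ * b⁻¹ ∈ G) (two : 2 ≤ Fintype.card κ)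
    (ex : ∃ u, u ≠ 0 ∧ Q₂ u = Q₂ 0) : WS B₁ Q₁ B₂ Q₂ B Q G pψ (pπ F κ) :=
  ⟨h, pc_pψ, cen_pψ, hI, com, fun j a => by simpa [aF] using adG_pπ j 0 a,
    fun j a => by simpa [aF] using adG_pπ j j.succ a, fun i j e a => by
      simpa [aF, Equiv.swap_apply_of_ne_of_ne, e] using adG_pπ j i.succ a,
    inferInstance, by simpa using two, ex⟩

theorem exists_B₁ {τ : Type} [Fintype τ] [DecidableEq τ] {W : Type*} [AddCommGroup W] [Module F W]
    [FiniteDimensional F W] [Nontrivial W]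
    {B : ((τ → κ) → F) ⊗[F] W →ₛₗ[σ] ((τ → κ) → F) ⊗[F] W →ₗ[F] F} (n₁ : B.Nondegenerate)
    {B₂ : W →ₛₗ[σ] W →ₗ[F] F} (n₂ : B₂.Nondegenerate) {β : (τ → κ → F) → (τ → κ → F) → F}
    (h : ∀ x y s t, B (tp x ⊗ₜ s) (tp y ⊗ₜ t) = β x y * B₂ s t) :
    ∃ B₁ : ((τ → κ) → F) →ₛₗ[σ] ((τ → κ) → F) →ₗ[F] F, B₁.Nondegenerate ∧
      (∀ x y s t, B (x ⊗ₜ s) (y ⊗ₜ t) = B₁ x y * B₂ s t) ∧ ∀ x y, B₁ (tp x) (tp y) = β x y := by
  obtain ⟨s₀, hs⟩ := exists_ne (0 : W)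
  obtain ⟨t₀, ht⟩ := exists_apply_eq_one (φ := B₂ s₀) fun e => hs (n₂.1 s₀ fun y => by simp [e])
  have H : ∀ x y s t, B (x ⊗ₜ s) (y ⊗ₜ t) = B (x ⊗ₜ s₀) (y ⊗ₜ t₀) * B₂ s t := fun x y s t =>
    tp_ind (P := fun x => B (x ⊗ₜ s) (y ⊗ₜ t) = B (x ⊗ₜ s₀) (y ⊗ₜ t₀) * B₂ s t)
      (fun a b ha hb => by simp only [add_tmul, map_add, LinearMap.add_apply, ha, hb, add_mul])
      (fun c a ha => by
        simp only [← smul_tmul', LinearMap.map_smulₛₗ₂, ha, smul_eq_mul, mul_assoc])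
      (fun x => tp_ind (P := fun y => B (tp x ⊗ₜ s) (y ⊗ₜ t) = B (tp x ⊗ₜ s₀) (y ⊗ₜ t₀) * B₂ s t)
        (fun a b ha hb => by simp only [add_tmul, map_add, ha, hb, add_mul])
        (fun c a ha => by simp only [← smul_tmul', map_smul, ha, smul_eq_mul, mul_assoc])
        (fun y => by simp [h, ht]) y) x
  refine ⟨(B.comp (tr s₀)).compl₂ (tr t₀),
    ⟨fun x e => tmul_left_inj (F := F) hs ((n₁.1 _ fun v => ?_).trans (zero_tmul _ _).symm),
      fun x e => tmul_left_inj (F := F) hs ((n₁.2 _ fun v => ?_).trans (zero_tmul _ _).symm)⟩, H,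
    fun x y => by simp [h, ht]⟩ <;>
  induction v with
  | zero => simp
  | add a b ha hb => simp [ha, hb]
  | tmul y t => exact (H ..).trans (mul_eq_zero_of_left (e y) _)

theorem pπ_isom {B : ((Fin n → κ) → F) ⊗[F] (κ → F) →ₛₗ[σ] ((Fin n → κ) → F) ⊗[F] (κ → F) →ₗ[F] F}
    {j : Fin n} (h : ∀ x y s t, B (pπ F κ j (tp x ⊗ₜ s)) (pπ F κ j (tp y ⊗ₜ t)) =
      B (tp x ⊗ₜ s) (tp y ⊗ₜ t)) (v w) : B (pπ F κ j v) (pπ F κ j w) = B v w := by
  induction v with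
  | zero => simp
  | add a b ha hb => simp [ha, hb]
  | tmul x s =>
    exact tp_ind (P := fun x => B (pπ F κ j (x ⊗ₜ s)) (pπ F κ j w) = B (x ⊗ₜ s) w)
      (fun a b ha hb => by simp [add_tmul, ha, hb]) (fun c a ha => by simp [← smul_tmul', ha])
      (fun x => LinearMap.congr_fun (tp_ext (f := B _ ∘ₗ (pπ F κ j).toLinearMap) (h x · s)) w) x

theorem mem_wreath_iff {k : ℕ} [NeZero k] (e : ι ≃ (Fin (n + 1) → Fin k)) (P g : GL ι F) :
    g ∈ tensorWreathSubgroup k (n + 1) e P ↔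
      autCongr ((pL F _ n).trans (crd e P)).symm (Geom.glEquiv ι F g) ∈ WrG (aF pψ) := by
  rw [mem_tensorWreathSubgroup, ← pG_mem]
  refine iff_of_eq (congrArg (· ∈ WrG _) (LinearEquiv.ext fun v => ?_))
  simp [pG, autCongr_apply, mulVec_crd, coe_coordGL]

theorem exists_pow {k : ℕ} [NeZero k] {f : (ι → F) → (ι → F) → F}
    {f₂ : (Fin k → F) → (Fin k → F) → F} {B : (ι → F) →ₛₗ[σ] (ι → F) →ₗ[F] F}
    {B₂ : (Fin k → F) →ₛₗ[σ] (Fin k → F) →ₗ[F] F} (h : ∀ u v, f u v = B v u)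
    (h₂ : ∀ u v, f₂ u v = B₂ v u) (n₀ : B.Nondegenerate) (n₂ : B₂.Nondegenerate)
    {e : ι ≃ (Fin (n + 1) → Fin k)} {P : GL ι F} (hT : IsTensorPowerFormStructure σ f f₂ e P) :
    ∃ (l : ((Fin n → Fin k) → F) ⊗[F] (Fin k → F) ≃ₗ[F] (ι → F))
      (B₁ : ((Fin n → Fin k) → F) →ₛₗ[σ] ((Fin n → Fin k) → F) →ₗ[F] F), B₁.Nondegenerate ∧
      (∀ x y s t, pull B l (x ⊗ₜ s) (y ⊗ₜ t) = B₁ x y * B₂ s t) ∧
      (∀ j v w, pull B l (pπ F _ j v) (pπ F _ j w) = pull B l v w) ∧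
      (∀ v, l v = P.val *ᵥ (pL F _ n v ∘ e)) ∧
      (∃ c, ∀ x y, B₁ (tp x) (tp y) = c * ∏ i, B₂ (x i) (y i)) ∧
      ∀ g, g ∈ tensorWreathSubgroup k (n + 1) e P ↔
        autCongr l.symm (Geom.glEquiv ι F g) ∈ WrG (aF pψ) := by
  obtain ⟨c, c0, hc⟩ := hT
  have H : ∀ x y, B (crd e P (tp x)) (crd e P (tp y)) = c * ∏ i, B₂ (x i) (y i) := fun x y => by
    rw [← h, crd_apply, crd_apply, hc]
    simp only [← formOfGram_gram h₂, formOfGram, tp, map_prod, ← Finset.prod_mul_distrib,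
      Finset.prod_univ_sum, Fintype.piFinset_univ]
  obtain ⟨B₁, a1, a2, a3⟩ := exists_B₁ (pull_nondeg n₀ ((pL F _ n).trans (crd e P))) n₂
    (β := fun x y => c * ∏ i, B₂ (x i) (y i)) fun x y s t => by
      simp only [pull_apply, LinearEquiv.trans_apply, pL_tmul, H, Fin.prod_univ_succ, Fin.cons_zero,
        Fin.cons_succ]
      ring
  refine ⟨_, B₁, a1, a2, fun j => pπ_isom fun x y s t => ?_, fun _ => rfl, ⟨c, a3⟩,
    mem_wreath_iff e P⟩
  simp only [pull_apply, LinearEquiv.trans_apply, pL_pπ, pL_tmul, H]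
  exact congrArg _ (Equiv.prod_comp (Equiv.swap 0 j.succ) fun i =>
    B₂ (Fin.cons (α := fun _ => Fin k → F) s x i) (Fin.cons (α := fun _ => Fin k → F) t y i))

variable [Fintype F]

theorem exists_fixed {q : ℕ} (hF : Fintype.card F = q ^ 2) (s1 : ∀ x, σ x = x ^ q) (h : q ≠ 2) :
    ∃ c : F, c ≠ 0 ∧ c ≠ 1 ∧ σ c = c := by
  by_contra! hc
  refine h (le_antisymm ?_ (two_le_of_card_eq_sq hF))
  rw [← card_fixed_eq hF]
  exact (Set.ncard_le_ncard (s := {x : F | x ^ q = x}) (t := {0, 1}) fun c e => by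
    by_contra! h
    simp only [Set.mem_insert_iff, Set.mem_singleton_iff, not_or] at h
    exact hc c h.1 h.2 ((s1 c).trans e)).trans (Set.ncard_pair zero_ne_one).le

theorem isMaximalIn_su_tensor' {n q n₁ n₂ : ℕ} (hF : Fintype.card F = q ^ 2) (h12 : n₁ < n₂)
    (h1 : 3 ≤ n₁ ∨ n₁ = 2 ∧ q ≠ 2) {e : Fin n ≃ Fin n₁ × Fin n₂} {P : GL (Fin n) F}
    {f₁ : (Fin n₁ → F) → (Fin n₁ → F) → F} {f₂ : (Fin n₂ → F) → (Fin n₂ → F) → F}
    (hf₁ : IsUnitaryFormPow q f₁) (hf₂ : IsUnitaryFormPow q f₂)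
    (hT : IsTensorFormStructure (fun x : F => x ^ q) (hermForm n F q) f₁ f₂ e P) :
    IsMaximalIn (GU n F q ⊓ specialLinear (Fin n) F)
      (tensorProductSubgroup n₁ n₂ e P ⊓ (GU n F q ⊓ specialLinear (Fin n) F)) := by
  obtain ⟨σ, s1, s2, s3⟩ := exists_conj hF
  obtain ⟨B₁, a1, a2, a3⟩ := exists_sesq s2 s3 hf₁.add_left hf₁.smul_left
    (fun v w => by rw [s1, hf₁.herm]) hf₁.nondegenerate
  obtain ⟨B₂, b1, b2, b3⟩ := exists_sesq s2 s3 hf₂.add_left hf₂.smul_left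
    (fun v w => by rw [s1, hf₂.herm]) hf₂.nondegenerate
  obtain ⟨κ, c, c0, c1, -, c3⟩ := exists_ten (hermForm_eq s1) a1 b1 (funext s1 ▸ hT)
  have hS := hermSesq_isSymm (ι := Fin n) s3
  have c4 : σ c = c := by
    obtain ⟨x, x0, -⟩ := exists_isotropic_of_two_le s2 s3 a2.symm (by simp; omega)
    obtain ⟨s, s0, -⟩ := exists_isotropic_of_two_le s2 s3 b2.symm (by simp; omega)
    obtain ⟨y, hy⟩ := exists_apply_eq_one (φ := B₁ x) fun e => x0 (a3.1 x fun y => by simp [e])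
    obtain ⟨t, ht⟩ := exists_apply_eq_one (φ := B₂ s) fun e => s0 (b3.1 s fun y => by simp [e])
    simpa [c1, hy, ht, a2.flip_one hy, b2.flip_one ht] using hS.eq (κ (x ⊗ₜ s)) (κ (y ⊗ₜ t))
  refine (su_maxIn_ten' (B₁ := c • B₁) (B := pull (hermSesq (Fin n) σ) κ) b2 b3 (by simp; omega)
    (h1.imp (by simp; omega) fun h => exists_fixed hF s1 h.2)
    ⟨s2, s3, ⟨fun x y => by simp [c4, a2.eq]⟩⟩ (smul_nondeg a3 c0)
    ⟨s2, s3, ⟨fun x y => hS.eq _ _⟩⟩ (pull_nondeg (hermSesq_nondegenerate σ) κ) c1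
    (h1.imp (by simp) fun h => ⟨by simp [h.1], exists_fixed hF s1 h.2⟩)
    (by simpa using h12)).isMaximalIn
    ((Geom.glEquiv _ F).trans (autCongr κ.symm)) (fun g => ?_) c3
  rw [mem_SU_iff s1, Subgroup.mem_inf, Subgroup.mem_inf, mem_UG, mem_UG, ← pull_isom κ]
  exact and_congr Iff.rfl (autCongr_mem_SLG κ.symm _).symm

theorem isMaximalIn_su_pow {n q k t : ℕ} (hF : Fintype.card F = q ^ 2) (hk : 3 ≤ k) (ht : 2 ≤ t)
    (hex : ¬ (q = 2 ∧ k = 3)) {e : Fin n ≃ (Fin t → Fin k)} {P : GL (Fin n) F}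
    {f₂ : (Fin k → F) → (Fin k → F) → F} (hf₂ : IsUnitaryFormPow q f₂)
    (hT : IsTensorPowerFormStructure (fun x : F => x ^ q) (hermForm n F q) f₂ e P) :
    IsMaximalIn (GU n F q ⊓ specialLinear (Fin n) F)
      (tensorWreathSubgroup k t e P ⊓ (GU n F q ⊓ specialLinear (Fin n) F)) := by
  obtain ⟨σ, s1, s2, s3⟩ := exists_conj hF
  obtain ⟨B₂, b1, b2, b3⟩ := exists_sesq s2 s3 hf₂.add_left hf₂.smul_left
    (fun v w => by rw [s1, hf₂.herm]) hf₂.nondegenerate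
  obtain ⟨t, rfl⟩ : ∃ s, t = s + 1 := ⟨t - 1, by omega⟩
  have := NeZero.of_gt (show 0 < k by omega)
  have := NeZero.of_gt (show 0 < t by omega)
  obtain ⟨l, B₁, c0, c1, c2, -, -, c3⟩ := exists_pow (hermForm_eq s1) b1 (hermSesq_nondegenerate σ)
    b3 (funext s1 ▸ hT)
  have hS := hermSesq_isSymm (ι := Fin n) s3
  have hH : IsHerm (pull (hermSesq (Fin n) σ) l) := ⟨s2, s3, ⟨fun x y => hS.eq _ _⟩⟩
  have hB := pull_nondeg (hermSesq_nondegenerate σ) l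
  have h3 : 3 ≤ finrank F (Fin k → F) := by simpa
  have tt := tt_herm b2 b3 (by omega)
  obtain ⟨u, u0, hu⟩ := tt.ex
  obtain ⟨f, -, hf⟩ := (b2.wittPair b3).exists_hyperbolic u0 hu
  have a2 : IsHerm B₁ := ⟨s2, s3, ⟨fun x y => by
    simpa only [c1, hf, b2.flip_one hf, mul_one] using hH.eq (x ⊗ₜ u) (y ⊗ₜ f)⟩⟩
  refine ((ws_of ⟨a2.wittPair c0, b2.wittPair b3, polarG_su' hH hB ?_, c1, fun a b => mem_UG.2,
    fun x u e => ?_, inferInstance, fun _ e => by simpa using e, fun _ => mem_UG.2, cp_herm b2 b3⟩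
    (fun j => mem_UG.2 (c2 j)) (fun a ha b hb => ?_) (by simp; omega) tt.ex).maxIn_herm b2 b3 h3 ?_
    (comT_herm hH)).isMaximalIn ((Geom.glEquiv _ F).trans (autCongr l.symm)) (fun g => ?_) c3
  · rw [finrank_tensorProduct]
    exact le_mul_of_one_le_of_le finrank_pos (by omega)
  · simp only [c1, show B₂ u u = 0 by simpa using e, mul_zero, map_zero]
  · refine ⟨(Isom _ _).mul_mem (mul_mem (mul_mem ha hb) (inv_mem ha)) (inv_mem hb), mem_SLG.2 ?_⟩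
    simp only [coe_mul_end, map_mul]
    rw [mul_right_comm (LinearMap.det _), ← map_mul, coe_mul_inv_end, mul_assoc, ← map_mul,
      coe_mul_inv_end, map_one, one_mul]
  · by_cases h : q = 2
    · exact .inl (by simp; omega)
    exact .inr (exists_fixed hF s1 h)
  rw [mem_SU_iff s1, Subgroup.mem_inf, Subgroup.mem_inf, mem_UG, mem_UG, ← pull_isom l]
  exact and_congr Iff.rfl (autCongr_mem_SLG l.symm _).symm

end CF.MaxSub
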