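/-
Tensor powers of symplectic spaces: matrix form.
-/
import Cfsg.Agent.MaxSub.WQ
import Cfsg.Agent.MaxSub.WM

set_option autoImplicit false

namespace CF.MaxSub

open Module Geom TensorProduct QuadraticMap Matrix Cfsg Cfsg.Geo

variable {F : Type*} [Field F]

theorem comm_mem_OmG {V : Type*} [AddCommGroup V] [Module F V] {Q : QuadraticForm F V} :
    ∀ a ∈ Isom (polarBilin Q) Q, ∀ b ∈ Isom (polarBilin Q) Q, a * b * a⁻¹ * b⁻¹ ∈ OmG Q :=
  fun a ha b hb => ⟨_, Subgroup.commutator_mem_commutator (Subgroup.mem_top (⟨a, ha⟩ : OG Q))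
    (Subgroup.mem_top (⟨b, hb⟩ : OG Q)), rfl⟩

variable [Fintype F] {ι : Type} [Fintype ι] [DecidableEq ι] {k t : ℕ}

theorem ws_maxIn_alt [NeZero t] {B₁ : LinearMap.BilinForm F ((Fin t → Fin k) → F)} {Q₁}
    {B₂ : LinearMap.BilinForm F (Fin k → F)} (hB : B₂.Nondegenerate) (hA : B₂.IsAlt) {B Q G}
    (h : WS B₁ Q₁ B₂ (fun _ => 0) B Q G pψ (pπ F (Fin k))) (com : ComT B Q)
    (hk : 5 ≤ k ∨ Odd (Fintype.card F) ∧ (k = 2 → Fintype.card F ≠ 3 ∧ 2 ≤ t))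
    (iso : (2 : F) ≠ 0 → ∀ g : _ ≃ₗ[F] _, (∀ v w, B (g v) (g w) = B v w) → g ∈ Isom B Q) :
    MaxIn G (WrG (aF (pψ (F := F) (κ := Fin k) (τ := Fin t)))) := by
  have a1 := h.two
  obtain ⟨j, a2⟩ := even_finrank_of_alt hB hA
  rw [finrank_fin_fun] at a1 a2
  obtain hk | ⟨b1, b2⟩ := hk
  · exact h.maxIn_alt hB hA com (by simp; omega) (.inr (by simpa))
  have h2 := Geom.two_ne_zero_of_odd_card b1
  by_cases e : k = 2
  · obtain ⟨γ, γ0, γ1⟩ := exists_sq_ne_one' (three_lt_card b1 (b2 e).1)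
    have := Fin.nontrivial_iff_two_le.2 (b2 e).2
    refine h.maxIn_two hB hA (by simpa) h2 com ?_ γ0 γ1 (iso h2)
    simpa [e] using le_trans (by norm_num) (Nat.pow_le_pow_right two_pos (b2 e).2)
  exact h.maxIn_alt hB hA com (by simp; omega) (.inl h2)

theorem isMaximalIn_sp_pow {m : ℕ} (hm : 1 ≤ m) (hodd : Odd (Fintype.card F)) (ht : 3 ≤ t)
    (hex : ¬ (Fintype.card F = 3 ∧ k = 2)) {e : (Fin m ⊕ Fin m) ≃ (Fin t → Fin k)}
    {P : GL (Fin m ⊕ Fin m) F} {f₂ : (Fin k → F) → (Fin k → F) → F} (hf₂ : IsSymplecticForm f₂)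
    (hT : IsTensorPowerFormStructure id (sympForm m F) f₂ e P) :
    IsMaximalIn (spGL m F) (tensorWreathSubgroup k t e P ⊓ spGL m F) := by
  obtain ⟨B₂, b1, b2, b3⟩ := exists_alt hf₂
  obtain ⟨t, rfl⟩ : ∃ s, t = s + 1 := ⟨t - 1, by omega⟩
  have := NeZero.of_gt (e (.inl ⟨0, hm⟩) 0).pos
  have := NeZero.of_gt (show 0 < t by omega)
  have h2 := Geom.two_ne_zero_of_odd_card hodd
  have hA : (sympBilin m F).flip.IsAlt := sympBilin_isAlt (F := F) m
  have hB : (sympBilin m F).flip.Nondegenerate :=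
    ⟨(sympBilin_nondegenerate m).2, (sympBilin_nondegenerate m).1⟩
  obtain ⟨l, B₁, c0, c1, c2, -, -, c3⟩ := exists_pow (σ := RingHom.id F) (B := (sympBilin m F).flip)
    (fun u v => by simp [← sympBilin_apply]) b1 hB b2 hT
  have w₂ := isWittPair_alt B₂ b2 b3
  obtain ⟨u, u0⟩ := exists_ne (0 : Fin k → F)
  obtain ⟨f, -, hf⟩ := w₂.exists_hyperbolic u0 rfl
  have hA' : LinearMap.IsAlt (pull (sympBilin m F).flip l) := fun x => hA _
  obtain ⟨Q₁, rfl⟩ := exists_quad h2 (B := B₁) fun x y => by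
    simpa [c1, hf, ← b3.neg_eq u f] using hA'.neg (x ⊗ₜ f) (y ⊗ₜ u)
  refine sp_of_pull (ws_maxIn_alt b2 b3 (ws_of ⟨isWittPair_quad Q₁ c0, w₂,
    polarG_sp (pull_nondeg hB l) hA', c1, fun a b => mem_SpG.2, fun _ _ _ => rfl, inferInstance,
    fun _ _ => rfl, fun _ => mem_SpG.2, cp_alt b2 b3⟩ (fun j => mem_SpG.2 (c2 j))
    (fun a ha b hb => (SpG _).mul_mem (mul_mem (mul_mem ha hb) (inv_mem ha)) (inv_mem hb)) ?_
    ⟨u, u0, rfl⟩) (comT_alt hA' h2) (.inr ⟨hodd, fun e => ⟨fun e' => hex ⟨e', e⟩, by omega⟩⟩)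
    fun _ _ => mem_SpG.2) (fun g => (mem_spGL_iff m g).trans ?_) c3
  · obtain ⟨j, a2⟩ := even_of_symplectic hf₂
    have := NeZero.pos k
    simp; omega
  simp only [mem_SpG, LinearMap.flip_apply]
  exact forall_comm

theorem isMaximalIn_omega_spow {Q : (ι → F) → F} (hQ : IsNondegenerateQuadraticForm Q)
    (hn : 9 ≤ Fintype.card ι) (ht : 2 ≤ t)
    (hk : 5 ≤ k ∨ Odd (Fintype.card F) ∧ (k = 2 → Fintype.card F ≠ 3)) {e : ι ≃ (Fin t → Fin k)}
    {P : GL ι F} {f₂ : (Fin k → F) → (Fin k → F) → F} (hf₂ : IsSymplecticForm f₂)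
    (hT : IsTensorPowerFormStructure id (polar Q) f₂ e P) (hp : ∀ xs : Fin t → Fin k → F,
      Q ((P : Matrix ι ι F) *ᵥ ((fun a : Fin t → Fin k => ∏ i, xs i (a i)) ∘ e)) = 0) :
    IsMaximalIn (omegaGL Q) (tensorWreathSubgroup k t e P ⊓ omegaGL Q) := by
  obtain ⟨Q, rfl, hQ'⟩ := exists_quadraticForm hQ
  obtain ⟨B₂, b1, b2, b3⟩ := exists_alt hf₂
  obtain ⟨t, rfl⟩ : ∃ s, t = s + 1 := ⟨t - 1, by omega⟩
  rw [Fintype.card_congr e, Fintype.card_fun, Fintype.card_fin, Fintype.card_fin] at hn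
  have := NeZero.mk (show k ≠ 0 by rintro rfl; simp at hn)
  have := NeZero.of_gt (show 0 < t by omega)
  obtain ⟨l, B₁, c0, c1, c2, c4, ⟨c, c5⟩, c3⟩ := exists_pow (σ := RingHom.id F) (B := polarBilin Q)
    (polar_comm Q) b1 hQ' b2 hT
  have w₂ := isWittPair_alt B₂ b2 b3
  obtain ⟨u, u0⟩ := exists_ne (0 : Fin k → F)
  obtain ⟨f, -, hf⟩ := w₂.exists_hyperbolic u0 rfl
  rw [← show polarBilin (Q.comp l.toLinearMap) = pull (polarBilin Q) l from
    LinearMap.ext₂ fun x y => polar_comp Q l x y] at c1 c2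
  have c6 : ∀ x, Q (l ((pL F _ t).symm (tp x))) = 0 := fun x => by
    rw [c4, LinearEquiv.apply_symm_apply]; exact hp x
  have hQ := comp_nondeg hQ' l
  have hS := polar_comm (Q.comp l.toLinearMap)
  refine omega_of_pull (κ := l) ?_ c3
  change ∀ x, (Q.comp l.toLinearMap) _ = 0 at c6
  generalize Q.comp l.toLinearMap = Q at *
  have a1 : ∀ x y, B₁ x y = -B₁ y x := fun x y => by
    simpa [← polarBilin_apply_apply, c1, hf, ← b3.neg_eq u f] using hS (x ⊗ₜ u) (y ⊗ₜ f)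
  have a2 : LinearMap.IsAlt B₁ := tp_ind (P := fun x => B₁ x x = 0)
    (fun a b ha hb => by simp [ha, hb, a1 a b]) (fun c a ha => by simp [ha])
    fun x => by simp [c5, b3.self_eq_zero, NeZero.ne]
  have a3 : ∀ x s, Q (x ⊗ₜ s) = 0 := fun x s => tp_ind (P := fun x => Q (x ⊗ₜ s) = 0)
    (fun a b ha hb => by
      rw [add_tmul, quad_add, ha, hb, ← polarBilin_apply_apply, c1]; simp [b3.self_eq_zero])
    (fun c a ha => by rw [← smul_tmul', quad_smul, ha, mul_zero])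
    (fun x => by simpa [← pL_tmul] using c6 (Fin.cons s x)) x
  have a4 : ∀ g : _ ≃ₗ[F] _, (∀ v w, polarBilin Q (g v) (g w) = polarBilin Q v w) →
      (∀ x s, Q (g (tp x ⊗ₜ s)) = 0) → g ∈ Isom (polarBilin Q) Q := fun g e e' => ⟨e, fun v => by
    have H : ∀ x y, Q (g x) = Q x → Q (g y) = Q y → Q (g (x + y)) = Q (x + y) := fun x y hx hy => by
      rw [map_add, quad_add, quad_add, hx, hy]; exact congrArg _ (e x y)
    induction v with
    | zero => simp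
    | add x y hx hy => exact H x y hx hy
    | tmul x s =>
      exact tp_ind (P := fun x => Q (g (x ⊗ₜ s)) = Q (x ⊗ₜ s))
        (fun a b ha hb => by rw [add_tmul, H _ _ ha hb])
        (fun c a ha => by rw [← smul_tmul', map_smul, quad_smul, quad_smul, ha])
        (fun x => by rw [e', a3]) x⟩
  refine ws_maxIn_alt b2 b3 (ws_of ⟨isWittPair_alt B₁ c0 a2, w₂, polarG_omega' hQ ?_, c1,
    fun a b e => a4 _ e fun x s => a3 _ _, fun x u _ => by simp [a3], inferInstance,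
    fun _ _ => rfl, fun _ => mem_SpG.2, cp_alt b2 b3⟩ (fun j => a4 _ (c2 j) fun x s => ?_)
    comm_mem_OmG ?_ ⟨u, u0, rfl⟩) (comT_quad Q) (hk.imp_right fun e => ⟨e.1, fun e' => ⟨e.2 e', ?_⟩⟩)
    fun h2 g e => ⟨e, fun v => mul_left_cancel₀ h2 ?_⟩
  · simp [← pow_succ]; omega
  · simpa [← pL_pπ] using c6 (Fin.cons s x ∘ Equiv.swap 0 j.succ)
  · obtain ⟨j, a2⟩ := even_of_symplectic hf₂
    have := NeZero.pos k
    simp; omega
  · by_contra! H
    obtain rfl : t = 1 := by omega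
    simp [e'] at hn
  simpa [polar_self, two_smul, two_mul] using e v v

end CF.MaxSub
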