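/-
Orthogonal tensor factors, I: the geometry of one factor.
-/
import Cfsg.Agent.MaxSub.WX

set_option autoImplicit false

namespace CF.MaxSub

open Module Geom QuadraticMap

variable {F W : Type*} [Field F] [AddCommGroup W] [Module F W]

/-- The Witt index is at most one. -/
def An (Q : QuadraticForm F W) : Prop :=
  ∀ u s, u ≠ 0 → Q u = 0 → Q s = 0 → polar Q u s = 0 → s ∈ F ∙ u

/-- The orthogonal spaces occurring as factors. -/
structure OS (Q : QuadraticForm F W) : Prop where
  nd : (polarBilin Q).Nondegenerate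
  two : (2 : F) ≠ 0
  three : 3 ≤ finrank F W
  four : 4 ≤ finrank F W ∨ ∃ t : F, t ≠ 0 ∧ t ^ 2 ≠ 1
  an : finrank F W = 4 → An Q

variable {Q : QuadraticForm F W} {u w w' : W}

theorem wedge_mul_nU (hu : Q u = 0) (hw : polar Q u w = 0) :
    wedge Q u w * nU (polarBilin Q) u = 0 := by
  ext v; simp [polar_self', hu, polar_comm Q w u, hw]

theorem nU_mul_wedge (hu : Q u = 0) (hw : polar Q u w = 0) :
    nU (polarBilin Q) u * wedge Q u w = 0 := by
  ext v; simp [polar_self', hu, hw]

theorem wedge_mul' (hu : Q u = 0) (hw : polar Q u w = 0) (hw' : polar Q u w' = 0) :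
    wedge Q u w * wedge Q u w' = -polar Q w w' • nU (polarBilin Q) u := by
  ext v; simp [polar_self', hu, hw', polar_comm Q w u, hw, smul_smul, mul_comm]

theorem nU_sq' (hu : Q u = 0) : nU (polarBilin Q) u * nU (polarBilin Q) u = 0 :=
  nU_sq (by simp [polar_self', hu])

theorem wedge_adj (u w s t : W) : polar Q (wedge Q u w s) t = polar Q s ((-wedge Q u w) t) := by
  simp [polar_comm Q s]; ring

theorem nU_adj (u s t : W) :
    polar Q (nU (polarBilin Q) u s) t = polar Q s (nU (polarBilin Q) u t) := by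
  simp [polar_comm Q s, mul_comm]

theorem wedge_self (u : W) : wedge Q u u = 0 := by ext; simp

theorem eich_sq (hu : Q u = 0) (hw : polar Q u w = 0) :
    (((eichler hu hw).1 : End F W) - 1) ^ 2 = (-2 * Q w) • nU (polarBilin Q) u := by
  rw [coe_eich, sub_right_comm, add_sub_cancel_left, pow_two]
  simp [mul_sub, sub_mul, wedge_mul' hu hw hw, wedge_mul_nU hu hw, nU_mul_wedge hu hw, nU_sq' hu,
    polar_self']

/-- The Eichler transformations with a given centre. -/
def eichH (hu : Q u = 0) : Multiplicative (LinearMap.ker (polarBilin Q u)) →* (W ≃ₗ[F] W) where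
  toFun w := (eichler hu (w := w.toAdd.1) w.toAdd.2).1
  map_one' := congrArg Subtype.val (eichler_zero hu)
  map_mul' a b := congrArg Subtype.val (eichler_add hu a.toAdd.2 b.toAdd.2)

namespace OS

variable [FiniteDimensional F W] (o : OS Q)
include o

theorem wt : IsWittPair (RingHom.id F) (polarBilin Q) Q := isWittPair_quad Q o.nd

theorem cp : CP (polarBilin Q) Q := cp_of_three o.wt o.three

theorem exists_ns (u0 : u ≠ 0) (hu : Q u = 0) : ∃ w, polar Q u w = 0 ∧ Q w ≠ 0 := by
  obtain ⟨f, hf, e⟩ := exists_hyp o.nd u0 hu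
  obtain ⟨w, qw, hw, -⟩ := exists_nonsingular_perp_hyp o.nd o.three hu hf e
  exact ⟨w, hw, qw⟩

theorem an' : 5 ≤ finrank F W ∨ An Q := by
  by_cases h3 : finrank F W = 3
  · refine .inr fun u s u0 hu hs e => ?_
    obtain ⟨w, a1, a2⟩ := o.exists_ns u0 hu
    obtain ⟨c, hc⟩ := eq_three o.nd o.two h3 u0 hu a1 a2 e
    generalize polar Q w s / (2 * Q w) = d at hc
    obtain rfl : d = 0 := by simpa [hc, quad_add, quad_smul, hu, a1, a2] using hs
    exact Submodule.mem_span_singleton.2 ⟨c, by simp [hc]⟩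
  by_cases h4 : finrank F W = 4
  · exact .inr (o.an h4)
  have := o.three
  exact .inl (by omega)

theorem nU_ne (u0 : u ≠ 0) : nU (polarBilin Q) u ≠ 0 := fun e =>
  u0 (o.nd.1 u fun v => by simpa [u0] using LinearMap.congr_fun e v)

theorem ns_ind' (u0 : u ≠ 0) (hu : Q u = 0) {P : W → Prop} (hP : ∀ a b, P a → P b → P (a - b))
    (h : ∀ w, polar Q u w = 0 → Q w ≠ 0 → P w) (hw : polar Q u w = 0) : P w := by
  obtain ⟨z, a1, a2⟩ := o.exists_ns u0 hu
  exact ns_ind o.two (S := LinearMap.ker (polarBilin Q u)) a1 a2 hP h hw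

theorem exists_mv' (u0 : u ≠ 0) (hu : Q u = 0) :
    ∃ b ∈ RGp (polarBilin Q) Q, polar Q u (b u) ≠ 0 := by
  obtain ⟨f, hf, e⟩ := exists_hyp o.nd u0 hu
  obtain ⟨b, a1, c, c0, a2⟩ := exists_mv o.wt o.cp u0 (u' := f) (by rintro rfl; simp at e) (by simpa)
    (by simpa)
  exact ⟨b, a1, by simp [a2, e, c0]⟩

theorem po_ne : (0 : End F W) ∉ PO Q := fun h => PO.sq o.nd o.two o.three h (mul_zero _)

/-- A vector fixed by the Eichler transformations with centre `u` is a multiple of `u`. -/
theorem fix_of_eich {V : Type*} [AddCommGroup V] [Module F V] (φ : End F W →ₐ[F] End F V) {f : W}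
    (hu : Q u = 0) (e : polar Q u f = 1) {v : V}
    (h : ∀ w (hw : polar Q u w = 0), φ (eichler hu hw).1 v = v) :
    φ ((polarBilin Q f).smulRight u) v = v := by
  have u0 : u ≠ 0 := by rintro rfl; simp at e
  have H : ∀ w x, polar Q u w = 0 → φ ((polarBilin Q w).smulRight x) v +
      (Q w - polar Q f w) • φ ((polarBilin Q u).smulRight x) v = 0 := fun w x hw => by
    have := congrArg (φ ((polarBilin Q f).smulRight x)) (h w hw)
    rw [← End.mul_apply, ← map_mul, show (polarBilin Q f).smulRight x * (eichler hu hw).1 =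
      (polarBilin Q f).smulRight x - ((polarBilin Q w).smulRight x +
        (Q w - polar Q f w) • (polarBilin Q u).smulRight x) by
      ext; simp [eichler_apply, polar_comm Q f u, e]; module] at this
    simpa using this
  have H1 : ∀ x, φ ((polarBilin Q u).smulRight x) v = 0 := fun x => by
    obtain ⟨w, a1, a2⟩ := o.exists_ns u0 hu
    have a3 := H (-w) x (by simp [a1])
    rw [show (polarBilin Q (-w)).smulRight x = -(polarBilin Q w).smulRight x by ext; simp] at a3
    refine (smul_eq_zero_iff_right (mul_ne_zero o.two a2)).1 ?_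
    simp only [map_neg, LinearMap.neg_apply, Q.map_neg, polar_neg_right] at a3
    linear_combination (norm := module) H w x a1 + a3
  have H2 : ∀ a : End F W, a u = 0 → φ a v = 0 := fun a ha => by
    rw [← one_mul a, ← sum_eu_diag, Finset.sum_mul, map_sum, LinearMap.sum_apply]
    refine Finset.sum_eq_zero fun i _ => ?_
    obtain ⟨y, hy⟩ := exists_repr_dual o.wt.surj _ o.nd.1 ((finBasis F W).coord i ∘ₗ a)
    have := H y (finBasis F W i) (by rw [polar_comm, ← polarBilin_apply_apply, hy]; simp [ha])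
    rwa [H1, smul_zero, add_zero, hy, ← smulRight_mul'] at this
  simpa [sub_eq_zero] using H2 ((polarBilin Q f).smulRight u - 1) (by simp [polar_comm Q f u, e])

variable [Finite F]

theorem ex : ∃ u, u ≠ 0 ∧ Q u = 0 := exists_singular_of_three_le Q o.three

theorem scalar_of_eich {a : End F W} (h : ∀ u w (hu : Q u = 0) (hw : polar Q u w = 0), u ≠ 0 →
    Q w ≠ 0 → adG (eichler hu hw).1 a = a) : a ∈ F ∙ (1 : End F W) := by
  obtain ⟨u, u0, hu⟩ := o.ex
  obtain ⟨c, e⟩ := scalar_of_eigen o.wt o.three (exists_ne_zero_one o.two).1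
    (exists_ne_zero_one o.two).2 u0 (by simpa using hu) (A := a) fun x hx => by
      by_cases x0 : x = 0
      · simp [x0]
      rw [map_zero] at hx
      obtain ⟨f, -, e⟩ := exists_hyp o.nd x0 hx
      obtain ⟨w, a1, a2⟩ := o.exists_ns x0 hx
      have := ((adG_eq_self.1 (h x w hx a1 x0 a2)).sub_left (.one_left a)).pow_left 2
      rw [eich_sq] at this
      exact Submodule.mem_span_singleton.2 ⟨polar Q x (a f), smul_right_injective W
        (mul_ne_zero (neg_ne_zero.2 o.two) a2) (by simpa [e] using LinearMap.congr_fun this.eq f)⟩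
  exact Submodule.mem_span_singleton.2 ⟨c, e.symm⟩

theorem omG_le : OmG Q ≤ RGp (polarBilin Q) Q :=
  (polarG_omega o.nd (.inl ⟨_, exists_ne_zero_one o.two⟩) o.three).le_RGp

theorem stA (u0 : u ≠ 0) (hu : Q u = 0) : StA (polarBilin Q) Q u := by
  by_cases ht : ∃ t : F, t ≠ 0 ∧ t ^ 2 ≠ 1
  · obtain ⟨t, t0, t1⟩ := ht
    obtain ⟨f, hf, e⟩ := exists_hyp o.nd u0 hu
    have h1 : ∀ a : F, Q (u - a • f) = -a := fun a => by simp [quad_sub, quad_smul, hu, hf, e]
    refine stA_of_torus o.wt u0 (by simpa) o.three (f := f) (by simp [polar_comm Q f u, e])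
      (k := (oRefl Q (u - (1 : F) • f) * oRefl Q (u - t ^ 2 • f)).1) (o.omG_le (mem_OmG.2
        (oRefl_mul_mem_commutator o.nd (by simp [h1, -one_smul]) (by simp [h1, t0]) ⟨t, by
          rw [h1, h1]; ring⟩))) t1 ?_ fun w a1 a2 => ?_
    · rw [Subgroup.coe_mul, LinearEquiv.mul_apply, (oRefl_hyp_apply hu hf e (pow_ne_zero 2 t0)).1,
        map_smul, (oRefl_hyp_apply hu hf e one_ne_zero).2, inv_one, one_smul]
    · rw [polarBilin_apply_apply] at a1 a2
      simp [oRefl_apply, a1, a2]
  obtain h5 | an := o.an'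
  · exact stA_of_idx o.wt u0 (by simpa) o.three
      (by simpa using exists_singular_perp_of_five_le o.nd h5 u0 hu) (.inl h5)
  refine fun L h w hw => o.ns_ind' u0 hu (P := (· ∈ L)) (fun _ _ => sub_mem) (fun w hw qw => ?_) hw
  obtain ⟨w', a1, a2, a3⟩ := exists_ns_perp o.nd o.two (o.four.resolve_right ht) u0 hw qw
  have a4 : Q w' = Q w := by
    have b1 : (Q w' / Q w) ^ 2 = 1 := by_contra fun e => ht ⟨_, div_ne_zero a1 qw, e⟩
    refine (sq_eq_sq_iff_eq_or_eq_neg.1 (show Q w' ^ 2 = Q w ^ 2 by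
      field_simp at b1; exact b1)).resolve_right fun e => ?_
    obtain ⟨c, hc⟩ := Submodule.mem_span_singleton.1 (an u (w + w') u0 hu (by simp [quad_add, a3, e])
      (by simp [hw, a2]))
    simpa [polar_comm Q w u, hw, a3, polar_self', o.two, qw] using congrArg (polar Q w) hc
  have := h _ (o.omG_le (oRefl_mul_mem_OmG o.nd qw a4)) 1
    (by simp [oRefl_apply, polar_comm Q w u, polar_comm Q w' u, hw, a2]) w hw
  rw [LinearEquiv.mul_apply, oRefl_of_polar_eq_zero (v := w') (by rwa [polar_comm]), oRefl_self qw,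
    show -w - (1 : F) • w = (-2 : F) • w by module] at this
  exact (L.smul_mem_iff (neg_ne_zero.2 o.two)).1 this

theorem exists_plane (h4 : 4 ≤ finrank F W) (u0 : u ≠ 0) (hu : Q u = 0) :
    ∃ w w', polar Q u w = 0 ∧ polar Q u w' = 0 ∧ polar Q w w' = 0 ∧
      ∀ a b : F, Q (a • w + b • w') = 0 → a = 0 ∧ b = 0 := by
  obtain ⟨f, hf, e⟩ := exists_hyp o.nd u0 hu
  obtain ⟨w, qw, hw, hw'⟩ := exists_nonsingular_perp_hyp o.nd o.three hu hf e
  obtain h5 | an := o.an'
  swap
  · obtain ⟨w', a1, a2, a3⟩ := exists_ns_perp o.nd o.two h4 u0 hw qw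
    refine ⟨w, w', hw, a2, a3, fun a b h => ?_⟩
    obtain ⟨c, hc⟩ := Submodule.mem_span_singleton.1 (an u _ u0 hu h (by simp [hw, a2]))
    exact ⟨by simpa [polar_comm Q w u, hw, a3, polar_self', o.two, qw] using congrArg (polar Q w) hc,
      by simpa [polar_comm Q w' u, polar_comm Q w' w, a2, a3, polar_self', o.two, a1] using
        congrArg (polar Q w') hc⟩
  obtain ⟨ν, hν⟩ := FiniteField.exists_nonsquare (F := F) fun e => o.two (by
    simpa [e] using ringChar.Nat.cast_ringChar (R := F))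
  have a2 := le_finrank_perp o.wt [u, f, w]
  rw [show {x | x ∈ [u, f, w]} = {u, f, w} by ext; simp, List.length_cons, List.length_cons,
    List.length_singleton] at a2
  obtain ⟨w', a3, a4⟩ := exists_quad_eq_mem (o.wt.disjoint_perp_perp (U := Submodule.span F {u, f, w})
    (Submodule.disjoint_def.2 fun x hx hx' => by
      obtain ⟨a, b, c, rfl⟩ := Submodule.mem_span_triple.1 hx
      have := mem_perp_span.1 hx'
      simp only [Set.mem_insert_iff, Set.mem_singleton_iff, forall_eq_or_imp, forall_eq] at this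
      simp [polar_self', hu, hf, e, hw, hw', polar_comm Q f u, polar_comm Q w u, polar_comm Q w f,
        o.two, qw] at this
      simp [this])) (by omega) (c := -ν * Q w) (by
        simpa [qw] using fun e : ν = 0 => hν (e ▸ IsSquare.zero))
  replace a3 := mem_perp_span.1 a3
  simp only [Set.mem_insert_iff, Set.mem_singleton_iff, forall_eq_or_imp, forall_eq,
    polarBilin_apply_apply] at a3
  refine ⟨w, w', hw, a3.1, a3.2.2, fun a b h => ?_⟩
  simp only [quad_add, quad_smul, a4, polar_smul_left, polar_smul_right, a3.2.2, smul_zero] at h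
  have b0 : b = 0 := by_contra fun b0 => hν ⟨a / b, by
    field_simp
    exact mul_right_cancel₀ qw (by linear_combination -h)⟩
  exact ⟨by simpa [b0, qw] using h, b0⟩

end OS

end CF.MaxSub
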