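/-
Orthogonal tensor factors, II: the unipotent radical.
-/
import Cfsg.Agent.MaxSub.YA

set_option autoImplicit false

namespace CF.MaxSub

open Module Geom TensorProduct QuadraticMap
open LinearMap hiding polar

variable {F V₁ W W' : Type*} [Field F] [AddCommGroup V₁] [Module F V₁] [AddCommGroup W]
  [Module F W] [AddCommGroup W'] [Module F W'] {τ : Type*} [Fintype τ] [DecidableEq τ]

theorem PC.scalar_of_comm [FiniteDimensional F W'] {R : Type*} [Ring R] [Algebra F R]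
    {ψ : τ → End F W' →ₐ[F] R} (h : PC ψ) (hc : ∀ c, (∀ i, c ∈ Cm (ψ i)) → c ∈ F ∙ (1 : R))
    {G' : Subgroup (W' ≃ₗ[F] W')} {P : Set (End F W')} (hP : Pur ∅ G' P) (h0 : (0 : End F W') ∉ P)
    (hW : ∀ r ∈ P, Wd G' r) {T : Set R}
    (hG : ∀ i, ∀ g ∈ G', ∀ y ∈ T, ψ i g * y * ψ i (g⁻¹ : W' ≃ₗ[F] W') ∈ T)
    (hT : ∀ a ∈ T, ∀ b ∈ T, a * b = b * a) {a : R} (ha : a ∈ T) : ∃ c : F, a = c • 1 :=
  (Submodule.mem_span_singleton.1 (hc a fun i => by_contra fun e => e (mem_Cm.2 fun b =>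
    ((Subalgebra.mem_centralizer_iff F).1 (h.mem_alg hc (S := Submodule.span F T)
      (fun i g hg y hy => Submodule.span_le (p := (Submodule.span F T).comap
        (mulLeftRight F (ψ i g, ψ i (g⁻¹ : W' ≃ₗ[F] W')))).2
          (fun y hy => Submodule.subset_span (hG i g hg y hy)) hy)
      (hP.mono (Set.subset_univ _) le_rfl) h0 hW ⟨a, Submodule.subset_span ha, e⟩
      (M := Subalgebra.centralizer F {a}) (fun y hy => Submodule.span_le
        (p := (Subalgebra.centralizer F {a}).toSubmodule).2 (fun y hy =>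
          (Subalgebra.mem_centralizer_iff F).2 (by rintro _ rfl; exact hT _ ha y hy)) hy) b)
        a rfl).symm))).imp fun _ => Eq.symm

/-- An overgroup of an orthogonal tensor factor, with a system of orthogonal factors of the
commutant. -/
structure OP (B₁ : LinearMap.BilinForm F V₁) (Q₁ : V₁ → F) (Q₂ : QuadraticForm F W)
    (B : LinearMap.BilinForm F (V₁ ⊗[F] W)) (Q : V₁ ⊗[F] W → F)
    (G X : Subgroup (V₁ ⊗[F] W ≃ₗ[F] V₁ ⊗[F] W)) (ψ : τ → End F W' →ₐ[F] End F V₁)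
    (Q' : QuadraticForm F W') (G' : Subgroup (W' ≃ₗ[F] W')) : Prop
    extends WP B₁ Q₁ (polarBilin Q₂) Q₂ B Q G X, FS X ψ (RGp (polarBilin Q') Q') where
  o₂ : OS Q₂
  o' : OS Q'
  pur : Pur ∅ G' (PO Q')
  ge : RGp (polarBilin Q') Q' ≤ G'
  tw : ∀ i, ∀ g ∈ G', ∀ u, u ≠ 0 → Q₂ u = 0 →
    ∃ b ∈ Isom (polarBilin Q₂) Q₂, b u = u ∧ TensorProduct.congr (aut (ψ i) g) b ∈ X
  adj : ∀ i (a a' : End F W'), (∀ s t, polar Q' (a s) t = polar Q' s (a' t)) →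
    ∀ x y, B₁ (ψ i a x) y = B₁ x (ψ i a' y)
  nml : ∀ j p, p ∈ ML (AL X w₂) → p ∈ Cm (ψ j)
  pu : 5 ≤ finrank F W ∨ Subsingleton τ ∨ (∀ i, ∀ g ∈ G', lG W (aut (ψ i) g) ∈ X) ∧
    (finrank F W = 3 ∨ ∀ y, rG V₁ (oRefl Q₂ y).1 ∈ X)

variable {B₁ : LinearMap.BilinForm F V₁} {Q₁ : V₁ → F} {Q₂ : QuadraticForm F W}
  {B : LinearMap.BilinForm F (V₁ ⊗[F] W)} {Q : V₁ ⊗[F] W → F}
  {G X : Subgroup (V₁ ⊗[F] W ≃ₗ[F] V₁ ⊗[F] W)} {ψ : τ → End F W' →ₐ[F] End F V₁}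
  {Q' : QuadraticForm F W'} {G' : Subgroup (W' ≃ₗ[F] W')} {u : W}

omit [Fintype τ] [DecidableEq τ] in
theorem conj_AL_tw {hW : IsWittPair (RingHom.id F) (polarBilin Q₂) Q₂}
    (tw : ∀ i, ∀ g ∈ G', ∀ u, u ≠ 0 → Q₂ u = 0 →
      ∃ b ∈ Isom (polarBilin Q₂) Q₂, b u = u ∧ TensorProduct.congr (aut (ψ i) g) b ∈ X)
    (i : τ) (g : W' ≃ₗ[F] W') (hg : g ∈ G') (y : End F V₁) (hy : y ∈ AL X hW) :
    ψ i g * y * ψ i (g⁻¹ : W' ≃ₗ[F] W') ∈ AL X hW := fun u u0 hu w hw => by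
  obtain ⟨b, a1, a2, a3⟩ := tw i g hg u u0 (by simpa using hu)
  obtain ⟨w, rfl⟩ := b.surjective w
  have H : ∀ w, polarBilin Q₂ u (b w) = polarBilin Q₂ u w := fun w => by rw [← a1.1 u w, a2]
  exact (hy u u0 hu w (H w ▸ hw)).conj a3 (c := 1) (by simp [a2]) (fun w => (H w ▸ ·))
    fun x s _ => by
      rw [← adG_aut, smulRight_apply, smulRight_apply, a1.1]
      simp [adG_apply, inv_apply_apply]

theorem mem_ML_tw [FiniteDimensional F W'] {hW : IsWittPair (RingHom.id F) (polarBilin Q₂) Q₂}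
    (pc : PC ψ) (cen : ∀ c, (∀ i, c ∈ Cm (ψ i)) → c ∈ F ∙ (1 : End F V₁)) (o : OS Q')
    (pur : Pur ∅ G' (PO Q')) (ge : RGp (polarBilin Q') Q' ≤ G')
    (tw : ∀ i, ∀ g ∈ G', ∀ u, u ≠ 0 → Q₂ u = 0 →
      ∃ b ∈ Isom (polarBilin Q₂) Q₂, b u = u ∧ TensorProduct.congr (aut (ψ i) g) b ∈ X)
    {j : τ} {p : End F V₁} (hp : p ∈ ML (AL X hW)) (e : p ∉ Cm (ψ j)) (a : End F W') :
    ψ j a ∈ ML (AL X hW) :=
  pc.mem_alg cen (S := (ML (AL X hW)).toSubmodule) (fun i g hg _ hy =>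
    conj_mem_ML (by rw [← map_mul, coe_inv_mul_end, map_one]) (conj_AL_tw tw i g hg)
      (conj_AL_tw tw i g⁻¹ (inv_mem hg)) (by rw [← map_mul, coe_mul_inv_end, map_one]) hy)
    (pur.mono (Set.subset_univ _) le_rfl) o.po_ne
    (fun _ hr => (PO.wd o.nd o.two o.three o.four hr).mono ge) ⟨p, hp, e⟩ (fun _ => id) a

namespace OP

variable (h : OP B₁ Q₁ Q₂ B Q G X ψ Q' G') [FiniteDimensional F V₁] [FiniteDimensional F W]
  [FiniteDimensional F W']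
include h

omit [DecidableEq τ] [FiniteDimensional F V₁] [FiniteDimensional F W'] in
theorem skew {k : V₁ ⊗[F] W ≃ₗ[F] V₁ ⊗[F] W} (hk : k ∈ Isom B Q) (u0 : u ≠ 0) (hu : Q₂ u = 0)
    {s : End F V₁} (e : ∀ v, k v = v + map s (nU (polarBilin Q₂) u) v) (x y : V₁) :
    B₁ (s x) y = -B₁ x (s y) := by
  obtain ⟨f, -, hf⟩ := exists_hyp h.o₂.nd u0 hu
  have := hk.1 (x ⊗ₜ f) (y ⊗ₜ f)
  simp [e, h.eq, hf, polar_comm Q₂ f u, polar_self', hu] at this
  linear_combination this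

omit [DecidableEq τ] [FiniteDimensional F V₁] [FiniteDimensional F W] [FiniteDimensional F W'] in
theorem eq_zero_of_adj {s : End F V₁} (e : ∀ x y, B₁ (s x) y = -B₁ x (s y))
    (e' : ∀ x y, B₁ (s x) y = B₁ x (s y)) : s = 0 :=
  LinearMap.ext fun y => h.w₁.nondeg' _ fun x => mul_left_cancel₀ h.o₂.two (by
    linear_combination e x y - e' x y)

theorem z (u0 : u ≠ 0) (hu : Q₂ u = 0) {s : End F V₁} (hs : Un X (map s (nU (polarBilin Q₂) u))) :
    s = 0 := by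
  have := h.nt
  have sk : ∀ {s}, Un X (map s (nU (polarBilin Q₂) u)) → ∀ x y, B₁ (s x) y = -B₁ x (s y) :=
    fun hs => h.skew (h.isom hs.unip_mem) u0 hu fun _ => rfl
  by_contra s0
  obtain ⟨i, e⟩ := h.exists_notMem (y := s) fun c e => s0 (h.eq_zero_of_adj (sk hs) (by simp [e]))
  obtain ⟨c, c0, a1, r, -, a2, a3⟩ := h.pc.exists_pure (S := ZG X (nU_sq' hu)) (K := ∅) (by simp)
    (fun i g hg y hy => by
      obtain ⟨b, a1, a2, a3⟩ := h.tw i g hg u u0 hu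
      refine Un.of_conj hy a3 (congr_apply_map _ b (fun v => ?_) fun w => ?_)
      · rw [← adG_aut, adG_apply, inv_apply_apply]
      · rw [nU_apply, nU_apply, map_smul, a2, ← a1.1 u w, a2]) h.pur h.o'.po_ne ⟨s, hs, e⟩
  obtain ⟨c, rfl⟩ := Submodule.mem_span_singleton.1 (h.cen c a1)
  replace c0 := left_ne_zero_of_smul c0
  rw [smul_mul_assoc, one_mul, mem_ZG] at a3
  have : Nontrivial W' := nontrivial_of_finrank_pos (R := F) (by have := h.o'.three; omega)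
  have a4 : ∀ l, (r * r) l ≠ 0 := fun l => (a2 l).elim (PO.sq h.o'.nd h.o'.two h.o'.three)
    fun e => by simp [e]
  obtain ⟨j, x, w, x0, hx, hw, e⟩ : ∃ j x w, x ≠ 0 ∧ Q' x = 0 ∧ polar Q' x w = 0 ∧
      r j = wedge Q' x w := by
    by_contra! H
    refine smul_ne_zero c0 (h.pc.pu_ne_zero fun l => left_ne_zero_of_mul (a4 l))
      (h.eq_zero_of_adj (sk a3) fun x y => ?_)
    rw [LinearMap.smul_apply, LinearMap.smul_apply, map_smul, map_smul, LinearMap.smul_apply,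
      h.pc.pu_adj (r' := r) fun l => h.adj l _ _ fun s t => ?_]
    obtain ⟨x, x0, hx, ⟨y, -, -, e⟩ | ⟨w, b1, -, e⟩⟩ | e := a2 l
    · simp only [e, LinearMap.add_apply, polar_add_left, polar_add_right, nU_adj]
    · exact (H l x w x0 hx b1 e).elim
    · simp [e]
  have a5 : (r * r) j = -polar Q' w w • nU (polarBilin Q') x := by
    rw [Pi.mul_apply, e, wedge_mul' hx hw hw]
  have a6 : c • h.pc.pu r * c • h.pc.pu r * c • h.pc.pu r = 0 := by
    simp only [smul_mul_assoc, mul_smul_comm, ← map_mul]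
    rw [← Function.update_eq_self j (r * r * r), h.pc.update, Pi.mul_apply, a5, e]
    simp [nU_mul_wedge hx hw]
  have a7 : c • h.pc.pu r * c • h.pc.pu r ∉ Cm (ψ j) := fun e' => h.pc.pu_notMem a4
    (exists_not_comm (a4 j) (by simp [a5, nU_sq' hx, -Pi.mul_apply])) (by
      simpa [c0] using Subalgebra.smul_mem _ (Subalgebra.smul_mem _ e' c⁻¹) c⁻¹)
  generalize c • h.pc.pu r = p at *
  refine a7 (h.nml j _ (WP.levi h.w₂ (hp := by rw [← mul_assoc, a6, zero_mul]) fun v v0 hv => ?_))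
  obtain ⟨b, b1, γ, γ0, b2⟩ := h.exists_move u0 v0 (by simpa) hv
  rw [map_zero] at hv
  obtain ⟨b', b3, b4⟩ := h.o₂.exists_mv' v0 hv
  have := (h.un_nU a3 b1).comm (h.un_nU a3 (mul_mem b3 b1))
    (by simp [← TensorProduct.map_mul, a6]) (by simp [← TensorProduct.map_mul, a6])
  rw [← TensorProduct.map_mul, ← TensorProduct.map_mul, ← lA_mul_rA, ← lA_mul_rA, ← mul_sub,
    ← map_sub, lA_mul_rA, LinearEquiv.mul_apply, b2, map_smul] at this
  exact ⟨_, this, ⟨(γ ^ 2 * polar Q₂ v (b' v)) ^ 2, by simp [γ0, b4], by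
    simp [polar_self', hv, polar_comm Q₂ (b' v)]; module⟩, fun w hw =>
      Submodule.mem_span_singleton.2 ⟨γ ^ 4 * polar Q₂ v (b' v) * polar Q₂ (b' v) w, by
        rw [polarBilin_apply_apply] at hw
        simp [hw]; module⟩⟩

theorem sym (u0 : u ≠ 0) (hu : Q₂ u = 0) {θ : W →ₗ[F] End F V₁} (hθ : RT X (polarBilin Q₂) u θ)
    {w : W} (hw : polar Q₂ u w = 0) (x y : V₁) : B₁ (θ w x) y = B₁ x (θ w y) := by
  obtain ⟨C, hC⟩ := h.w₁.exists_adj (θ w)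
  have := h.z u0 hu (h.rt_comm u0 (by simpa) hθ (h.rt_one u0 (by simpa) (φ := polarBilin Q₂ w)
    (h.w₂.refl hw)) hw hw (fun _ _ => rfl) (fun r _ => polar_comm Q₂ w r) (A' := 1) (fun _ _ => rfl) hC)
  rw [one_mul, mul_one, sub_eq_zero] at this
  rw [hC, this]

theorem comm_pure (u0 : u ≠ 0) (hu : Q₂ u = 0) {θ : W →ₗ[F] End F V₁}
    (hθ : RT X (polarBilin Q₂) u θ) {w : W} (hw : polar Q₂ u w = 0) {A : End F V₁}
    (hA : RT X (polarBilin Q₂) u ((polarBilin Q₂ w).smulRight A))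
    (e : ∀ x y, B₁ (A x) y = B₁ x (A y)) : A * θ w = θ w * A :=
  sub_eq_zero.1 (h.z u0 hu (h.rt_comm u0 (by simpa) hθ hA hw hw (fun _ _ => rfl)
    (fun r _ => polar_comm Q₂ w r) e (h.sym u0 hu hθ hw)))

omit [DecidableEq τ] [FiniteDimensional F V₁] [FiniteDimensional F W] in
theorem wd : ∀ r ∈ PO Q', Wd G' r := fun _ hr =>
  (PO.wd h.o'.nd h.o'.two h.o'.three h.o'.four hr).mono h.ge

variable [Finite F]

theorem th_five (h5 : 5 ≤ finrank F W) (u0 : u ≠ 0) (hu : Q₂ u = 0) {θ : W →ₗ[F] End F V₁}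
    (hθ : RT X (polarBilin Q₂) u θ) {w : W} (hw : polar Q₂ u w = 0) : ∃ c : F, θ w = c • 1 := by
  obtain ⟨y, a1, a2⟩ := h.o₂.exists_ns u0 hu
  have a3 : polar Q₂ y y ≠ 0 := by simp [polar_self', h.o₂.two, a2]
  refine h.pc.scalar_of_comm h.cen h.pur h.o'.po_ne h.wd (T := AL X h.w₂) (conj_AL_tw h.tw)
    (fun a ha b hb => smul_right_injective _ a3 ?_) (h.mem_AL (.inl h5) u0 (by simpa)
      (by simpa using exists_singular_perp_of_five_le h.o₂.nd h5 u0 hu) hθ hw)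
  simpa using h.comm_pure u0 hu (hb u u0 (by simpa) y a1) a1 (ha u u0 (by simpa) y a1) fun s t =>
    mul_left_cancel₀ a3 (by simpa using h.sym u0 hu (ha u u0 (by simpa) y a1) a1 s t)

theorem th_pure (hl : ∀ i, ∀ g ∈ G', lG W (aut (ψ i) g) ∈ X)
    (hr : finrank F W = 3 ∨ ∀ y, rG V₁ (oRefl Q₂ y).1 ∈ X) (u0 : u ≠ 0) (hu : Q₂ u = 0)
    {θ : W →ₗ[F] End F V₁} (hθ : RT X (polarBilin Q₂) u θ) {w : W} (hw : polar Q₂ u w = 0) :
    ∃ c : F, θ w = c • 1 := by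
  refine h.o₂.ns_ind' u0 hu (P := fun w => ∃ c : F, θ w = c • 1) (fun a b ⟨c, ha⟩ ⟨d, hb⟩ =>
    ⟨c - d, by rw [map_sub, ha, hb, sub_smul]⟩) (fun y hy qy => ?_) hw
  refine h.pc.scalar_of_comm h.cen h.pur h.o'.po_ne h.wd
    (T := {A | ∃ θ, RT X (polarBilin Q₂) u θ ∧ A = θ y}) ?_ ?_ ⟨θ, hθ, rfl⟩
  · rintro i g hg _ ⟨θ, hθ, rfl⟩
    exact ⟨adG (aut (ψ i) g) ∘ₗ θ, hθ.conj (b := 1) (hl i g hg) (c := 1) (by simp) (fun _ => id)
      fun x w _ => by simp [adG_apply, inv_apply_apply], rfl⟩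
  rintro _ ⟨θ, hθ, rfl⟩ _ ⟨θ', hθ', rfl⟩
  obtain ⟨c, c0, a1⟩ : ∃ c : F, c ≠ 0 ∧
      RT X (polarBilin Q₂) u ((polarBilin Q₂ y).smulRight (c • θ y)) := by
    obtain h3 | hr := hr
    · refine ⟨(2 * Q₂ y)⁻¹, by simp [h.o₂.two, qy], hθ.congr fun w hw => ?_⟩
      obtain ⟨c, hc⟩ := eq_three h.o₂.nd h.o₂.two h3 u0 hu hy qy hw
      conv_lhs => rw [hc]
      simp [hθ.self u0 (by simp [polar_self', hu]), smul_smul, div_eq_mul_inv]
    have a1 := oRefl_of_polar_eq_zero (Q := Q₂) (v := y) (x := u) (by rwa [polar_comm])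
    refine ⟨(Q₂ y)⁻¹, inv_ne_zero qy, (hθ.sub (hθ.map (θ' := θ ∘ₗ (oRefl Q₂ y).1) (hr y) one_ne_zero
      (by simp [a1]) (fun w hw => by simpa [oRefl_apply, hy] using hw) fun w _ => by
        simp [← LinearEquiv.mul_apply, oRefl_sq])).congr fun w _ => ?_⟩
    simp [oRefl_apply, smul_smul, mul_comm]
  simpa [c0] using congrArg (c⁻¹ • ·) (h.comm_pure u0 hu hθ' hy a1 fun s t => by
    simp [h.sym u0 hu hθ hy])

theorem th_one [Subsingleton τ] (an : An Q₂) (u0 : u ≠ 0) (hu : Q₂ u = 0)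
    {θ : W →ₗ[F] End F V₁} (hθ : RT X (polarBilin Q₂) u θ) {w : W} (hw : polar Q₂ u w = 0) :
    ∃ c : F, θ w = c • 1 := by
  have := h.nt
  by_contra e
  obtain ⟨i, -⟩ := h.exists_notMem (not_exists.1 e)
  have a1 : Function.Injective (ψ i) := (injective_iff_map_eq_zero _).2 fun a e => by_contra
    fun a0 => one_ne_zero (eq_zero_of_mul (one_mem (Cm (ψ i))) a0 (by simp [e]))
  let E := LinearEquiv.ofBijective (ψ i).toLinearMap ⟨a1, fun y => h.pc.mem_of_gen h.cen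
    (M := (ψ i).range) (fun j a => Subsingleton.elim i j ▸ ⟨a, rfl⟩) y⟩
  obtain ⟨η, rfl⟩ : ∃ η : W →ₗ[F] End F W', θ = (ψ i).toLinearMap ∘ₗ η :=
    ⟨E.symm ∘ₗ θ, LinearMap.ext fun w => (E.apply_symm_apply _).symm⟩
  have H : ∀ D ∈ OpR F W' ∅ (RGp (polarBilin Q') Q'), ∀ η : W →ₗ[F] End F W',
      RT X (polarBilin Q₂) u ((ψ i).toLinearMap ∘ₗ η) →
      RT X (polarBilin Q₂) u ((ψ i).toLinearMap ∘ₗ D ∘ₗ η) := fun D hD => by
    induction hD using Subring.closure_induction with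
    | mem D hD =>
      obtain ⟨g, hg, rfl⟩ | ⟨c, hc, -⟩ := hD
      · exact fun η hη => hη.conj (b := 1) (h.mem i g hg) (c := 1) (by simp) (fun _ => id)
          fun x w _ => by
            change ψ i (adG g (η w)) _ = _
            rw [adG_eq, map_mul, map_mul, ← adG_aut]
            simp [adG_apply, inv_apply_apply]
      · exact hc.elim
    | zero => exact fun _ _ => RT.zero.congr fun _ _ => by simp
    | one => exact fun _ => id
    | add D D' _ _ a b => exact fun η hη => ((a η hη).add (b η hη)).congr fun _ _ => by simp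
    | neg D _ a => exact fun η hη => (a η hη).neg.congr fun _ _ => by simp
    | mul D D' _ _ a b => exact fun η hη => (a _ (b η hη)).congr fun _ _ => by simp
  obtain ⟨x, hx, a2⟩ : ∃ x, Q' x = 0 ∧ polar Q' x (η w x) ≠ 0 := by
    by_contra! H
    obtain ⟨x, x0, hx⟩ := h.o'.ex
    obtain ⟨c, hc⟩ := skew_of_sing h.o'.nd h.o'.two h.o'.three h.o'.four x0 hx H
    obtain ⟨a', ha'⟩ := h.o'.wt.exists_adj (η w)
    obtain rfl : η w = a' := a1 (LinearMap.ext fun y => h.ext₁ fun x => by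
      rw [← h.adj i _ _ ha']; exact (h.sym u0 hu hθ hw x y).symm)
    refine e ⟨c / 2, ?_⟩
    rw [← map_one (ψ i), ← map_smul]
    refine congrArg (ψ i) (LinearMap.ext fun y => sub_eq_zero.1 (h.o'.nd.2 _ fun x =>
      mul_left_cancel₀ h.o'.two ?_))
    have := h.o'.two
    have := ha' x y
    simp only [polarBilin_apply_apply, polar_sub_right, LinearMap.smul_apply, End.one_apply,
      polar_smul_right, smul_eq_mul] at this ⊢
    field_simp
    linear_combination hc x y - this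
  have x0 : x ≠ 0 := by rintro rfl; simp at a2
  obtain ⟨D, a3, κ, a4, a5⟩ := exists_evn (K := ∅) h.o'.nd h.o'.two h.o'.three h.o'.four x0 hx
  obtain ⟨y, hy⟩ := exists_repr_dual h.w₂.surj _ h.o₂.nd.1
    (κ • polarBilin Q' x ∘ₗ applyₗ x ∘ₗ η)
  replace hy : ∀ s, polar Q₂ y s = κ * polar Q' x (η s x) := LinearMap.congr_fun hy
  have a6 : polar Q₂ u y = 0 := by
    rw [polar_comm, hy, a1 ((hθ.self u0 (by simp [polar_self', hu])).trans (map_zero _).symm)]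
    simp
  have a7 : Q₂ y ≠ 0 := fun e => by
    obtain ⟨c, rfl⟩ := Submodule.mem_span_singleton.1 (an u y u0 hu e a6)
    simpa [hw, a4, a2] using hy w
  obtain ⟨b, b1, b2⟩ := h.o'.exists_mv' x0 hx
  have a8 := H _ a3 _ hθ
  have := h.comm_pure u0 hu (H _ (adG_mem_OpR b1) _ a8) a6 (A := ψ i (nU (polarBilin Q') x))
    (a8.congr fun s _ => by simp [a5, hy]) (h.adj i _ _ (nU_adj x))
  simp only [LinearMap.comp_apply, a5, ← hy, map_smul, adG_nU (RGp_le_isom b1), AlgHom.toLinearMap_apply,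
    ← map_mul, mul_smul_comm, smul_mul_assoc, ← map_smul] at this
  simpa [polar_self', hx, b2, x0, a7, h.o₂.two, polar_comm Q' (b x), adG_nU (RGp_le_isom b1)] using
    LinearMap.congr_fun (a1 this) x

theorem loc (u0 : u ≠ 0) (hu : Q₂ u = 0) : Loc X (polarBilin Q₂) u :=
  ⟨fun _ hs => ⟨0, by simp [h.z u0 hu hs]⟩, fun _ hθ _ hw => by
    obtain h5 | an := h.o₂.an'
    · exact h.th_five h5 u0 hu hθ hw
    obtain h5 | _ | ⟨hl, hr⟩ := h.pu
    exacts [h.th_five h5 u0 hu hθ hw, h.th_one an u0 hu hθ hw, h.th_pure hl hr u0 hu hθ hw]⟩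

end OP

end CF.MaxSub
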