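/-
Orthogonal tensor factors, III: a filtration argument and an averaging argument.
-/
import Cfsg.Agent.MaxSub.YB

set_option autoImplicit false

namespace CF.MaxSub

open Module Geom TensorProduct QuadraticMap
open LinearMap hiding polar

variable {F : Type*} [Field F]

section Filt

variable {R : Type*} [Ring R] [Algebra F R] {σ x y : R} {i j : ℕ}

variable (F σ j) in
/-- The multiples of `σ ^ j` in the centraliser of `σ`. -/
def IJ : Submodule F R where
  carrier := {x | ∃ c, Commute σ c ∧ x = σ ^ j * c}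
  add_mem' := by
    rintro _ _ ⟨c, hc, rfl⟩ ⟨d, hd, rfl⟩
    exact ⟨c + d, hc.add_right hd, (mul_add ..).symm⟩
  zero_mem' := ⟨0, .zero_right _, by simp⟩
  smul_mem' := by
    rintro a _ ⟨c, hc, rfl⟩
    exact ⟨a • c, hc.smul_right a, by simp⟩

theorem IJ_mul {k : ℕ} (hx : x ∈ IJ F σ i) (hy : y ∈ IJ F σ j) (e : k ≤ i + j) :
    x * y ∈ IJ F σ k := by
  obtain ⟨c, hc, rfl⟩ := hx
  obtain ⟨d, hd, rfl⟩ := hy
  obtain ⟨l, e⟩ := Nat.exists_eq_add_of_le e
  exact ⟨σ ^ l * (c * d), ((Commute.refl σ).pow_right l).mul_right (hc.mul_right hd), by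
    rw [mul_assoc, ← mul_assoc c, ← (hc.pow_left j).eq, ← mul_assoc, ← mul_assoc, ← pow_add, e,
      ← mul_assoc, ← pow_add, mul_assoc]⟩

theorem IJ_zero : x ∈ IJ F σ 0 ↔ Commute σ x :=
  ⟨fun ⟨_, a, b⟩ => by simpa [b] using a, fun h => ⟨x, h, by simp⟩⟩

theorem IJ_mono (hx : x ∈ IJ F σ i) (e : j ≤ i) : x ∈ IJ F σ j := by
  simpa using IJ_mul hx (IJ_zero.2 (.one_right σ)) e

variable {V S : Type*} [AddCommGroup V] [Module F V] [Ring S] [Algebra F S] {σ : End F V}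
  {g : V ≃ₗ[F] V}

theorem IJ_coe (h : (g : End F V) - 1 ∈ IJ F σ j) : (g : End F V) ∈ IJ F σ 0 := by
  simpa using add_mem (IJ_mono h j.zero_le) (IJ_zero.2 (.one_right σ))

theorem IJ_inv' (h : (g : End F V) ∈ IJ F σ 0) : ((g⁻¹ : V ≃ₗ[F] V) : End F V) ∈ IJ F σ 0 :=
  IJ_zero.2 (adG_eq_self.1 (by
    conv_lhs => rw [← adG_eq_self.2 (IJ_zero.1 h).symm, adG_inv_adG])).symm

theorem IJ_inv (h : (g : End F V) - 1 ∈ IJ F σ j) :
    ((g⁻¹ : V ≃ₗ[F] V) : End F V) - 1 ∈ IJ F σ j := by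
  simpa [sub_mul, coe_mul_inv_end, -LinearEquiv.coe_inv] using
    neg_mem (IJ_mul h (IJ_inv' (IJ_coe h)) le_rfl)

variable {ρ : S →ₐ[F] End F V} (hρ : ∀ a, Commute σ (ρ a)) (X : Subgroup (V ≃ₗ[F] V))
include hρ

theorem IJ_of {a : S} (h : (g : End F V) - 1 - σ ^ j * ρ a ∈ IJ F σ (j + 1)) :
    (g : End F V) - 1 ∈ IJ F σ j := by
  simpa using add_mem (IJ_mono h j.le_succ) ⟨_, hρ a, rfl⟩

/-- Leading terms of elements of `X`. -/
def FL (j : ℕ) : AddSubgroup S where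
  carrier := {a | ∃ g ∈ X, (g : End F V) - 1 - σ ^ (j + 1) * ρ a ∈ IJ F σ (j + 2)}
  add_mem' := by
    rintro a b ⟨g, a1, a2⟩ ⟨k, b1, b2⟩
    refine ⟨_, mul_mem a1 b1, ?_⟩
    convert add_mem (add_mem a2 b2) (IJ_mul (IJ_of hρ a2) (IJ_of hρ b2) (by omega)) using 1
    rw [coe_mul_end, map_add]
    noncomm_ring
  zero_mem' := ⟨1, one_mem _, by simp [← End.one_eq_id]⟩
  neg_mem' := by
    rintro a ⟨g, a1, a2⟩
    refine ⟨_, inv_mem a1, ?_⟩
    convert neg_mem (add_mem a2 (IJ_mul (IJ_of hρ a2) (IJ_inv (IJ_of hρ a2)) (by omega))) using 1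
    rw [map_neg]
    linear_combination (norm := noncomm_ring) coe_mul_inv_end g

variable {X}

theorem FL_conj {a b : S} (ha : a ∈ FL hρ X j) (hg : g ∈ X) (e : adG g σ = σ)
    (e' : adG g (ρ a) = ρ b) : b ∈ FL hρ X j := by
  obtain ⟨k, a1, a2⟩ := ha
  have a3 := IJ_zero (F := F).2 (adG_eq_self.1 e).symm
  refine ⟨_, mul_mem (mul_mem hg a1) (inv_mem hg), ?_⟩
  have := IJ_mul (IJ_mul a3 a2 (k := j + 2) (by omega)) (IJ_inv' a3) le_rfl
  rwa [← adG_eq, map_sub, map_sub, adG_mul, adG_pow, e, e', adG_one, adG_coe] at this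

theorem FL_comm {a b : S} (ha : a ∈ FL hρ X i) (hb : b ∈ FL hρ X j) :
    a * b - b * a ∈ FL hρ X (i + j + 1) := by
  obtain ⟨g, a1, a2⟩ := ha
  obtain ⟨k, b1, b2⟩ := hb
  have a3 := IJ_of hρ a2
  have b3 := IJ_of hρ b2
  have a4 : σ ^ (i + 1) * ρ a ∈ IJ F σ (i + 1) := ⟨_, hρ a, rfl⟩
  have b4 : σ ^ (j + 1) * ρ b ∈ IJ F σ (j + 1) := ⟨_, hρ b, rfl⟩
  have c1 : ((k * g : V ≃ₗ[F] V) : End F V) - 1 ∈ IJ F σ 1 := by
    convert add_mem (IJ_mul a3 (IJ_zero.2 (.one_right σ)) (k := 1) (by omega))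
      (IJ_mul b3 (IJ_coe a3) (by omega)) using 1
    rw [coe_mul_end]
    noncomm_ring
  refine ⟨g * k * (k * g)⁻¹, mul_mem (mul_mem a1 b1) (inv_mem (mul_mem b1 a1)), ?_⟩
  convert add_mem (IJ_mul (sub_mem (IJ_mul a3 b3 le_rfl) (IJ_mul b3 a3 (by omega))) (IJ_inv c1)
    (k := i + j + 1 + 2) (by omega)) (sub_mem (add_mem (IJ_mul a4 b2 (by omega))
      (IJ_mul a2 b3 (by omega))) (add_mem (IJ_mul b4 a2 (by omega)) (IJ_mul b2 a3 (by omega))))
    using 1
  have c2 := coe_mul_inv_end (k * g)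
  have c3 : ∀ i j a b, σ ^ (i + j) * (ρ a * ρ b) = σ ^ i * ρ a * (σ ^ j * ρ b) := fun i j a b => by
    rw [pow_add, mul_assoc, mul_assoc, ← mul_assoc (ρ a), ← ((hρ a).pow_left j).eq, mul_assoc]
  rw [coe_mul_end] at c2
  rw [coe_mul_end, coe_mul_end, map_sub, map_mul, map_mul, mul_sub,
    show i + j + 1 + 1 = (i + 1) + (j + 1) by omega, c3, add_comm (i + 1), c3]
  generalize σ ^ (i + 1) * ρ a = A
  generalize σ ^ (j + 1) * ρ b = B
  linear_combination (norm := noncomm_ring) c2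

end Filt

theorem exists_fixed_ne {P M : Type*} [Group P] [AddCommGroup M] [Module F M] {p : ℕ} [Fact p.Prime]
    (hP : IsPGroup p P) (ρ : P →* End F M) {S : Set M} [Finite S] (hS : ∀ g, ∀ a ∈ S, ρ g a ∈ S)
    (h0 : 0 ∈ S) (hd : p ∣ Nat.card S) : ∃ b ∈ S, b ≠ 0 ∧ ∀ g, ρ g b = b := by
  let _ : MulAction P S :=
    { smul := fun g a => ⟨ρ g a, hS g a a.2⟩
      one_smul := fun a => Subtype.ext (LinearMap.congr_fun (map_one ρ) _)
      mul_smul := fun g k a => Subtype.ext (LinearMap.congr_fun (map_mul ρ g k) _) }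
  obtain ⟨b, a1, a2⟩ := hP.exists_fixed_point_of_prime_dvd_card_of_fixed_point S hd
    (a := ⟨0, h0⟩) fun g => Subtype.ext (map_zero (ρ g))
  exact ⟨b, b.2, fun e => a2 (Subtype.ext e.symm), fun g => congrArg Subtype.val (a1 g)⟩

variable {V₁ W W' : Type*} [AddCommGroup V₁] [Module F V₁] [AddCommGroup W]
  [Module F W] [AddCommGroup W'] [Module F W'] {τ : Type*} [Fintype τ] [DecidableEq τ]
  {B₁ : LinearMap.BilinForm F V₁} {Q₁ : V₁ → F} {Q₂ : QuadraticForm F W}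
  {B : LinearMap.BilinForm F (V₁ ⊗[F] W)} {Q : V₁ ⊗[F] W → F}
  {G X X' : Subgroup (V₁ ⊗[F] W ≃ₗ[F] V₁ ⊗[F] W)} {ψ ψ' : τ → End F W' →ₐ[F] End F V₁}
  {Q' : QuadraticForm F W'} {G' G'' : Subgroup (W' ≃ₗ[F] W')} {u : W}

/-- The centre of the radical. -/
def kS (hu : Q₂ u = 0) : Multiplicative (End F V₁) →* (V₁ ⊗[F] W ≃ₗ[F] V₁ ⊗[F] W) where
  toFun s := unip (map s.toAdd (nU (polarBilin Q₂) u)) (by simp [← TensorProduct.map_mul, nU_sq' hu])
  map_one' := by ext; simp [unip_apply]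
  map_mul' a b := tensor_ext fun x w => by
    simp [unip_apply, polar_self', hu, add_tmul]
    abel

theorem coe_kS (hu : Q₂ u = 0) (s : End F V₁) :
    (kS hu (.ofAdd s) : End F (V₁ ⊗[F] W)) = 1 + lA W s * rA V₁ (nU (polarBilin Q₂) u) := by
  rw [lA_mul_rA]; rfl

theorem kS_conj (hu : Q₂ u = 0) (a : V₁ ≃ₗ[F] V₁) {b : W ≃ₗ[F] W} {ν : F}
    (e : adG b (nU (polarBilin Q₂) u) = ν • nU (polarBilin Q₂) u) (s : End F V₁) :
    TensorProduct.congr a b * kS hu (.ofAdd s) * (TensorProduct.congr a b)⁻¹ =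
      kS hu (.ofAdd (ν • adG a s)) := LinearEquiv.toLinearMap_injective (by
  rw [← adG_coe, coe_kS, coe_kS, show TensorProduct.congr a b = lG W a * rG V₁ b from
    tensor_ext fun _ _ => rfl, ← adG_adG]
  simp [adG_mul, e])

variable (B Q X) in
/-- Elements of the centre of the radical conjugating the second factor into `X`. -/
def SS (hu : Q₂ u = 0) : Set (End F V₁) := {s | kS hu (.ofAdd s) ∈ Isom B Q ∧
  ∀ b ∈ RGp (polarBilin Q₂) Q₂, (kS hu (.ofAdd s))⁻¹ * rG V₁ b * kS hu (.ofAdd s) ∈ X}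

namespace OP

variable (h : OP B₁ Q₁ Q₂ B Q G X ψ Q' G') [FiniteDimensional F V₁] [FiniteDimensional F W]
  [FiniteDimensional F W'] [Finite F] (u0 : u ≠ 0) (hu : Q₂ u = 0)
include h u0

theorem eq_zero_of_nil {s : End F V₁} (hs : s ∈ SS B Q X hu) (hn : IsNilpotent s) : s = 0 := by
  by_contra s0
  have hρ : ∀ a, Commute (lA W s) (rA V₁ a) := fun a => (mem_Cm.1 (lA_mem s) a).symm
  have cj : ∀ j, ∀ g ∈ RGp (polarBilin Q₂) Q₂, ∀ a ∈ FL hρ X j, adG g a ∈ FL hρ X j :=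
    fun j g hg a ha => FL_conj hρ ha (h.rad g hg) (adG_rG_lA ..) (adG_rG_rA ..)
  obtain ⟨b, b1, b2⟩ := h.o₂.exists_mv' u0 hu
  obtain ⟨w, w1, w2⟩ := h.o₂.exists_ns u0 hu
  obtain ⟨D, a1, κ, a2, a3⟩ := exists_evn (K := ∅) h.o₂.nd h.o₂.two h.o₂.three h.o₂.four u0 hu
  have a4 := OpR_mem (S := FL hρ X 0) (by simp) (cj 0) a1
    (y := nU (polarBilin Q₂) (b u) - nU (polarBilin Q₂) u) ⟨_, mul_mem (hs.2 b b1)
      (inv_mem (h.rad b b1)), by
        rw [mul_assoc, mul_assoc, ← mul_assoc (rG V₁ b), coe_mul_end, ← adG_coe, ← map_inv,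
          ← ofAdd_neg, coe_kS, coe_kS, map_neg, show -lA W s * _ = _ from neg_mul (lA W s) _]
        convert neg_mem (IJ_mul (F := F) (i := 1) (j := 1) ⟨_, hρ (nU (polarBilin Q₂) u), rfl⟩
          ⟨_, hρ (nU (polarBilin Q₂) (b u)), rfl⟩ le_rfl) using 1
        simp only [adG_mul, map_add, adG_one, adG_rG_lA, adG_rG_rA, adG_nU (RGp_le_isom b1),
          map_sub, zero_add, pow_one, mul_sub]
        noncomm_ring⟩
  rw [a3] at a4
  have a5 : κ * polar Q₂ u ((nU (polarBilin Q₂) (b u) - nU (polarBilin Q₂) u) u) ≠ 0 := by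
    simp [a2, b2, polar_self', hu, polar_comm Q₂ (b u)]
  generalize κ * _ = c at a4 a5
  have a6 : (c * c * polar Q₂ u (b u)) • wedge Q₂ u (b u) ∈ FL hρ X 1 := by
    convert FL_comm hρ (cj 0 b b1 _ a4) a4 using 1
    ext
    simp [adG_nU (RGp_le_isom b1), polar_comm Q₂ (b u) u]
    module
  have H : ∀ j, ∃ c : F, c ≠ 0 ∧
      (c • nU (polarBilin Q₂) u ∈ FL hρ X j ∨ c • wedge Q₂ u w ∈ FL hρ X j) := fun j => by
    induction j using Nat.twoStepInduction with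
    | zero => exact ⟨c, a5, .inl a4⟩
    | one =>
      refine ⟨c * c * polar Q₂ u (b u) ^ 2, by simp [a5, b2], .inr ?_⟩
      convert sub_mem (cj 1 _ (eich_mem hu w1) _ a6) a6 using 1
      ext
      simp [adG_wedge (eichler hu w1).2, eichler_apply, polar_self', hu, polar_comm Q₂ w u, w1]
      module
    | more j ih _ =>
      obtain ⟨d, d0, ih | ih⟩ := ih
      · refine ⟨-2 * d * (c * polar Q₂ u (b u)) ^ 2, by simp [a5, b2, d0, h.o₂.two], .inl ?_⟩
        rw [show j + 2 = 1 + j + 1 by omega]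
        convert FL_comm hρ a6 ih using 1
        ext
        simp [polar_self', hu, polar_comm Q₂ (b u) u]
        module
      refine ⟨-d * (c * polar Q₂ u (b u)) ^ 2, by simp [a5, b2, d0], .inr ?_⟩
      rw [show j + 2 = 1 + j + 1 by omega]
      convert FL_comm hρ a6 ih using 1
      ext
      simp [polar_self', hu, polar_comm Q₂ (b u) u, polar_comm Q₂ w u, polar_comm Q₂ w (b u), w1]
      module
  obtain ⟨d, d1, d2⟩ : ∃ d, s ^ (d + 1) ≠ 0 ∧ s ^ (d + 2) = 0 := by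
    by_contra! H
    obtain ⟨k, hk⟩ := hn
    exact Nat.rec (motive := fun d => s ^ (d + 1) ≠ 0) (by simpa) H k (by simp [pow_succ, hk])
  have H' : ∀ a ∈ FL hρ X d, ∃ g ∈ X, ∀ x w, g (x ⊗ₜ w) = x ⊗ₜ w + (s ^ (d + 1)) x ⊗ₜ a w :=
    fun a ⟨g, c1, _, _, c2⟩ => ⟨g, c1, fun x w => by
      simpa [← map_pow, d2, sub_sub, sub_eq_zero] using LinearMap.congr_fun c2 (x ⊗ₜ w)⟩
  obtain ⟨c, c0, c1 | c1⟩ := H d <;> obtain ⟨g, c2, c3⟩ := H' _ c1
  · exact smul_ne_zero c0 d1 (h.z u0 hu (un_of_eq (by simp [polar_self', hu]) c2 fun v => by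
      induction v with
      | zero => simp
      | add a b ha hb => simp only [map_add, ha, hb]; abel
      | tmul x w => simp [c3, smul_tmul, smul_comm c]))
  obtain ⟨e, he⟩ := (h.loc u0 hu).θ ((polarBilin Q₂ w).smulRight (-c • s ^ (d + 1)))
    ⟨g, c2, fun x => by simp [c3, polar_self', hu, polar_comm Q₂ w u, w1], fun x v hv => by
      rw [polarBilin_apply_apply] at hv
      simp [c3, hv, smul_tmul', tmul_neg, neg_tmul, smul_smul, mul_comm]⟩ w w1
  obtain rfl : e = 0 := by simpa [← pow_succ, d2, s0] using (congrArg (· * s) he).symm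
  simp [polar_self', h.o₂.two, w2, c0, d1] at he

omit u0 [FiniteDimensional F W] in
theorem nil_of_comm {x : W'} (x0 : x ≠ 0) (hx : Q' x = 0) {p : ℕ} [Fact p.Prime]
    {P : Type*} [Group P] (hP : IsPGroup p P) (hp : (p : F) = 0) (ρ : P →* (V₁ ≃ₗ[F] V₁))
    (hρ : ∀ i w (hw : polar Q' x w = 0), ∃ g, (ρ g : End F V₁) = ψ i (eichler hx hw).1)
    {s : End F V₁} (hs : ∀ g, adG (ρ g) s = s) (sk : ∀ x y, B₁ (s x) y = -B₁ x (s y)) :
    IsNilpotent s := by
  obtain ⟨f, -, hf⟩ := exists_hyp h.o'.nd x0 hx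
  let E := h.pc.pu fun _ => (polarBilin Q' f).smulRight x
  have a1 : ∀ v, (∀ g, ρ g v = v) → E v = v := fun v hv =>
    Finset.noncommProd_induction _ _ (fun _ _ _ _ e => h.pc e _ _) (fun y : End F V₁ => y v = v)
      (fun a b ha hb => by rw [End.mul_apply, hb, ha]) rfl fun i _ =>
        h.o'.fix_of_eich (ψ i) hx hf fun w hw => by
          obtain ⟨g, e⟩ := hρ i w hw
          rw [← e]; exact hv g
  obtain ⟨l, a2⟩ := Submodule.mem_span_singleton.1 (h.pc.span_pu h.cen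
    (T := (F ∙ E).comap (mulLeftRight F (E, E))) (fun a => by
      rw [Submodule.mem_comap, mulLeftRight_apply, ← map_mul, ← map_mul]
      refine h.pc.pu_span (𝒲 := fun _ => {(polarBilin Q' f).smulRight x}) (fun w hw => by
        rw [show w = _ from funext hw]; exact Submodule.mem_span_singleton_self _) fun i =>
          Submodule.mem_span_singleton.2 ⟨polar Q' f (a i x), ?_⟩
      ext; simp [smul_smul, mul_comm]) s)
  have a3 : ∀ g v, ρ g (s v) = s (ρ g v) := fun g => LinearMap.congr_fun (adG_eq_self.1 (hs g)).eq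
  have a4 : (s - l • 1) ^ finrank F V₁ = 0 := by
    have := Module.finite_of_finite F (M := V₁)
    by_contra e
    obtain ⟨_, ⟨v, rfl⟩, b1, b2⟩ := exists_fixed_ne hP
      (LinearEquiv.automorphismGroup.toLinearMapMonoidHom.comp ρ)
      (S := range ((s - l • 1) ^ finrank F V₁)) (by
        rintro g _ ⟨v, rfl⟩
        exact ⟨ρ g v, (LinearMap.congr_fun (((adG_eq_self.1 (hs g)).sub_right
          ((Commute.one_right _).smul_right l)).pow_right _).eq v).symm⟩) (zero_mem _) (by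
        have := (Submodule.nontrivial_iff_ne_bot.2 (mt range_eq_bot.1 e))
        obtain ⟨v, hv⟩ := exists_ne (0 : range ((s - l • 1) ^ finrank F V₁))
        exact (addOrderOf_eq_prime (by rw [← Nat.cast_smul_eq_nsmul F, hp, zero_smul]) hv) ▸
          addOrderOf_dvd_natCard v)
    refine b1 (mem_ker.1 ((End.ker_pow_eq_ker_pow_finrank_of_le (Nat.le_succ _)).le ?_))
    generalize e : ((s - l • 1) ^ finrank F V₁) v = y at b2
    have b3 := LinearMap.congr_fun a2 y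
    rw [mulLeftRight_apply, End.mul_apply, End.mul_apply, LinearMap.smul_apply, a1 y b2,
      a1 _ fun g => (a3 g y).trans (congrArg s (b2 g))] at b3
    simp [pow_succ', e, b3]
  have a5 : ∀ (k : ℕ) x y, B₁ (((s - l • 1 : End F V₁) ^ k) x) y =
      B₁ x (((-s - l • 1 : End F V₁) ^ k) y) := fun k => by
    induction k with
    | zero => simp
    | succ k ih =>
      intro x y
      rw [pow_succ, End.mul_apply, ih, pow_succ', End.mul_apply]
      simp [sk]
  have := h.nt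
  obtain ⟨k, hk⟩ := (((Commute.refl s).neg_right.sub_right
    ((Commute.one_right s).smul_right l)).sub_left ((Commute.one_left _).smul_left l)).isNilpotent_add
      ⟨_, a4⟩ ⟨_, LinearMap.ext fun y => h.w₁.nondeg' _ fun x => by rw [← a5, a4]; simp⟩
  rw [show s - l • 1 + (-s - l • 1) = (-2 * l) • 1 by module, smul_pow, one_pow] at hk
  obtain rfl : l = 0 := by simpa [h.o₂.two] using pow_eq_zero_iff'.1 ((smul_eq_zero.1 hk).resolve_right
    one_ne_zero) |>.1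
  exact ⟨_, by simpa using a4⟩

omit u0 [FiniteDimensional F V₁] [FiniteDimensional F W] [FiniteDimensional F W'] [Finite F]
  [DecidableEq τ] in
theorem conj_SS {a : V₁ ≃ₗ[F] V₁} (ha : lG W a ∈ X) {s : End F V₁} (hs : s ∈ SS B Q X hu) :
    adG a s ∈ SS B Q X hu := by
  have := kS_conj hu a (b := 1) (ν := 1) (by simp) s
  rw [one_smul] at this
  refine ⟨this ▸ mul_mem (mul_mem (h.isom ha) hs.1) (inv_mem (h.isom ha)), fun b hb => ?_⟩
  convert mul_mem (mul_mem ha (hs.2 b hb)) (inv_mem ha) using 1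
  conv_lhs => rw [← this, show rG V₁ b = lG W a * rG V₁ b * (lG W a)⁻¹ from
    eq_mul_inv_of_mul_eq (tensor_ext fun _ _ => rfl), show TensorProduct.congr a 1 = lG W a from rfl]
  group

theorem sum_SS [Fintype (SS B Q X hu)] : ∑ s : SS B Q X hu, (s : End F V₁) = 0 := by
  refine h.eq_zero_of_adj (fun x y => ?_) ?_
  · simp only [LinearMap.sum_apply, map_sum, ← Finset.sum_neg_distrib]
    exact Finset.sum_congr rfl fun s _ => h.skew s.2.1 u0 hu (fun _ => rfl) x y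
  obtain ⟨c, e⟩ := Submodule.mem_span_singleton.1 (h.cen (∑ s : SS B Q X hu, (s : End F V₁))
    fun i => mem_Cm_of_lam fun l => h.o'.scalar_of_eich fun x w hx hw _ _ => by
      rw [adG_conj, ← LinearEquiv.coe_coe, ← lam_lft, lft_conj, ← adG_aut, map_sum]
      exact congrArg _ ((Finite.injective_iff_bijective.1 (show Function.Injective
        fun s : SS B Q X hu => (⟨_, h.conj_SS hu (h.mem i _ (eich_mem hx hw)) s.2⟩ : SS B Q X hu) from
        fun a b e => Subtype.ext (by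
          simpa using congrArg (fun s => adG (aut (ψ i) (eichler hx hw).1)⁻¹ s.1) e))).sum_comp
            Subtype.val))
  simp [← e]

theorem card_SS : (Nat.card (SS B Q X hu) : F) ≠ 0 := fun e => by
  obtain ⟨p, hp⟩ := CharP.exists F
  have := Fact.mk (CharP.char_is_prime F p)
  have := Module.finite_of_finite F (M := End F V₁)
  obtain ⟨x, x0, hx⟩ := h.o'.ex
  have cm : Pairwise fun i j => ∀ a b, Commute ((aut (ψ i)).comp (eichH hx) a)
      ((aut (ψ j)).comp (eichH hx) b) := fun i j e a b =>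
    LinearEquiv.toLinearMap_injective (h.pc e _ _)
  let ρ := MonoidHom.noncommPiCoprod _ cm
  have hP : IsPGroup p (τ → Multiplicative (ker (polarBilin Q' x))) := fun g => ⟨1, funext fun i => by
    rw [pow_one, Pi.pow_apply, ← ofAdd_toAdd (g i), ← ofAdd_nsmul, ← Nat.cast_smul_eq_nsmul F,
      CharP.cast_eq_zero, zero_smul]; rfl⟩
  obtain ⟨s, a1, a2, a3⟩ := exists_fixed_ne hP (adG.comp ρ) (S := SS B Q X hu) (fun g s => h.conj_SS hu
    (a := ρ g) (Finset.noncommProd_induction _ _ (fun _ _ _ _ e => cm e _ _) (fun a => lG W a ∈ X)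
      (fun a b ha hb => by rw [map_mul]; exact mul_mem ha hb) (by simp) fun i _ =>
        h.mem i _ (eich_mem hx (g i).toAdd.2)))
    ⟨by simp, fun b hb => by simpa using h.rad b hb⟩ ((CharP.cast_eq_zero_iff F p _).1 e)
  exact a2 (h.eq_zero_of_nil u0 hu a1 (h.nil_of_comm x0 hx hP (CharP.cast_eq_zero F p) ρ
    (fun i w hw => ⟨Pi.mulSingle i (.ofAdd ⟨w, hw⟩), congrArg LinearEquiv.toLinearMap
      (MonoidHom.noncommPiCoprod_mulSingle _ i _)⟩) a3 (h.skew a1.1 u0 hu fun _ => rfl)))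

include hu in
theorem locJ (h' : OP B₁ Q₁ Q₂ B Q G X' ψ' Q' G'') {g : V₁ ⊗[F] W ≃ₗ[F] V₁ ⊗[F] W}
    (hg : g ∈ Isom B Q) (e : ∀ y, g * y * g⁻¹ ∈ X' ↔ y ∈ X) {w : W} (w0 : w ≠ 0)
    (h1 : ∀ x, g (x ⊗ₜ w) ∈ range (tr u)) : g ∈ TenG F V₁ W := by
  refine h.mem_ten u0 (by simpa) w0 hg h1 fun hw b hb h1 => ?_
  replace hg := mul_mem (h.rG_isom (RGp_le_isom hb)) hg
  replace e : ∀ y, rG V₁ b * g * y * (rG V₁ b * g)⁻¹ ∈ X' ↔ y ∈ X := fun y => by
    rw [← e, show rG V₁ b * g * y * (rG V₁ b * g)⁻¹ = rG V₁ b * (g * y * g⁻¹) * (rG V₁ b)⁻¹ by group,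
      mul_mem_cancel_right (inv_mem (h'.rad b hb)), mul_mem_cancel_left (h'.rad b hb)]
  generalize rG V₁ b * g = g at *
  have hw' : Q₂ w = 0 := by simpa using hw
  obtain ⟨_, ⟨a, b, rfl⟩, k, hk, rfl, -, s, hs⟩ := h.decomp w0 hw (h.loc w0 hw') h.rad
    (h.o₂.stA w0 hw') (.inl h.o₂.three) hg (fun c hc => (e _).1 (by
      simpa [mul_assoc] using h'.rad c hc)) h1
  obtain rfl : k = kS hw' (.ofAdd s) := LinearEquiv.ext hs
  suffices s = 0 by simpa [this] using congr_mem_TenG a b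
  have a1 : TensorProduct.congr a b ∈ Isom B Q := by simpa using mul_mem hg (inv_mem hk)
  obtain ⟨x, y, a2⟩ := h.exists_one
  have a3 : ∀ s t, B₁ (a x) (a y) * polarBilin Q₂ (b s) (b t) = polarBilin Q₂ s t := fun s t => by
    simpa [h.eq, a2] using a1.1 (x ⊗ₜ s) (y ⊗ₜ t)
  generalize B₁ (a x) (a y) = μ at a3
  have μ0 : μ ≠ 0 := by
    rintro rfl
    exact w0 (h.o₂.nd.1 w fun t => by simpa using (a3 w t).symm)
  obtain ⟨c, a4⟩ : ∃ c : F, c • w = b w := Submodule.mem_span_singleton.1 (by_contra fun e => by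
    have := eq_zero_of_range e (h1 x) ⟨a x, by simp [hs, polar_self', hw']⟩
    rw [map_eq_zero_iff _ (LinearEquiv.injective _), ← zero_tmul V₁ w] at this
    simp [tmul_left_inj w0 this] at a2)
  have c0 : c ≠ 0 := by rintro rfl; exact w0 (by simpa using a4.symm)
  have a5 := kS_conj hw' a (b := b) (ν := c * c * μ) (LinearMap.ext fun v => by
    obtain ⟨v, rfl⟩ := b.surjective v
    simp only [adG_apply, inv_apply_apply, nU_apply, map_smul, LinearMap.smul_apply, ← a3 w v, ← a4,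
      smul_smul, smul_eq_mul]
    congr 1; ring)
  have a6 : ∀ d, b⁻¹ * d * b ∈ RGp (polarBilin Q₂) Q₂ ↔ d ∈ RGp (polarBilin Q₂) Q₂ := fun d =>
    ⟨fun e => by
      simpa [mul_assoc] using conj_mem_RGp h.sing_iff h.isoW (inv_ne_zero μ0)
        (fun s t => (eq_inv_mul_iff_mul_eq₀ μ0).2 (a3 s t)) e,
    conj_mem_RGp (b := b⁻¹) h.sing_iff h.isoW μ0 fun s t => by
      rw [← a3, apply_inv_apply, apply_inv_apply]⟩
  have a7 : ∀ d, (TensorProduct.congr a b)⁻¹ * rG V₁ d * TensorProduct.congr a b =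
      rG V₁ (b⁻¹ * d * b) := fun d => tensor_ext fun x w => by
    change a⁻¹ (a x) ⊗ₜ b⁻¹ (d (b w)) = _
    rw [inv_apply_apply]; rfl
  have ν0 : c * c * μ ≠ 0 := by simp [c0, μ0]
  generalize c * c * μ = ν at a5 ν0
  let Φ : End F V₁ ≃ End F V₁ := ⟨fun y => ν • adG a (y - s), fun y => ν⁻¹ • adG a⁻¹ y + s,
    fun y => by simp [ν0], fun y => by simp [ν0]⟩
  have a8 : ∀ y, y ∈ SS B Q X hw' ↔ Φ y ∈ SS B Q X' hw' := fun y => by
    have b1 : kS hw' (.ofAdd (Φ y)) = TensorProduct.congr a b * kS hw' (.ofAdd y) *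
        (TensorProduct.congr a b * kS hw' (.ofAdd s))⁻¹ := by
      rw [show Φ y = ν • adG a (y - s) from rfl, ← a5, ofAdd_sub, div_eq_mul_inv, map_mul, map_inv]
      group
    simp only [SS, Set.mem_setOf_eq, b1, mul_mem_cancel_right (inv_mem hg), mul_mem_cancel_left a1]
    refine and_congr_right fun _ => ⟨fun H d hd => ?_, fun H d hd => (e _).1 ?_⟩
    · convert (e _).2 (H _ ((a6 d).2 hd)) using 1
      rw [← a7]; group
    convert H (b * d * b⁻¹) ((a6 _).1 (by simpa [mul_assoc])) using 1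
    rw [show rG V₁ d = rG V₁ (b⁻¹ * (b * d * b⁻¹) * b) by simp [mul_assoc], ← a7]; group
  have := Module.finite_of_finite F (M := End F V₁)
  have := Fintype.ofFinite (SS B Q X hw')
  have := Fintype.ofFinite (SS B Q X' hw')
  have a9 := (Φ.subtypeEquiv a8).sum_comp Subtype.val
  simp only [Equiv.subtypeEquiv_apply, Φ, Equiv.coe_fn_mk, h'.sum_SS w0 hw', ← Finset.smul_sum,
    ← map_sum, Finset.sum_sub_distrib, h.sum_SS w0 hw', Finset.sum_const, Finset.card_univ,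
    ← Nat.cast_smul_eq_nsmul F, ← Nat.card_eq_fintype_card] at a9
  have := h.card_SS w0 hw'
  generalize (Nat.card (SS B Q X hw') : F) = n at *
  simpa [ν0, this] using congrArg (adG a⁻¹) a9

end OP

end CF.MaxSub
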