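/-
Orthogonal tensor factors, IV: Eichler transformations in the tensor product subgroup.
-/
import Cfsg.Agent.MaxSub.YC

set_option autoImplicit false

namespace CF.MaxSub

open Module Geom TensorProduct QuadraticMap
open LinearMap hiding polar

variable {F V₁ W : Type*} [Field F] [AddCommGroup V₁] [Module F V₁] [AddCommGroup W]
  [Module F W] {B₁ : LinearMap.BilinForm F V₁} {Q₁ : V₁ → F} {Q₂ : QuadraticForm F W}
  {B : LinearMap.BilinForm F (V₁ ⊗[F] W)} {Q : V₁ ⊗[F] W → F}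
  {G X : Subgroup (V₁ ⊗[F] W ≃ₗ[F] V₁ ⊗[F] W)} {u w : W}

theorem exists_last {N : End F W} (h : IsNilpotent N) (h0 : N * N ≠ 0) :
    ∃ s, N (N s) ≠ 0 ∧ N (N (N s)) = 0 := by
  by_contra! H
  obtain ⟨s, hs⟩ := DFunLike.ne_iff.1 h0
  obtain ⟨k, hk⟩ := h
  have : ∀ k, N (N ((N ^ k) s)) ≠ 0 := fun k => by
    induction k with
    | zero => exact hs
    | succ k ih => rw [pow_succ']; exact H _ ih
  exact this k (by simp [hk])

variable [FiniteDimensional F V₁] [FiniteDimensional F W]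

omit [FiniteDimensional F W] in
theorem finrank_span_list_le (l : List W) {s : Set W} (e : ∀ x, x ∈ s ↔ x ∈ l) :
    finrank F (Submodule.span F s) ≤ l.length := by
  classical
  rw [show s = l.toFinset from Set.ext (by simpa using e)]
  exact (finrank_span_finset_le_card (R := F) l.toFinset).trans l.toFinset_card_le

theorem lG_of_lA [Nontrivial W] {k : V₁ ⊗[F] W ≃ₗ[F] V₁ ⊗[F] W} {A : End F V₁}
    (e : (k : End F (V₁ ⊗[F] W)) = lA W A) : ∃ a, k = lG W a := by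
  obtain ⟨w, hw⟩ := exists_ne (0 : W)
  exact ⟨.ofInjectiveEndo A fun x y e' => tr_injective hw (k.injective (by
    simp [← LinearEquiv.coe_coe k, e, e'])), LinearEquiv.toLinearMap_injective e⟩

theorem rG_of_rA [Nontrivial V₁] {k : V₁ ⊗[F] W ≃ₗ[F] V₁ ⊗[F] W} {A : End F W}
    (e : (k : End F (V₁ ⊗[F] W)) = rA V₁ A) : ∃ a, k = rG V₁ a := by
  obtain ⟨x, hx⟩ := exists_ne (0 : V₁)
  obtain ⟨l, hl⟩ := exists_dual_eq_one (F := F) hx
  exact ⟨.ofInjectiveEndo A fun s t e' => by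
    simpa [hl] using congrArg (cl l) (k.injective (a₁ := x ⊗ₜ s) (a₂ := x ⊗ₜ t) (by
      simp [← LinearEquiv.coe_coe k, e, e'])), LinearEquiv.toLinearMap_injective e⟩

omit [FiniteDimensional F V₁] in
theorem OS.skew_sq (o : OS Q₂) {β : End F W} (sk : ∀ s t, polar Q₂ (β s) t = -polar Q₂ s (β t))
    (h2 : β * β = 0) (h0 : β ≠ 0) :
    ∃ f f', β f ∉ F ∙ f ∧ β f' ∉ Submodule.span F {f, β f, f'} ∧ ¬ An Q₂ := by
  obtain ⟨f, hf⟩ := DFunLike.ne_iff.1 h0
  obtain ⟨f', e⟩ := exists_apply_eq_one (φ := polarBilin Q₂ (β f)) fun e =>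
    hf (o.nd.1 _ fun y => by simp [e])
  replace h2 : ∀ s, β (β s) = 0 := LinearMap.congr_fun h2
  have a1 : polar Q₂ f (β f) = 0 := mul_left_cancel₀ o.two (by
    linear_combination sk f f + polar_comm Q₂ f (β f))
  rw [polarBilin_apply_apply] at e
  have a2 : polar Q₂ f (β f') = -1 := by linear_combination sk f f' - e
  have a3 : β f' ∉ Submodule.span F {f, β f, f'} := fun e => by
    obtain ⟨a, b, c, e⟩ := Submodule.mem_span_triple.1 e
    have b1 := congrArg β e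
    simp only [map_add, map_smul, h2, smul_zero, add_zero] at b1
    obtain rfl : c = 0 := by simpa [a1, a2] using congrArg (polar Q₂ f) b1
    obtain rfl : a = 0 := by simpa [show β f ≠ 0 from hf] using b1
    simpa [a1, a2] using congrArg (polar Q₂ f) e
  have a4 : ∀ s, Q₂ (β s) = 0 := fun s => mul_left_cancel₀ o.two (by
    simpa [h2, polar_self'] using sk s (β s))
  refine ⟨f, f', fun e => ?_, a3, fun an => a3 (Submodule.span_mono (by simp)
    (an (β f) (β f') hf (a4 f) (a4 f') (by simp [sk, h2])))⟩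
  obtain ⟨c, e⟩ := Submodule.mem_span_singleton.1 e
  obtain rfl : c = 0 := by simpa [h2, show β f ≠ 0 from hf] using congrArg β e
  exact hf (by simpa using e.symm)

theorem exists_unip [Finite F] [Nontrivial V₁] [Nontrivial W] {k : V₁ ⊗[F] W ≃ₗ[F] V₁ ⊗[F] W}
    (hk : k ∈ TenG F V₁ W) (hp : k ^ ringChar F = 1) : ∃ (β : End F W) (A : End F V₁),
      IsNilpotent β ∧ Function.Injective A ∧ ∀ x w, k (x ⊗ₜ w) = A x ⊗ₜ (w + β w) := by
  have := Fact.mk (CharP.char_is_prime F (ringChar F))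
  have := charP_of_injective_algebraMap (algebraMap F (End F W)).injective (ringChar F)
  obtain ⟨a, b, rfl⟩ := hk
  obtain ⟨x, hx⟩ := exists_ne (0 : V₁)
  obtain ⟨l, hl⟩ := exists_dual_eq_one (F := F) hx
  obtain ⟨c, hc⟩ := (frobeniusEquiv F (ringChar F)).surjective (l ((a ^ ringChar F) x))
  have b1 : (c • (b : End F W)) ^ ringChar F = 1 := LinearMap.ext fun w => by
    have := congrArg (cl l) (LinearEquiv.congr_fun hp (x ⊗ₜ w))
    rw [TensorProduct.congr_pow, congr_tmul, cl_tmul, ← hc, LinearEquiv.pow_apply] at this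
    simpa [smul_pow, hl, End.pow_apply, _root_.frobenius_def] using this
  have c0 : c ≠ 0 := by rintro rfl; simp [(Fact.out : (ringChar F).Prime).ne_zero] at b1
  refine ⟨c • (b : End F W) - 1, c⁻¹ • (a : End F V₁), ⟨ringChar F, ?_⟩, fun x y e => ?_,
    fun x w => by simp [smul_tmul, c0]⟩
  · rw [sub_pow_char_of_commute _ (Commute.one_right _), b1, one_pow, sub_self]
  · simpa [c0] using e

omit [FiniteDimensional F V₁] in
theorem OS.exists_pair (o : OS Q₂) (h4 : 4 ≤ finrank F W) {β : End F W} (hβ : IsNilpotent β)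
    (β0 : β ≠ 0) {κ : F} (hκ : ∀ s t, κ * polar Q₂ (s + β s) (t + β t) = polar Q₂ s t) :
    ∃ f f', β f ∉ F ∙ f ∧ β f' ∉ Submodule.span F {f, β f, f'} ∧
      finrank F (Submodule.span F {f, β f, f', β f'}) < finrank F W := by
  by_cases e : β * β = 0
  swap
  · obtain ⟨f, b1, b2⟩ := exists_last hβ e
    refine ⟨f, β f, fun e => ?_, fun e => ?_,
      lt_of_le_of_lt (finrank_span_list_le [f, β f, β (β f)] (by simp)) h4⟩
    · obtain ⟨c, e⟩ := Submodule.mem_span_singleton.1 e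
      obtain rfl : c = 0 := by simpa [b1, b2] using congrArg (fun x => β (β x)) e
      simp [← e] at b1
    · rw [Set.pair_eq_singleton] at e
      obtain ⟨c, d, e⟩ := Submodule.mem_span_pair.1 e
      obtain rfl : c = 0 := by simpa [b1, b2] using congrArg (fun x => β (β x)) e
      obtain rfl : d = 0 := by simpa [b1, b2] using congrArg β e
      simp [← e] at b1
  replace e : ∀ s, β (β s) = 0 := LinearMap.congr_fun e
  obtain rfl : κ = 1 := by_contra fun b3 => β0 (LinearMap.ext fun s => o.nd.1 _ fun t => by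
    have c1 := hκ (β s) t
    have c2 := hκ (β s) (β t)
    simp only [e, add_zero, polar_add_right] at c1 c2
    exact mul_left_cancel₀ (sub_ne_zero.2 b3) (mul_left_cancel₀ (sub_ne_zero.2 b3) (by
      rw [polarBilin_apply_apply]
      linear_combination (κ - 1) * c1 - κ * c2)))
  obtain ⟨f, f', c1, c2, c3⟩ := o.skew_sq (β := β) (fun s t => by
    have c1 := hκ (β s) t
    have c2 := hκ s t
    simp only [e, add_zero, polar_add_right, polar_add_left] at c1 c2
    linear_combination c2 - c1) (LinearMap.ext e) β0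
  exact ⟨f, f', c1, c2,
    lt_of_le_of_lt (finrank_span_list_le [f, β f, f', β f'] (by simp)) (o.an'.resolve_right c3)⟩

variable [Finite F] (h : WZ B₁ Q₁ (polarBilin Q₂) Q₂ B Q G) (o : OS Q₂)
include h o

theorem WZ.di_four (h4 : 4 ≤ finrank F W) {k : V₁ ⊗[F] W ≃ₗ[F] V₁ ⊗[F] W} (hk : k ∈ TenG F V₁ W)
    (hk' : k ∈ Isom B Q) (hp : k ^ ringChar F = 1) {M : Submodule F (V₁ ⊗[F] W)}
    (hM : finrank F M ≤ 2 * finrank F V₁) (e : ∀ v, k v - v ∈ M) :
    (∃ b, k = rG V₁ b) ∨ ∃ a, k = lG W a := by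
  have := h.nt
  have : Nontrivial W := nontrivial_of_finrank_pos (R := F) (by omega)
  obtain ⟨β, A, hβ, hA, a1⟩ := exists_unip hk hp
  by_cases β0 : β = 0
  · exact .inr (lG_of_lA (A := A) (TensorProduct.ext' fun x w => by simp [a1, β0]))
  obtain ⟨x, y, b1⟩ := h.exists_one
  obtain ⟨f, f', a2, a3, a4⟩ := o.exists_pair h4 hβ β0 (κ := B₁ (A x) (A y)) fun s t => by
    simpa only [a1, h.eq, b1, one_mul, polarBilin_apply_apply] using hk'.1 (x ⊗ₜ s) (y ⊗ₜ t)
  obtain ⟨φ, b1, b2⟩ := exists_dual_sep a2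
  obtain ⟨φ', b3, b4⟩ := exists_dual_one a3
  obtain ⟨r, -, b5⟩ := Geom.exists_notMem_of_finrank_lt (X := ⊤)
    (Z := Submodule.span F {f, β f, f', β f'}) (by rwa [finrank_top])
  obtain ⟨χ, b6, b7⟩ := exists_dual_one b5
  replace b4 := fun x hx => b4 x (Submodule.subset_span hx)
  replace b7 := fun x hx => b7 x (Submodule.subset_span hx)
  obtain ⟨Φ, hΦ⟩ : ∃ Φ : V₁ × V₁ →ₗ[F] V₁ ⊗[F] W, ∀ x y, Φ (x, y) =
      A x ⊗ₜ (f + β f) - x ⊗ₜ f + (A y ⊗ₜ (f' + β f') - y ⊗ₜ f') :=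
    ⟨((k : End F (V₁ ⊗[F] W)) - 1) ∘ₗ (tr f).coprod (tr f'), fun x y => by simp [← a1]; abel⟩
  have c0 : Function.Injective Φ := (injective_iff_map_eq_zero _).2 fun ⟨x, y⟩ e => by
    obtain rfl : y = 0 := hA (by simpa [hΦ, b3, b4] using congrArg (ct φ') e)
    obtain rfl : x = 0 := hA (by simpa [hΦ, b1, b2] using congrArg (ct φ) e)
    rfl
  have c1 : range Φ = M := Submodule.eq_of_le_of_finrank_le (by
    rintro _ ⟨⟨x, y⟩, rfl⟩
    rw [hΦ, ← a1, ← a1]
    exact add_mem (e _) (e _)) (by rwa [finrank_range_of_inj c0, finrank_prod, ← two_mul])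
  refine .inl (rG_of_ct hk (φ := χ) (r := r) fun x => ?_)
  obtain ⟨⟨y, y'⟩, hy⟩ := c1.ge (e (x ⊗ₜ r))
  simpa [hΦ, b6, b7, sub_eq_zero] using (congrArg (ct χ) hy).symm

theorem WZ.exists_skew {a : End F W} {A : End F V₁} (hn : IsNilpotent (rA V₁ a + lA W A))
    (e : ∀ v w, B ((rA V₁ a + lA W A) v) w = -B v ((rA V₁ a + lA W A) w)) :
    ∃ β A', rA V₁ a + lA W A = rA V₁ β + lA W A' ∧ IsNilpotent β ∧
      ∀ s t, polar Q₂ (β s) t = -polar Q₂ s (β t) := by
  obtain ⟨u, u0, -⟩ := o.ex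
  have := h.nt
  have := nontrivial_of_ne u 0 u0
  obtain ⟨c, hc⟩ := exists_nilpotent hn
  obtain ⟨N, rfl⟩ : ∃ N, a = N + c • 1 := ⟨a - c • 1, by simp⟩
  rw [add_sub_cancel_right] at hc
  obtain ⟨x, y, e'⟩ := h.exists_one
  obtain ⟨ν, a1⟩ : ∃ ν : F, ∀ s t, polar Q₂ (N s) t = polar Q₂ s ((ν • 1 - N) t) :=
    ⟨-(c + c + B₁ (A x) y + B₁ x (A y)), fun s t => by
      have := e (x ⊗ₜ s) (y ⊗ₜ t)
      simp [h.eq, e'] at this ⊢
      linear_combination this⟩
  have a2 : ∀ k s t, polar Q₂ ((N ^ k) s) t = polar Q₂ s (((ν • 1 - N) ^ k) t) := fun k => by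
    induction k with
    | zero => simp
    | succ k ih => intro s t; rw [pow_succ', End.mul_apply, a1, ih, pow_succ, End.mul_apply]
  have a3 : ν = 0 := by
    obtain ⟨k, hk⟩ := (Commute.sub_left (Commute.smul_left (Commute.one_left N) ν)
      (.refl N)).isNilpotent_add
      (hc.imp fun k hk => LinearMap.ext fun t => o.nd.2 _ fun s => by simp [← a2, hk]) hc
    simpa [smul_pow, u0] using (show ν ^ k = 0 by simpa [smul_pow, u0] using LinearMap.congr_fun hk u)
      |> pow_eq_zero_iff'.1 |>.1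
  exact ⟨N, A + c • 1, by simp; abel, hc, fun s t => by simp [a1, a3]⟩

theorem WZ.di_three (an : An Q₂) {t : F} (t0 : t ≠ 0) (t1 : t ^ 2 ≠ 1) {N : End F (V₁ ⊗[F] W)}
    (hN : IsNilpotent N) (sk : ∀ v w, B (N v) w = -B v (N w))
    {K : F → V₁ ⊗[F] W ≃ₗ[F] V₁ ⊗[F] W} (hK : ∀ t, K t ∈ TenG F V₁ W) (hi : ∀ t, (K t)⁻¹ = K (-t))
    (e : ∀ t, (K t : End F (V₁ ⊗[F] W)) = 1 + t • N + (t ^ 2 / 2) • (N * N)) :
    (∃ b, K 1 = rG V₁ b) ∨ ∃ a, K 1 = lG W a := by
  obtain ⟨u, u0, -⟩ := o.ex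
  have := h.nt
  have := nontrivial_of_ne u 0 u0
  have H : ∀ a (t : F), (2 * t) • (N * rA V₁ a - rA V₁ a * N) +
      t ^ 3 • (N * rA V₁ a * (N * N) - N * N * rA V₁ a * N) ∈ range (rA V₁ (W := W)).toLinearMap :=
    fun a t => by
      obtain ⟨b, hb⟩ := adG_ten_rA (hK t)
      obtain ⟨b', hb'⟩ := adG_ten_rA (hK (-t))
      refine ⟨adG b a - adG b' a, ?_⟩
      rw [AlgHom.toLinearMap_apply, map_sub, ← hb, ← hb', adG_eq, adG_eq, hi, hi, neg_neg, e, e]
      simp only [mul_add, add_mul, smul_mul_assoc, mul_smul_comm, one_mul, mul_one]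
      match_scalars <;> field_simp [o.two] <;> ring
  have H1 : ∀ a, N * rA V₁ a * (N * N) - N * N * rA V₁ a * N ∈ range (rA V₁ (W := W)).toLinearMap :=
    fun a => (Submodule.smul_mem_iff _ (mul_ne_zero t0 (sub_ne_zero.2 t1))).1 (by
      convert sub_mem (H a t) (Submodule.smul_mem _ t (H a 1)) using 1
      module)
  obtain ⟨φ, hφ⟩ := exists_dual_eq_one (F := F) u0
  obtain ⟨x₀, hx⟩ := exists_ne (0 : V₁)
  obtain ⟨l, hl⟩ := exists_dual_eq_one (F := F) hx
  have a1 : N = rA V₁ (cl l ∘ₗ N ∘ₗ TensorProduct.mk F V₁ W x₀ - l (ct φ (N (x₀ ⊗ₜ u))) • 1) +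
      lA W (ct φ ∘ₗ N ∘ₗ tr u) := TensorProduct.ext' fun x w => by
    have := sub_mem (H (φ.smulRight w) 1) (H1 (φ.smulRight w))
    rw [one_pow, one_smul, add_sub_cancel_right, mul_one, Submodule.smul_mem_iff _ o.two] at this
    obtain ⟨D, hD⟩ := this
    have b1 : ∀ x, N (x ⊗ₜ w) = x ⊗ₜ D u + ct φ (N (x ⊗ₜ u)) ⊗ₜ w := fun x => by
      have := LinearMap.congr_fun hD (x ⊗ₜ u)
      rw [← one_mul (rA V₁ (φ.smulRight w) * N), ← map_one (lA W), ← mul_assoc, lA_mul_rA] at this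
      simpa [map_smulRight, hφ, sub_eq_iff_eq_add] using this.symm
    simp [b1, hl, tmul_add]
  obtain ⟨β, A, a2, a3, a4⟩ := h.exists_skew o (a1 ▸ hN) (a1 ▸ sk)
  obtain rfl := a1.trans a2
  by_cases β0 : β = 0
  · exact .inr (lG_of_lA (A := 1 + A + (1 / 2 : F) • (A * A)) (by simp [e, β0]))
  obtain ⟨c, rfl⟩ : ∃ c : F, A = c • 1 := by
    by_contra b1
    obtain ⟨x, b1⟩ := exists_not_eigen_end (not_exists.1 b1)
    obtain ⟨l, b2, b3⟩ := exists_dual_sep b1
    obtain ⟨μ, b4⟩ := scalar_of_comm (a := β * β + l (A (A x)) • β) fun a => LinearMap.ext fun w => by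
      obtain ⟨D, hD⟩ := H1 a
      have := congrArg (cl l) (LinearMap.congr_fun hD (x ⊗ₜ w))
      simp [b2, b3] at this ⊢
      linear_combination (norm := module) this
    obtain ⟨s, b5, b6⟩ := exists_last a3 fun e => (o.skew_sq a4 e β0).elim fun _ ⟨_, e⟩ => e.2.2 an
    obtain rfl : μ = 0 := by simpa [b5, b6] using (LinearMap.congr_fun b4 (β (β s))).symm
    have b7 : l (A (A x)) = 0 := by simpa [b5, b6] using LinearMap.congr_fun b4 (β s)
    exact b5 (by simpa [b7] using LinearMap.congr_fun b4 s)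
  exact .inl (rG_of_rA (A := 1 + (β + c • 1) + (1 / 2 : F) • ((β + c • 1) * (β + c • 1)))
    (by simp [e]))

end CF.MaxSub
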