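/-
Orthogonal tensor factors, V: the trace argument.
-/
import Cfsg.Agent.MaxSub.YD

set_option autoImplicit false

namespace CF.MaxSub

open Module Geom TensorProduct QuadraticMap
open LinearMap hiding polar

variable {F V₁ W : Type*} [Field F] [AddCommGroup V₁] [Module F V₁] [AddCommGroup W]
  [Module F W] {B₁ : LinearMap.BilinForm F V₁} {Q₁ : V₁ → F} {Q₂ : QuadraticForm F W}
  {B : LinearMap.BilinForm F (V₁ ⊗[F] W)} {Q : V₁ ⊗[F] W → F}
  {G X : Subgroup (V₁ ⊗[F] W ≃ₗ[F] V₁ ⊗[F] W)} {u w : W}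

/-- The Eichler transformations along a line. -/
def eT (hu : Q₂ u = 0) (hw : polar Q₂ u w = 0) : Multiplicative F →* (W ≃ₗ[F] W) :=
  (eichH hu).comp (AddMonoidHom.toMultiplicative
    (toSpanSingleton F _ (⟨w, hw⟩ : ker (polarBilin Q₂ u))).toAddMonoidHom)

theorem eT_eq (hu : Q₂ u = 0) (hw : polar Q₂ u w = 0) (t : Multiplicative F) :
    eT hu hw t = (eichler hu (w := t.toAdd • w) (by simp [hw])).1 := rfl

theorem eT_one (hu : Q₂ u = 0) (hw : polar Q₂ u w = 0) : eT hu hw (.ofAdd 1) = (eichler hu hw).1 := by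
  simp [eT_eq]

theorem eT_mem (hu : Q₂ u = 0) (hw : polar Q₂ u w = 0) (t : Multiplicative F) :
    eT hu hw t ∈ RGp (polarBilin Q₂) Q₂ := eT_eq hu hw t ▸ eich_mem hu _

theorem coe_eT (hu : Q₂ u = 0) (hw : polar Q₂ u w = 0) (t : Multiplicative F) :
    (eT hu hw t : End F W) =
      1 + t.toAdd • wedge Q₂ u w - (t.toAdd ^ 2 * Q₂ w) • nU (polarBilin Q₂) u := by
  rw [eT_eq, coe_eich, map_smul, quad_smul]

theorem coe_eT' (h2 : (2 : F) ≠ 0) (hu : Q₂ u = 0) (hw : polar Q₂ u w = 0) (t : Multiplicative F) :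
    (eT hu hw t : End F W) =
      1 + t.toAdd • wedge Q₂ u w + (t.toAdd ^ 2 / 2) • (wedge Q₂ u w * wedge Q₂ u w) := by
  rw [coe_eT, wedge_mul' hu hw hw, polar_self']
  match_scalars <;> field_simp

theorem wedge_cube (hu : Q₂ u = 0) (hw : polar Q₂ u w = 0) : wedge Q₂ u w ^ 3 = 0 := by
  rw [pow_three, wedge_mul' hu hw hw, mul_smul_comm, wedge_mul_nU hu hw, smul_zero]

theorem sum_pow_zero [Fintype F] {l : F} (l0 : l ≠ 0) {k : ℕ} (l1 : l ^ k ≠ 1) :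
    ∑ c : F, c ^ k = 0 := by
  have := Equiv.sum_comp (Equiv.mulLeft₀ l l0) fun c => c ^ k
  simp only [Equiv.mulLeft₀_apply, mul_pow, ← Finset.mul_sum] at this
  exact by_contra fun e => l1 (mul_left_injective₀ e (by simpa using this))

theorem sum_eT [Fintype F] (h2 : (2 : F) ≠ 0) (hu : Q₂ u = 0) (hw : polar Q₂ u w = 0)
    (z : End F (V₁ ⊗[F] W)) : ∑ t, adG (rG V₁ (eT hu hw t)) z =
      ((∑ t : F, t ^ 4) * Q₂ w ^ 2) • (rA V₁ (nU (polarBilin Q₂) u) * z * rA V₁ (nU (polarBilin Q₂) u))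
      - (∑ t : F, t ^ 2) • (rA V₁ (wedge Q₂ u w) * z * rA V₁ (wedge Q₂ u w) + Q₂ w •
        (rA V₁ (nU (polarBilin Q₂) u) * z + z * rA V₁ (nU (polarBilin Q₂) u))) := by
  have a0 : (-1 : F) ≠ 1 := fun e => h2 (by linear_combination -e)
  have a1 := sum_pow_zero (neg_ne_zero.2 (one_ne_zero (α := F))) (k := 1) (by simpa)
  have a3 := sum_pow_zero (neg_ne_zero.2 (one_ne_zero (α := F))) (k := 3) (by norm_num; exact a0)
  generalize hn : rA V₁ (wedge Q₂ u w) = n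
  generalize hN : rA V₁ (nU (polarBilin Q₂) u) = N
  have a4 : ∀ t : F, adG (rG V₁ (eT hu hw (.ofAdd t))) z = z + t ^ 1 • (n * z - z * n) +
      t ^ 3 • (Q₂ w • (N * z * n - n * z * N)) + (t ^ 4 • (Q₂ w ^ 2 • (N * z * N)) -
        t ^ 2 • (n * z * n + Q₂ w • (N * z + z * N))) := fun t => by
    rw [adG_eq, ← map_inv, ← map_inv, coe_rG, coe_rG, coe_eT, coe_eT]
    simp only [map_add, map_sub, map_one, map_smul, toAdd_inv, toAdd_ofAdd, add_mul, mul_add,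
      sub_mul, mul_sub, one_mul, mul_one, smul_mul_assoc, mul_smul_comm, hn, hN]
    module
  rw [← Multiplicative.ofAdd.sum_comp]
  simp only [a4, Finset.sum_sub_distrib, Finset.sum_add_distrib, Finset.sum_const, Finset.card_univ,
    ← Nat.cast_smul_eq_nsmul F, FiniteField.cast_card_eq_zero, zero_smul, zero_add,
    ← Finset.sum_smul, a1, a3, mul_smul]

theorem rA_wedge (u w : W) (v : V₁ ⊗[F] W) : rA V₁ (wedge Q₂ u w) v =
    ct (polarBilin Q₂ u) v ⊗ₜ w - ct (polarBilin Q₂ w) v ⊗ₜ u := by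
  induction v with
  | zero => simp
  | add a b ha hb => simp only [map_add, ha, hb, add_tmul]; abel
  | tmul x s => simp [tmul_sub, smul_tmul]

theorem WZ.adG_skew (h : WZ B₁ Q₁ (polarBilin Q₂) Q₂ B Q G) {g : V₁ ⊗[F] W ≃ₗ[F] V₁ ⊗[F] W}
    (hg : g ∈ Isom B Q) (u w : W) (v v' : V₁ ⊗[F] W) :
    B (adG g (rA V₁ (wedge Q₂ u w)) v) v' = -B v (adG g (rA V₁ (wedge Q₂ u w)) v') := by
  obtain ⟨v, rfl⟩ := g.surjective v
  obtain ⟨v', rfl⟩ := g.surjective v'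
  rw [adG_apply, adG_apply, inv_apply_apply, inv_apply_apply, hg.1, hg.1, ← map_neg (B v),
    ← LinearMap.neg_apply, ← map_neg]
  exact h.form_ext (fun x y s t => by rw [rA_tmul, rA_tmul, h.eq, h.eq]; exact congrArg _ (wedge_adj ..)) v v'

variable [Finite F] [FiniteDimensional F V₁] [FiniteDimensional F W]
  (h : WZ B₁ Q₁ (polarBilin Q₂) Q₂ B Q G) (o : OS Q₂) {𝒳 : Set (V₁ ⊗[F] W ≃ₗ[F] V₁ ⊗[F] W)}
  (hX : ∀ g ∈ 𝒳, ∀ b ∈ RGp (polarBilin Q₂) Q₂, ∀ g' ∈ 𝒳, g * rG V₁ b * g⁻¹ * g' ∈ 𝒳)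
  (hL : ∀ g ∈ Df 𝒳, ∀ w ≠ 0, ∀ u, u ≠ 0 ∧ Q₂ u = 0 → (∀ x, g (x ⊗ₜ w) ∈ range (tr u)) →
    g ∈ TenG F V₁ W) (hI : ∀ g ∈ 𝒳, g ∈ Isom B Q)
include h o hX hL hI

theorem WZ.rsysO : RSys (Df 𝒳) {u | u ≠ 0 ∧ Q₂ u = 0}
    (I := {p : W × W // p.1 ≠ 0 ∧ Q₂ p.1 = 0 ∧ polar Q₂ p.1 p.2 = 0 ∧ Q₂ p.2 ≠ 0})
    (fun p => {e | ∃ t, (t = .ofAdd 1 ∨ finrank F W = 3) ∧ e = eT p.2.2.1 p.2.2.2.1 t})
    fun p => eT p.2.2.1 p.2.2.2.1 (.ofAdd 1) where
  cr := fun ⟨⟨u, w⟩, u0, hu, hw, qw⟩ => ⟨u, ⟨u0, hu⟩, 2, by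
    simpa [eT_one, eich_sq, o.two, qw] using o.nU_ne u0, fun s => by
      rw [eT_one, eich_sq]
      exact Submodule.smul_mem _ _ (Submodule.smul_mem _ _ (Submodule.mem_span_singleton_self u))⟩
  di := fun g hg ⟨⟨u, w⟩, u0, hu, hw, qw⟩ e => by
    have a1 : g ∈ Isom B Q := by
      obtain ⟨a, ha, b, hb, rfl⟩ := hg
      exact mul_mem (inv_mem (hI a ha)) (hI b hb)
    by_cases h3 : finrank F W = 3
    · obtain ⟨t, t0, t1⟩ := o.four.resolve_left (by omega)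
      refine h.di_three o (o.an'.resolve_left (by omega)) t0 t1
        (N := adG g⁻¹ (rA V₁ (wedge Q₂ u w))) ⟨3, by rw [← adG_pow, ← map_pow, wedge_cube hu hw]; simp⟩
        (h.adG_skew (inv_mem a1) u w) (K := fun t => g⁻¹ * rG V₁ (eT hu hw (.ofAdd t)) * g)
        (fun t => e _ ⟨_, .inr h3, rfl⟩) (fun t => by simp [mul_assoc]) fun t => ?_
      have := adG_coe g⁻¹ (rG V₁ (eT hu hw (.ofAdd t)))
      rw [inv_inv] at this
      rw [← this, coe_rG, coe_eT' o.two]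
      simp [adG_mul]
    refine h.di_four o (by have := o.three; omega) (e _ ⟨_, .inl rfl, rfl⟩)
      (mul_mem (mul_mem (inv_mem a1) (h.rG_isom (RGp_le_isom (eT_mem hu hw _)))) a1)
      (by simp only [eT_one]; rw [← inv_inv g, inv_inv g⁻¹, conj_pow, ← map_pow, eichler_pow_char]; simp)
      (M := (range (tr u) ⊔ range (tr w)).map (g⁻¹).toLinearMap) ?_ fun v =>
        ⟨rG V₁ (eT hu hw (.ofAdd 1)) (g v) - g v, ?_, by simp [inv_apply_apply]⟩
    · rw [LinearEquiv.finrank_map_eq, two_mul]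
      exact (Submodule.finrank_add_le_finrank_add_finrank _ _).trans
        (add_le_add (finrank_range_le _) (finrank_range_le _))
    rw [← LinearEquiv.coe_coe (rG V₁ _), coe_rG, coe_eT]
    simp only [map_sub, map_add, map_one, map_smul, LinearMap.sub_apply, LinearMap.add_apply,
      LinearMap.smul_apply, rA_wedge, rA_nU, End.one_apply, sub_right_comm _ _ (g v),
      add_sub_cancel_left]
    exact sub_mem (Submodule.smul_mem _ _ (sub_mem (Submodule.mem_sup_right ⟨_, rfl⟩)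
      (Submodule.mem_sup_left ⟨_, rfl⟩))) (Submodule.smul_mem _ _ (Submodule.mem_sup_left ⟨_, rfl⟩))
  loc := hL
  inv := by
    rintro _ ⟨a, ha, b, hb, rfl⟩
    exact ⟨b, hb, a, ha, by simp⟩
  rt := by
    rintro _ ⟨a, ha, b, hb, rfl⟩ ⟨⟨u, w⟩, u0, hu, hw, qw⟩ _ ⟨t, -, rfl⟩
    exact ⟨a, ha, _, hX b hb _ (eT_mem hu hw t) a ha, by simp [mul_assoc]⟩
  gen a e := o.scalar_of_eich fun u w hu hw u0 qw => eT_one hu hw ▸ e ⟨⟨u, w⟩, u0, hu, hw, qw⟩

omit h o hX hL hI [Finite F] in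
theorem Fam.adG_Dl {G₂ : Subgroup (W ≃ₗ[F] W)} {𝒟 : Set (V₁ ⊗[F] W ≃ₗ[F] V₁ ⊗[F] W)} {𝒜}
    (hA : Fam G₂ 𝒟 𝒜) {b : W ≃ₗ[F] W} (hb : b ∈ G₂) (y : End F (V₁ ⊗[F] W)) :
    adG (rG V₁ b) (Dl 𝒜 y) = Dl 𝒜 (adG (rG V₁ b) y) := by
  classical
  refine adG_Ps (fun q hq => ?_) y
  obtain ⟨a1, a2⟩ := Finset.mem_filter.1 hq
  induction q using QuotientGroup.induction_on with | H g => ?_
  refine Finset.mem_filter.2 ⟨hA.inv b hb _ a1, fun h => a2 ?_⟩
  rw [MulAction.Quotient.smul_mk, good_out] at h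
  simpa [good_out] using h.mul_left (inv_mem (rG_mem b))

variable {𝒜 : Finset ((V₁ ⊗[F] W ≃ₗ[F] V₁ ⊗[F] W) ⧸ TenG F V₁ W)}
  (hA : Fam (RGp (polarBilin Q₂) Q₂) (Df 𝒳) 𝒜) (u0 : u ≠ 0) (hu : Q₂ u = 0) (A : End F V₁)
  {a : End F W} (ha : ∀ w (hw : polar Q₂ u w = 0), adG (eichler hu hw).1 a = a)
include hA u0 ha

theorem WZ.Dl_plane [Fintype F] (h4 : 4 ≤ finrank F W) : ∃ C, Dl 𝒜 (lA W A * rA V₁ a) =
    (∑ t : F, t ^ 2) • (lA W C * rA V₁ (nU (polarBilin Q₂) u)) := by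
  have := h.nt
  obtain ⟨w, w', a1, a2, a3, a4⟩ := o.exists_plane h4 u0 hu
  obtain ⟨C, e⟩ := hA.Dl_mem ((eT hu a1).noncommCoprod (eT hu a2) fun s t => by
      rw [Commute, SemiconjBy, eT_eq, eT_eq, ← Subgroup.coe_mul, ← Subgroup.coe_mul, ← eichler_add,
        ← eichler_add]
      simp only [add_comm])
    (fun e => mul_mem (eT_mem hu a1 e.1) (eT_mem hu a2 e.2)) A
    (a := a) (fun e => by simp [eT_eq, ha])
    (L := range ((∑ t : F, t ^ 2) • mulRight F (rA V₁ (nU (polarBilin Q₂) u)) ∘ₗ (lA W).toLinearMap))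
    (fun z => ⟨((∑ t : F, t ^ 2) * 2 * Q₂ w * Q₂ w') • (ct (polarBilin Q₂ u) ∘ₗ z ∘ₗ tr u), by
      have b1 := congrArg (rA V₁) (wedge_mul' hu a1 a2)
      have b2 := congrArg (rA V₁) (wedge_mul' hu a2 a1)
      have b3 := congrArg (rA V₁) (wedge_mul_nU hu a1)
      have b4 := congrArg (rA V₁) (nU_mul_wedge hu a1)
      have b5 := congrArg (rA V₁) (nU_sq' hu)
      have b6 := congrArg (rA V₁) (wedge_mul_nU hu a2)
      have b7 := congrArg (rA V₁) (nU_mul_wedge hu a2)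
      simp only [map_mul, a3, polar_comm Q₂ w' w, neg_zero, zero_smul, map_zero] at b1 b2 b3 b4 b5 b6 b7
      simp only [Fintype.sum_prod_type, MonoidHom.noncommCoprod_apply, map_mul, End.mul_apply,
        ← map_sum, sum_eT o.two, map_smul, LinearMap.smul_apply, LinearMap.comp_apply,
        mulRight_apply, AlgHom.toLinearMap_apply, smul_mul_assoc, ← rA_nU_mul, mul_sub, sub_mul,
        mul_add, add_mul, mul_smul_comm, mul_assoc, b2, b4, b5, b6, mul_zero]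
      simp only [← mul_assoc, b1, b3, b5, b7, zero_mul]
      module⟩) fun g hg e => .inl fun c e' => by_contra fun c0 => e ((h.rsysO o hX hL hI).good hg
        (i := ⟨⟨u, c.1.toAdd • w + c.2.toAdd • w'⟩, u0, hu, by simp [a1, a2], fun e =>
          c0 (Prod.ext (a4 _ _ e).1 (a4 _ _ e).2)⟩) (by
            rintro _ ⟨t, rfl | e, rfl⟩
            · rw [eT_one, eichler_add hu (by simp [a1]) (by simp [a2])]; exact e'
            omega))
  exact ⟨C, e.symm⟩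

theorem WZ.Dl_line [Fintype F] (h3 : finrank F W = 3) : ∃ C, Dl 𝒜 (lA W A * rA V₁ a) =
    lA W C * rA V₁ (nU (polarBilin Q₂) u) := by
  have := h.nt
  obtain ⟨w, a1, a2⟩ := o.exists_ns u0 hu
  obtain ⟨t, t0, t1⟩ := o.four.resolve_left (by omega)
  obtain ⟨k, hp, hk⟩ := FiniteField.card F (ringChar F)
  obtain ⟨C, e⟩ := hA.Dl_mem (eT hu a1) (eT_mem hu a1) A (a := a) (fun e => by rw [eT_eq, ha])
    (L := range (mulRight F (rA V₁ (nU (polarBilin Q₂) u)) ∘ₗ (lA W).toLinearMap))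
    (fun z => by
      rw [sum_eT o.two, sum_pow_zero t0 t1, zero_smul, sub_zero, rA_nU_mul]
      exact Submodule.smul_mem _ _ ⟨_, rfl⟩) fun g hg e => .inr ⟨_, k, hp, ringChar.Nat.cast_ringChar,
        (Fintype.card_multiplicative F).trans hk, by_contra fun e' => e ((h.rsysO o hX hL hI).good hg (i := ⟨⟨u, w⟩, u0, hu, a1, a2⟩) (by
          rintro _ ⟨t, -, rfl⟩
          exact not_not.1 (not_exists.1 e' t))), fun c c0 z hz c' => by
        have b1 := (adG_eq_self.1 hz).sub_left (.one_left z)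
        have b2 := b1.pow_left 2
        rw [coe_rG, ← map_one (rA V₁), ← map_sub] at b1 b2
        rw [← map_pow, eT_eq, eich_sq, map_smul, Commute.smul_left_iff₀ (by
          simpa [o.two, quad_smul, a2] using c0)] at b2
        rw [coe_eT, sub_right_comm, add_sub_cancel_left, map_sub, map_smul, map_smul] at b1
        have b3 := b1.add_left (b2.smul_left (c.toAdd ^ 2 * Q₂ w))
        rw [sub_add_cancel, Commute.smul_left_iff₀ (show c.toAdd ≠ 0 from c0)] at b3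
        rw [adG_eq_self, coe_rG, coe_eT, map_sub, map_add, map_one, map_smul, map_smul]
        exact ((Commute.one_left z).add_left (b3.smul_left _)).sub_left (b2.smul_left _)⟩
  exact ⟨C, e.symm⟩

omit ha in
include hu in
theorem WZ.Dl_wedge (hw : polar Q₂ u w = 0) : Dl 𝒜 (lA W A * rA V₁ (wedge Q₂ u w)) = 0 := by
  have := Fintype.ofFinite F
  refine o.stA u0 hu (ker (Dl 𝒜 ∘ₗ mulLeft F (lA W A) ∘ₗ (rA V₁).toLinearMap ∘ₗ wedge Q₂ u))
    (fun c hc γ e w hw => ?_) w hw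
  have a1 : ∀ w' (hw' : polar Q₂ u w' = 0), adG (eichler hu hw').1 (wedge Q₂ u w) = wedge Q₂ u w :=
    fun w' hw' => by
      rw [adG_wedge (RGp_le_isom (eich_mem hu hw')), eichler_apply_of_perp hu hw' hw,
        eichler_apply_of_perp hu hw' (by simp [polar_self', hu])]
      simp [polar_comm Q₂ w' u, hw', wedge_self]
  obtain ⟨C, a2⟩ : ∃ C, Dl 𝒜 (lA W A * rA V₁ (wedge Q₂ u w)) =
      lA W C * rA V₁ (nU (polarBilin Q₂) u) := by
    by_cases h3 : finrank F W = 3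
    · exact h.Dl_line o hX hL hI hA u0 hu A a1 h3
    obtain ⟨C, e⟩ := h.Dl_plane o hX hL hI hA u0 hu A a1 (by have := o.three; omega)
    exact ⟨_, by rw [e, ← smul_mul_assoc, ← map_smul]⟩
  have a3 := hA.adG_Dl hc (lA W A * rA V₁ (wedge Q₂ u w))
  have γ0 : γ ≠ 0 := by rintro rfl; simp [u0] at e
  rw [a2, adG_mul, adG_mul, adG_rG_lA, adG_rG_lA, adG_rG_rA, adG_rG_rA, adG_nU (RGp_le_isom hc),
    adG_wedge (RGp_le_isom hc), e, show nU (polarBilin Q₂) (γ • u) = γ • γ • nU (polarBilin Q₂) u by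
      ext; simp [smul_smul]; ring_nf, show wedge Q₂ (γ • u) (c w) = γ • wedge Q₂ u (c w) by
      ext; simp [smul_sub, smul_smul, mul_comm]] at a3
  simp only [map_smul, mul_smul_comm, smul_right_inj γ0] at a3
  simp [mul_sub, a2, a3]

omit hA u0 ha in
theorem WZ.good_of_wedge {g : V₁ ⊗[F] W ≃ₗ[F] V₁ ⊗[F] W} (hg : g ∈ Df 𝒳)
    (H : ∀ u w, u ≠ 0 → Q₂ u = 0 → polar Q₂ u w = 0 →
      ∃ a A, adG g (rA V₁ (wedge Q₂ u w)) = rA V₁ a + lA W A) : Good g := by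
  obtain ⟨u, u0, hu⟩ := o.ex
  obtain ⟨w, a1, a2⟩ := o.exists_ns u0 hu
  have := h.nt
  have := nontrivial_of_ne u 0 u0
  refine (h.rsysO o hX hL hI).good_of_sum hg (i := ⟨⟨u, w⟩, u0, hu, a1, a2⟩) ?_
  rintro _ ⟨t, -, rfl⟩
  obtain ⟨a, A, e⟩ := H u w u0 hu a1
  have a3 : g ∈ Isom B Q := by
    obtain ⟨a, ha, b, hb, rfl⟩ := hg
    exact mul_mem (inv_mem (hI a ha)) (hI b hb)
  obtain ⟨u', b1, b2, b3⟩ := h.exists_eigen ⟨u, u0, by simpa⟩ (a := a) (A := A) ⟨3, by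
    rw [← e, ← adG_pow, ← map_pow, wedge_cube hu a1]; simp⟩ (e ▸ h.adG_skew a3 u w)
  have b4 : wedge Q₂ u w ∈ Algebra.adjoin F {wedge Q₂ u w} := Algebra.subset_adjoin rfl
  exact ⟨_, coe_eT' o.two hu a1 t ▸ add_mem (add_mem (one_mem _) (Subalgebra.smul_mem _ b4 _))
    (Subalgebra.smul_mem _ (mul_mem b4 b4) _), a, A, e, u', ⟨b1, by simpa using b2⟩, b1, b3⟩

omit hA u0 ha in
theorem WZ.good_one (h4 : 4 ≤ finrank F W) {t : F} (t0 : t ≠ 0) (t1 : t ^ 2 ≠ 1)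
    {g : V₁ ⊗[F] W ≃ₗ[F] V₁ ⊗[F] W} (hg : g ∈ Df 𝒳) : Good g := by
  have := h.nt
  have := Fintype.ofFinite F
  have : Nontrivial W := nontrivial_of_finrank_pos (R := F) (by omega)
  refine h.good_of_wedge o hX hL hI hg fun u w u0 hu hw => glob_single hX (fun 𝒜 hA => Dl_mem_Cm
    (𝒩 := {a | ∃ u, u ≠ 0 ∧ Q₂ u = 0 ∧ (a = nU (polarBilin Q₂) u ∨
      ∃ w, polar Q₂ u w = 0 ∧ a = wedge Q₂ u w)}) ?_ fun b e => ?_) hg ?_
  · rintro A _ ⟨u, u0, hu, rfl | ⟨w, hw, rfl⟩⟩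
    · obtain ⟨C, e⟩ := h.Dl_plane o hX hL hI hA u0 hu A (a := nU (polarBilin Q₂) u) (fun w hw => by
        rw [adG_nU (RGp_le_isom (eich_mem hu hw)), eichler_apply_of_perp hu hw (by simp [polar_self', hu])]
        simp [polar_comm Q₂ w u, hw]) h4
      rw [e, sum_pow_zero t0 t1, zero_smul]
    exact h.Dl_wedge o hX hL hI hA u0 hu A hw
  · obtain ⟨c, hc⟩ := skew_of_sing o.nd o.two o.three o.four u0 hu (a := b) fun x hx => by
      by_cases x0 : x = 0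
      · simp [x0]
      exact (trace_mul_nU (B₂ := polarBilin Q₂) b x).symm.trans (e _ ⟨x, x0, hx, .inl rfl⟩)
    refine scalar_of_eigen o.wt o.three (exists_ne_zero_one o.two).1 (exists_ne_zero_one o.two).2
      u0 (by simpa using hu) fun x hx => ?_
    by_cases x0 : x = 0
    · simp [x0]
    by_contra e'
    obtain ⟨y, b1, b2⟩ := o.wt.exists_dual_vec e'
    replace b2 : polar Q₂ x y = 0 := b2 x (Submodule.mem_span_singleton_self x)
    have b3 := e _ ⟨x, x0, by simpa using hx, .inr ⟨y, b2, rfl⟩⟩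
    rw [show wedge Q₂ x y = (polarBilin Q₂ x).smulRight y - (polarBilin Q₂ y).smulRight x from rfl,
      mul_sub, map_sub, mul_smulRight, mul_smulRight, trace_smulRight, trace_smulRight] at b3
    simp only [polarBilin_apply_apply, polar_comm Q₂ y] at b1 b3
    exact o.two (by linear_combination hc x y - b3 - 2 * b1 + c * b2)
  obtain ⟨f, hf, e⟩ := exists_hyp o.nd u0 hu
  refine Submodule.subset_span ⟨_, eich_mem hu hw, wedge Q₂ u f, ?_⟩
  rw [adG_wedge (RGp_le_isom (eich_mem hu hw)), eichler_apply_of_perp hu hw (by simp [polar_self', hu])]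
  simp [polar_comm Q₂ w u, hw, eichler_apply, e, wedge_self]

end CF.MaxSub
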