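/-
Orthogonal tensor factors, VI: maximality.
-/
import Cfsg.Agent.MaxSub.YE
import Cfsg.Agent.MaxSub.WR

set_option autoImplicit false

namespace CF.MaxSub

open Module Geom TensorProduct QuadraticMap
open LinearMap hiding polar

variable {F V₁ W : Type*} [Field F] [AddCommGroup V₁] [Module F V₁] [AddCommGroup W]
  [Module F W] [FiniteDimensional F V₁] [FiniteDimensional F W] [Finite F]
  {B₁ : LinearMap.BilinForm F V₁} {Q₁ : V₁ → F} {Q₂ : QuadraticForm F W}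
  {B : LinearMap.BilinForm F (V₁ ⊗[F] W)} {Q : V₁ ⊗[F] W → F}
  {G X : Subgroup (V₁ ⊗[F] W ≃ₗ[F] V₁ ⊗[F] W)} {τ : Type*} [Fintype τ] [DecidableEq τ]
  {ψ : τ → End F W →ₐ[F] End F V₁} {π : τ → V₁ ⊗[F] W ≃ₗ[F] V₁ ⊗[F] W}

omit [FiniteDimensional F V₁] in
theorem OS.span_top (o : OS Q₂) : Submodule.span F ({a | ∀ s t, polar Q₂ (a s) t = polar Q₂ s (a t)} ∪
    {a | ∃ u w, u ≠ 0 ∧ Q₂ u = 0 ∧ polar Q₂ u w = 0 ∧ a = wedge Q₂ u w}) = ⊤ := by
  obtain ⟨u, u0, hu⟩ := o.ex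
  refine eq_top_of_sing o.wt u0 (by simpa) fun x z x0 z0 hx hz => ?_
  rw [map_zero] at hx hz
  refine (Submodule.smul_mem_iff _ o.two).1 ?_
  rw [show (2 : F) • (polarBilin Q₂ z).smulRight x = ((polarBilin Q₂ z).smulRight x +
    (polarBilin Q₂ x).smulRight z) + wedge Q₂ z x by ext; simp; module]
  refine add_mem (Submodule.subset_span (.inl fun s t => by
    simp [polar_comm Q₂ s]; ring)) ?_
  by_cases e : polar Q₂ z x = 0
  · exact Submodule.subset_span (.inr ⟨z, x, z0, hz, e, rfl⟩)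
  obtain ⟨w, a1, a2, a3⟩ := exists_nonsingular_perp_hyp o.nd o.three hz (f := (polar Q₂ z x)⁻¹ • x)
    (by simp [quad_smul, hx]) (by simp [e])
  replace a3 : polar Q₂ x w = 0 := by simpa [e] using a3
  obtain ⟨a, a4⟩ : ∃ a, a * polar Q₂ z x = -Q₂ w := ⟨_, div_mul_cancel₀ _ e⟩
  have a5 : a ≠ 0 := by rintro rfl; simp [a1] at a4
  refine (Submodule.smul_mem_iff _ (mul_ne_zero o.two a5)).1 ?_
  rw [show (2 * a) • wedge Q₂ z x = wedge Q₂ x w - a • wedge Q₂ z w -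
    wedge Q₂ (a • z + w + x) (a • z - x) by ext; simp; module]
  exact sub_mem (sub_mem (Submodule.subset_span (.inr ⟨x, w, x0, hx, a3, rfl⟩))
    (Submodule.smul_mem _ _ (Submodule.subset_span (.inr ⟨z, w, z0, hz, a2, rfl⟩))))
    (Submodule.subset_span (.inr ⟨_, _, fun e' => by
      simpa [polar_self', hz, a2, e] using congrArg (polar Q₂ z) e', by
      simp [quad_add, quad_smul, hz, hx, a2, a4, polar_comm Q₂ w x, a3], by
      simp [polar_self', hz, hx, polar_comm Q₂ w, a2, a3, polar_comm Q₂ x z], rfl⟩))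

theorem adG_adj {V : Type*} [AddCommGroup V] [Module F V] {B : LinearMap.BilinForm F V} {Q : V → F}
    {g : V ≃ₗ[F] V} (hg : g ∈ Isom B Q) {a a' : End F V} (e : ∀ v v', B (a v) v' = B v (a' v'))
    (v v' : V) : B (adG g a v) v' = B v (adG g a' v') := by
  obtain ⟨v, rfl⟩ := g.surjective v
  obtain ⟨v', rfl⟩ := g.surjective v'
  rw [adG_apply, adG_apply, inv_apply_apply, inv_apply_apply, hg.1, hg.1, e]

namespace WS

variable (h : WS B₁ Q₁ (polarBilin Q₂) Q₂ B Q G ψ π) (o : OS Q₂)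
include h

omit [Finite F] in
theorem le_of_ml' (hX : Adm G (WrG (aF ψ)) X) (com : ComT B Q) (h3 : 3 ≤ finrank F W)
    (H : ∀ j p, p ∈ ML (AL X h.w₂) → p ∉ Cm (ψ j) → ∀ a, ψ j a ∈ ML (AL X h.w₂)) {i : τ}
    (hi : ∀ a, ψ i a ∈ ML (AL X h.w₂)) : G ≤ X := by
  have := h.finrank_le
  have w := h.wp hX
  have hW := h.w₂
  refine w.le_of_ML com (by omega) (.inl (by omega)) h.ex h3 (h.pc.mem_of_gen h.cen fun j => ?_)
  by_cases e : i = j
  · exact e ▸ hi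
  obtain ⟨u, u0, hu⟩ := h.ex
  obtain ⟨ε, -, hε⟩ := hW.exists_eps
  have hu' := nU_sq (hW.self_eq_zero hu)
  refine H j (ψ j (nU (polarBilin Q₂) u)) (WP.levi hW
    (hp := by rw [← map_mul, hu', map_zero]) fun v v0 hv => ?_) fun e => ?_
  · obtain ⟨g, -, hg⟩ := hW.exists_hyperbolic v0 hv
    have := w.un_comm h3 hε u0 hu (A := ψ i ((polarBilin Q₂ g).smulRight v)) (C := 1) (C' := 1)
      (by simpa using hi _ 1 w.one_mem_AL) w.one_mem_AL
      (h.adj i (a' := (polarBilin Q₂ v).smulRight (ε • g)) fun s t => by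
        simp only [smulRight_apply, map_smul, LinearMap.smul_apply, smul_eq_mul]
        linear_combination polarBilin Q₂ v t * hε s g) fun _ _ => rfl
    rw [mul_one, one_mul, ← map_smul, ← map_sub] at this
    exact ⟨_, h.un_cyc hX e this, ⟨polarBilin Q₂ g v, fun e => one_ne_zero (hg.symm.trans (hW.refl e)),
      by simp [hW.self_eq_zero hv, -polarBilin_apply_apply]⟩, fun w hw =>
        Submodule.mem_span_singleton.2 ⟨polarBilin Q₂ g w, by simp [hw, -polarBilin_apply_apply]⟩⟩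
  obtain ⟨f, -, hf⟩ := hW.exists_hyperbolic u0 hu
  obtain ⟨a, ha⟩ := MaxSub.exists_not_comm (r := nU (polarBilin Q₂) u) (fun e' => by
    simpa [hf, u0, -polarBilin_apply_apply] using LinearMap.congr_fun e' f) hu'
  exact ha (h.aF_injective (some j) (by simpa [aF] using congrArg (lA W) (mem_Cm.1 e a)))

omit [Finite F] in
theorem tw (hX : Adm G (WrG (aF ψ)) X) (i : τ) (g : W ≃ₗ[F] W) (hg : g ∈ SGp (polarBilin Q₂) Q₂)
    (u : W) (u0 : u ≠ 0) (hu : Q₂ u = 0) :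
    ∃ b ∈ Isom (polarBilin Q₂) Q₂, b u = u ∧ TensorProduct.congr (aut (ψ i) g) b ∈ X := by
  induction hg using Subgroup.closure_induction with
  | one => exact ⟨1, one_mem _, rfl, (h.fs hX).mem i 1 (one_mem _)⟩
  | mul a b _ _ ha hb =>
    obtain ⟨c, c1, c2, c3⟩ := ha
    obtain ⟨d, d1, d2, d3⟩ := hb
    exact ⟨c * d, mul_mem c1 d1, by simp [c2, d2], by
      rw [map_mul, TensorProduct.congr_mul]; exact mul_mem c3 d3⟩
  | inv a _ ha =>
    obtain ⟨c, c1, c2, c3⟩ := ha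
    exact ⟨c⁻¹, inv_mem c1, by rw [← c2, inv_apply_apply, c2], by
      rw [map_inv]; exact inv_mem c3⟩
  | mem g hg =>
    obtain ⟨a1, v, v0, hv, a2⟩ := hg
    obtain ⟨ρ, a3, c, c0, a4⟩ := h.exists_move v0 u0 hv (by simpa)
    have a5 : π i * rG V₁ g * (π i)⁻¹ * (rG V₁ g)⁻¹ ∈ X := hX.lo ⟨h.com _ (h.isom i) _ (h.rG_isom a1),
      (WrG _).mul_mem (mul_mem (mul_mem (h.aP_mem (some i)) (rG_mem_WrG ψ g))
        (inv_mem (h.aP_mem (some i)))) (inv_mem (rG_mem_WrG ψ g))⟩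
    have a6 := (h.wp hX).rad ρ a3
    refine ⟨ρ * g⁻¹ * ρ⁻¹, mul_mem (mul_mem (RGp_le_isom a3) (inv_mem a1))
      (inv_mem (RGp_le_isom a3)), smul_right_injective W c0 ?_, ?_⟩
    · simp only [← map_smul, ← a4, LinearEquiv.mul_apply, inv_apply_apply]
      rw [← a2, inv_apply_apply, a2]
    convert mul_mem (mul_mem a6 a5) (inv_mem a6) using 1
    rw [← h.lG_aut, ← map_inv, ← map_inv]
    exact tensor_ext fun x w => rfl

include o

theorem op (com : ComT B Q)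
    (hr : finrank F W = 4 → Subsingleton τ ∨ ∀ y, rG V₁ (oRefl Q₂ y).1 ∈ G)
    (hX : Adm G (WrG (aF ψ)) X) : ∃ G', OP B₁ Q₁ Q₂ B Q G X ψ Q₂ G' := by
  have H : ∀ G', (finrank F W = 3 ∨ SGp (polarBilin Q₂) Q₂ ≤ G') → RGp (polarBilin Q₂) Q₂ ≤ G' →
      (∀ i, ∀ g ∈ G', ∀ u, u ≠ 0 → Q₂ u = 0 → ∃ b ∈ Isom (polarBilin Q₂) Q₂, b u = u ∧
        TensorProduct.congr (aut (ψ i) g) b ∈ X) →
      (5 ≤ finrank F W ∨ Subsingleton τ ∨ (∀ i, ∀ g ∈ G', lG W (aut (ψ i) g) ∈ X) ∧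
        (finrank F W = 3 ∨ ∀ y, rG V₁ (oRefl Q₂ y).1 ∈ X)) → OP B₁ Q₁ Q₂ B Q G X ψ Q₂ G' :=
    fun G' a1 a2 a3 a4 =>
      have pur := pur_orth o.nd o.two o.three o.four o.ex a2 a1
      have H := fun j p => mem_ML_tw (hW := h.w₂) h.pc h.cen o pur a2 a3 (j := j) (p := p)
      ⟨h.wp hX, h.fs hX, o, o, pur, a2, a3, fun i _ _ => h.adj i, fun j p hp => by_contra fun e =>
        hX.ne (h.le_of_ml' hX com o.three H (H j p hp e)), a4⟩
  by_cases h3 : finrank F W = 3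
  · exact ⟨_, H _ (.inl h3) le_rfl (fun i g hg u _ _ => ⟨1, one_mem _, rfl, (h.fs hX).mem i g hg⟩)
      (.inr (.inr ⟨(h.fs hX).mem, .inl h3⟩))⟩
  refine ⟨_, H _ (.inr le_rfl) RGp_le_SGp (h.tw hX) ?_⟩
  by_cases h4 : finrank F W = 4
  swap
  · exact .inl (by have := o.three; omega)
  refine .inr ((hr h4).imp_right fun e => ⟨fun i g hg => ?_,
    .inr fun y => hX.lo ⟨e y, rG_mem_WrG ψ _⟩⟩)
  rw [h.lG_aut]
  refine hX.lo ⟨h.conj_mem (h.isom i) ?_, (WrG _).mul_mem (mul_mem (h.aP_mem (some i))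
    (rG_mem_WrG ψ g)) (inv_mem (h.aP_mem (some i)))⟩
  have := (Subgroup.closure_le (G.comap ((rG V₁).comp (OG Q₂).subtype))).2
    (by rintro _ ⟨y, -, rfl⟩; exact Subgroup.mem_comap.2 (e y))
    ((reflSub_eq_top_of_two_ne_zero o.nd o.two).ge (Subgroup.mem_top ⟨g, SGp_le_isom hg⟩))
  exact Subgroup.mem_comap.1 this

theorem good_orth (s₁ : ∀ x y, B₁ x y = B₁ y x)
    (H : ∀ X, Adm G (WrG (aF ψ)) X → ∃ G', OP B₁ Q₁ Q₂ B Q G X ψ Q₂ G')
    (hX : Adm G (WrG (aF ψ)) X) : ∀ g ∈ Df (XS X π), Good g := fun g hg => by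
  have := h.nt
  have := h.ntW
  have hI := h.xs_isom hX
  have hL : ∀ g ∈ Df (XS X π), ∀ w ≠ 0, ∀ u, u ≠ 0 ∧ Q₂ u = 0 →
      (∀ x, g (x ⊗ₜ w) ∈ range (tr u)) → g ∈ TenG F V₁ W := by
    rintro _ ⟨g, hg, g', hg', rfl⟩ w w0 u ⟨u0, hu⟩
    have a1 := mul_mem (inv_mem (hI g hg)) (hI g' hg')
    obtain ⟨x, hx, i, rfl⟩ := hg
    obtain ⟨y, hy, j, rfl⟩ := hg'
    obtain ⟨_, a2⟩ := H _ (h.conj hX j)
    obtain ⟨_, a3⟩ := H _ (h.conj hX i)
    refine a2.locJ u0 hu a3 a1 (fun z => ?_) w0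
    have a4 := mul_mem (inv_mem hx) hy
    rw [Subgroup.mem_comap, Subgroup.mem_comap, ← mul_mem_cancel_left (inv_mem a4),
      ← mul_mem_cancel_right a4]
    simp [mul_assoc]
  refine h.good_of_wedge o (h.xs_mul hX) hL hI hg fun u w u0 hu hw => ?_
  obtain ⟨g₁, a1, g₂, a2, rfl⟩ := hg
  obtain ⟨x, hx⟩ : ∃ x, B₁ x x ≠ 0 := by
    by_contra! e
    obtain ⟨x, y, e'⟩ := h.exists_one
    exact o.two (by simpa [e, e', s₁ y x, one_add_one_eq_two] using e (x + y))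
  refine glob_multi (h.xs_mul hX)
    (𝒩 := {a | ∃ u w, u ≠ 0 ∧ Q₂ u = 0 ∧ polar Q₂ u w = 0 ∧ a = wedge Q₂ u w}) ?_
    (fun 𝒜 hA A _ ⟨u, w, u0, hu, hw, e⟩ => e ▸ h.Dl_wedge o (h.xs_mul hX) hL hI hA u0 hu A hw)
    a1 a2 ⟨u, w, u0, hu, hw, rfl⟩ (C := (B₁ x x)⁻¹ • nU B₁ x) (by simp [nU, trace_smulRight, hx]) ?_
  · rintro _ ⟨u, w, -, -, hw, rfl⟩
    rw [show wedge Q₂ u w = (polarBilin Q₂ u).smulRight w - (polarBilin Q₂ w).smulRight u from rfl]
    simp [trace_smulRight, polar_comm Q₂ w u]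
  have a3 := mul_mem (inv_mem (hI _ a1)) (hI _ a2)
  obtain ⟨z, hz, i, rfl⟩ := a1
  generalize hT : (Submodule.span F _ : Submodule F (End F (V₁ ⊗[F] W))) = T
  have b1 : ∀ l c, c ∈ Cm (aF ψ l) → ∀ n ∈ {a | ∃ u w, u ≠ 0 ∧ Q₂ u = 0 ∧ polar Q₂ u w = 0 ∧
      a = wedge Q₂ u w}, adG (aP π i)⁻¹ (c * aF ψ l n) ∈ T := fun l c hc n hn => by
    obtain ⟨A, e⟩ := exists_lA (c := adG (aP π l)⁻¹ c) (mem_Cm.2 fun a => by
      rw [← adG_inv_adG (aP π l) (rA V₁ a), h.adG_aP, ← adG_mul, ← adG_mul, mem_Cm.1 hc])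
    have e' : (z * aP π i)⁻¹ * (z * aP π l) = (aP π i)⁻¹ * aP π l := by group
    exact hT ▸ Submodule.subset_span ⟨_, ⟨z, hz, l, rfl⟩, e' ▸ h.good_of_mem
      (mul_mem (inv_mem (h.aP_mem i)) (h.aP_mem l)), A, n, hn, by
        rw [e', ← adG_adG, adG_mul (aP π l), ← e, adG_adG_inv, h.adG_aP]⟩
  have b2 : ∀ l a a', (∀ s t, polar Q₂ (a s) t = polar Q₂ s (a' t)) →
      ∀ v v', B (aF ψ l a v) v' = B v (aF ψ l a' v') := fun l a a' e =>
    h.form_ext fun x y s t => by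
      cases l
      · simp [aF, h.eq, e]
      · simp [aF, h.eq, h.adj _ e]
  let S : Submodule F (End F (V₁ ⊗[F] W)) :=
    { carrier := {y | ∃ y', (∀ v v', B (y v) v' = B v (y' v')) ∧ adG (aP π i)⁻¹ (y - y') ∈ T}
      add_mem' := fun ⟨a, a1, a2⟩ ⟨b, b1, b2⟩ => ⟨a + b, fun x z => by simp [a1, b1],
        by rw [add_sub_add_comm, map_add]; exact add_mem a2 b2⟩
      zero_mem' := ⟨0, by simp, by simp⟩
      smul_mem' := fun c _ ⟨a, a1, a2⟩ => ⟨c • a, fun x z => by simp [a1],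
        by rw [← smul_sub, map_smul]; exact Submodule.smul_mem _ c a2⟩ }
  have pc : PC (aF ψ) := fun i j e x y => h.comm e x y
  suffices key : ∀ y, y ∈ S by
    obtain ⟨y, c1, c2⟩ := key (adG (aP π i) (adG ((z * aP π i)⁻¹ * g₂)
      (lA W ((B₁ x x)⁻¹ • nU B₁ x) * rA V₁ (wedge Q₂ u w))))
    rw [adG_adG] at c1 c2
    have := adG_adj (mul_mem (h.aP_isom i) a3) (h.form_ext (a := lA W ((B₁ x x)⁻¹ • nU B₁ x) *
      rA V₁ (wedge Q₂ u w)) (b := -(lA W ((B₁ x x)⁻¹ • nU B₁ x) *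
      rA V₁ (wedge Q₂ u w))) fun x' y s t => by simp [h.eq, s₁ x' x, polar_comm Q₂ s]; ring)
    have c3 := LinearMap.ext fun v => sub_eq_zero.1 (h.pol.witt.nondeg' _ fun v' => by
      rw [map_sub]; exact sub_eq_zero.2 ((c1 v' v).symm.trans (this v' v)))
    rw [c3, map_neg, sub_neg_eq_add, ← two_smul F, map_smul, ← adG_adG, adG_inv_adG] at c2
    exact (T.smul_mem_iff o.two).1 c2
  refine pc.span_pu (fun c hc => ?_) fun a => pc.pu_span (fun r hr => ?_)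
    fun l => o.span_top.ge trivial
  · obtain ⟨A, rfl⟩ := exists_lA (hc none)
    obtain ⟨c, rfl⟩ := Submodule.mem_span_singleton.1 (h.cen A fun j => mem_Cm.2 fun b =>
      lA_injective (W := W) (by rw [map_mul, map_mul]; exact mem_Cm.1 (hc (some j)) b))
    exact Submodule.mem_span_singleton.2 ⟨c, by simp⟩
  classical
  let r' := fun l => if ∀ s t, polar Q₂ (r l s) t = polar Q₂ s (r l t) then r l else -r l
  refine ⟨pc.pu r', pc.pu_adj fun l => b2 l _ _ fun s t => ?_, ?_⟩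
  · by_cases e : ∀ s t, polar Q₂ (r l s) t = polar Q₂ s (r l t)
    · simp only [r', if_pos e, e]
    obtain ⟨u, w, -, -, -, e'⟩ := (hr l).resolve_left e
    rw [show r' l = -r l from if_neg e, e', wedge_adj]
  by_cases e : ∀ l s t, polar Q₂ (r l s) t = polar Q₂ s (r l t)
  · simp [show r' = r from funext fun l => if_pos (e l)]
  obtain ⟨l, e⟩ := not_forall.1 e
  have c1 := pc.update r l (r l)
  have c2 := pc.update r' l (r' l)
  rw [Function.update_eq_self] at c1 c2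
  rw [c1, c2, show r' l = (-1 : F) • r l by simp [r', if_neg e], map_smul, mul_smul_comm,
    ← smul_mul_assoc, ← sub_mul]
  exact b1 l _ (sub_mem (pc.pu_mem (by simp)) (Subalgebra.smul_mem _ (pc.pu_mem (by simp)) _)) _
    ((hr l).resolve_left e)

/-- Tensor powers of orthogonal groups. -/
theorem maxIn_orth (com : ComT B Q) (s₁ : ∀ x y, B₁ x y = B₁ y x)
    (hr : finrank F W = 4 → Subsingleton τ ∨ ∀ y, rG V₁ (oRefl Q₂ y).1 ∈ G) :
    MaxIn G (WrG (aF ψ)) := by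
  obtain ⟨g, a1, a2⟩ := h.exists_not_good (h.two.trans h.finrank_le) o.three h.ex
  exact maxIn_of_adm (fun e => a2 (h.good_of_mem (e a1))) fun X hX =>
    h.le_of_good (h.good_orth o s₁ (fun _ => h.op o com hr) hX)

end WS

theorem isom_of_polar {V : Type*} [AddCommGroup V] [Module F V] (h2 : (2 : F) ≠ 0)
    {Q : QuadraticForm F V} {g : V ≃ₗ[F] V} (e : ∀ v w, polarBilin Q (g v) (g w) = polarBilin Q v w) :
    g ∈ Isom (polarBilin Q) Q :=
  ⟨e, fun v => mul_left_cancel₀ h2 (by simpa [polar_self'] using e v v)⟩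

theorem wz_oo {Q₁ : QuadraticForm F V₁} (n₁ : (polarBilin Q₁).Nondegenerate) [Nontrivial V₁]
    (o : OS Q₂) {Q : QuadraticForm F (V₁ ⊗[F] W)} (n : (polarBilin Q).Nondegenerate)
    (eq : ∀ x y s t, polarBilin Q (x ⊗ₜ s) (y ⊗ₜ t) = polarBilin Q₁ x y * polarBilin Q₂ s t)
    (h5 : 5 ≤ finrank F (V₁ ⊗[F] W)) :
    WZ (polarBilin Q₁) Q₁ (polarBilin Q₂) Q₂ (polarBilin Q) Q (OmG Q) :=
  ⟨isWittPair_quad Q₁ n₁, o.wt, polarG_omega' n h5, eq, fun _ _ => isom_of_polar o.two,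
    fun x u e => mul_left_cancel₀ o.two (by
      simpa [polar_self', show Q₂ u = 0 by simpa using e] using eq x x u u), inferInstance,
    fun w e => by simpa [polar_self', o.two] using e, fun _ => isom_of_polar o.two, o.cp⟩

/-- `O_3 ⊗ O_m` in `Ω_{3m}`. -/
theorem omega_maxIn_three {Q₁ : QuadraticForm F V₁} (o₁ : OS Q₁) (d₁ : finrank F V₁ = 3)
    (o : OS Q₂) (h4 : 4 ≤ finrank F W) {Q : QuadraticForm F (V₁ ⊗[F] W)}
    (n : (polarBilin Q).Nondegenerate)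
    (eq : ∀ x y s t, polarBilin Q (x ⊗ₜ s) (y ⊗ₜ t) = polarBilin Q₁ x y * polarBilin Q₂ s t) :
    MaxIn (OmG Q) (TenG F V₁ W) := by
  have : Nontrivial V₁ := nontrivial_of_finrank_pos (R := F) (by omega)
  have h := wz_oo o₁.nd o n eq (by rw [finrank_tensorProduct]; nlinarith)
  obtain ⟨g, a1, a2⟩ := h.exists_not_good (by omega) o.three (by simpa using o.ex)
  obtain ⟨t, t0, t1⟩ := o₁.four.resolve_left (by omega)
  refine maxIn_of_adm (fun e => a2 (.inl (e a1))) fun X hX x hx => ?_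
  have w := h.wp hX
  have f : FS X _ (RGp (polarBilin Q₁) Q₁) := fs_id fun a ha => hX.lo ⟨h.lG_mem_G (fun x u e =>
    mul_left_cancel₀ o.two (by
      simpa [polar_self', show Q₁ x = 0 by simpa using e] using eq x x u u)) ha, lG_mem a⟩
  have pur := pur_orth o₁.nd o.two o₁.three o₁.four o₁.ex le_rfl (.inl d₁)
  have op : OP _ _ Q₂ _ _ _ X _ Q₁ _ := ⟨w, f, o, o₁, pur, le_rfl,
    fun i g hg u _ _ => ⟨1, one_mem _, rfl, f.mem i g hg⟩, fun _ _ _ e => e,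
    fun j p hp => by_contra fun e => hX.ne (w.le_of_ML (comT_quad Q) (by omega) (.inl d₁.ge)
      (by simpa using o.ex) o.three (f.mem_ML h.w₂ (pur.mono (Set.subset_univ _) le_rfl) o₁.po_ne
        (fun _ => PO.wd o₁.nd o.two o₁.three o₁.four) (i := j) hp e)), .inr (.inl inferInstance)⟩
  refine (h.good_one o w.mul_X ?_ (fun _ => w.isom) h4 t0 t1
    ⟨1, one_mem X, x, hx, by simp⟩).resolve_right (not_opp_of_lt (by omega) x)
  rintro _ ⟨a, ha, b, hb, rfl⟩ w w0 u ⟨u0, hu⟩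
  have := mul_mem (inv_mem ha) hb
  exact op.locJ u0 hu op (op.isom this) (fun y => by
    rw [mul_mem_cancel_right (inv_mem this), mul_mem_cancel_left this]) w0

theorem rG_refl_mem {Q : QuadraticForm F (V₁ ⊗[F] W)} (n : (polarBilin Q).Nondegenerate)
    (h : WZ B₁ Q₁ (polarBilin Q₂) Q₂ (polarBilin Q) Q G) (h2 : (2 : F) ≠ 0)
    {κ : Type*} [Fintype κ] {v : κ → V₁} (hv : OrthFam B₁ v)
    (hc : Fintype.card κ = finrank F V₁) (he : Even (Fintype.card κ))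
    (hs : IsSquare (∏ i, B₁ (v i) (v i))) (y : W) : rG V₁ (oRefl Q₂ y).1 ∈ OmG Q := by
  have a0 : ∀ x, rG V₁ (oRefl Q₂ y).1 x = x - (Q₂ y)⁻¹ • ct (polarBilin Q₂ y) x ⊗ₜ y := fun x => by
    rw [← rA_nU, ← LinearEquiv.coe_coe, coe_rG, show ((oRefl Q₂ y).1 : End F W) =
      1 - (Q₂ y)⁻¹ • nU (polarBilin Q₂) y by ext; simp [oRefl_apply, smul_smul]]
    simp
  by_cases hy : Q₂ y = 0
  · rw [show rG V₁ (oRefl Q₂ y).1 = 1 from LinearEquiv.ext fun x => by simp [a0, hy]]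
    exact one_mem _
  have a1 : ∀ x, Q (x ⊗ₜ y) = B₁ x x * Q₂ y := fun x => mul_left_cancel₀ h2 (by
    simpa [polar_self', mul_left_comm] using h.eq x x y y)
  refine (mem_OmG (g := ⟨_, h.rG_isom (oRefl Q₂ y).2⟩)).2 ((mem_commutator_iff_of_orthFam h2 n
    (v := fun i => v i ⊗ₜ y) ⟨fun i => by
      rw [h.eq]; simpa [polar_self', h2, hy] using hv.ne i, fun i j e => by
        rw [h.eq, hv.orth i j e, zero_mul]⟩ _ (fun i => by simp [oRefl_self hy, tmul_neg])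
          fun x hx => ?_).2 ⟨he, ?_⟩)
  · have := h.nt
    have : Nonempty κ := Fintype.card_pos_iff.1 (hc ▸ finrank_pos)
    rw [a0, h.w₁.nondeg' (ct (polarBilin Q₂ y) x) fun z => mem_perp.1 (mem_perp_range.2 fun i =>
      (h.eq_ct ..).symm.trans (hx i)) z
        ((hv.linearIndependent.span_eq_top_of_card_eq_finrank hc).ge trivial)]
    simp
  simp only [a1, Finset.prod_mul_distrib, Finset.prod_const, Finset.card_univ]
  exact hs.mul (he.isSquare_pow _)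

open Cfsg Cfsg.Geo Matrix

omit [Finite F]

theorem os_of [Fintype F] {k : ℕ} (hodd : Odd (Fintype.card F)) (hk : 3 ≤ k)
    (hex : ¬ (Fintype.card F = 3 ∧ k = 3)) {f : (Fin k → F) → (Fin k → F) → F}
    (h4 : k = 4 → ¬ IsPlusTypeOn (fun v => f v v) ⊤) {Q : QuadraticForm F (Fin k → F)}
    (e : ∀ u v, f u v = polarBilin Q v u) (n : (polarBilin Q).Nondegenerate) : OS Q := by
  refine ⟨n, Geom.two_ne_zero_of_odd_card hodd, by simpa, ?_, fun e4 x y x0 d1 d2 d3 =>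
    by_contra fun d4 => h4 (by simpa using e4) ⟨Submodule.span F {x, y}, le_top, fun w hw => ?_, ?_⟩⟩
  · by_cases h3 : k = 3
    · exact .inr (exists_sq_ne_one' (three_lt_card hodd fun e => hex ⟨e, h3⟩))
    exact .inl (by simp; omega)
  · obtain ⟨a, b, rfl⟩ := Submodule.mem_span_pair.1 hw
    simp [e, d1, d2, d3, polar_comm Q y x, polar_self']
  rw [finrank_span_pair (linearIndependent_pair_of_notMem x0 d4), finrank_top, e4]

theorem isMaximalIn_omega_opow [Fintype F] {ι : Type} [Fintype ι] [DecidableEq ι] {k t : ℕ}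
    {Q : (ι → F) → F} (hQ : IsNondegenerateQuadraticForm Q) (hodd : Odd (Fintype.card F))
    (hk : 3 ≤ k) (ht : 2 ≤ t) (hex : ¬ (Fintype.card F = 3 ∧ k = 3)) {e : ι ≃ (Fin t → Fin k)}
    {P : GL ι F} {f₂ : (Fin k → F) → (Fin k → F) → F} (hf₂ : IsSymmetricForm f₂)
    (h4 : k = 4 → ¬ IsPlusTypeOn (fun v => f₂ v v) ⊤)
    (hT : IsTensorPowerFormStructure id (polar Q) f₂ e P) :
    IsMaximalIn (omegaGL Q) (tensorWreathSubgroup k t e P ⊓ omegaGL Q) := by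
  obtain ⟨Q, rfl, hQ'⟩ := exists_quadraticForm hQ
  obtain ⟨B₂, b1, b2, b3⟩ := exists_sym hf₂
  have h2 := Geom.two_ne_zero_of_odd_card hodd
  obtain ⟨Q₂, rfl⟩ := exists_quad h2 b3
  have o := os_of hodd hk hex h4 b1 b2
  obtain ⟨t, rfl⟩ : ∃ s, t = s + 1 := ⟨t - 1, by omega⟩
  have := NeZero.of_gt (show 0 < k by omega)
  have := NeZero.of_gt (show 0 < t by omega)
  obtain ⟨l, B₁, c0, c1, c2, -, ⟨c, c5⟩, c3⟩ := exists_pow (σ := RingHom.id F) (B := polarBilin Q)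
    (polar_comm Q) b1 hQ' b2 hT
  rw [← show polarBilin (Q.comp l.toLinearMap) = pull (polarBilin Q) l from
    LinearMap.ext₂ fun x y => polar_comp Q l x y] at c1 c2
  have hQ := comp_nondeg hQ' l
  refine omega_of_pull (κ := l) ?_ c3
  generalize Q.comp l.toLinearMap = Q at *
  obtain ⟨u, u0, hu⟩ := o.ex
  obtain ⟨f, -, hf⟩ := exists_hyp b2 u0 hu
  have a1 : ∀ x y, B₁ x y = B₁ y x := fun x y => by
    simpa [← polarBilin_apply_apply Q, c1, hf, polar_comm Q₂ f u] using polar_comm Q (x ⊗ₜ u) (y ⊗ₜ f)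
  obtain ⟨Q₁, rfl⟩ := exists_quad h2 a1
  have h := wz_oo c0 o hQ c1 (by
    simpa [← pow_succ] using le_trans (by nlinarith) (Nat.pow_le_pow_right (NeZero.pos k) ht))
  refine (ws_of h (fun j => isom_of_polar h2 (c2 j)) comm_mem_OmG (by simp; omega)
    ⟨u, u0, by simpa⟩).maxIn_orth o (comT_quad Q) a1 fun e4 => ?_
  by_cases ht : t = 1
  · exact .inl (ht ▸ inferInstance)
  obtain ⟨v, hv, -⟩ := exists_orthFam (RingHom.surjective _) b2 o.wt.isRefl (fun _ => True) 0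
    (fun U hU h0 => (exists_nonsingular_mem hU (by rintro rfl; simp at h0)).imp fun v e =>
      ⟨e.1, by simpa [polar_self', h2] using e.2, trivial⟩) k (by simp)
  have a2 : c ≠ 0 := by
    rintro rfl
    obtain ⟨x, y, e⟩ := h.exists_one
    exact zero_ne_one (e ▸ tp_ind (P := fun x => 0 = polarBilin Q₁ x y)
      (fun a b ha hb => by rw [map_add, LinearMap.add_apply, ← ha, ← hb, add_zero])
      (fun c a ha => by rw [map_smul, LinearMap.smul_apply, ← ha, smul_zero])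
      (fun x => tp_ind (P := fun y => 0 = polarBilin Q₁ (tp x) y)
        (fun a b ha hb => by rw [map_add, ← ha, ← hb, add_zero])
        (fun c a ha => by rw [map_smul, ← ha, smul_zero]) (fun y => by rw [c5, zero_mul]) y) x)
  have a3 : ∀ n, n ≠ 0 → Even (k ^ n) := fun n e => by
    rw [show k = 4 by simpa using e4]; exact Even.pow_of_ne_zero (by decide) e
  refine .inr (rG_refl_mem hQ h h2 (v := fun a : Fin t → Fin k => tp (v ∘ a)) ⟨fun a => ?_,
    fun a b e => ?_⟩ (by simp) ?_ ?_)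
  · simpa [c5, a2, Finset.prod_ne_zero_iff] using fun i => hv.ne (a i)
  · obtain ⟨i, e⟩ := Function.ne_iff.1 e
    rw [c5, Finset.prod_eq_zero (Finset.mem_univ i) (hv.orth _ _ e), mul_zero]
  · simpa using a3 t (NeZero.ne t)
  simp only [c5, Finset.prod_mul_distrib, Finset.prod_const, Finset.card_univ, Function.comp]
  refine ((by simpa using a3 t (NeZero.ne t) : Even _).isSquare_pow _).mul ?_
  rw [Finset.prod_comm]
  refine Finset.isSquare_prod _ fun i _ => ?_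
  rw [← (Equiv.funSplitAt i (Fin k)).symm.prod_comp, Fintype.prod_prod_type]
  refine Finset.isSquare_prod _ fun j _ => ?_
  simpa using (a3 (t - 1) (by have := NeZero.ne t; omega)).isSquare_pow _

theorem isMaximalIn_omega_three_four [Fintype F] {ι : Type} [Fintype ι] [DecidableEq ι]
    {Q : (ι → F) → F} (hQ : IsNondegenerateQuadraticForm Q) (hodd : Odd (Fintype.card F))
    (h5 : 5 ≤ Fintype.card F) {e : ι ≃ Fin 3 × Fin 4} {P : GL ι F}
    {f₁ : (Fin 3 → F) → (Fin 3 → F) → F} {f₂ : (Fin 4 → F) → (Fin 4 → F) → F}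
    (hf₁ : IsSymmetricForm f₁) (hf₂ : IsSymmetricForm f₂) (h4 : ¬ IsPlusTypeOn (fun v => f₂ v v) ⊤)
    (hT : IsTensorFormStructure id (polar Q) f₁ f₂ e P) :
    IsMaximalIn (omegaGL Q) (tensorProductSubgroup 3 4 e P ⊓ omegaGL Q) := by
  obtain ⟨Q, rfl, hQ'⟩ := exists_quadraticForm hQ
  obtain ⟨B₁, a1, a2, a3⟩ := exists_sym hf₁
  obtain ⟨B₂, b1, b2, b3⟩ := exists_sym hf₂
  have h2 := Geom.two_ne_zero_of_odd_card hodd
  obtain ⟨κ, c, c0, c1, -, c3⟩ := exists_ten (σ := RingHom.id F) (B := polarBilin Q)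
    (polar_comm Q) a1 b1 hT
  obtain ⟨Q₁, a4⟩ := exists_quad h2 (B := c • B₁) fun x y => by simp [a3 x y]
  obtain ⟨Q₂, rfl⟩ := exists_quad h2 b3
  exact omega_of_pull (omega_maxIn_three (os_of hodd le_rfl (by omega) (Q := Q₁) (by omega)
    (fun _ _ => rfl) (a4 ▸ smul_nondeg a2 c0)) (by simp)
    (os_of hodd (by omega) (by omega) (fun _ => h4) b1 b2) (by simp) (comp_nondeg hQ' κ)
    fun x y s t => a4 ▸ (polar_comp Q κ _ _).trans (c1 x y s t)) c3

end CF.MaxSub
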