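/-
Maximality of `ΓO_3(q^3) ∩ Ω_9(q)` in `Ω_9(q)`, `q` odd.
-/
import Cfsg.Agent.MaxSub.F3W
import Cfsg.Agent.MaxSub.YC

set_option autoImplicit false

namespace CF.MaxSub

open Module Geom QuadraticMap

section Orb

variable {A α M : Type*} [AddCommGroup M] [DecidableEq α]

theorem sum_vadd_zero [AddGroup A] [Fintype A] [AddAction A α] {S : Finset α}
    (hS : ∀ a : A, ∀ q ∈ S, a +ᵥ q ∈ S) {f : α → M}
    (h : ∀ q ∈ S, ∑ b ∈ Finset.univ.image (fun a : A => a +ᵥ q), f b = 0) :
    ∑ q ∈ S, f q = 0 := by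
  classical
  refine Finset.sum_cancels_of_partition_cancels (AddAction.orbitRel A α) fun q hq => ?_
  convert h q hq using 2
  ext b
  simp only [Finset.mem_filter, Finset.mem_image, Finset.mem_univ, true_and]
  exact ⟨fun h => h.2, fun h => ⟨by obtain ⟨e, rfl⟩ := h; exact hS e q hq, h⟩⟩

theorem sum_sub_zero {F : Type*} [Field F] [AddCommGroup A] [Module F A] [Finite A]
    [AddAction A α] {S : Finset α} (hS : ∀ a : A, ∀ q ∈ S, a +ᵥ q ∈ S) {f : α → M}
    (h : ∀ q ∈ S, ∃ B : Submodule F A, (∀ a ∈ B, a +ᵥ q = q → a = 0) ∧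
      ∀ [Fintype B] (c : A), ∑ a : B, f ((a : A) +ᵥ c +ᵥ q) = 0) : ∑ q ∈ S, f q = 0 := by
  have := Fintype.ofFinite A
  refine sum_vadd_zero hS fun q hq => ?_
  obtain ⟨B, h1, h2⟩ := h q hq
  have := Fintype.ofFinite B
  refine sum_vadd_zero (A := B) (fun a r hr => ?_) fun r hr => ?_
  · obtain ⟨c, -, rfl⟩ := Finset.mem_image.1 hr
    exact Finset.mem_image.2 ⟨a + c, Finset.mem_univ _, add_vadd _ _ _⟩
  obtain ⟨c, -, rfl⟩ := Finset.mem_image.1 hr
  rw [Finset.sum_image fun a _ b _ e => ?_]
  · exact h2 c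
  replace e : (a : A) +ᵥ c +ᵥ q = (b : A) +ᵥ c +ᵥ q := e
  refine Subtype.ext (sub_eq_zero.1 (h1 _ (sub_mem a.2 b.2) ?_))
  have := congrArg (fun x => (-(b + c) : A) +ᵥ x) e
  simp only [← add_vadd, neg_add_cancel, zero_vadd] at this
  convert this using 2
  abel

end Orb

variable {F K V : Type*} [Field F] [Field K] [Algebra F K]
  [AddCommGroup V] [Module F V] [Module K V] [IsScalarTower F K V]

theorem exists_algHom_of_semiG [Nontrivial V] {g : V ≃ₗ[F] V} (hg : g ∈ SemiG F K V) :
    ∃ s : K →ₐ[F] K, ∀ k v, g (k • v) = s k • g v := by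
  choose s hs using hg.1
  obtain ⟨v, hv⟩ := exists_ne (0 : V)
  have h : ∀ a b : K, a • g v = b • g v → a = b := fun a b e =>
    smul_left_injective K (by simpa using hv) e
  exact ⟨⟨⟨⟨⟨s, h _ _ (by simp [← hs])⟩, fun a b => h _ _ (by simp [← hs, mul_smul])⟩,
    h _ _ (by simp [← hs]), fun a b => h _ _ (by simp [← hs, add_smul])⟩,
    fun a => h _ _ (by simp [← hs])⟩, hs⟩

section Gam

variable [Fintype K] [DecidableEq K]

theorem gam_smul (a : End F V) (k : K) (v : V) : gam F V K a (k • v) = k • gam F V K a v := by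
  by_cases k0 : k = 0
  · simp [k0]
  lift k to Kˣ using Ne.isUnit k0
  rw [gam_apply, gam_apply, Finset.smul_sum]
  exact (Equiv.sum_comp (Equiv.mulLeft k) _).symm.trans <| Finset.sum_congr rfl fun l _ => by
    simp only [Equiv.coe_mulLeft, ← Units.smul_def, mul_smul, mul_inv_rev, inv_smul_smul]

theorem gam_lin {a : End F V} {v : V} (h : ∀ k : K, a (k • v) = k • a v) :
    gam F V K a v = -a v := by
  simp only [gam_apply, Units.smul_def, h, smul_smul, Units.mul_inv, one_smul, Finset.sum_const,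
    Finset.card_univ, Fintype.card_units]
  rw [← Nat.cast_smul_eq_nsmul K, Nat.cast_pred Fintype.card_pos, FiniteField.cast_card_eq_zero]
  simp

theorem trace_r4_gam [FiniteDimensional F V] (g : V ≃ₗ[F] V) (y z : End F V) :
    LinearMap.trace F V (r4 F V g (gam F V K) y * z) =
      LinearMap.trace F V (y * r4 F V g (gam F V K) z) := by
  have h : ∀ y z : End F V, LinearMap.trace F V (gam F V K y * z) =
      LinearMap.trace F V (y * gam F V K z) := fun y z => by
    simp only [gam, LinearMap.sum_apply, Finset.sum_mul, Finset.mul_sum, map_sum]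
    rw [← Equiv.sum_comp (Equiv.inv Kˣ)]
    refine Finset.sum_congr rfl fun k _ => (trace_adG _ _ _).trans ?_
    congr 3
  change LinearMap.trace F V (adG g (gam F V K (adG g⁻¹ y)) * z) =
    LinearMap.trace F V (y * adG g (gam F V K (adG g⁻¹ z)))
  rw [trace_adG, h, trace_adG, inv_inv]

end Gam

/-- A one-parameter family of Eichler transformations. -/
structure EF (Qk : QuadraticForm K V) (u f w : V) (e : K → V ≃ₗ[K] V) : Prop where
  hu : Qk u = 0
  hf : Qk f = 0
  uf : polar Qk u f = 1
  w0 : Qk w ≠ 0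
  uw : polar Qk u w = 0
  fw : polar Qk f w = 0
  two : (2 : K) ≠ 0
  og : ∀ a, e a ∈ OG Qk
  eq : ∀ a x, e a x = x + (a * polar Qk u x) • w - (a * polar Qk w x) • u -
    (a ^ 2 * Qk w * polar Qk u x) • u

namespace EF

variable {Qk : QuadraticForm K V} {u f w : V} {e : K → V ≃ₗ[K] V} (h : EF Qk u f w e)
include h

theorem wu : polar Qk w u = 0 := (polar_comm _ _ _).trans h.uw

theorem wf : polar Qk w f = 0 := (polar_comm _ _ _).trans h.fw

theorem fu : polar Qk f u = 1 := (polar_comm _ _ _).trans h.uf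

theorem add (a b : K) : e (a + b) = e a * e b := LinearEquiv.ext fun x => by
  simp only [LinearEquiv.mul_apply, h.eq, polar_add_right, polar_sub_right,
    polar_smul_right, polar_self', h.hu, h.uw, h.wu, smul_eq_mul]
  module

theorem inv (a : K) : (e a)⁻¹ = e (-a) := inv_eq_of_mul_eq_one_right (by
  rw [← h.add, add_neg_cancel]
  simpa using h.add 0 0)

theorem sq (a : K) (y : V) :
    e a (e a y - y) - (e a y - y) = (-2 * a ^ 2 * Qk w * polar Qk u y) • u := by
  simp only [h.eq, polar_add_right, polar_sub_right, polar_smul_right, polar_self', h.hu, h.uw,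
    h.wu, smul_eq_mul]
  module

theorem fix (a c : K) : e a (c • u) = c • u := by simp [h.eq, h.hu, h.wu]

theorem coord (hd : finrank K V = 3) (x : V) : ∃ a b c : K, x = a • u + b • f + c • w := by
  have : LinearIndependent K ![u, f, w] := Fintype.linearIndependent_iff.2 fun g hg => by
    simp only [Fin.sum_univ_three, Matrix.cons_val] at hg
    have h1 := congrArg (polar Qk u) hg
    have h2 := congrArg (polar Qk f) hg
    have h3 := congrArg (polar Qk w) hg
    simp [h.hu, h.hf, h.uf, h.fu, h.uw, h.wu, h.fw, h.wf, h.w0, h.two] at h1 h2 h3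
    intro i
    fin_cases i <;> assumption
  obtain ⟨c, hc⟩ := (Submodule.mem_span_range_iff_exists_fun K).1
    ((this.span_eq_top_of_card_eq_finrank (by simp [hd])).ge (Submodule.mem_top (x := x)))
  exact ⟨c 0, c 1, c 2, by simpa [Fin.sum_univ_three] using hc.symm⟩

theorem sum_eq [Fintype F] [FiniteDimensional F K] (B : Submodule F K) [Fintype B] {z : End F V}
    (hB : 4 < (Fintype.card F - 1) * finrank F B ∨
      3 < (Fintype.card F - 1) * finrank F B ∧ ∀ k : K, z (k • u) ∈ K ∙ u) :
    ∑ a : B, adG ((e a).restrictScalars F) z = 0 := by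
  let sc : K →ₐ[F] End F V := Algebra.lsmul F F V
  let N₁ : End F V :=
    ((polarBilin Qk u).smulRight w - (polarBilin Qk w).smulRight u).restrictScalars F
  let N₂ : End F V := (-Qk w • (polarBilin Qk u).smulRight u).restrictScalars F
  let m := LinearMap.mul F (End F V)
  have h1 : ∀ a, ((e a).restrictScalars F : End F V) = 1 + sc a * N₁ + sc a * sc a * N₂ :=
    fun a => LinearMap.ext fun x => by
      simp [sc, N₁, N₂, h.eq]
      module
  have h2 : ∀ a, (((e a).restrictScalars F)⁻¹ : V ≃ₗ[F] V).toLinearMap =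
      1 + sc (-a) * N₁ + sc a * sc a * N₂ := fun a => by
    have := h1 (-a)
    rw [← h.inv, map_neg sc, neg_mul_neg, ← map_neg] at this
    exact this
  have p1 := PD.lin (b := (finBasis F B).equivFun) (sc.toLinearMap ∘ₗ B.subtype)
  have p2 := PD.lin (b := (finBasis F B).equivFun) (sc.toLinearMap ∘ₗ (-B.subtype))
  have p3 := (PD.const 1).add (p1.map (m.flip N₁))
  have p4 := (PD.const 1).add (p2.map (m.flip N₁))
  have p5 := (PD.bilin m p1 p1).map (m.flip N₂)
  have p6 := (PD.bilin m (((p3.le one_le_two).add p5).map (m.flip z)) p4).add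
    ((PD.bilin m (p3.map (m.flip z)) p5).le le_rfl)
  have p7 := PD.bilin m (p5.map (m.flip z)) p5
  have h3 : ∑ a : B, sc a * sc a * N₂ * z * (sc a * sc a * N₂) = 0 := by
    rcases hB with hB | hB
    · exact p7.sum_eq_zero (by simpa using hB)
    refine Finset.sum_eq_zero fun a _ => LinearMap.ext fun x => ?_
    obtain ⟨c, hc⟩ := Submodule.mem_span_singleton.1 (hB.2 (a * a * (Qk w * polar Qk u x)))
    simp only [mul_smul] at hc
    simp [sc, N₂, ← hc, h.hu]
  rw [← h3, ← zero_add (∑ a : B, sc a * sc a * N₂ * z * _),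
    ← p6.sum_eq_zero (by rcases hB with hB | hB <;> simp <;> omega), ← Finset.sum_add_distrib]
  refine Finset.sum_congr rfl fun a _ => ?_
  rw [adG_eq, h1, h2]
  simp only [m, LinearMap.mul_apply', LinearMap.flip_apply, LinearMap.comp_apply,
    AlgHom.toLinearMap_apply, Submodule.subtype_apply, LinearMap.neg_apply]
  noncomm_ring

theorem line_of_comm {a : K} (a0 : a ≠ 0) {z : End F V} (hz : ∀ x, z (e a x) = e a (z x)) (k : K) :
    z (k • u) ∈ K ∙ u := by
  have h4 : -2 * a ^ 2 * Qk w ≠ 0 := by simp [h.two, a0, h.w0]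
  have := h.sq a ((k / (-2 * a ^ 2 * Qk w)) • f)
  rw [polar_smul_right, h.uf, smul_eq_mul, mul_one, mul_div_cancel₀ _ h4] at this
  rw [← this, map_sub, hz, map_sub, hz, h.sq]
  exact smul_mem_kl (F := F) _ u

theorem eq_zero [Fintype K] [DecidableEq K] (h2 : (2 : F) ≠ 0) (hd : finrank K V = 3) {z : End F V}
    (h0 : gam F V K z = 0) (hf : ∀ k : K, polar Qk f (z (k • f)) = 0)
    (hz : ∀ a x, z (e a x) = e a (z x)) : z = 0 := by
  have h1 : ∀ (a : K) x, z (a • (polar Qk u x • w - polar Qk w x • u)) =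
      a • (polar Qk u (z x) • w - polar Qk w (z x) • u) := fun a x => by
    have e1 : ∀ x, e a x - e (-a) x = (2 : F) • a • (polar Qk u x • w - polar Qk w x • u) :=
      fun x => by rw [h.eq, h.eq, two_smul]; module
    refine smul_right_injective V h2 ?_
    simp only [← e1, ← map_smul, map_sub, hz]
  have h3 : ∀ x, polar Qk u (z x) • w - polar Qk w (z x) • u = 0 := fun x => by
    have e1 := h1 1 x
    simp only [one_smul] at e1
    rw [← e1, ← neg_eq_zero, ← gam_lin fun k => by rw [h1, e1], h0, LinearMap.zero_apply]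
  simp only [h3, smul_zero] at h1
  have h4 : ∀ a : K, z (a • w) = 0 := fun a => by simpa [h.uf, h.wf] using h1 a f
  have h5 : ∀ a : K, z (a • u) = 0 := fun a => by
    have := h1 (-(a / (2 * Qk w))) w
    rwa [h.uw, zero_smul, zero_sub, polar_self', neg_smul_neg, smul_smul,
      div_mul_cancel₀ _ (mul_ne_zero h.two h.w0)] at this
  have h6 : ∀ a : K, z (a • f) = 0 := fun a => by
    have e1 := congrArg (polar Qk w) (h3 (a • f))
    have e2 := congrArg (polar Qk f) (h3 (a • f))
    have e3 := hf a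
    obtain ⟨b, c, d, e⟩ := h.coord hd (z (a • f))
    rw [e] at e1 e2 e3 ⊢
    simp [h.hu, h.hf, h.uf, h.fu, h.uw, h.wu, h.fw, h.wf, h.w0, h.two] at e1 e2 e3
    simp [e1, e2, e3]
  ext x
  obtain ⟨a, b, c, rfl⟩ := h.coord hd x
  simp [h4, h5, h6]

end EF

namespace OF

variable {Q : QuadraticForm F V} {Qk : QuadraticForm K V} {ν : Dual F K}
  {X : Subgroup (V ≃ₗ[F] V)} (h : OF Q Qk ν X) [Finite K]
include h

theorem exists_ef {u : V} (u0 : u ≠ 0) (hu : Qk u = 0) :
    ∃ f w e, EF Qk u f w e ∧ ∀ a, (e a).restrictScalars F ∈ X := by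
  obtain ⟨f, hf, a1⟩ := h.exists_hyp u0 hu
  obtain ⟨w, w0, w1, w2⟩ := h.exists_ns hu hf a1
  have h1 : ∀ c : K, polar Qk u (c • w) = 0 := fun c => by simp [w1]
  refine ⟨f, w, fun c => (eichler hu (h1 c)).1, ⟨hu, hf, a1, w0, w1, w2, h.two',
    fun c => (eichler hu (h1 c)).2, fun c x => ?_⟩, fun c =>
    h.rad_mem hu (eichler_mem_Rad hu (h1 c) (A := ⊤) trivial trivial)⟩
  change x + polar Qk u x • c • w - polar Qk (c • w) x • u - (Qk (c • w) * polar Qk u x) • u = _
  rw [polar_smul_left, quad_smul, smul_eq_mul]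
  module

variable (hZ : ∀ u, u ≠ 0 → Qk u = 0 → ∀ N, ZM X Qk u N → N = 0) {u f w : V}
  {e : K → V ≃ₗ[K] V} (he : EF Qk u f w e)
include hZ he

theorem mem_semiG_of_lin {x : V ≃ₗ[F] V} (hx : x ∈ X) {a : K} (a0 : a ≠ 0)
    (h1 : ∀ (k : K) v, x⁻¹ (e a (x (k • v))) = k • x⁻¹ (e a (x v))) : x ∈ SemiG F K V := by
  have u0 : u ≠ 0 := fun e => by simpa [e] using he.uf
  refine h.mem_semiG_of_line hZ u0 he.hu hx fun k => ?_
  have := he.line_of_comm (F := F) a0
    (z := adG x ((Algebra.lsmul F F V : K →ₐ[F] End F V) k)) (fun y => ?_) 1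
  · simpa [adG_apply] using this
  have := congrArg x (h1 k (x⁻¹ y))
  simp only [apply_inv_apply] at this
  exact this.symm

theorem exists_sub (hr : finrank F K = 3) (hX : ∀ a, (e a).restrictScalars F ∈ X)
    {x : V ≃ₗ[F] V} (hx : x ∈ X) (hx' : x ∉ SemiG F K V) : ∃ B : Submodule F K,
      (∀ a ∈ B, x⁻¹ * (e a).restrictScalars F * x ∈ SemiG F K V → a = 0) ∧ (finrank F B = 3 ∨
      finrank F B = 2 ∧ ∃ a, a ≠ 0 ∧ x⁻¹ * (e a).restrictScalars F * x ∈ SemiG F K V) := by
  classical
  have := h.finK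
  have : Nontrivial V := nontrivial_of_ne u 0 fun e => by simpa [e] using he.uf
  by_cases hc : ∀ a, x⁻¹ * (e a).restrictScalars F * x ∈ SemiG F K V → a = 0
  · exact ⟨⊤, fun a _ => hc a, .inl (by simpa using hr)⟩
  push Not at hc
  obtain ⟨a, ha, a0⟩ := hc
  obtain ⟨B, hB⟩ := (F ∙ a).exists_isCompl
  have h1 := Submodule.finrank_add_eq_of_isCompl hB
  rw [finrank_span_singleton a0] at h1
  refine ⟨B, fun b hb hb' => by_contra fun b0 => ?_, .inr ⟨by omega, a, a0, ha⟩⟩
  have h2 : ∀ c : F, b ≠ c • a := fun c e => b0 (Submodule.disjoint_def.1 hB.disjoint b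
    (e ▸ Submodule.smul_mem _ _ (Submodule.mem_span_singleton_self a)) hb)
  have h3 : ∀ c, (e (-c)).restrictScalars F = ((e c).restrictScalars F)⁻¹ := fun c => by
    rw [← he.inv]; rfl
  have h4 : ∀ c ∈ ({0, a, -a, b} : Finset K),
      x⁻¹ * (e c).restrictScalars F * x ∈ SemiG F K V := by
    simp only [Finset.mem_insert, Finset.mem_singleton, forall_eq_or_imp, forall_eq]
    refine ⟨?_, ha, by simpa [h3, mul_assoc] using inv_mem ha, hb'⟩
    simpa [← h3, mul_assoc] using lin_mem_semiG (F := F) (K := K) (g := x⁻¹ *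
      (e 0).restrictScalars F * x) fun k v => by simp [he.eq, inv_apply_apply]
  choose! s hs using fun c hc => exists_algHom_of_semiG (h4 c hc)
  have h5 := Finset.card_le_card_of_injOn (s := {0, a, -a, b}) (t := Finset.univ) s (by simp)
    fun c hc d hd e' => by_contra fun h6 => hx' (h.mem_semiG_of_lin hZ he hx (sub_ne_zero.2 h6)
      fun k v => by
        have e1 : ∀ y, (x⁻¹ * (e d).restrictScalars F * x) (x⁻¹ (e (c - d) (x y))) =
            (x⁻¹ * (e c).restrictScalars F * x) y := fun y => by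
          simp only [LinearEquiv.mul_apply, apply_inv_apply, LinearEquiv.restrictScalars_apply]
          rw [← LinearEquiv.mul_apply (e d), ← he.add, add_sub_cancel]
        refine (x⁻¹ * (e d).restrictScalars F * x).injective ?_
        rw [e1, hs c hc, hs d hd, e1, e'])
  rw [Finset.card_insert_of_notMem, Finset.card_insert_of_notMem, Finset.card_pair] at h5
  · have := AlgHom.card_le (F := F) (K := K)
    simp only [Finset.card_univ] at h5
    omega
  · exact fun e => h2 (-1) (by simp [e])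
  · have := h2 1
    simp only [Finset.mem_insert, Finset.mem_singleton, not_or]
    exact ⟨fun e => mul_ne_zero he.two a0 (by linear_combination e), by simpa [eq_comm] using this⟩
  · simp [a0, b0, eq_comm]

omit hZ in
theorem lin_of_perp (hd : finrank K V = 3) {z : End F V}
    (hz : ∀ v, Qk v = 0 → ∀ k : K, polar Qk v (z (k • v)) = 0) (k : K) (v : V) :
    z (k • v) = k • z v := by
  classical
  have := Fintype.ofFinite K
  have := h.fin
  have := h.finF
  have := h.finite
  have : Finite (End F V) := Module.finite_of_finite F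
  have : Nontrivial V := nontrivial_of_ne u 0 fun e => by simpa [e] using he.uf
  let S : Submodule F (End F V) :=
    { carrier := {z | gam F V K z = 0 ∧ ∀ v, Qk v = 0 → ∀ k : K, polar Qk v (z (k • v)) = 0}
      add_mem' := fun a b => ⟨by simp [a.1, b.1], fun v hv k => by simp [a.2 v hv, b.2 v hv]⟩
      zero_mem' := ⟨by simp, by simp⟩
      smul_mem' := fun c a b => ⟨by simp [b.1], fun v hv k => by
        simp [polar_smul_right_of_tower, b.2 v hv]⟩ }
  obtain ⟨p, hp⟩ := CharP.exists F
  have := Fact.mk (CharP.char_is_prime F p)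
  have := charP_of_injective_algebraMap (algebraMap F K).injective p
  have h0 : S = ⊥ := by_contra fun h0 => by
    obtain ⟨n, -, hn⟩ := FiniteField.card K p
    refine (exists_fixed_ne (P := Multiplicative K) (p := p) (S := S)
      (.of_card (n := n) (by simpa using hn)) (adG.comp (MonoidHom.mk' (fun a =>
        (e a.toAdd).restrictScalars F) fun a b => by rw [toAdd_mul, he.add]; rfl))
      (fun g a ha => ⟨?_, fun v hv k => ?_⟩) S.zero_mem ?_).elim fun y ⟨y1, y0, y2⟩ =>
      y0 (he.eq_zero h.two hd y1.1 (y1.2 f he.hf) fun a x =>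
        (LinearMap.congr_fun (adG_eq_self.1 (y2 (.ofAdd a))) x).symm)
    · have := r4_gam_iff.2 (restrict_mem_semiG (F := F) (e g.toAdd))
      rw [← this]
      change adG _ (gam F V K (adG _ (adG ((e g.toAdd).restrictScalars F) a))) = 0
      rw [adG_adG, inv_mul_cancel, map_one, Module.End.one_apply, ha.1, map_zero]
    · have := ((he.og g.toAdd).1 ((e g.toAdd)⁻¹ v) _).trans
        (ha.2 _ (by rw [← mem_OG.1 (he.og g.toAdd), apply_inv_apply, hv]) k)
      rwa [apply_inv_apply, ← map_smul] at this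
    · have := Fintype.ofFinite F
      obtain ⟨m, -, hm⟩ := FiniteField.card F p
      have : 0 < finrank F S := Nat.pos_of_ne_zero fun e => h0 (Submodule.finrank_eq_zero.1 e)
      change p ∣ Nat.card S
      rw [Module.natCard_eq_pow_finrank (K := F), Nat.card_eq_fintype_card, hm]
      exact dvd_pow (dvd_pow_self _ m.ne_zero) this.ne'
  have h1 : z + gam F V K z = 0 := h0.le (show _ ∈ S from ⟨LinearMap.ext fun x => by
    simp [gam_lin fun k => gam_smul z k x], fun v hv k => by
      simp [gam_apply, hz v hv, Units.smul_def, smul_smul, ← polarBilin_apply_apply,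
        fun k => polarBilin_apply_apply Qk v (z (k • v))]⟩)
  rw [eq_neg_of_add_eq_zero_left h1]
  simp [gam_smul]

omit he in
theorem le_semiG_three (hr : finrank F K = 3) (hd : finrank K V = 3) : X ≤ SemiG F K V := by
  classical
  have := Fintype.ofFinite K
  have := h.finK
  have := h.fin
  have := h.finF
  have := h.finite
  have := Fintype.ofFinite F
  have : Finite V := Module.finite_of_finite K
  have : Nontrivial V := nontrivial_of_finrank_pos (R := K) (by omega)
  have : Finite (V ≃ₗ[F] V) := .of_injective _ DFunLike.coe_injective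
  have := Fintype.ofFinite X
  have hq : 3 ≤ Fintype.card F := Fintype.two_lt_card_iff.2 ⟨0, 1, -1, zero_ne_one, by simp,
    (exists_ne_zero_one h.two).2.symm⟩
  let Γ := gam F V K
  let O : Finset (End F (End F V)) := Finset.univ.image fun y : X => r4 F V y Γ
  have hO : ∀ γ, γ ∈ O ↔ ∃ y ∈ X, r4 F V y Γ = γ := fun γ => by simp [O]
  have h1 : ∀ y ∈ X, ∀ γ ∈ O, r4 F V y γ ∈ O := fun y hy γ h => by
    obtain ⟨z, hz, rfl⟩ := (hO γ).1 h
    exact (hO _).2 ⟨y * z, mul_mem hy hz, by simp⟩
  have h2 : ∀ g γ y, r4 F V g γ (adG g y) = adG g (γ y) := fun g γ y => by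
    change adG g (γ (adG g⁻¹ (adG g y))) = _
    rw [adG_adG, inv_mul_cancel, map_one, Module.End.one_apply]
  have hP : ∀ x ∈ X, ∀ y, adG x ((∑ γ ∈ O, γ) y) = (∑ γ ∈ O, γ) (adG x y) := fun x hx y => by
    rw [← h2, map_sum]
    congr 1
    refine Finset.sum_bij (fun γ _ => r4 F V x γ) (h1 x hx) (fun a _ b _ e' => ?_)
      (fun δ hδ => ?_) fun _ _ => rfl
    · simpa only [Representation.inv_self_apply] using congrArg (r4 F V x⁻¹) e'
    · exact ⟨r4 F V x⁻¹ δ, h1 _ (inv_mem hx) δ hδ, Representation.self_inv_apply _ _ _⟩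
  rw [← Finset.add_sum_erase O _ ((hO Γ).2 ⟨1, one_mem X, by simp⟩)] at hP
  have hT : ∀ y z, LinearMap.trace F V ((∑ γ ∈ O.erase Γ, γ) y * z) =
      LinearMap.trace F V (y * (∑ γ ∈ O.erase Γ, γ) z) := fun y z => by
    simp only [LinearMap.sum_apply, Finset.sum_mul, Finset.mul_sum, map_sum]
    refine Finset.sum_congr rfl fun γ hγ => ?_
    obtain ⟨x, -, rfl⟩ := (hO γ).1 (Finset.mem_of_mem_erase hγ)
    exact trace_r4_gam x y z
  have hD : ∀ {u f w e}, EF Qk u f w e → (∀ a, (e a).restrictScalars F ∈ X) → ∀ y : End F V,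
      (∀ a x, y (e a x) = e a (y x)) → (∑ γ ∈ O.erase Γ, γ) y = 0 := by
    intro u f w e he hX y hy
    replace hy : ∀ a, adG ((e a).restrictScalars F) y = y := fun a =>
      adG_eq_self.2 (LinearMap.ext fun x => (hy a x).symm)
    have e1 : ∀ a b, (e (a + b)).restrictScalars F =
        (e a).restrictScalars F * (e b).restrictScalars F := fun a b => by rw [he.add]; rfl
    let _ : AddAction K (End F (End F V)) :=
      { vadd := fun a γ => r4 F V ((e a).restrictScalars F) γ
        zero_vadd := fun γ => by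
          change r4 F V _ γ = γ
          rw [show (e 0).restrictScalars F = 1 by simpa using e1 0 0, map_one,
            Module.End.one_apply]
        add_vadd := fun a b γ => by
          change r4 F V _ γ = r4 F V _ (r4 F V _ γ)
          rw [e1, map_mul, Module.End.mul_apply] }
    have e2 : ∀ a γ, a +ᵥ γ = r4 F V ((e a).restrictScalars F) γ := fun _ _ => rfl
    have e3 : ∀ (a : K) (γ : End F (End F V)), (a +ᵥ γ) y = adG ((e a).restrictScalars F) (γ y) :=
      fun a γ => by rw [← h2, hy, e2]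
    have e4 : ∀ a : K, a +ᵥ Γ = Γ := fun a => r4_gam_iff.2 (restrict_mem_semiG _)
    rw [LinearMap.sum_apply]
    refine sum_sub_zero (F := F) (A := K) (fun a γ hγ => Finset.mem_erase.2 ⟨fun e' =>
      Finset.ne_of_mem_erase hγ (by rw [← neg_vadd_vadd a γ, e', e4]),
      h1 _ (hX a) _ (Finset.mem_of_mem_erase hγ)⟩) fun γ hγ => ?_
    obtain ⟨x, hx, rfl⟩ := (hO γ).1 (Finset.mem_of_mem_erase hγ)
    have e5 : ∀ a : K, a +ᵥ r4 F V x Γ = r4 F V x Γ ↔
        x⁻¹ * (e a).restrictScalars F * x ∈ SemiG F K V := fun a => by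
      rw [← r4_gam_iff, e2, map_mul, map_mul, Module.End.mul_apply, Module.End.mul_apply]
      exact ⟨fun e => by rw [e, Representation.inv_self_apply], fun e => by
        simpa only [Representation.self_inv_apply] using congrArg (r4 F V x) e⟩
    obtain ⟨B, b1, b2⟩ := h.exists_sub hZ he hr hX hx fun e =>
      Finset.ne_of_mem_erase hγ (r4_gam_iff.2 e)
    refine ⟨B, fun a ha e => b1 a ha ((e5 a).1 e), fun c => ?_⟩
    simp only [e3 _ (c +ᵥ _)]
    refine he.sum_eq B (b2.imp (fun b => by rw [b]; omega) fun ⟨b, a, a0, b3⟩ =>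
      ⟨by rw [b]; omega, he.line_of_comm a0 fun v => ?_⟩)
    have := e3 a (c +ᵥ r4 F V x Γ)
    rw [vadd_comm, (e5 a).2 b3] at this
    exact (LinearMap.congr_fun (adG_eq_self.1 this.symm) v).symm
  generalize ∑ γ ∈ O.erase Γ, γ = D at hP hT hD
  obtain ⟨u, u0, hu⟩ := exists_singular_of_three_le Qk h.dim
  obtain ⟨f, w, e, he, hX⟩ := h.exists_ef u0 hu
  have hL : ∀ y (k : K) v, D y (k • v) = k • D y v := fun y =>
    h.lin_of_perp he hd fun v hv k => h.perp_iff.1 fun c => by
      by_cases v0 : v = 0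
      · simp [v0]
      obtain ⟨f, w, e, he, hX⟩ := h.exists_ef v0 hv
      have := hT ((polarBilin Q (c • v)).smulRight (k • v)) y
      rw [hD he hX, zero_mul, map_zero, LinearMap.trace_mul_comm] at this
      · rw [this, show D y * _ = (polarBilin Q (c • v)).smulRight (D y (k • v)) from
          LinearMap.ext fun x => by simp, LinearMap.trace_smulRight]
        rfl
      intro a x
      have := h.isom (hX a) (c • v) x
      simp only [LinearEquiv.restrictScalars_apply, he.fix] at this
      simp only [LinearMap.smulRight_apply, polarBilin_apply_apply, this]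
      rw [← smul_assoc, he.fix]
  intro x hx
  refine h.mem_semiG_of_lin hZ he hx one_ne_zero fun k v => ?_
  have e1 := hP _ (inv_mem hx) ((e 1).restrictScalars F)
  rw [LinearMap.add_apply, hD he hX _ fun a y => by
    change e 1 (e a y) = e a (e 1 y)
    rw [← LinearEquiv.mul_apply, ← he.add, add_comm, he.add, LinearEquiv.mul_apply], add_zero,
    show Γ _ = -((e 1).restrictScalars F : End F V) from LinearMap.ext fun y =>
      gam_lin fun k => (e 1).map_smul k y, map_neg] at e1
  have e2 := fun y => neg_eq_iff_eq_neg.1 (LinearMap.congr_fun e1 y)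
  refine (e2 _).trans (.trans ?_ (congrArg (k • ·) (e2 v).symm))
  simp only [LinearMap.add_apply, Γ, gam_smul, hL, smul_neg, smul_add]

end OF

open Matrix Cfsg Cfsg.Geo in
theorem isMaximalIn_omega_orth_nine {F : Type*} [Field F] [Fintype F]
    (hodd : Odd (Fintype.card F)) {ι : Type} [Fintype ι] [DecidableEq ι] {Q : (ι → F) → F}
    (hQ : IsNondegenerateQuadraticForm Q) (h : Fintype.card ι = 9)
    {K : Subalgebra F (Matrix ι ι F)} (hK : IsFieldSubalgebra 3 K)
    (hs : IsSelfAdjointFor (polar Q) K) :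
    IsMaximalIn (omegaGL Q) (subalgebraNormalizer K ⊓ omegaGL Q) := by
  have : Nonempty ι := Fintype.card_pos_iff.1 (by omega)
  refine isMaximalIn_omega_of_field hQ hK hs fun _ L _ _ _ _ _ hQ h1 h3 h4 => ?_
  exact omega_maxIn_of_OF hQ (Geom.two_ne_zero_of_odd_card hodd) (h1 ▸ Nat.prime_three) (by omega)
    (by omega) h4 fun _ _ _ a hZ => a.le_semiG_three hZ h1 (by omega)

end CF.MaxSub
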