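/-
Tensor powers in the special linear group: the local theory.
-/
import Cfsg.Agent.MaxSub.WM

set_option autoImplicit false

namespace CF.MaxSub

open Module Geom TensorProduct LinearMap

variable {F V₁ W : Type*} [Field F] [AddCommGroup V₁] [Module F V₁] [AddCommGroup W]
  [Module F W] {τ : Type*}

variable (F W) in
/-- The nilpotent maps of rank one. -/
def PL : Set (End F W) := {r | ∃ (φ : Dual F W) (u : W), φ ≠ 0 ∧ u ≠ 0 ∧ φ u = 0 ∧ r = φ.smulRight u}

theorem smulRight_ne_zero {φ : Dual F W} {u : W} (h : φ ≠ 0) (hu : u ≠ 0) : φ.smulRight u ≠ 0 :=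
  fun e => by
    obtain ⟨w, hw⟩ := exists_apply_eq_one h
    simpa [hw, hu] using LinearMap.congr_fun e w

theorem zero_notMem_PL : (0 : End F W) ∉ PL F W := fun ⟨_, _, a, b, _, e⟩ =>
  smulRight_ne_zero a b e.symm

theorem coe_tvE {φ : Dual F W} {u : W} (e : φ u = 0) : (tvE e : End F W) = 1 + φ.smulRight u := rfl

theorem tvE_inv_apply {φ : Dual F W} {u : W} (e : φ u = 0) (w : W) : (tvE e)⁻¹ w = w - φ w • u :=
  (tvE e).injective (by rw [apply_inv_apply]; simp [tvE_apply, e])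

theorem dG_tvE {φ : Dual F W} {u : W} (e : φ u = 0) (y : End F W) : (adG (tvE e) - 1) y =
    (φ ∘ₗ y).smulRight u - φ.smulRight (y u) - φ (y u) • φ.smulRight u := by
  ext w
  simp [adG_apply, tvE_inv_apply, tvE_apply]
  module

variable [FiniteDimensional F W]

theorem exists_ker_notMem (h3 : 3 ≤ finrank F W) (φ : Dual F W) (u : W) :
    ∃ w, φ w = 0 ∧ w ∉ F ∙ u := by
  by_contra! hc
  have h1 := (Submodule.finrank_mono (show ker φ ≤ F ∙ u from hc)).trans (finrank_span_singleton_le u)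
  have h2 := φ.finrank_range_add_finrank_ker
  have h4 := (range φ).finrank_le
  rw [finrank_self] at h4
  omega

theorem scalar_of_PL {a : End F W} (h : ∀ (φ : Dual F W) u, φ u = 0 → φ (a u) = 0) :
    ∃ c : F, a = c • 1 := by
  by_contra! hc
  obtain ⟨z, hz⟩ := exists_not_eigen_end hc
  obtain ⟨φ, a1, a2⟩ := exists_dual_sep hz
  simpa [a2] using h φ z a1

theorem pur_SL (h3 : 3 ≤ finrank F W) : Pur ∅ (SLG F W) (PL F W) := by
  refine .of fun U _ ⟨y, hy, hy'⟩ => ?_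
  obtain ⟨u, hu⟩ := exists_not_eigen_end hy'
  obtain ⟨φ, a1, a2⟩ := exists_dual_sep hu
  obtain ⟨w, a3, a4⟩ := exists_ker_notMem h3 φ u
  obtain ⟨χ, a5, a6⟩ := exists_dual_sep a4
  have u0 : u ≠ 0 := by rintro rfl; simp at hu
  have φ0 : φ ≠ 0 := by rintro rfl; simp at a2
  have H : ∀ a, ((adG (tvE a5) - 1) * (adG (tvE a3) - 1) * (adG (tvE a1) - 1)) a =
      -φ (a u) • φ.smulRight u := fun a => by
    simp only [End.mul_apply, dG_tvE]
    ext v
    simp [a1, a3, a5, a6, smul_smul, mul_comm]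
  exact ⟨_, mul_mem (mul_mem (dG_mem_OpR (tvE_mem_SLG a5)) (dG_mem_OpR (tvE_mem_SLG a3)))
    (dG_mem_OpR (tvE_mem_SLG a1)), _, ⟨φ, u, φ0, u0, a1, rfl⟩,
    fun a _ => H a ▸ Submodule.smul_mem _ _ (Submodule.mem_span_singleton_self _), y, hy,
    by simp [H, a2, smulRight_ne_zero φ0 u0]⟩

theorem eq_top_of_smulRight {S : Submodule F (End F W)}
    (h : ∀ (φ : Dual F W) u, φ.smulRight u ∈ S) : S = ⊤ :=
  Submodule.eq_top_iff'.2 fun a => sum_eu a ▸ sum_mem fun _ _ => sum_mem fun _ _ =>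
    S.smul_mem _ (h _ _)

theorem wd_SL (h3 : 3 ≤ finrank F W) : ∀ r ∈ PL F W, Wd (SLG F W) r := by
  rintro _ ⟨φ, u, φ0, u0, e, rfl⟩
  have h1 : ∀ (l : Dual F W) z, l z = 0 → l.smulRight z ∈ Orb (SLG F W) (φ.smulRight u) :=
    fun l z e' => rank_one_mem (by omega) (.inl h3) (fun g hg A hA A' e => by
      rw [show A' = adG g A from LinearMap.ext fun v => by rw [adG_apply, ← e, apply_inv_apply]]
      exact adG_Orb hg hA) (self_mem_Orb _) (fun c hc => by
        obtain rfl : c = 0 := by simpa [e, u0] using (LinearMap.congr_fun hc u).symm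
        exact smulRight_ne_zero φ0 u0 (by simpa using hc)) e'
  have h2 : Orb (SLG F W) (φ.smulRight u) * Orb (SLG F W) (φ.smulRight u) = ⊤ :=
    eq_top_of_smulRight fun l z => by
      obtain ⟨w, a1, a2⟩ := exists_ker_notMem h3 l z
      obtain ⟨χ, a3, a4⟩ := exists_dual_sep a2
      simpa [smulRight_mul, a4] using Submodule.mul_mem_mul (h1 χ z a3) (h1 l w a1)
  have h4 : (⊤ : Submodule F (End F W)) * ⊤ = (⊤ : Submodule F (End F W)) :=
    Submodule.eq_top_iff'.2 fun a => by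
      simpa using Submodule.mul_mem_mul (Submodule.mem_top (x := a)) (Submodule.mem_top (x := 1))
  rw [Wd, h2, h4, h4]

theorem conj_mem_SLG {V : Type*} [AddCommGroup V] [Module F V] (p : V ≃ₗ[F] V) {g : V ≃ₗ[F] V} :
    p * g * p⁻¹ ∈ SLG F V ↔ g ∈ SLG F V := by
  simp only [mem_SLG, coe_mul_end, map_mul]
  rw [mul_right_comm, ← map_mul, coe_mul_inv_end, map_one, one_mul]

theorem comm_mem_SLG {V : Type*} [AddCommGroup V] [Module F V] (a b : V ≃ₗ[F] V) :
    a * b * a⁻¹ * b⁻¹ ∈ SLG F V := by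
  simp only [mem_SLG, coe_mul_end, map_mul]
  rw [mul_right_comm (LinearMap.det (a : End F V)), ← map_mul, coe_mul_inv_end, map_one, one_mul,
    ← map_mul, coe_mul_inv_end, map_one]

variable [FiniteDimensional F V₁] {X : Subgroup (V₁ ⊗[F] W ≃ₗ[F] V₁ ⊗[F] W)}

theorem rG_mem_SLG {b : W ≃ₗ[F] W} (hb : b ∈ SLG F W) : rG V₁ b ∈ SLG F (V₁ ⊗[F] W) :=
  congr_mem_SLG (one_mem _) hb

omit [FiniteDimensional F W] [FiniteDimensional F V₁] in
theorem rG_tvE {φ : Dual F W} {u : W} (e : φ u = 0) (v : V₁ ⊗[F] W) :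
    rG V₁ (tvE e) v = v + ct φ v ⊗ₜ u := by
  induction v with
  | zero => simp
  | add a b ha hb => rw [map_add, map_add, ha, hb, add_tmul]; abel
  | tmul a b => simp [tvE_apply, tmul_add, smul_tmul]

theorem SL_le_of_un (h3 : 3 ≤ finrank F W)
    (h : ∀ A (φ : Dual F W) u, φ u = 0 → Un X (map A (φ.smulRight u))) : SLG F _ ≤ X := by
  classical
  let b₁ := finBasis F V₁
  let b₂ := finBasis F W
  let b := b₁.tensorProduct b₂
  let ρ : _ → _ → Prop := fun p q => ∀ c : F, Un X ((b.coord q).smulRight (c • b p))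
  have h4 : ∀ i j k l, k ≠ l → ρ (i, k) (j, l) := fun i j k l hkl c =>
    (h ((b₁.coord j).smulRight (c • b₁ i)) (b₂.coord l) (b₂ k) (by simp [hkl])).congr
      fun v => by
        induction v with
        | zero => simp
        | add a b ha hb => rw [map_add, map_add, ha, hb]
        | tmul x w => simp [b, smul_tmul', smul_smul, mul_comm, mul_left_comm, mul_assoc]
  refine SLG_le_of_basis b ?_
  rintro ⟨i, k⟩ ⟨j, l⟩ hne c hv
  refine Un.tvE_mem ?_ hv
  by_cases hkl : k = l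
  · subst hkl
    obtain ⟨m, hm⟩ := Fintype.exists_ne_of_one_lt_card (by simp; omega) k
    exact un_coord_trans b hne (h4 i i k m hm.symm) (h4 i j m k hm) c
  exact h4 i j k l hkl c

/-- The hypotheses of the local argument. -/
structure LL (X : Subgroup (V₁ ⊗[F] W ≃ₗ[F] V₁ ⊗[F] W)) : Prop where
  nt : Nontrivial V₁
  three : 3 ≤ finrank F W
  mem : ∀ b ∈ SLG F W, rG V₁ b ∈ X
  sc : ∀ A (φ : Dual F W) u, φ ≠ 0 → u ≠ 0 → φ u = 0 → Un X (map A (φ.smulRight u)) →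
    ∃ c : F, A = c • 1

omit [FiniteDimensional F W] [FiniteDimensional F V₁] in
theorem un_one_of (h : ∀ b ∈ SLG F W, rG V₁ b ∈ X) {φ : Dual F W} {u : W} (e : φ u = 0) :
    Un X (map 1 (φ.smulRight u)) :=
  un_of_apply (fun v => by simp [map_smulRight, e]) (h _ (tvE_mem_SLG e))
    fun v => by simp [rG_tvE, map_smulRight]

namespace LL

variable (h : LL X)
include h

omit [FiniteDimensional F W] in
theorem exists_ct {θ : V₁ ⊗[F] W →ₗ[F] V₁} (h3 : ∀ w, ∃ c : F, θ ∘ₗ tr w = c • 1) :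
    ∃ φ : Dual F W, ∀ v, θ v = ct φ v := by
  have := h.nt
  obtain ⟨x, hx⟩ := exists_ne (0 : V₁)
  obtain ⟨l, hl⟩ := exists_dual_eq_one (F := F) hx
  refine ⟨l ∘ₗ θ ∘ₗ TensorProduct.mk F V₁ W x, fun v => ?_⟩
  induction v with
  | zero => simp
  | add a b ha hb => rw [map_add, map_add, ha, hb]
  | tmul y w =>
    obtain ⟨c, e⟩ := h3 w
    have h4 : ∀ y, θ (y ⊗ₜ w) = c • y := fun y => LinearMap.congr_fun e y
    simp [h4, hl]

theorem eq_ct {u : W} (hu : u ≠ 0) {θ : V₁ ⊗[F] W →ₗ[F] V₁} (h1 : ∀ x, θ (x ⊗ₜ u) = 0)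
    (h2 : Un X (tr u ∘ₗ θ)) : ∃ φ : Dual F W, ∀ v, θ v = ct φ v := h.exists_ct fun w => by
  obtain ⟨ψ, h3, h4, h5⟩ := exists_dual_pair h.three u w
  refine h.sc _ _ _ h3 hu h4 ?_
  have h6 : Un X (tr u ∘ₗ θ - map (θ ∘ₗ tr w) (ψ.smulRight u)) :=
    h2.of_conj (un_one_of h.mem h5).unip_mem fun v => by
      simp [unip_apply, map_smulRight, h4, h5, add_tmul]
  simpa using h2.sub h6 (LinearMap.ext fun v => by simp [map_smulRight, h1])
    (LinearMap.ext fun v => by simp [map_smulRight, h1, h4])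

theorem stab {u : W} (hu : u ≠ 0) {g : V₁ ⊗[F] W ≃ₗ[F] V₁ ⊗[F] W}
    (hg : ∀ b ∈ SLG F W, g⁻¹ * rG V₁ b * g ∈ X) (h1 : ∀ x, g (x ⊗ₜ u) ∈ range (tr u)) :
    g ∈ TenG F V₁ W := by
  obtain ⟨ψ, hψ⟩ := exists_dual_eq_one (F := F) hu
  have h2 : ∀ x, g (x ⊗ₜ u) = ct ψ (g (x ⊗ₜ u)) ⊗ₜ u := fun x => by
    obtain ⟨y, hy⟩ := h1 x
    simp [← hy, hψ]
  let α := LinearEquiv.ofInjectiveEndo (ct ψ ∘ₗ g.toLinearMap ∘ₗ tr u) fun x y e =>
    tmul_left_inj hu (g.injective (by rw [h2 x, h2 y]; exact congrArg (· ⊗ₜ u) e))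
  replace h2 : ∀ x, g (x ⊗ₜ u) = α x ⊗ₜ u := h2
  have h3 : ∀ φ : Dual F W, φ u = 0 → ∃ φ' : Dual F W, ∀ v, ct φ (g v) = α (ct φ' v) :=
    fun φ e => by
    obtain ⟨φ', h4⟩ := h.eq_ct hu (θ := α.symm ∘ₗ ct φ ∘ₗ g.toLinearMap)
      (fun x => by simp [h2, e]) (un_of_apply (fun v => by simp [h2, e]) (hg _ (tvE_mem_SLG e))
        fun v => g.injective (by simp [apply_inv_apply, h2, rG_tvE]))
    exact ⟨φ', fun v => by simp [← h4]⟩
  have := h.nt
  obtain ⟨x₀, hx⟩ := exists_ne (0 : V₁)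
  obtain ⟨l, hl⟩ := exists_dual_eq_one (F := F) hx
  let β₀ : End F W := cl (l ∘ₗ α.symm) ∘ₗ g.toLinearMap ∘ₗ TensorProduct.mk F V₁ W x₀
  have h4 : β₀ u = u := by simp [β₀, h2, hl]
  have h5 : ∀ x w, g (x ⊗ₜ w) - α x ⊗ₜ β₀ w ∈ range (tr u) := fun x w =>
    mem_range_tr hu fun φ e => by
      obtain ⟨φ', h6⟩ := h3 φ e
      simp [β₀, apply_cl, h6, hl]
  let β := LinearEquiv.ofInjectiveEndo β₀ ((injective_iff_map_eq_zero β₀).2 fun w e => by
    obtain ⟨y, hy⟩ := h5 x₀ w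
    rw [e, tmul_zero, sub_zero, tr_apply, ← α.apply_symm_apply y, ← h2, g.injective.eq_iff] at hy
    have h6 := congrArg (cl l) hy
    rw [cl_tmul, cl_tmul, hl, one_smul] at h6
    rwa [← h6, map_smul, h4, h6] at e)
  have h6 : β.symm u = u := β.injective (by rw [β.apply_symm_apply]; exact h4.symm)
  let k := (TensorProduct.congr α β)⁻¹ * g
  have hk : ∀ v, k v = TensorProduct.congr α.symm β.symm (g v) := fun _ => rfl
  have h7 : ∀ v, k v - v = ct ψ (k v - v) ⊗ₜ u := fun v => by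
    induction v with
    | zero => simp
    | add a b ha hb => rw [map_add, add_sub_add_comm, map_add, add_tmul, ← ha, ← hb]
    | tmul x w =>
      obtain ⟨y, hy⟩ := h5 x w
      have : k (x ⊗ₜ w) - x ⊗ₜ w = α.symm y ⊗ₜ u := by
        rw [hk, ← sub_add_cancel (g _) (α x ⊗ₜ β₀ w), ← hy, show β₀ w = β w from rfl]
        simp [h6]
      simp [this, hψ]
  let θ := ct ψ ∘ₗ (k.toLinearMap - 1)
  have h8 : ∀ x, θ (x ⊗ₜ u) = 0 := fun x => by simp [θ, hk, h2, h6]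
  have h9 : ∀ v, k v = v + θ v ⊗ₜ u := fun v => eq_add_of_sub_eq' (h7 v)
  have h10 : ∀ b ∈ SLG F W, k⁻¹ * rG V₁ b * k ∈ X := fun b hb => by
    convert hg _ ((conj_mem_SLG β).2 hb) using 1
    rw [show rG V₁ (β * b * β⁻¹) = TensorProduct.congr α β * rG V₁ b * (TensorProduct.congr α β)⁻¹
      from eq_mul_inv_of_mul_eq (tensor_ext fun x w => by
        simp only [LinearEquiv.mul_apply, congr_tmul, rG_tmul, inv_apply_apply])]
    simp [k, mul_assoc]
  have h11 : g = TensorProduct.congr α β * k := by simp [k]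
  clear_value θ k
  obtain ⟨φ, h14⟩ := h.exists_ct (θ := θ) fun w => by
    obtain ⟨χ, a1, a2, a3⟩ := exists_dual_pair h.three u w
    refine h.sc _ _ _ a1 hu a2 ?_
    have a4 : Un X (map 1 (χ.smulRight w) - map (θ ∘ₗ tr w) (χ.smulRight u)) :=
      un_of_apply (fun v => by simp [map_smulRight, a2, a3]) (h10 _ (tvE_mem_SLG a3))
        fun v => k.injective (by
          rw [LinearEquiv.mul_apply, LinearEquiv.mul_apply, apply_inv_apply]
          simp [rG_tvE, h9, map_smulRight, a2, h8, add_tmul]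
          abel)
    simpa using (un_one_of h.mem a3).sub a4 (LinearMap.ext fun v => by simp [map_smulRight, a2, a3])
      (LinearMap.ext fun v => by simp [map_smulRight, a2, a3])
  have h13 : φ u = 0 := by simpa [h14, hx] using h8 x₀
  have h15 : k = rG V₁ (tvE h13) := LinearEquiv.ext fun v => by rw [h9, h14, rG_tvE]
  exact h11 ▸ mul_mem (congr_mem_TenG α β) (h15 ▸ rG_mem _)

theorem loc {u w : W} (hu : u ≠ 0) (hw : w ≠ 0) {g : V₁ ⊗[F] W ≃ₗ[F] V₁ ⊗[F] W}
    (hg : ∀ b ∈ SLG F W, g⁻¹ * rG V₁ b * g ∈ X) (h1 : ∀ x, g (x ⊗ₜ w) ∈ range (tr u)) :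
    g ∈ TenG F V₁ W := by
  obtain ⟨k, hk, e⟩ := exists_SLG_vec (F := F) (by have := h.three; omega) hu hw
  refine (mul_mem_cancel_right (rG_mem k)).1 (h.stab hu (fun b hb => ?_) fun x => by
    simpa [e] using h1 x)
  simpa [mul_assoc] using mul_mem (mul_mem (inv_mem (h.mem k hk)) (hg b hb)) (h.mem k hk)

end LL

end CF.MaxSub
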