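/-
Tensor powers in the special linear group: the global argument.
-/
import Cfsg.Agent.MaxSub.ZB
import Cfsg.Agent.MaxSub.Tr

set_option autoImplicit false

namespace CF.MaxSub

open Module Geom TensorProduct LinearMap

variable {F V₁ W : Type*} [Field F] [AddCommGroup V₁] [Module F V₁] [AddCommGroup W]
  [Module F W] {τ : Type*}

variable (F W) in
/-- The data of a transvection. -/
abbrev IL := {p : Dual F W × W // p.1 ≠ 0 ∧ p.2 ≠ 0 ∧ p.1 p.2 = 0}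

/-- The transvections with a given axis. -/
def tvA (φ : Dual F W) : Multiplicative (ker φ) →* (W ≃ₗ[F] W) :=
  MonoidHom.mk' (fun u => tvE (mem_ker.1 u.toAdd.2)) fun a b => LinearEquiv.ext fun w => by
    simp only [LinearEquiv.mul_apply, tvE_apply]
    simp [mem_ker.1 b.toAdd.2]
    abel

theorem sum_tvA [Fintype F] [FiniteDimensional F W] {φ : Dual F W} [Fintype (ker φ)]
    (h : 2 < (Fintype.card F - 1) * finrank F (ker φ)) (z : End F (V₁ ⊗[F] W)) :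
    ∑ e, adG (rG V₁ (tvA φ e)) z = 0 := by
  let N : ker φ →ₗ[F] End F (V₁ ⊗[F] W) :=
    (rA V₁).toLinearMap ∘ₗ LinearMap.smulRightₗ φ ∘ₗ (ker φ).subtype
  let m := LinearMap.mul F (End F (V₁ ⊗[F] W))
  have p1 := (PD.const 1).add (PD.lin (b := (finBasis F (ker φ)).equivFun) N)
  have p2 := (PD.const 1).add (PD.lin (b := (finBasis F (ker φ)).equivFun) (-N))
  rw [← (PD.bilin m (p1.map (m.flip z)) p2).sum_eq_zero (by simpa using h)]
  refine Fintype.sum_equiv Multiplicative.toAdd _ _ fun a => ?_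
  have e : ∀ c, ((rG V₁ (tvA φ c) : _ ≃ₗ[F] _) : End F (V₁ ⊗[F] W)) = 1 + N c.toAdd := fun c => by
    rw [coe_rG, show (tvA φ c : End F W) = 1 + φ.smulRight (c.toAdd : W) from rfl, map_add, map_one]
    rfl
  rw [adG_eq, ← map_inv, ← map_inv, e, e, toAdd_inv, map_neg]
  simp only [m, LinearMap.mul_apply', LinearMap.flip_apply, LinearMap.neg_apply]

section Glob

variable [FiniteDimensional F V₁] [FiniteDimensional F W] [Nontrivial V₁] (h3 : 3 ≤ finrank F W)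
  {𝒳 : Set (V₁ ⊗[F] W ≃ₗ[F] V₁ ⊗[F] W)}
  (hX : ∀ g ∈ 𝒳, ∀ b ∈ SLG F W, ∀ g' ∈ 𝒳, g * rG V₁ b * g⁻¹ * g' ∈ 𝒳)
  (hL : ∀ g ∈ Df 𝒳, ∀ w ≠ 0, ∀ u : W, u ≠ 0 → (∀ x, g (x ⊗ₜ w) ∈ range (tr u)) →
    g ∈ TenG F V₁ W)
include h3 hX hL

theorem rsys_SL : RSys (Df 𝒳) {u | u ≠ 0} (I := IL F W) (fun p => {tvE p.2.2.2})
    fun p => tvE p.2.2.2 where
  cr := fun ⟨⟨φ, u⟩, φ0, u0, _⟩ => ⟨u, u0, 1, by simpa [coe_tvE] using smulRight_ne_zero φ0 u0,
    fun w => Submodule.mem_span_singleton.2 ⟨φ w, by simp [coe_tvE]⟩⟩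
  di := fun g _ ⟨⟨φ, u⟩, _, u0, _⟩ e => by
    refine rG_or_lG_of_rank h3 (e _ rfl) (M := (range (tr u)).map (g⁻¹).toLinearMap)
      (by rw [LinearEquiv.finrank_map_eq, finrank_range_tr u0]) fun v => ⟨_, ⟨ct φ (g v), rfl⟩, ?_⟩
    simp [rG_tvE, inv_apply_apply]
  loc := hL
  inv := by
    rintro _ ⟨a, ha, b, hb, rfl⟩
    exact ⟨b, hb, a, ha, by simp⟩
  rt := by
    rintro _ ⟨a, ha, b, hb, rfl⟩ i _ rfl
    exact ⟨a, ha, _, hX b hb _ (tvE_mem_SLG i.2.2.2) a ha, by simp [mul_assoc]⟩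
  gen a e := by
    obtain ⟨d, rfl⟩ := scalar_of_PL (a := a) fun φ u hu => by
      by_cases u0 : u = 0
      · simp [u0]
      obtain ⟨χ, a1, a2, -⟩ := exists_dual_pair h3 u u
      obtain ⟨f, hf⟩ := exists_apply_eq_one a1
      have := LinearMap.congr_fun (adG_eq_self.1 (e ⟨⟨χ, u⟩, a1, u0, a2⟩)).eq f
      simp only [coe_tvE, End.mul_apply, LinearMap.add_apply, End.one_apply, smulRight_apply, hf, one_smul,
        map_add, add_right_inj] at this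
      simp [← this, hu]
    exact Submodule.smul_mem _ _ (Submodule.mem_span_singleton_self _)

theorem good_of_PL {g : V₁ ⊗[F] W ≃ₗ[F] V₁ ⊗[F] W} [Finite F] (hg : g ∈ Df 𝒳)
    (H : ∀ n ∈ PL F W, ∃ a A, adG g (rA V₁ n) = rA V₁ a + lA W A) : Good g := by
  have : Nontrivial W := nontrivial_of_finrank_pos (R := F) (by omega)
  obtain ⟨u, u0⟩ := exists_ne (0 : W)
  obtain ⟨φ, φ0, e, -⟩ := exists_dual_pair h3 u u
  refine (rsys_SL h3 hX hL).good_of_sum hg (i := ⟨⟨φ, u⟩, φ0, u0, e⟩) ?_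
  rintro _ rfl
  obtain ⟨a, A, a1⟩ := H _ ⟨φ, u, φ0, u0, e, rfl⟩
  obtain ⟨c, hc⟩ := exists_nilpotent (a := a) (A := A) ⟨2, by
    rw [← a1, ← adG_pow, ← map_pow, pow_two, smulRight_mul, e, zero_smul, map_zero, map_zero]⟩
  obtain ⟨w, a2, a3⟩ : ∃ w, w ≠ 0 ∧ (a - c • 1 : End F W) w = 0 := by
    by_cases h0 : a - c • 1 = 0
    · exact ⟨u, u0, by simp [h0]⟩
    exact (exists_sq_zero hc h0).elim fun s hs => ⟨_, hs⟩
  exact ⟨φ.smulRight u, coe_tvE e ▸ add_mem (one_mem _) (Algebra.subset_adjoin rfl), a, A, a1, w,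
    a2, a2, Submodule.mem_span_singleton.2 ⟨c, (sub_eq_zero.1 a3).symm⟩⟩

theorem good_SL [Fintype F] (hq : 2 < (Fintype.card F - 1) * (finrank F W - 1))
    {g : V₁ ⊗[F] W ≃ₗ[F] V₁ ⊗[F] W} (hg : g ∈ Df 𝒳) : Good g := by
  have : Nontrivial W := nontrivial_of_finrank_pos (R := F) (by omega)
  have : Finite W := Module.finite_of_finite F
  refine good_of_PL h3 hX hL hg ?_
  rintro _ ⟨φ, u, φ0, u0, e, rfl⟩
  refine glob_single hX (fun 𝒜 hA => Dl_mem_Cm (𝒩 := PL F W) ?_ fun b hb =>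
    scalar_of_PL fun φ u e => ?_) hg ?_
  · rintro A _ ⟨φ, u, φ0, u0, e, rfl⟩
    have := Fintype.ofFinite (ker φ)
    refine hA.Dl_mem (L := ⊥) (tvA φ) (fun c => tvE_mem_SLG (mem_ker.1 c.toAdd.2)) A (fun c => adG_eq_self.2 ?_)
      (sum_tvA ?_) fun g hg e => .inl fun c e' => by_contra fun c0 => e ((rsys_SL h3 hX hL).good hg
        (i := ⟨⟨φ, c.toAdd⟩, φ0, fun e => c0 (Multiplicative.ext (Subtype.ext e)), c.toAdd.2⟩)
        (by rintro _ rfl; exact e'))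
    · change (1 + φ.smulRight (c.toAdd : W)) * φ.smulRight u = φ.smulRight u * (1 + φ.smulRight _)
      simp [add_mul, mul_add, smulRight_mul, e, mem_ker.1 c.toAdd.2]
    · have := φ.finrank_range_add_finrank_ker
      rw [range_eq_top.2 fun c => (exists_apply_eq_one φ0).elim fun w hw =>
        ⟨c • w, by simp [hw]⟩, finrank_top, finrank_self] at this
      rwa [show finrank F (ker φ) = finrank F W - 1 by omega]
  · by_cases φ0 : φ = 0
    · simp [φ0]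
    by_cases u0 : u = 0
    · simp [u0]
    simpa [mul_smulRight] using hb _ ⟨φ, u, φ0, u0, e, rfl⟩
  obtain ⟨w, a1, a2⟩ := exists_ker_notMem h3 φ u
  obtain ⟨χ, a3, a4⟩ := exists_dual_sep a2
  refine Submodule.subset_span ⟨tvE a3, tvE_mem_SLG a3, φ.smulRight w, ?_⟩
  refine .trans ?_ (dG_tvE a3 _).symm
  ext v
  simp [e, a4]

end Glob

variable [Fintype τ] [DecidableEq τ]

/-- A tensor power. -/
structure WL (ψ : τ → End F W →ₐ[F] End F V₁) (π : τ → V₁ ⊗[F] W ≃ₗ[F] V₁ ⊗[F] W) : Prop where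
  pc : PC ψ
  cen : ∀ c, (∀ i, c ∈ Cm (ψ i)) → c ∈ F ∙ (1 : End F V₁)
  r : ∀ j a, adG (π j) (rA V₁ a) = lA W (ψ j a)
  l : ∀ j a, adG (π j) (lA W (ψ j a)) = rA V₁ a
  o : ∀ i j, i ≠ j → ∀ a, adG (π j) (lA W (ψ i a)) = lA W (ψ i a)
  ne : Nonempty τ
  nt : Nontrivial V₁
  three : 3 ≤ finrank F W

namespace WL

variable {X : Subgroup (V₁ ⊗[F] W ≃ₗ[F] V₁ ⊗[F] W)} {ψ : τ → End F W →ₐ[F] End F V₁}
  {π : τ → V₁ ⊗[F] W ≃ₗ[F] V₁ ⊗[F] W} (h : WL ψ π)
include h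

theorem ntW : Nontrivial W := nontrivial_of_finrank_pos (R := F) (by have := h.three; omega)

theorem r' (j : τ) (a : End F W) : adG (π j)⁻¹ (rA V₁ a) = lA W (ψ j a) := by
  rw [← h.l j, adG_inv_adG]

theorem l' (j : τ) (a : End F W) : adG (π j)⁻¹ (lA W (ψ j a)) = rA V₁ a := by
  rw [← h.r j, adG_inv_adG]

theorem o' {i j : τ} (e : i ≠ j) (a : End F W) : adG (π j)⁻¹ (lA W (ψ i a)) = lA W (ψ i a) := by
  conv_lhs => rw [← h.o i j e, adG_inv_adG]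

theorem adG_aP (i : Option τ) (a : End F W) : adG (aP π i) (rA V₁ a) = aF ψ i a := by
  cases i
  · simp [aP, aF]
  · exact h.r _ a

theorem aP_mem (i : Option τ) : aP π i ∈ WrG (aF ψ) := by
  obtain _ | j := i
  · exact one_mem _
  refine ⟨Equiv.swap none (some j), fun i => ⟨1, fun a => ?_⟩⟩
  obtain _ | i := i
  · simpa [aP, aF] using h.r j a
  by_cases e : i = j
  · simpa [e, aP, aF] using h.l j a
  · simpa [Equiv.swap_apply_of_ne_of_ne, e, aP, aF] using h.o i j e a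

theorem conj (hX : Adm (SLG F _) (WrG (aF ψ)) X) (i : Option τ) :
    Adm (SLG F _) (WrG (aF ψ)) (X.comap (MulAut.conj (aP π i)).toMonoidHom) :=
  hX.conj (h.aP_mem i) fun _ => conj_mem_SLG _

theorem lG_aut (j : τ) (b : W ≃ₗ[F] W) : lG W (aut (ψ j) b) = π j * rG V₁ b * (π j)⁻¹ :=
  LinearEquiv.toLinearMap_injective (by rw [coe_lG, coe_aut, ← h.r, ← coe_rG, adG_coe])

theorem comm {i j : Option τ} (e : i ≠ j) (a b : End F W) :
    aF ψ i a * aF ψ j b = aF ψ j b * aF ψ i a := by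
  obtain _ | i := i <;> obtain _ | j := j
  · exact (e rfl).elim
  · exact mem_Cm.1 (lA_mem _) a
  · exact (mem_Cm.1 (lA_mem _) b).symm
  · exact (map_mul (lA W) _ _).symm.trans
      ((congrArg _ (h.pc (fun e' => e (congrArg _ e')) a b)).trans (map_mul (lA W) _ _))

theorem un_cyc (hX : Adm (SLG F _) (WrG (aF ψ)) X) {i j : τ} (e : i ≠ j) {a b : End F W}
    (hab : Un X (map (ψ i a) b)) : Un X (map (ψ j b) a) := by
  have := hab.conj (hX.lo ⟨comm_mem_SLG (π j) (π i), (WrG _).mul_mem (mul_mem (mul_mem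
    (h.aP_mem (some j)) (h.aP_mem (some i))) (inv_mem (h.aP_mem (some j))))
      (inv_mem (h.aP_mem (some i)))⟩)
  rwa [← adG_eq, ← lA_mul_rA, adG_mul, ← adG_adG, ← adG_adG, ← adG_adG, ← adG_adG, ← adG_adG,
    ← adG_adG, h.l', h.r', h.r', h.o' e, h.o j i e.symm, h.l, h.l, h.r, mem_Cm.1 (lA_mem _),
    lA_mul_rA] at this

variable [FiniteDimensional F V₁] [FiniteDimensional F W]

theorem aF_injective (i : Option τ) : Function.Injective (aF ψ i) := fun a b e => by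
  have := h.nt
  rw [← h.adG_aP, ← h.adG_aP] at e
  exact rA_injective (V₁ := V₁) (by simpa using congrArg (adG (aP π i)⁻¹) e)

omit [FiniteDimensional F V₁] in
theorem exists_PL : ∃ r, r ∈ PL F W := by
  have := h.ntW
  obtain ⟨u, u0⟩ := exists_ne (0 : W)
  obtain ⟨φ, φ0, e, -⟩ := exists_dual_pair h.three u u
  exact ⟨_, φ, u, φ0, u0, e, rfl⟩

theorem notMem_Cm (j : τ) {r : End F W} (hr : r ∈ PL F W) : ψ j r ∉ Cm (ψ j) := fun e => by
  obtain ⟨φ, u, φ0, u0, a1, rfl⟩ := hr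
  obtain ⟨a, ha⟩ := exists_not_comm (smulRight_ne_zero φ0 u0) (by simp [smulRight_mul, a1])
  exact ha (h.aF_injective (some j) (by simpa [aF] using congrArg (lA W) (mem_Cm.1 e a)))

theorem conj_rG (hX : Adm (SLG F _) (WrG (aF ψ)) X) (i : Option τ) {b : W ≃ₗ[F] W}
    (hb : b ∈ SLG F W) : aP π i * rG V₁ b * (aP π i)⁻¹ ∈ X :=
  hX.lo ⟨(conj_mem_SLG _).2 (rG_mem_SLG hb),
    (WrG _).mul_mem (mul_mem (h.aP_mem i) (rG_mem_WrG ψ b)) (inv_mem (h.aP_mem i))⟩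

theorem mem_alg {M : Subalgebra F (End F V₁)}
    (hG : ∀ i, ∀ g ∈ SLG F W, ∀ y ∈ M, adG (aut (ψ i) g) y ∈ M) {i : τ} {y : End F V₁}
    (hy : y ∈ M) (e : y ∉ Cm (ψ i)) (a : End F W) : ψ i a ∈ M :=
  h.pc.mem_alg h.cen (S := M.toSubmodule) hG ((pur_SL h.three).mono (by simp) le_rfl)
    zero_notMem_PL (wd_SL h.three) ⟨y, hy, e⟩ (fun _ => id) a

omit [FiniteDimensional F V₁] [FiniteDimensional F W] [DecidableEq τ] in
theorem exists_notMem {y : End F V₁} (hy : ∀ c : F, y ≠ c • 1) : ∃ i, y ∉ Cm (ψ i) := by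
  by_contra! hc
  obtain ⟨c, e⟩ := Submodule.mem_span_singleton.1 (h.cen y hc)
  exact hy c e.symm

theorem ll (hX : Adm (SLG F _) (WrG (aF ψ)) X) : LL X := by
  have h3 := h.three
  have h0 : ∀ b ∈ SLG F W, rG V₁ b ∈ X := fun b hb => hX.lo ⟨rG_mem_SLG hb, rG_mem_WrG ψ b⟩
  refine ⟨h.nt, h3, h0, fun A φ u φ0 u0 e hA => by_contra fun hc => hX.ne ?_⟩
  let S : Subalgebra F (End F V₁) :=
    { carrier := {A | ∀ (φ : Dual F W) u, φ u = 0 → Un X (map A (φ.smulRight u))}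
      add_mem' := fun {A B} ha hb φ u e => by
        rw [TensorProduct.map_add_left]
        exact (ha φ u e).add (hb φ u e) (LinearMap.ext fun v => by simp [map_smulRight, e])
          (LinearMap.ext fun v => by simp [map_smulRight, e])
      mul_mem' := fun {A B} ha hb φ u e => by
        obtain ⟨w, a1, a2⟩ := exists_ker_notMem h3 φ u
        obtain ⟨χ, a3, a4⟩ := exists_dual_sep a2
        exact ((ha χ u a3).comm (hb φ w a1)
          (LinearMap.ext fun v => by simp [map_smulRight, e])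
          (LinearMap.ext fun v => by simp [map_smulRight, e, a4])).congr fun v => by
            simp [map_smulRight, e, a4]
      algebraMap_mem' := fun c φ u e => (un_one_of h0 (φ := c • φ) (u := u) (by simp [e])).congr
        fun v => by simp [map_smulRight, ct_smul] }
  have h1 : A ∈ S := fun φ' u' e' => by
    by_cases h1 : u' = 0
    · exact Un.zero.congr fun v => by simp [map_smulRight, h1]
    by_cases h2 : φ' = 0
    · exact Un.zero.congr fun v => by simp [map_smulRight, h2, ct]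
    exact pair_ind (P := fun u φ => Un X (map A (φ.smulRight u))) (by omega)
      (fun g hg u φ φ' e hP => hP.of_conj (h0 g hg)
        (congr_apply_map _ _ (fun _ => rfl) fun v => by simp [e])) (Or.inl h3) u0 φ0 e hA h1 h2 e'
  have h2 : ∀ i, ∀ g ∈ SLG F W, ∀ y ∈ S, adG (aut (ψ i) g) y ∈ S := fun i g hg y hy φ u e =>
    (hy φ u e).lG (h.lG_aut i g ▸ h.conj_rG hX (some i) hg)
  obtain ⟨i, hi⟩ := h.exists_notMem (not_exists.1 hc)
  replace hi := h.mem_alg h2 h1 hi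
  refine SL_le_of_un h3 fun B => h.pc.mem_of_gen (M := S) h.cen (fun j => ?_) B
  by_cases e' : i = j
  · exact e' ▸ hi
  exact h.mem_alg h2 (fun χ w a => h.un_cyc hX e' (hi _ φ u e))
    (h.notMem_Cm j ⟨φ, u, φ0, u0, e, rfl⟩)

theorem xs_mul (hX : Adm (SLG F _) (WrG (aF ψ)) X) :
    ∀ g ∈ XS X π, ∀ b ∈ SLG F W, ∀ g' ∈ XS X π, g * rG V₁ b * g⁻¹ * g' ∈ XS X π := by
  rintro _ ⟨x, hx, i, rfl⟩ b hb _ ⟨y, hy, j, rfl⟩
  exact ⟨_, mul_mem (mul_mem (mul_mem hx (h.conj_rG hX i hb)) (inv_mem hx)) hy, j, by group⟩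

theorem xs_loc (hX : Adm (SLG F _) (WrG (aF ψ)) X) :
    ∀ g ∈ Df (XS X π), ∀ w ≠ 0, ∀ u : W, u ≠ 0 → (∀ x, g (x ⊗ₜ w) ∈ range (tr u)) →
      g ∈ TenG F V₁ W := by
  rintro _ ⟨_, ⟨x, hx, i, rfl⟩, _, ⟨y, hy, j, rfl⟩, rfl⟩ w w0 u u0
  refine (h.ll (h.conj hX j)).loc u0 w0 fun b hb => ?_
  simpa [mul_assoc] using mul_mem (mul_mem (mul_mem (mul_mem (inv_mem hy) hx) (h.conj_rG hX i hb))
    (inv_mem hx)) hy

omit [FiniteDimensional F V₁] in
theorem exists_not_comm : ∃ a b : End F W, a * b ≠ b * a := by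
  obtain ⟨_, φ, u, φ0, u0, a1, rfl⟩ := h.exists_PL
  exact (MaxSub.exists_not_comm (smulRight_ne_zero φ0 u0) (by simp [smulRight_mul, a1])).imp
    fun _ e => ⟨_, e⟩

theorem match_of_good {x : V₁ ⊗[F] W ≃ₗ[F] V₁ ⊗[F] W} {i : Option τ}
    (a1 : ∀ j, Good ((aP π j)⁻¹ * (x * aP π i))) :
    ∃ j b, ∀ a, adG x (aF ψ i a) = aF ψ j (adG b a) := by
  have := h.ntW
  have := h.nt
  obtain ⟨a₀, b₀, e₀⟩ := h.exists_not_comm
  have a2 : ∀ j a, adG x (aF ψ i a) = adG (aP π j) (adG ((aP π j)⁻¹ * (x * aP π i)) (rA V₁ a)) :=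
    fun j a => by rw [adG_adG, mul_inv_cancel_left, ← adG_adG, h.adG_aP]
  by_cases e : ∃ j, (aP π j)⁻¹ * (x * aP π i) ∈ TenG F V₁ W
  · obtain ⟨j, e⟩ := e
    obtain ⟨b, hb⟩ := adG_ten_rA e
    exact ⟨j, b, fun a => by rw [a2 j, hb, h.adG_aP]⟩
  have b1 : ∀ j b, aF ψ j b * adG x (aF ψ i a₀) = adG x (aF ψ i a₀) * aF ψ j b := fun j b => by
    rw [a2 j, ← h.adG_aP j b, ← adG_mul, ← adG_mul,
      mem_Cm.1 ((a1 j).resolve_left (fun e' => e ⟨j, e'⟩) a₀)]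
  obtain ⟨A, hA⟩ := exists_lA (mem_Cm.2 (b1 none))
  obtain ⟨c, rfl⟩ := Submodule.mem_span_singleton.1 (h.cen A fun j => mem_Cm.2 fun b =>
    lA_injective (W := W) (by rw [map_mul, map_mul, ← hA]; exact b1 (some j) b))
  have b2 : a₀ = c • 1 := h.aF_injective i (by simpa using congrArg (adG x⁻¹) hA)
  simp [b2] at e₀

theorem mem_of_match {x : V₁ ⊗[F] W ≃ₗ[F] V₁ ⊗[F] W}
    (a3 : ∀ i, ∃ j b, ∀ a, adG x (aF ψ i a) = aF ψ j (adG b a)) : x ∈ WrG (aF ψ) := by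
  obtain ⟨a₀, b₀, e₀⟩ := h.exists_not_comm
  choose s b hb using a3
  refine ⟨.ofBijective s (Finite.injective_iff_bijective.1 fun i j e => by_contra fun e' => e₀ ?_),
    fun i => ⟨b i, hb i⟩⟩
  have := congrArg (adG x) (h.comm e' (adG (b i)⁻¹ a₀) (adG (b j)⁻¹ b₀))
  rw [adG_mul, adG_mul, hb, hb, e, adG_adG_inv, adG_adG_inv, ← map_mul, ← map_mul] at this
  exact h.aF_injective _ this

theorem le_of_good (H : ∀ g ∈ Df (XS X π), Good g) : X ≤ WrG (aF ψ) := fun x hx =>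
  h.mem_of_match fun i => h.match_of_good fun j =>
    H _ ⟨_, ⟨1, one_mem _, j, (one_mul _).symm⟩, _, ⟨x, hx, i, rfl⟩, rfl⟩

theorem le_of_big [Fintype F] (hq : 2 < (Fintype.card F - 1) * (finrank F W - 1))
    (hX : Adm (SLG F _) (WrG (aF ψ)) X) : X ≤ WrG (aF ψ) :=
  have := h.nt
  h.le_of_good fun _ => good_SL h.three (h.xs_mul hX) (h.xs_loc hX) hq

end WL

end CF.MaxSub
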