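/-
Tensor powers of a three-dimensional space: the invariant trilinear form.
-/
import Cfsg.Agent.MaxSub.ZC

set_option autoImplicit false

namespace CF.MaxSub

open Module Geom TensorProduct LinearMap

variable {F V₁ W : Type*} [Field F] [AddCommGroup V₁] [Module F V₁] [AddCommGroup W]
  [Module F W] {τ : Type*}

/-- Trilinear forms. -/
abbrev Tri (F V : Type*) [Field F] [AddCommGroup V] [Module F V] := V →ₗ[F] V →ₗ[F] V →ₗ[F] F

section Tri

variable {U V : Type*} [AddCommGroup U] [Module F U] [AddCommGroup V] [Module F V]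

/-- Pulling back a trilinear form. -/
def tC (f g h : U →ₗ[F] V) (γ : Tri F V) : Tri F U :=
  (γ.compl₁₂ f g).compr₂ (LinearMap.lcomp F F h)

@[simp] theorem tC_apply (f g h : U →ₗ[F] V) (γ : Tri F V) (a b c : U) :
    tC f g h γ a b c = γ (f a) (g b) (h c) := rfl

theorem tri_ext {γ δ : Tri F V} (h : ∀ a b c, γ a b c = δ a b c) : γ = δ :=
  LinearMap.ext₂ fun a b => LinearMap.ext (h a b)

/-- The action on trilinear forms. -/
def tA (g : V ≃ₗ[F] V) (γ : Tri F V) : Tri F V := tC g g g γ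

@[simp] theorem tA_apply (g : V ≃ₗ[F] V) (γ : Tri F V) (a b c : V) :
    tA g γ a b c = γ (g a) (g b) (g c) := rfl

theorem tA_mul (g h : V ≃ₗ[F] V) (γ : Tri F V) : tA (g * h) γ = tA h (tA g γ) := rfl

@[simp] theorem tA_one (γ : Tri F V) : tA 1 γ = γ := rfl

theorem tA_sum {ι : Type*} (g : V ≃ₗ[F] V) (s : Finset ι) (γ : ι → Tri F V) :
    tA g (∑ i ∈ s, γ i) = ∑ i ∈ s, tA g (γ i) :=
  tri_ext fun a b c => by simp [LinearMap.sum_apply]

/-- The stabiliser of a trilinear form. -/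
def tS (γ : Tri F V) : Subgroup (V ≃ₗ[F] V) where
  carrier := {g | tA g γ = γ}
  one_mem' := rfl
  mul_mem' {a b} ha hb := (tA_mul a b γ).trans (by rw [show tA a γ = γ from ha]; exact hb)
  inv_mem' {a} ha := by
    change tA a⁻¹ γ = γ
    conv_lhs => rw [← show tA a γ = γ from ha, ← tA_mul, mul_inv_cancel, tA_one]

theorem tS_apply {γ : Tri F V} {g : V ≃ₗ[F] V} (h : g ∈ tS γ) (a b c : V) :
    γ (g a) (g b) (g c) = γ a b c := by rw [← tA_apply, show tA g γ = γ from h]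

theorem mem_tS_tA {γ : Tri F V} {g x : V ≃ₗ[F] V} : g ∈ tS (tA x γ) ↔ x * g * x⁻¹ ∈ tS γ := by
  change tA g (tA x γ) = tA x γ ↔ tA (x * g * x⁻¹) γ = γ
  rw [tA_mul, tA_mul]
  exact ⟨fun e => by rw [e, ← tA_mul, mul_inv_cancel, tA_one], fun e => by
    simpa [← tA_mul] using congrArg (tA x) e⟩

/-- The derivations of a trilinear form. -/
def Der (γ : Tri F V) (y : End F V) : Prop :=
  ∀ a b c, γ (y a) b c + γ a (y b) c + γ a b (y c) = 0

theorem Der.adG {γ : Tri F V} {y : End F V} (h : Der γ y) {g : V ≃ₗ[F] V} (hg : g ∈ tS γ) :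
    Der γ (adG g y) := fun a b c => by
  simpa only [adG_apply, ← tS_apply (inv_mem hg) (g _), ← tS_apply (inv_mem hg) a, inv_apply_apply]
    using h (g⁻¹ a) (g⁻¹ b) (g⁻¹ c)

/-- Alternating forms. -/
structure Alt3 (d : Tri F V) : Prop where
  h : ∀ φ : Dual F V, φ ≠ 0 → ∀ a b c, φ a = 0 → φ b = 0 → φ c = 0 → d a b c = 0

theorem alt3_of {d : Tri F V} (h : ∀ (φ : Dual F V) u (e : φ u = 0), tvE e ∈ tS d) : Alt3 d :=
  ⟨fun φ φ0 a b c ha hb hc => by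
    obtain ⟨w, hw⟩ := exists_apply_eq_one φ0
    simpa [tvE_apply, ha, hb, hw] using tS_apply (h φ c hc) a b w⟩

namespace Alt3

variable [FiniteDimensional F V] {d : Tri F V} (h : Alt3 d) (h3 : 3 ≤ finrank F V)
include h h3

theorem aab (a c : V) : d a a c = 0 :=
  let ⟨φ, a1, a2, a3⟩ := exists_dual_pair h3 a c; h.h φ a1 _ _ _ a2 a2 a3

theorem aba (a c : V) : d a c a = 0 :=
  let ⟨φ, a1, a2, a3⟩ := exists_dual_pair h3 a c; h.h φ a1 _ _ _ a2 a3 a2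

theorem baa (a c : V) : d c a a = 0 :=
  let ⟨φ, a1, a2, a3⟩ := exists_dual_pair h3 a c; h.h φ a1 _ _ _ a3 a2 a2

theorem swap (a b c : V) : d a b c = -d b a c := by
  simpa [h.aab h3, add_eq_zero_iff_eq_neg] using h.aab h3 (a + b) c

theorem swap' (a b c : V) : d a b c = -d a c b := by
  simpa [h.baa h3, add_eq_zero_iff_eq_neg] using h.baa h3 (b + c) a

theorem eq_zero (b : Basis (Fin 3) F V) (e : d (b 0) (b 1) (b 2) = 0) : d = 0 := by
  have e1 := h.swap h3 (b 1) (b 0) (b 2)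
  have e2 := h.swap' h3 (b 0) (b 2) (b 1)
  have e3 := h.swap' h3 (b 1) (b 2) (b 0)
  have e4 := h.swap h3 (b 2) (b 0) (b 1)
  have e5 := h.swap h3 (b 2) (b 1) (b 0)
  refine b.ext fun i => b.ext fun j => b.ext fun k => ?_
  fin_cases i <;> fin_cases j <;> fin_cases k <;>
    simp [h.aab h3, h.aba h3, h.baa h3, e, e1, e2, e3, e4, e5]

end Alt3

end Tri

theorem eq_of_ct {M : Type*} [AddCommGroup M] [Module F M] {φ : Dual F W} {w : W} (hw : φ w = 1)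
    {μ : V₁ ⊗[F] W →ₗ[F] M} (h : ∀ x a, φ a = 0 → μ (x ⊗ₜ a) = 0) (v : V₁ ⊗[F] W) :
    μ v = μ (ct φ v ⊗ₜ w) := by
  induction v with
  | zero => simp
  | add a b ha hb => rw [map_add, map_add, add_tmul, map_add, ← ha, ← hb]
  | tmul x a => simpa [hw, tmul_sub, sub_eq_zero, smul_tmul] using h x (a - φ a • w) (by simp [hw])

theorem cl_rA (l : Dual F V₁) (b : End F W) (v : V₁ ⊗[F] W) : cl l (rA V₁ b v) = b (cl l v) := by
  induction v with
  | zero => simp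
  | add a b ha hb => simp [ha, hb]
  | tmul x a => simp

variable [FiniteDimensional F V₁] [FiniteDimensional F W]

theorem eq_zero_of_cl {v : V₁ ⊗[F] W} (h : ∀ l, cl l v = 0) : v = 0 := by
  obtain ⟨x, rfl⟩ := mem_range_lTensor (W := ⊥) h
  rw [Subsingleton.elim (⊥ : Submodule F W).subtype 0, lTensor_zero, LinearMap.zero_apply]

theorem exists_rA_lA [Nontrivial V₁] [Nontrivial W] {y : End F (V₁ ⊗[F] W)}
    (h : ∀ (φ : Dual F W) u, φ ≠ 0 → u ≠ 0 → φ u = 0 → ∃ c : F, ct φ ∘ₗ y ∘ₗ tr u = c • 1) :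
    ∃ a A, y = rA V₁ a + lA W A := by
  obtain ⟨x₀, hx⟩ := exists_ne (0 : V₁)
  obtain ⟨l, hl⟩ := exists_dual_eq_one (F := F) hx
  let a : End F W := cl l ∘ₗ y ∘ₗ TensorProduct.mk F V₁ W x₀
  obtain ⟨A, hA⟩ := exists_lA (c := y - rA V₁ a) (mem_Cm.2 fun b => TensorProduct.ext' fun x w =>
    sub_eq_zero.1 (eq_zero_of_cl fun l' => by
      obtain ⟨c, hc⟩ := scalar_of_PL (a := cl l' ∘ₗ (y - rA V₁ a) ∘ₗ TensorProduct.mk F V₁ W x)
        fun φ u e => by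
          by_cases φ0 : φ = 0
          · simp [φ0]
          by_cases u0 : u = 0
          · simp [u0]
          obtain ⟨c, hc⟩ := h φ u φ0 u0 e
          replace hc : ∀ x, ct φ (y (x ⊗ₜ u)) = c • x := LinearMap.congr_fun hc
          simp [a, apply_cl, hc, hl, mul_comm]
      replace hc : ∀ w, cl l' ((y - rA V₁ a) (x ⊗ₜ w)) = c • w := LinearMap.congr_fun hc
      rw [map_sub, End.mul_apply, End.mul_apply, cl_rA, rA_tmul, hc, hc, map_smul, sub_self]))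
  exact ⟨a, A, by rw [← hA, add_sub_cancel]⟩

omit [FiniteDimensional F V₁] [FiniteDimensional F W] in
theorem alt3_rs {γ : Tri F (V₁ ⊗[F] W)}
    (h : ∀ (φ : Dual F W) u (e : φ u = 0), rG V₁ (tvE e) ∈ tS γ) (x y z : V₁) :
    Alt3 (tC (mk F V₁ W x) (mk F V₁ W y) (mk F V₁ W z) γ) :=
  alt3_of fun φ u e => tri_ext fun a b c => tS_apply (h φ u e) (x ⊗ₜ a) (y ⊗ₜ b) (z ⊗ₜ c)

omit [FiniteDimensional F V₁] in
theorem tri_zero (h3 : 3 ≤ finrank F W) {γ : Tri F (V₁ ⊗[F] W)}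
    (h : ∀ (φ : Dual F W) u (e : φ u = 0), rG V₁ (tvE e) ∈ tS γ) (b : Basis (Fin 3) F W)
    (e : ∀ x y z, γ (x ⊗ₜ b 0) (y ⊗ₜ b 1) (z ⊗ₜ b 2) = 0) : γ = 0 :=
  TensorProduct.ext' fun x s => TensorProduct.ext' fun y t => TensorProduct.ext' fun z r =>
    congrArg (fun d : Tri F W => d s t r) ((alt3_rs h x y z).eq_zero h3 b (e x y z))

omit [FiniteDimensional F V₁] in
theorem der_rA (h3 : 3 ≤ finrank F W) {γ : Tri F (V₁ ⊗[F] W)}
    (h : ∀ (φ : Dual F W) u (e : φ u = 0), rG V₁ (tvE e) ∈ tS γ) {n : End F W} (hn : n ∈ PL F W) :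
    Der γ (rA V₁ n) := fun a b c => by
  obtain ⟨φ, u, -, -, e, rfl⟩ := hn
  have h1 : ∀ v : V₁ ⊗[F] W, rA V₁ (φ.smulRight u) v = ct φ v ⊗ₜ u := map_smulRight 1 φ u
  have h2 : ∀ x y v, γ (x ⊗ₜ u) (y ⊗ₜ u) v = 0 := fun x y => LinearMap.congr_fun
    (TensorProduct.ext' (h := 0) fun z s => (alt3_rs h x y z).aab h3 u s)
  have h4 : ∀ x y v, γ (x ⊗ₜ u) v (y ⊗ₜ u) = 0 := fun x y => LinearMap.congr_fun
    (TensorProduct.ext' (g := (γ (x ⊗ₜ u)).flip (y ⊗ₜ u)) (h := 0)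
      fun z s => (alt3_rs h x z y).aba h3 u s)
  have h5 : ∀ x y v, γ v (x ⊗ₜ u) (y ⊗ₜ u) = 0 := fun x y => LinearMap.congr_fun
    (TensorProduct.ext' (g := (γ.flip (x ⊗ₜ u)).flip (y ⊗ₜ u)) (h := 0)
      fun z s => (alt3_rs h z x y).baa h3 u s)
  have := tS_apply (h φ u e) a b c
  simp only [rG_tvE, map_add, LinearMap.add_apply, h2, h4, h5] at this
  simp only [h1]
  linear_combination this

theorem exists_basis3 (h3 : finrank F W = 3) {φ : Dual F W} {u : W} (φ0 : φ ≠ 0) (u0 : u ≠ 0)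
    (e : φ u = 0) : ∃ b : Basis (Fin 3) F W, b 1 = u ∧ φ (b 0) = 1 ∧ φ (b 2) = 0 := by
  obtain ⟨w, a1⟩ := exists_apply_eq_one φ0
  obtain ⟨s, a2, a3⟩ := exists_ker_notMem h3.ge φ u
  have : LinearIndependent F ![w, u, s] := Fintype.linearIndependent_iff.2 fun g hg => by
    simp only [Fin.sum_univ_three, Matrix.cons_val] at hg
    have h1 : g 0 = 0 := by simpa [a1, a2, e] using congrArg φ hg
    obtain ⟨χ, a4, a5⟩ := exists_dual_sep a3
    have h2 : g 2 = 0 := by simpa [h1, a4, a5] using congrArg χ hg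
    have h4 : g 1 = 0 := by simpa [h1, h2, u0] using hg
    intro i
    fin_cases i <;> assumption
  exact ⟨basisOfLinearIndependentOfCardEqFinrank this (by simp [h3]), by simp, by simp [a1],
    by simp [a2]⟩

variable [Fintype τ] [DecidableEq τ]

namespace WL

variable {X : Subgroup (V₁ ⊗[F] W ≃ₗ[F] V₁ ⊗[F] W)} {ψ : τ → End F W →ₐ[F] End F V₁}
  {π : τ → V₁ ⊗[F] W ≃ₗ[F] V₁ ⊗[F] W} (h : WL ψ π)
include h

theorem centroid {d : Tri F V₁} (d0 : d ≠ 0) (hd : ∀ j, ∀ g ∈ SLG F W, aut (ψ j) g ∈ tS d)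
    {A : End F V₁} (h1 : ∀ x y z, d (A x) y z = d x (A y) z)
    (h2 : ∀ x y z, d (A x) y z = d x y (A z)) : ∃ c : F, A = c • 1 := by
  by_contra! hc
  let Z : Subalgebra F (End F V₁) :=
    { carrier := {A | (∀ x y z, d (A x) y z = d x (A y) z) ∧ ∀ x y z, d (A x) y z = d x y (A z)}
      add_mem' := fun a b => ⟨fun x y z => by simp [a.1, b.1], fun x y z => by simp [a.2, b.2]⟩
      mul_mem' := fun {A B} a b => ⟨fun x y z => by
        rw [End.mul_apply, End.mul_apply, a.2, b.1, ← a.1, a.2], fun x y z => by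
        rw [End.mul_apply, End.mul_apply, a.1, b.2, ← a.1, a.2]⟩
      algebraMap_mem' := fun c => ⟨fun x y z => by simp, fun x y z => by simp⟩ }
  obtain ⟨i, hi⟩ := h.exists_notMem hc
  have h4 := h.mem_alg (M := Z) (fun i g hg y hy => ⟨fun a b c => by
    simpa only [adG_apply, ← tS_apply (inv_mem (hd i g hg)) (aut _ _ _), inv_apply_apply,
      ← tS_apply (inv_mem (hd i g hg)) a] using hy.1 _ _ _, fun a b c => by
    simpa only [adG_apply, ← tS_apply (inv_mem (hd i g hg)) (aut _ _ _), inv_apply_apply,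
      ← tS_apply (inv_mem (hd i g hg)) a] using hy.2 _ _ _⟩) (show A ∈ Z from ⟨h1, h2⟩) hi
  have h5 : ∀ (φ : Dual F W) u x y z, d x (ψ i (φ.smulRight u) y) z = 0 := fun φ u x y z => by
    have H : ∀ (φ : Dual F W) u y, φ u = 0 → d x (ψ i (φ.smulRight u) y) z = 0 :=
      fun φ u y e => by
      by_cases u0 : u = 0
      · simp [u0]
      obtain ⟨χ, a1⟩ := exists_dual_eq_one (F := F) u0
      have a2 : ∀ a b : End F W, d x (ψ i (a * b) y) z = d x (ψ i (b * a) y) z := fun a b => by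
        rw [map_mul, map_mul, End.mul_apply, End.mul_apply, ← (h4 a).1, ← (h4 b).1, (h4 b).2,
          (h4 a).1, ← (h4 b).2, (h4 b).1]
      simpa [smulRight_mul, a1, e] using a2 (χ.smulRight u) (φ.smulRight u)
    obtain ⟨w, a1, a2⟩ := exists_ker_notMem h.three φ u
    obtain ⟨χ, a3, a4⟩ := exists_dual_sep a2
    simpa [← End.mul_apply, ← map_mul, smulRight_mul, a4] using H χ u (ψ i (φ.smulRight w) y) a3
  refine d0 (tri_ext fun x y z => ?_)
  have : y = ψ i 1 y := by simp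
  rw [this, ← sum_eu_diag]
  simp [LinearMap.sum_apply, eu, h5]

variable (h3 : finrank F W = 3) {f : Tri F (V₁ ⊗[F] W)} (f0 : f ≠ 0) (hf : WrG (aF ψ) ≤ tS f)
include h3 f0 hf

theorem exists_of_der {y : End F (V₁ ⊗[F] W)} (hy : Der f y) : ∃ a A, y = rA V₁ a + lA W A := by
  have := h.nt
  have := h.ntW
  have h1 : ∀ (φ : Dual F W) u (e : φ u = 0), rG V₁ (tvE e) ∈ tS f := fun _ _ _ =>
    hf (rG_mem_WrG ψ _)
  refine exists_rA_lA fun φ u φ0 u0 e => ?_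
  obtain ⟨b, rfl, b0, b2⟩ := exists_basis3 h3 φ0 u0 e
  have h2 := alt3_rs h1
  refine h.centroid (d := tC (tr (b 0)) (tr (b 1)) (tr (b 2)) f) (fun e => f0 (tri_zero h3.ge h1 b
    fun x y z => congrArg (fun d : Tri F V₁ => d x y z) e)) (fun j g _ => tri_ext fun x y z =>
      tS_apply (g := lG W (aut (ψ j) g)) (hf ?_) (x ⊗ₜ b 0) (y ⊗ₜ b 1) (z ⊗ₜ b 2))
    (fun x s t => ?_) fun x s t => ?_
  · exact h.lG_aut j g ▸ (WrG _).mul_mem (mul_mem (h.aP_mem (some j)) (rG_mem_WrG ψ g))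
      (inv_mem (h.aP_mem (some j)))
  · have := hy (x ⊗ₜ b 1) (s ⊗ₜ b 1) (t ⊗ₜ b 2)
    rw [show f (x ⊗ₜ b 1) (s ⊗ₜ b 1) = 0 from TensorProduct.ext' fun z r => (h2 x s z).aab h3.ge _ r,
      show f (y _) _ _ = _ from eq_of_ct (μ := (f.flip (s ⊗ₜ b 1)).flip (t ⊗ₜ b 2)) b0
        (fun z r a => (h2 z s t).h φ φ0 _ _ _ a e b2) _,
      show f _ (y _) _ = _ from eq_of_ct (μ := (f (x ⊗ₜ b 1)).flip (t ⊗ₜ b 2)) b0
        (fun z r a => (h2 x z t).h φ φ0 _ _ _ e a b2) _] at this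
    have e1 := (h2 x (ct φ (y (s ⊗ₜ b 1))) t).swap h3.ge (b 1) (b 0) (b 2)
    simp only [tC_apply, mk_apply, flip_apply, comp_apply, tr_apply, LinearMap.zero_apply] at this e1 ⊢
    linear_combination this - e1
  · have := hy (x ⊗ₜ b 1) (s ⊗ₜ b 2) (t ⊗ₜ b 1)
    rw [show f (x ⊗ₜ b 1) (y _) (t ⊗ₜ b 1) = 0 from LinearMap.congr_fun (TensorProduct.ext'
        (g := (f _).flip _) (h := 0) fun z r => (h2 x z t).aba h3.ge _ r) _,
      show f (y _) _ _ = _ from eq_of_ct (μ := (f.flip (s ⊗ₜ b 2)).flip (t ⊗ₜ b 1)) b0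
        (fun z r a => (h2 z s t).h φ φ0 _ _ _ a b2 e) _,
      eq_of_ct (μ := f (x ⊗ₜ b 1) (s ⊗ₜ b 2)) b0 (fun z r a => (h2 x s z).h φ φ0 _ _ _ e b2 a) (y _)] at this
    have e1 := (h2 (ct φ (y (x ⊗ₜ b 1))) s t).swap' h3.ge (b 0) (b 2) (b 1)
    have e2 := (h2 x s (ct φ (y (t ⊗ₜ b 1)))).swap' h3.ge (b 1) (b 2) (b 0)
    have e3 := (h2 x s (ct φ (y (t ⊗ₜ b 1)))).swap h3.ge (b 1) (b 0) (b 2)
    simp only [tC_apply, mk_apply, flip_apply, comp_apply, tr_apply] at this e1 e2 e3 ⊢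
    linear_combination e1 + e2 - e3 - this

theorem le_of_fix [Finite F] (hX : Adm (SLG F _) (WrG (aF ψ)) X) (e : X ≤ tS f) :
    X ≤ WrG (aF ψ) := by
  have := h.nt
  have h1 : ∀ g ∈ XS X π, g ∈ tS f := by
    rintro _ ⟨x, hx, i, rfl⟩
    exact mul_mem (e hx) (hf (h.aP_mem i))
  refine h.le_of_good fun g hg => good_of_PL h.three (h.xs_mul hX) (h.xs_loc hX) hg fun n hn =>
    h.exists_of_der h3 f0 hf ((der_rA h.three (fun _ _ _ => hf (rG_mem_WrG ψ _)) hn).adG ?_)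
  obtain ⟨a, ha, b, hb, rfl⟩ := hg
  exact mul_mem (inv_mem (h1 a ha)) (h1 b hb)

end WL

end CF.MaxSub
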