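/-
Maximality of `SL_3(2) ≀ S_t` in `SL_{3^t}(2)`, and of the tensor power subgroups of `SL_n(q)`.
-/
import Cfsg.Agent.MaxSub.ZD

set_option autoImplicit false

namespace CF.MaxSub

open Module Geom TensorProduct LinearMap

variable {F V₁ W : Type*} [Field F] [AddCommGroup V₁] [Module F V₁] [AddCommGroup W]
  [Module F W] {τ : Type*}

theorem sum_klein {α M : Type*} [AddCommGroup M] {s t : α → α} (hs : ∀ a, s (s a) = a)
    (ht : ∀ a, t (t a) = a) (hc : ∀ a, t (s a) = s (t a)) {D : Finset α} (sD : ∀ a ∈ D, s a ∈ D)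
    (tD : ∀ a ∈ D, t a ∈ D) {f : α → M} (h0 : ∀ a ∈ D, s a = a → t a ≠ a)
    (h1 : ∀ a, t a = a → f a + f (s a) = 0) (h2 : ∀ a, s a = a ∨ s a = t a → f a + f (t a) = 0)
    (h3 : ∀ a, f a + (f (s a) + (f (t a) + f (s (t a)))) = 0) : ∑ a ∈ D, f a = 0 := by
  classical
  let R : Setoid α := ⟨fun b a => b = a ∨ b = s a ∨ b = t a ∨ b = s (t a), fun _ => .inl rfl,
    by rintro _ a (rfl | rfl | rfl | rfl) <;> simp [hs, ht, hc],
    by rintro _ _ a (rfl | rfl | rfl | rfl) (rfl | rfl | rfl | rfl) <;> simp [hs, ht, hc]⟩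
  refine Finset.sum_cancels_of_partition_cancels R fun a ha => ?_
  have e : D.filter (fun b => R b a) = {a, s a, t a, s (t a)} := Finset.ext fun b => by
    simp only [Finset.mem_filter, Finset.mem_insert, Finset.mem_singleton]
    exact ⟨fun h => h.2, fun h => ⟨by
      rcases h with rfl | rfl | rfl | rfl
      exacts [ha, sD _ ha, tD _ ha, sD _ (tD _ ha)], h⟩⟩
  have i1 : ∀ a b, s a = s b ↔ a = b := fun a b => (Function.Involutive.injective hs).eq_iff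
  have i2 : ∀ a b, t a = t b ↔ a = b := fun a b => (Function.Involutive.injective ht).eq_iff
  refine (Finset.sum_congr (s₂ := {a, s a, t a, s (t a)}) (by convert e) fun _ _ => rfl).trans ?_
  by_cases e1 : t a = a
  · simpa [e1, Finset.sum_pair fun e => h0 a ha e.symm e1, Finset.pair_comm (s a) a] using h1 a e1
  by_cases e2 : s a = a
  · simpa [e2, ← hc, Finset.sum_pair (Ne.symm e1)] using h2 a (.inl e2)
  by_cases e3 : s a = t a
  · simpa [← e3, hs, Finset.sum_pair (Ne.symm e2), Finset.pair_comm (s a) a] using h2 a (.inr e3)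
  have e4 : a ≠ s (t a) := fun e => e3 ((congrArg s e).trans (hs _))
  have e5 : t a ≠ s (t a) := fun e => e2 ((i2 _ _).1 (by rw [hc, ← e]))
  rw [Finset.sum_insert (by simp [Ne.symm e1, Ne.symm e2, e4]),
    Finset.sum_insert (by simp [e3, i1, Ne.symm e1]), Finset.sum_pair e5]
  exact h3 a

theorem tvE_mul {φ χ : Dual F W} {u : W} (e : φ u = 0) (e' : χ u = 0) :
    tvE e * tvE e' = tvE (φ := φ + χ) (v := u) (by simp [e, e']) := LinearEquiv.ext fun w => by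
  simp [tvE_apply, e, add_smul]
  abel

theorem tvE_zero {φ : Dual F W} {u : W} (e : φ u = 0) (h : φ = 0) : tvE e = 1 :=
  LinearEquiv.ext fun w => by simp [tvE_apply, h]

/-- `g` maps a factor to a factor. -/
def Mv {V : Type*} [AddCommGroup V] [Module F V] (Ψ : τ → End F W →ₐ[F] End F V) (g : V ≃ₗ[F] V)
    (i j : τ) : Prop := ∃ b, ∀ a, adG g (Ψ i a) = Ψ j (adG b a)

section

variable {V : Type*} [AddCommGroup V] [Module F V] {Ψ : τ → End F W →ₐ[F] End F V}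
  {g h : V ≃ₗ[F] V} {i j k : τ}

theorem Mv.mul (a : Mv Ψ g j k) (b : Mv Ψ h i j) : Mv Ψ (g * h) i k :=
  let ⟨c, hc⟩ := a; let ⟨d, hd⟩ := b
  ⟨c * d, fun _ => by rw [← adG_adG, hd, hc, adG_adG]⟩

theorem Mv.inv (a : Mv Ψ g i j) : Mv Ψ g⁻¹ j i :=
  let ⟨b, hb⟩ := a
  ⟨b⁻¹, fun a => by rw [← adG_inv_adG g (Ψ i _), hb, adG_adG_inv]⟩

theorem exists_mvW (hg : g ∈ WrG Ψ) (i : τ) : ∃ j, Mv Ψ g i j := let ⟨s, hs⟩ := hg; ⟨s i, hs i⟩

theorem adG_aut_self (b : W ≃ₗ[F] W) (a : End F W) :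
    adG (aut (Ψ i) b) (Ψ i a) = Ψ i (adG b a) := by rw [adG_aut, adG_eq, map_mul, map_mul]

theorem conj_aut {c : W ≃ₗ[F] W} (e : ∀ a, adG g (Ψ i a) = Ψ j (adG c a)) (b : W ≃ₗ[F] W) :
    g * aut (Ψ i) b * g⁻¹ = aut (Ψ j) (c * b * c⁻¹) :=
  LinearEquiv.toLinearMap_injective (by rw [← adG_coe, coe_aut, e, adG_coe, coe_aut])

end

variable [Fintype τ] [DecidableEq τ]

namespace WL

variable {X : Subgroup (V₁ ⊗[F] W ≃ₗ[F] V₁ ⊗[F] W)} {ψ : τ → End F W →ₐ[F] End F V₁}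
  {π : τ → V₁ ⊗[F] W ≃ₗ[F] V₁ ⊗[F] W} (h : WL ψ π)
include h

theorem adG_aut_ne {i j : Option τ} (e : i ≠ j) (b : W ≃ₗ[F] W) (a : End F W) :
    adG (aut (aF ψ i) b) (aF ψ j a) = aF ψ j a := adG_eq_self.2 (h.comm e _ _)

theorem mv_aut (i j : Option τ) (b : W ≃ₗ[F] W) : Mv (aF ψ) (aut (aF ψ i) b) j j := by
  by_cases e : i = j
  · exact ⟨b, e ▸ adG_aut_self b⟩
  exact ⟨1, fun a => by simp [h.adG_aut_ne e]⟩

theorem aut_mem (i : Option τ) (b : W ≃ₗ[F] W) : aut (aF ψ i) b ∈ WrG (aF ψ) :=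
  ⟨1, fun j => h.mv_aut i j b⟩

theorem aut_eq (i : Option τ) (b : W ≃ₗ[F] W) :
    aut (aF ψ i) b = aP π i * rG V₁ b * (aP π i)⁻¹ :=
  LinearEquiv.toLinearMap_injective (by rw [← adG_coe, coe_rG, coe_aut, h.adG_aP])

theorem aut_comm {i j : Option τ} (e : i ≠ j) (b c : W ≃ₗ[F] W) :
    aut (aF ψ i) b * aut (aF ψ j) c = aut (aF ψ j) c * aut (aF ψ i) b :=
  LinearEquiv.toLinearMap_injective (h.comm e _ _)

variable [FiniteDimensional F V₁] [FiniteDimensional F W] (hX : Adm (SLG F _) (WrG (aF ψ)) X)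
include hX

theorem exists_match (h2 : (2 : F) = 0) (hH : WrG (aF ψ) ≤ X) {x : V₁ ⊗[F] W ≃ₗ[F] V₁ ⊗[F] W}
    (hx : x ∈ X) {u : W} (u0 : u ≠ 0)
    (hk : ∀ (φ : Dual F W) (e : φ u = 0), x * rG V₁ (tvE e) * x⁻¹ ∈ WrG (aF ψ)) :
    ∃ j, Mv (aF ψ) x none j := by
  have := h.nt
  have := h.ntW
  by_contra hc
  obtain ⟨i, hi⟩ : ∃ i, ∀ (φ : Dual F W) (e : φ u = 0), φ ≠ 0 →
      ¬ Mv (aF ψ) (x * rG V₁ (tvE e) * x⁻¹) i i := by
    by_contra! H
    refine hc (h.match_of_good fun j => ?_)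
    obtain ⟨φ, e, φ0, b, hb⟩ := H j
    simpa [aP] using ((rsys_SL h.three (h.xs_mul hX) (h.xs_loc hX)).good (g := x⁻¹ * aP π j)
      ⟨_, ⟨1, one_mem _, none, rfl⟩, _, ⟨_, inv_mem hx, j, rfl⟩, by simp [aP]⟩
      (i := ⟨⟨φ, u⟩, φ0, u0, e⟩) (by
        rintro _ rfl
        refine mem_ten_of_adG (b := b) fun a => ?_
        rw [show (x⁻¹ * aP π j)⁻¹ * rG V₁ (tvE e) * (x⁻¹ * aP π j) =
          (aP π j)⁻¹ * (x * rG V₁ (tvE e) * x⁻¹ * aP π j) by group, ← adG_adG, ← adG_adG,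
          h.adG_aP, hb, ← h.adG_aP, adG_inv_adG])).inv
  have k1 : ∀ {φ χ : Dual F W} (e : φ u = 0) (e' : χ u = 0), x * rG V₁ (tvE e) * x⁻¹ *
      (x * rG V₁ (tvE e') * x⁻¹) = x * rG V₁ (tvE (φ := φ + χ) (v := u) (by simp [e, e'])) * x⁻¹ :=
    fun e e' => by rw [← tvE_mul e e', map_mul]; group
  have k2 : ∀ {φ : Dual F W} (e : φ u = 0),
      (x * rG V₁ (tvE e) * x⁻¹)⁻¹ = x * rG V₁ (tvE e) * x⁻¹ := fun e =>
    inv_eq_of_mul_eq_one_right (by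
      rw [k1, tvE_zero _ (by rw [← two_smul F, h2, zero_smul])]; simp)
  obtain ⟨φ, φ0, e, -⟩ := exists_dual_pair h.three u u
  obtain ⟨w, hw⟩ := exists_apply_eq_one φ0
  obtain ⟨χ, χ0, e', a1⟩ := exists_dual_pair h.three u w
  obtain ⟨j, m1⟩ := exists_mvW (hk φ e) i
  obtain ⟨i', m2⟩ := exists_mvW (hk χ e') i
  have n1 : i ≠ j := by rintro rfl; exact hi φ e φ0 m1
  have n2 : i ≠ i' := by rintro rfl; exact hi χ e' χ0 m2
  have n3 : j ≠ i' := by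
    rintro rfl
    exact hi _ _ (fun e => by simpa [hw, a1] using LinearMap.congr_fun e w)
      (k1 e e' ▸ (k2 e ▸ m1.inv).mul m2)
  obtain ⟨c, m1⟩ := m1
  have b1 := conj_aut m1 (tvE e)
  obtain ⟨p, hp⟩ : ∃ p, p = aut (aF ψ i) (tvE e) * aut (aF ψ j) (c * tvE e * c⁻¹) := ⟨_, rfl⟩
  have b2 : ∀ l, Mv (aF ψ) p l l := fun l => hp ▸ (h.mv_aut _ _ _).mul (h.mv_aut _ _ _)
  have b3 : x⁻¹ * p * x * rG V₁ (tvE e) = rG V₁ (tvE e) * (x⁻¹ * p * x) := by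
    have : x * rG V₁ (tvE e) * x⁻¹ * p * (x * rG V₁ (tvE e) * x⁻¹)⁻¹ = p := by
      have b4 := mul_eq_one_iff_inv_eq.2 (k2 e)
      generalize x * rG V₁ (tvE e) * x⁻¹ = k at b1 b4
      rw [show k * p * k⁻¹ = k * aut (aF ψ i) (tvE e) * k⁻¹ *
        (k * k * aut (aF ψ i) (tvE e) * (k * k)⁻¹) by rw [hp, ← b1]; group, b4, b1, hp,
        h.aut_comm n1]
      group
    conv_lhs => rw [← this]
    group
  obtain ⟨α, β, b4⟩ := (h.ll hX).loc (g := x⁻¹ * p * x) u0 u0 (fun b hb => by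
    have := mul_mem (mul_mem (inv_mem hx) (hH ⟨1, b2⟩)) hx
    exact mul_mem (mul_mem (inv_mem this) ((h.ll hX).mem b hb)) this) fun y =>
      ⟨ct φ ((x⁻¹ * p * x) (y ⊗ₜ w)), by
        simpa [rG_tvE, hw, tvE_apply, tmul_add, -LinearEquiv.coe_inv] using
          (LinearEquiv.congr_fun b3 (y ⊗ₜ w)).symm⟩
  obtain ⟨d, b5⟩ : ∃ d : F, d • u = β u := Submodule.mem_span_singleton.1 (by_contra fun a => by
    obtain ⟨ω, a2, a3⟩ := exists_dual_sep a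
    obtain ⟨y, hy⟩ := exists_ne (0 : V₁)
    simpa [b4, rG_tvE, hw, a2, a3, tvE_apply, tmul_add, hy] using
      congrArg (ct ω) (LinearEquiv.congr_fun b3 (y ⊗ₜ w)))
  have b6 : (d • χ ∘ₗ (β⁻¹ : W ≃ₗ[F] W).toLinearMap) u = 0 := by
    simpa [inv_apply_apply, e'] using congrArg (fun v => χ (β⁻¹ v)) b5
  have b7 : p * (x * rG V₁ (tvE e') * x⁻¹) * p⁻¹ = x * rG V₁ (tvE b6) * x⁻¹ := by
    rw [show p * (x * rG V₁ (tvE e') * x⁻¹) * p⁻¹ =
      x * (x⁻¹ * p * x * rG V₁ (tvE e') * (x⁻¹ * p * x)⁻¹) * x⁻¹ by group, b4]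
    congr 2
    refine mul_inv_eq_of_eq_mul (tensor_ext fun y s => ?_)
    simp [tvE_apply, ← b5, inv_apply_apply, smul_smul, mul_comm, -LinearEquiv.coe_inv]
  have b8 := k1 b6 e'
  have b9 := fun a => hi _ _ a (b8 ▸ b7 ▸ (((b2 i).mul (k2 e' ▸ m2.inv)).mul (b2 i').inv).mul m2)
  rw [tvE_zero _ (not_not.1 b9), ← b7, map_one, mul_one, mul_inv_cancel, mul_eq_one_iff_eq_inv,
    k2, mul_inv_eq_iff_eq_mul] at b8
  obtain ⟨c', m2⟩ := m2
  obtain ⟨a, ha⟩ := MaxSub.exists_not_comm (smulRight_ne_zero φ0 u0) (by simp [smulRight_mul, e])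
  have c1 := congrArg (fun g => adG g (aF ψ i a)) b8
  simp only [← adG_adG (p * _), ← adG_adG p, ← adG_adG _ p, m2] at c1
  rw [hp, ← adG_adG (aut _ _), ← adG_adG (aut _ _), h.adG_aut_ne n3, h.adG_aut_ne n2,
    h.adG_aut_ne n1.symm, adG_aut_self, m2] at c1
  have c2 := adG_eq_self.1 (show adG (tvE e) a = a by
    simpa using congrArg (adG c'⁻¹) (h.aF_injective _ c1).symm)
  exact ha (by simpa [coe_tvE, add_mul, mul_add] using c2.eq.symm)

variable [Fintype F] (hq : Fintype.card F = 2) (h3 : finrank F W = 3) {f : Tri F (V₁ ⊗[F] W)}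
  (f0 : f ≠ 0) (hf : WrG (aF ψ) ≤ tS f)
include hq h3 f0 hf

theorem le_of_two : X ≤ WrG (aF ψ) := by
  classical
  have h2 : (2 : F) = 0 := by simpa [hq] using FiniteField.cast_card_eq_zero F
  have : CharP F 2 := (CharP.charP_iff_prime_eq_zero Nat.prime_two).2 h2
  have h01 : ∀ c : F, c = 0 ∨ c = 1 := fun c => or_iff_not_imp_left.2 fun c0 => by
    simpa [hq] using FiniteField.pow_card_sub_one_eq_one c c0
  have hH : WrG (aF ψ) ≤ X := fun g hg =>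
    hX.lo ⟨mem_SLG.2 ((h01 _).resolve_left (LinearEquiv.isUnit_det' g).ne_zero), hg⟩
  have hY : ∀ g ∈ X, g ∈ tS f → g ∈ WrG (aF ψ) := fun g a b =>
    h.le_of_fix h3 f0 hf (X := X ⊓ tS f) ⟨fun g hg => ⟨hX.lo hg, hf hg.2⟩,
      inf_le_left.trans hX.hi, fun e => hX.ne (e.trans inf_le_left)⟩ inf_le_right ⟨a, b⟩
  have := h.ntW
  have : Finite (V₁ ⊗[F] W) := Module.finite_of_finite F
  have : Finite (V₁ ⊗[F] W ≃ₗ[F] V₁ ⊗[F] W) := DFunLike.finite _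
  have := Fintype.ofFinite X
  let O : Finset (Tri F (V₁ ⊗[F] W)) := Finset.univ.image fun y : X => tA y f
  have hO : ∀ γ, γ ∈ O ↔ ∃ y ∈ X, tA y f = γ := fun γ => by simp [O]
  have o1 : ∀ y ∈ X, ∀ γ ∈ O, tA y γ ∈ O := fun y hy γ h => by
    obtain ⟨z, hz, rfl⟩ := (hO γ).1 h
    exact (hO _).2 ⟨z * y, mul_mem hz hy, rfl⟩
  have o2 : ∀ g : V₁ ⊗[F] W ≃ₗ[F] V₁ ⊗[F] W, Function.Injective (tA g) := fun g a b e => by
    simpa [← tA_mul] using congrArg (tA g⁻¹) e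
  have o3 : ∀ g (D : Finset (Tri F (V₁ ⊗[F] W))), (∀ γ ∈ D, tA g γ ∈ D) → g ∈ tS (∑ γ ∈ D, γ) :=
    fun g D hD => (tA_sum g D _).trans (Finset.sum_bij (fun γ _ => tA g γ) hD
      (fun _ _ _ _ e => o2 g e) (Finset.surj_on_of_inj_on_of_card_le _ hD
        (fun _ _ _ _ e => o2 g e) le_rfl · · |>.imp fun _ e => e.imp fun _ => .symm) fun _ _ => rfl)
  have o4 : ∀ x ∈ X, ∀ u : W, u ≠ 0 → (∀ (φ : Dual F W) (e : φ u = 0), rG V₁ (tvE e) ∈ tS (tA x f)) →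
      ∃ j, Mv (aF ψ) x none j := fun x hx u u0 e => h.exists_match hX h2 hH hx u0 fun φ a =>
    hY _ (mul_mem (mul_mem hx (hH (rG_mem_WrG ψ _))) (inv_mem hx)) (mem_tS_tA.1 (e φ a))
  let b := finBasisOfFinrankEq F W h3
  have e1 : b.coord 1 (b 0) = 0 := by simp
  have e2 : b.coord 2 (b 0) = 0 := by simp
  have F1 : ∀ D ⊆ O, (∀ c, ∀ γ ∈ D, tA (rG V₁ c) γ ∈ D) → (∀ γ ∈ D, ∃ c, rG V₁ c ∉ tS γ) →
      ∑ γ ∈ D, γ = 0 := fun D d1 d2 d3 => by
    have d4 : ∀ (φ : Dual F W) u (e : φ u = 0), rG V₁ (tvE e) ∈ tS (∑ γ ∈ D, γ) :=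
      fun _ _ _ => o3 _ D (d2 _)
    refine tri_zero h.three d4 b fun x y z => ?_
    have d5 := alt3_rs d4 x y z
    have d6 : ∀ {φ : Dual F W} (e : φ (b 0) = 0) γ, tA (rG V₁ (tvE e)) (tA (rG V₁ (tvE e)) γ) = γ :=
      fun e γ => by
        rw [← tA_mul, ← map_mul, tvE_mul, tvE_zero _ (by rw [← two_smul F, h2, zero_smul]),
          map_one, tA_one]
    have := sum_klein (d6 e1) (d6 e2) (fun γ => by
      simp only [← tA_mul, ← map_mul, tvE_mul, add_comm]) (d2 _) (d2 _)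
      (f := fun γ => γ (x ⊗ₜ b 0) (y ⊗ₜ b 1) (z ⊗ₜ b 2) + γ (x ⊗ₜ b 1) (y ⊗ₜ b 1) (z ⊗ₜ b 2) +
        γ (x ⊗ₜ b 1) (y ⊗ₜ b 2) (z ⊗ₜ b 1) + γ (x ⊗ₜ b 2) (y ⊗ₜ b 1) (z ⊗ₜ b 1))
      (fun γ hγ a1 a2 => ?_) (fun γ a => ?_) (fun γ a => ?_) fun γ => ?_
    · have a1 := d5.aab h.three (b 1) (b 2)
      have a2 := d5.aba h.three (b 1) (b 2)
      have a3 := d5.baa h.three (b 1) (b 2)
      simp only [tC_apply, mk_apply, LinearMap.sum_apply] at a1 a2 a3 ⊢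
      simpa only [Finset.sum_add_distrib, a1, a2, a3, add_zero] using this
    · obtain ⟨x, hx, rfl⟩ := (hO γ).1 (d1 hγ)
      obtain ⟨c, hc⟩ := d3 _ hγ
      obtain ⟨j, c', e⟩ := o4 x hx (b 0) (b.ne_zero 0) fun φ e => by
        have : tvE e = tvE e1 ^ (if φ (b 1) = 0 then 0 else 1) *
            tvE e2 ^ (if φ (b 2) = 0 then 0 else 1) :=
          LinearEquiv.toLinearMap_injective (b.ext fun i => by
            rcases h01 (φ (b 1)) with c1 | c1 <;> rcases h01 (φ (b 2)) with c2 | c2 <;>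
              fin_cases i <;> simp [tvE_apply, e, c1, c2])
        rw [this, map_mul, map_pow, map_pow]
        exact mul_mem (pow_mem a1 _) (pow_mem a2 _)
      refine hc (mem_tS_tA.2 (hf ?_))
      rw [show rG V₁ c = aut (aF ψ none) c from LinearEquiv.toLinearMap_injective (coe_rG c),
        conj_aut e]
      exact h.aut_mem _ _
    · have := fun i j k => tS_apply (show _ ∈ tS γ from a) (x ⊗ₜ b i) (y ⊗ₜ b j) (z ⊗ₜ b k)
      have c1 := this 1 2 2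
      have c2 := this 2 1 2
      have c3 := this 2 2 1
      have c4 := this 0 2 2
      have c5 := this 2 0 2
      have c6 := this 1 0 2
      have c7 := this 0 1 2
      have c8 := this 0 2 1
      simp [tvE_apply, tmul_add] at c1 c2 c3 c4 c5 c6 c7 c8 ⊢
      grind
    · have : ∀ i j k : Fin 3, i ≠ 2 → j ≠ 2 → k ≠ 2 → tA (rG V₁ (tvE e1)) γ (x ⊗ₜ b i) (y ⊗ₜ b j)
          (z ⊗ₜ b k) = γ (x ⊗ₜ b i) (y ⊗ₜ b j) (z ⊗ₜ b k) := fun i j k a1 a2 a3 => by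
        rcases a with a | a <;> rw [a]
        simp [tvE_apply, Finsupp.single_apply, a1, a2, a3]
      have c1 := this 1 1 1
      have c2 := this 0 1 1
      have c3 := this 1 0 1
      have c4 := this 0 0 1
      simp [tvE_apply, tmul_add] at c1 c2 c3 c4 ⊢
      grind
    · simp [tvE_apply, tmul_add]
      grind
  have F2 : ∀ J : Finset (Option τ),
      ∑ γ ∈ O.filter fun γ => ∀ j ∈ J, ∀ c, aut (aF ψ j) c ∈ tS γ, γ = ∑ γ ∈ O, γ := fun J => by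
    induction J using Finset.induction_on with
    | empty => simp
    | insert j J hj ih =>
      suffices H : ∑ γ ∈ (O.filter fun γ => ∀ j ∈ J, ∀ c, aut (aF ψ j) c ∈ tS γ).filter
          fun γ => ¬ ∀ c, aut (aF ψ j) c ∈ tS γ, γ = 0 by
        rw [← ih, ← Finset.sum_filter_add_sum_filter_not (O.filter fun γ => ∀ j ∈ J, _)
          (fun γ => ∀ c, aut (aF ψ j) c ∈ tS γ), H, add_zero, Finset.filter_filter]
        simp only [Finset.forall_mem_insert, and_comm]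
      refine o2 (aP π j) ?_
      rw [tA_sum, ← Finset.sum_image (f := fun γ => γ) fun _ _ _ _ e => o2 _ e]
      refine F1 _ (fun δ hδ => ?_) (fun c δ hδ => ?_) fun δ hδ => ?_ <;>
        obtain ⟨γ, hγ, rfl⟩ := Finset.mem_image.1 hδ <;>
        simp only [Finset.mem_filter, not_forall] at hγ
      · exact o1 _ (hH (h.aP_mem j)) _ hγ.1.1
      · refine Finset.mem_image.2 ⟨tA (aut (aF ψ j) c) γ, Finset.mem_filter.2
          ⟨Finset.mem_filter.2 ⟨o1 _ (hH (h.aut_mem j c)) _ hγ.1.1, fun i hi d => mem_tS_tA.2 ?_⟩,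
            fun e => hγ.2.elim fun d hd => hd ?_⟩, by simp [← tA_mul, h.aut_eq]⟩
        · rw [h.aut_comm (by rintro rfl; exact hj hi), mul_inv_cancel_right]
          exact hγ.1.2 i hi d
        · simpa [mul_assoc] using mem_tS_tA.1 (e (c⁻¹ * d * c))
      · exact hγ.2.imp fun c hc e => hc (h.aut_eq j c ▸ mem_tS_tA.1 e)
  have F3 : ∑ γ ∈ O, γ = f := by
    rw [← F2 Finset.univ, Finset.sum_eq_single_of_mem f (Finset.mem_filter.2
      ⟨(hO f).2 ⟨1, one_mem _, rfl⟩, fun j _ c => hf (h.aut_mem j c)⟩) fun γ hγ e => (e ?_).elim]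
    obtain ⟨a1, a2⟩ := Finset.mem_filter.1 hγ
    obtain ⟨x, hx, rfl⟩ := (hO γ).1 a1
    refine hf (h.mem_of_match fun i => ?_)
    obtain ⟨j, c, hc⟩ := o4 _ (mul_mem hx (hH (h.aP_mem i))) (b 0) (b.ne_zero 0) fun φ e => by
      rw [tA_mul, mem_tS_tA, ← h.aut_eq]
      exact a2 i (Finset.mem_univ i) _
    exact ⟨j, c, fun a => by rw [← hc, ← adG_adG, ← h.adG_aP]; rfl⟩
  exact fun x hx => hY x hx (F3 ▸ o3 x O (o1 x hx))

end WL

end CF.MaxSub
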