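/-
Maximality of the tensor power subgroups of `SL_n(q)`.
-/
import Cfsg.Agent.MaxSub.ZE

set_option autoImplicit false

namespace CF.MaxSub

open Module Geom TensorProduct Matrix Cfsg Cfsg.Geo

variable {F : Type*} [Field F] {ι κ : Type} [Fintype ι] [DecidableEq ι] [Fintype κ] [DecidableEq κ]
  {n : ℕ}

theorem wl_of [NeZero n] (three : 3 ≤ Fintype.card κ) : WL (pψ (τ := Fin n)) (pπ F κ) :=
  have : Nonempty κ := Fintype.card_pos_iff.1 (by omega)
  ⟨pc_pψ, cen_pψ, fun j a => by simpa [aF] using adG_pπ j 0 a,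
    fun j a => by simpa [aF] using adG_pπ j j.succ a, fun i j e a => by
      simpa [aF, Equiv.swap_apply_of_ne_of_ne, e] using adG_pπ j i.succ a,
    inferInstance, inferInstance, by simpa using three⟩

variable (F) in
/-- The tensor power of the determinant. -/
noncomputable def detPow (τ : Type) [Fintype τ] [DecidableEq τ] : Tri F ((τ → Fin 3) → F) :=
  ∑ i : τ → Fin 3, ∑ j : τ → Fin 3, ∑ k : τ → Fin 3,
    (∏ l, det (of ![Pi.single (i l) (1 : F), Pi.single (j l) 1, Pi.single (k l) 1])) •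
    (LinearMap.proj i).smulRight ((LinearMap.proj j).smulRight (LinearMap.proj k))

theorem detPow_tp {τ : Type} [Fintype τ] [DecidableEq τ] (x y z : τ → Fin 3 → F) :
    detPow F τ (tp x) (tp y) (tp z) = ∏ l, det (of ![x l, y l, z l]) := by
  have : ∀ x y z : Fin 3 → F, det (of ![x, y, z]) = ∑ i, ∑ j, ∑ k,
      det (of ![Pi.single i (1 : F), Pi.single j 1, Pi.single k 1]) * (x i * (y j * z k)) :=
    fun x y z => by
      simp [det_fin_three, Fin.sum_univ_three]
      ring
  simp only [this (x _), Finset.prod_univ_sum, Fintype.piFinset_univ, Finset.prod_mul_distrib]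
  simp only [detPow, LinearMap.sum_apply, LinearMap.smul_apply, LinearMap.smulRight_apply,
    LinearMap.proj_apply, smul_eq_mul, tp]

theorem detPow_ne (τ : Type) [Fintype τ] [DecidableEq τ] : detPow F τ ≠ 0 := fun e => by
  have := detPow_tp (τ := τ) (fun _ => Pi.single 0 (1 : F)) (fun _ => Pi.single 1 1)
    fun _ => Pi.single 2 1
  simp [e, det_fin_three] at this

theorem detPow_inv {τ : Type} [Fintype τ] [DecidableEq τ] {g : τ → GL (Fin 3) F}
    (hg : ∀ l, (g l).val.det = 1) (s : Equiv.Perm τ) :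
    Geom.glEquiv _ F (pureGL g * permGL _ F s) ∈ tS (detPow F τ) := by
  have H : ∀ {M : Type _} [AddCommGroup M] [Module F M] {γ δ : ((τ → Fin 3) → F) →ₗ[F] M},
      (∀ x, γ (tp x) = δ (tp x)) → γ = δ := fun {M _ _ γ δ} h =>
    LinearMap.ext (tp_ind (fun a b ha hb => by simp [ha, hb]) (fun c a ha => by simp [ha]) h)
  refine H fun x => H fun y => H fun z => ?_
  simp only [tA_apply, Geom.glEquiv_apply, mulVec_tp, detPow_tp]
  refine Fintype.prod_equiv s.symm _ _ fun l => .trans ?_ (mul_one _)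
  rw [← hg l, ← det_transpose (g l).val, ← det_mul]
  congr 1
  ext i j
  fin_cases i <;> simp [mul_apply, mulVec, dotProduct, mul_comm]

theorem isMaximalIn_sl_pow [Fintype F] {m t : ℕ} (hm : 3 ≤ m) (ht : 2 ≤ t)
    (e : ι ≃ (Fin t → Fin m)) (P : GL ι F) :
    IsMaximalIn (specialLinear ι F) (tensorWreathSubgroup m t e P ⊓ specialLinear ι F) := by
  obtain ⟨t, rfl⟩ : ∃ s, t = s + 1 := ⟨t - 1, by omega⟩
  have := NeZero.of_gt (show 0 < m by omega)
  have := NeZero.of_gt (show 0 < t by omega)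
  let ε := (Geom.glEquiv ι F).trans (autCongr ((pL F _ t).trans (crd e P)).symm)
  have hK : ∀ g, g ∈ specialLinear ι F ↔ ε g ∈ SLG F _ := fun g =>
    (mem_specialLinear_iff g).trans (autCongr_mem_SLG _ _).symm
  have hH : ∀ g, g ∈ tensorWreathSubgroup m (t + 1) e P ↔ ε g ∈ WrG (aF pψ) := mem_wreath_iff e P
  have h := wl_of (F := F) (κ := Fin m) (n := t) (by simpa using hm)
  refine MaxIn.isMaximalIn ε (maxIn_of_adm (fun hle => SL_not_le_wreath (by omega) ht e P
    fun g hg => (hH g).2 (hle ((hK g).1 hg))) fun X hX => ?_) hK hH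
  by_cases hq : Fintype.card F = 2 ∧ m = 3
  · obtain ⟨hq, rfl⟩ := hq
    refine h.le_of_two hX hq (by simp) (f := tC (pL F _ t).toLinearMap (pL F _ t).toLinearMap
      (pL F _ t).toLinearMap (detPow F _))
      (fun e => detPow_ne _ (tri_ext fun x y z => show _ = (0 : F) by
        simpa using congrArg (fun d : Tri F _ => d ((pL F _ t).symm x) ((pL F _ t).symm y)
          ((pL F _ t).symm z)) e)) fun g hg => ?_
    obtain ⟨g, rfl⟩ := (pG F _ t).surjective g
    obtain ⟨a, s, rfl⟩ := mem_tensorWreathStandard.1 ((pG_mem g).1 hg)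
    refine tri_ext fun x y z => ?_
    simpa [pG, autCongr_apply] using tS_apply (detPow_inv (g := a) (fun l => by
      simpa [hq] using FiniteField.pow_card_sub_one_eq_one _ (a l).det_ne_zero) s) _ _ _
  refine h.le_of_big ?_ hX
  have := Fintype.one_lt_card (α := F)
  rw [finrank_fin_fun]
  obtain ⟨q, hq'⟩ : ∃ q, Fintype.card F = q + 2 := ⟨Fintype.card F - 2, by omega⟩
  obtain ⟨k, rfl⟩ : ∃ k, m = k + 3 := ⟨m - 3, by omega⟩
  rw [hq'] at hq ⊢
  change 2 < (q + 1) * (k + 2)
  rcases Nat.eq_zero_or_pos q with rfl | h0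
  · omega
  · nlinarith

end CF.MaxSub
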